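import Mathlib
import Cfsg.Prelude.Def_GeometricClasses
import Cfsg.Agent.Helper98.OPar
import Cfsg.Agent.Helper44.OmegaStab

/-!
Orthogonal groups: basic tools for the maximality of the stabiliser of a non-degenerate
subspace in `Ω(Q)`.  Orthogonal decompositions `V = A ⊥ Wo`, existence lemmas inside `A`,
Eichler transformations as total functions, transitivity of the part of the stabiliser fixing
`Wo` pointwise on the non-zero singular vectors of `A`, and the irreducibility of the group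
generated by the Eichler transformations of `A` on `A`.
-/

set_option autoImplicit false
set_option linter.unusedSectionVars false
set_option linter.unusedVariables false

universe u

namespace Cfsg.Agent.Helper94

open Matrix Cfsg Cfsg.Geo Cfsg.Agent.Helper45

section ONd1

variable {ι : Type} [Fintype ι] [DecidableEq ι] {F : Type u} [Field F] [Fintype F]
  (Q : QuadraticForm F (ι → F))

/-- An orthogonal decomposition `V = A ⊥ Wo`. -/
structure OPair (A Wo : Submodule F (ι → F)) : Prop where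
  perp : ∀ a ∈ A, ∀ w ∈ Wo, QuadraticMap.polar ⇑Q a w = 0
  dec : ∀ v : ι → F, ∃ a ∈ A, ∃ w ∈ Wo, v = a + w

variable {Q}

theorem OPair.symm {A Wo : Submodule F (ι → F)} (P : OPair Q A Wo) : OPair Q Wo A :=
  ⟨fun w hw a ha => by rw [QuadraticMap.polar_comm]; exact P.perp a ha w hw,
   fun v => by
     obtain ⟨a, ha, w, hw, rfl⟩ := P.dec v
     exact ⟨w, hw, a, ha, add_comm a w⟩⟩

theorem OPair.nd {A Wo : Submodule F (ι → F)} (P : OPair Q A Wo)
    (hQ : (QuadraticMap.polarBilin Q).Nondegenerate) (x : ι → F) (hx : x ∈ A) (hx0 : x ≠ 0) :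
    ∃ y ∈ A, QuadraticMap.polar ⇑Q y x ≠ 0 := by
  by_contra hcon
  push Not at hcon
  apply hx0
  apply hQ.2
  intro v
  obtain ⟨a, ha, w, hw, rfl⟩ := P.dec v
  show QuadraticMap.polar ⇑Q (a + w) x = 0
  rw [QuadraticMap.polar_add_left, hcon a ha, QuadraticMap.polar_comm ⇑Q w x, P.perp x hx w hw,
    add_zero]

theorem OPair.mem_left {A Wo : Submodule F (ι → F)} (P : OPair Q A Wo)
    (hQ : (QuadraticMap.polarBilin Q).Nondegenerate) (x : ι → F)
    (hx : ∀ w ∈ Wo, QuadraticMap.polar ⇑Q x w = 0) : x ∈ A := by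
  obtain ⟨a, ha, w, hw, rfl⟩ := P.dec x
  have hw0 : w = 0 := by
    by_contra h0
    obtain ⟨y, hy, hyw⟩ := P.symm.nd hQ w hw h0
    apply hyw
    have h1 := hx y hy
    rw [QuadraticMap.polar_add_left, P.perp a ha y hy, zero_add] at h1
    rw [QuadraticMap.polar_comm]
    exact h1
  rw [hw0, add_zero]
  exact ha

theorem OPair.disj {A Wo : Submodule F (ι → F)} (P : OPair Q A Wo)
    (hQ : (QuadraticMap.polarBilin Q).Nondegenerate) (x : ι → F) (hx : x ∈ A) (hx' : x ∈ Wo) :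
    x = 0 := by
  by_contra h0
  obtain ⟨y, hy, hyx⟩ := P.nd hQ x hx h0
  exact hyx (P.perp y hy x hx')

theorem OPair.exists_pnp {A Wo : Submodule F (ι → F)} (P : OPair Q A Wo)
    (hQ : (QuadraticMap.polarBilin Q).Nondegenerate) (u w : ι → F) (hu : u ∈ A) (hw : w ∈ A)
    (h : ∀ t : F, w ≠ t • u) :
    ∃ x ∈ A, QuadraticMap.polar ⇑Q u x = 0 ∧ QuadraticMap.polar ⇑Q w x ≠ 0 := by
  obtain ⟨x, h1, h2⟩ := exists_perp_not_perp Q hQ u w h
  obtain ⟨a, ha, b, hb, rfl⟩ := P.dec x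
  refine ⟨a, ha, ?_, ?_⟩
  · rw [QuadraticMap.polar_add_right, P.perp u hu b hb, add_zero] at h1
    exact h1
  · rw [QuadraticMap.polar_add_right, P.perp w hw b hb, add_zero] at h2
    exact h2

/-- The orthogonal complement of a non-degenerate subspace gives an orthogonal decomposition. -/
theorem OPair.of_nondeg (hQ : (QuadraticMap.polarBilin Q).Nondegenerate)
    (W : Submodule F (ι → F))
    (hW : ∀ w ∈ W, w ≠ 0 → ∃ x ∈ W, QuadraticMap.polar ⇑Q x w ≠ 0) :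
    OPair Q (LinearMap.BilinForm.orthogonal (QuadraticMap.polarBilin Q) W) W := by
  constructor
  · intro a ha w hw
    rw [QuadraticMap.polar_comm]
    exact (LinearMap.BilinForm.mem_orthogonal_iff.mp ha) w hw
  · have hdisj : W ⊓ LinearMap.BilinForm.orthogonal (QuadraticMap.polarBilin Q) W = ⊥ := by
      rw [eq_bot_iff]
      rintro x ⟨hx1, hx2⟩
      by_contra h0
      obtain ⟨y, hy, hyx⟩ := hW x hx1 h0
      exact hyx ((LinearMap.BilinForm.mem_orthogonal_iff.mp hx2) y hy)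
    have h1 := LinearMap.BilinForm.finrank_orthogonal hQ W
    have h2 := Submodule.finrank_sup_add_finrank_inf_eq W
      (LinearMap.BilinForm.orthogonal (QuadraticMap.polarBilin Q) W)
    rw [hdisj, finrank_bot, add_zero] at h2
    have h3 : Module.finrank F W ≤ Module.finrank F (ι → F) := Submodule.finrank_le _
    have htop : W ⊔ LinearMap.BilinForm.orthogonal (QuadraticMap.polarBilin Q) W = ⊤ := by
      apply Submodule.eq_top_of_finrank_eq
      omega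
    intro v
    have hv : v ∈ W ⊔ LinearMap.BilinForm.orthogonal (QuadraticMap.polarBilin Q) W := by
      rw [htop]
      exact Submodule.mem_top
    obtain ⟨w, hw, a, ha, rfl⟩ := Submodule.mem_sup.mp hv
    exact ⟨a, ha, w, hw, add_comm w a⟩

theorem OPair.finrank_add {A Wo : Submodule F (ι → F)} (P : OPair Q A Wo)
    (hQ : (QuadraticMap.polarBilin Q).Nondegenerate) :
    Module.finrank F A + Module.finrank F Wo = Fintype.card ι := by
  have hdisj : A ⊓ Wo = ⊥ := by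
    rw [eq_bot_iff]
    rintro x ⟨hx1, hx2⟩
    rw [Submodule.mem_bot]
    exact P.disj hQ x hx1 hx2
  have htop : A ⊔ Wo = ⊤ := by
    rw [eq_top_iff]
    intro v _
    obtain ⟨a, ha, w, hw, rfl⟩ := P.dec v
    exact Submodule.add_mem_sup ha hw
  have h2 := Submodule.finrank_sup_add_finrank_inf_eq A Wo
  rw [hdisj, htop, finrank_bot, add_zero, finrank_top, Module.finrank_fintype_fun_eq_card] at h2
  exact h2.symm

variable (Q)

/-- A non-zero singular vector of `A` orthogonal to two given vectors. -/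
theorem ond_exists_sing2 {A : Submodule F (ι → F)} (hA : 5 ≤ Module.finrank F A) (p q : ι → F) :
    ∃ s ∈ A, s ≠ 0 ∧ Q s = 0 ∧ QuadraticMap.polar ⇑Q p s = 0 ∧ QuadraticMap.polar ⇑Q q s = 0 := by
  have h1 := finrank_inf_perpSub_ge Q A p
  have h2 := finrank_inf_perpSub_ge Q (A ⊓ perpSub Q p) q
  obtain ⟨s, hs, hs0, hsQ⟩ := exists_sing_in Q (A ⊓ perpSub Q p ⊓ perpSub Q q) (by omega)
  exact ⟨s, hs.1.1, hs0, hsQ, (mem_perpSub Q p s).mp hs.1.2, (mem_perpSub Q q s).mp hs.2⟩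

theorem ond_univ (Y : Submodule F (ι → F)) (s t : ι → F) (hs : s ∈ Y) (ht : t ∈ Y)
    (hsQ : Q s = 0) (hst : QuadraticMap.polar ⇑Q s t ≠ 0) (α : F) : ∃ b ∈ Y, Q b = α := by
  refine ⟨((α - Q t) / QuadraticMap.polar ⇑Q s t) • s + t, Y.add_mem (Y.smul_mem _ hs) ht, ?_⟩
  rw [Helper13.Q_add', QuadraticMap.map_smul, hsQ, smul_zero, zero_add,
    QuadraticMap.polar_smul_left, smul_eq_mul, div_mul_cancel₀ _ hst]
  ring

variable {Q}

theorem OPair.exists_partner {A Wo : Submodule F (ι → F)} (P : OPair Q A Wo)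
    (hQ : (QuadraticMap.polarBilin Q).Nondegenerate) (s : ι → F) (hs : s ∈ A) (hs0 : s ≠ 0)
    (hsQ : Q s = 0) : ∃ t ∈ A, Q t = 0 ∧ QuadraticMap.polar ⇑Q s t ≠ 0 := by
  obtain ⟨y, hy, hys⟩ := P.nd hQ s hs hs0
  refine ⟨y - (Q y / QuadraticMap.polar ⇑Q y s) • s, A.sub_mem hy (A.smul_mem _ hs), ?_, ?_⟩
  · rw [q_sub, QuadraticMap.map_smul, hsQ, QuadraticMap.polar_smul_right, smul_zero, add_zero,
      smul_eq_mul, div_mul_cancel₀ _ hys, sub_self]
  · rw [QuadraticMap.polar_sub_right, QuadraticMap.polar_smul_right, polar_self_zero Q s hsQ,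
      smul_zero, sub_zero, QuadraticMap.polar_comm]
    exact hys

theorem OPair.exists_val {A Wo : Submodule F (ι → F)} (P : OPair Q A Wo)
    (hQ : (QuadraticMap.polarBilin Q).Nondegenerate) (hA : 3 ≤ Module.finrank F A) (α : F) :
    ∃ b ∈ A, Q b = α := by
  obtain ⟨s, hs, hs0, hsQ⟩ := exists_sing_in Q A hA
  obtain ⟨t, ht, _, hst⟩ := P.exists_partner hQ s hs hs0 hsQ
  exact ond_univ Q A s t hs ht hsQ hst α

/-- Inside the orthogonal complement (in `A`) of a hyperbolic pair `u, z` of `A` there are a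
singular vector `s` and a vector `t` with `B(s, t) ≠ 0`. -/
theorem OPair.exists_hyp_perp {A Wo : Submodule F (ι → F)} (P : OPair Q A Wo)
    (hQ : (QuadraticMap.polarBilin Q).Nondegenerate) (hA : 5 ≤ Module.finrank F A)
    (u z : ι → F) (hu : u ∈ A) (hz : z ∈ A) (huQ : Q u = 0) (hzQ : Q z = 0)
    (huz : QuadraticMap.polar ⇑Q u z ≠ 0) :
    ∃ s ∈ A, ∃ t ∈ A, Q s = 0 ∧ QuadraticMap.polar ⇑Q u s = 0 ∧ QuadraticMap.polar ⇑Q z s = 0 ∧
      QuadraticMap.polar ⇑Q u t = 0 ∧ QuadraticMap.polar ⇑Q z t = 0 ∧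
      QuadraticMap.polar ⇑Q s t ≠ 0 := by
  obtain ⟨s, hs, hs0, hsQ, hus, hzs⟩ := ond_exists_sing2 Q hA u z
  obtain ⟨t₀, ht₀, ht₀s⟩ := P.nd hQ s hs hs0
  refine ⟨s, hs, t₀ - (QuadraticMap.polar ⇑Q z t₀ / QuadraticMap.polar ⇑Q u z) • u -
    (QuadraticMap.polar ⇑Q u t₀ / QuadraticMap.polar ⇑Q u z) • z,
    A.sub_mem (A.sub_mem ht₀ (A.smul_mem _ hu)) (A.smul_mem _ hz), hsQ, hus, hzs, ?_, ?_, ?_⟩
  · rw [QuadraticMap.polar_sub_right, QuadraticMap.polar_sub_right, QuadraticMap.polar_smul_right,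
      QuadraticMap.polar_smul_right, polar_self_zero Q u huQ, smul_zero, sub_zero, smul_eq_mul,
      div_mul_cancel₀ _ huz, sub_self]
  · rw [QuadraticMap.polar_sub_right, QuadraticMap.polar_sub_right, QuadraticMap.polar_smul_right,
      QuadraticMap.polar_smul_right, polar_self_zero Q z hzQ, smul_zero, sub_zero, smul_eq_mul,
      QuadraticMap.polar_comm ⇑Q z u, div_mul_cancel₀ _ huz, sub_self]
  · rw [QuadraticMap.polar_sub_right, QuadraticMap.polar_sub_right, QuadraticMap.polar_smul_right,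
      QuadraticMap.polar_smul_right, QuadraticMap.polar_comm ⇑Q s u, hus,
      QuadraticMap.polar_comm ⇑Q s z, hzs, smul_zero, smul_zero, sub_zero, sub_zero,
      QuadraticMap.polar_comm]
    exact ht₀s

theorem OPair.exists_val_hyp {A Wo : Submodule F (ι → F)} (P : OPair Q A Wo)
    (hQ : (QuadraticMap.polarBilin Q).Nondegenerate) (hA : 5 ≤ Module.finrank F A)
    (u z : ι → F) (hu : u ∈ A) (hz : z ∈ A) (huQ : Q u = 0) (hzQ : Q z = 0)
    (huz : QuadraticMap.polar ⇑Q u z ≠ 0) (α : F) :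
    ∃ c ∈ A, QuadraticMap.polar ⇑Q u c = 0 ∧ QuadraticMap.polar ⇑Q z c = 0 ∧ Q c = α := by
  obtain ⟨s, hs, t, ht, hsQ, hus, hzs, hut, hzt, hst⟩ :=
    P.exists_hyp_perp hQ hA u z hu hz huQ hzQ huz
  obtain ⟨c, hc, hcQ⟩ := ond_univ Q (A ⊓ perpSub Q u ⊓ perpSub Q z) s t
    ⟨⟨hs, (mem_perpSub Q u s).mpr hus⟩, (mem_perpSub Q z s).mpr hzs⟩
    ⟨⟨ht, (mem_perpSub Q u t).mpr hut⟩, (mem_perpSub Q z t).mpr hzt⟩ hsQ hst α
  exact ⟨c, hc.1.1, (mem_perpSub Q u c).mp hc.1.2, (mem_perpSub Q z c).mp hc.2, hcQ⟩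

variable (Q)

/-- The Eichler transformation as a total function (the identity when the side conditions
fail). -/
noncomputable def oE (u b : ι → F) : ↥(isometryGroup F ⇑Q) := by
  classical
  exact if h : Q u = 0 ∧ QuadraticMap.polar ⇑Q u b = 0 then eichO Q u b h.1 h.2 else 1

theorem oE_eq (u b : ι → F) (hu : Q u = 0) (hub : QuadraticMap.polar ⇑Q u b = 0) :
    oE Q u b = eichO Q u b hu hub := by
  unfold oE
  rw [dif_pos ⟨hu, hub⟩]

theorem mv_oE (u b : ι → F) (hu : Q u = 0) (hub : QuadraticMap.polar ⇑Q u b = 0) (x : ι → F) :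
    mv ⇑Q (oE Q u b) x = x + (QuadraticMap.polar ⇑Q b x - Q b * QuadraticMap.polar ⇑Q u x) • u
      - (QuadraticMap.polar ⇑Q u x) • b := by
  rw [oE_eq Q u b hu hub, mv_eichO]
  rfl

theorem oE_mem_omega (hQ : (QuadraticMap.polarBilin Q).Nondegenerate) (hn : 5 ≤ Fintype.card ι)
    (u b : ι → F) : oE Q u b ∈ Omega F ⇑Q := by
  unfold oE
  split_ifs with h
  · exact eichO_mem_omega Q hQ hn u b h.1 h.2
  · exact one_mem _

theorem oE_mul (u a b : ι → F) (hu : Q u = 0) (hua : QuadraticMap.polar ⇑Q u a = 0)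
    (hub : QuadraticMap.polar ⇑Q u b = 0) : oE Q u a * oE Q u b = oE Q u (a + b) := by
  have hab : QuadraticMap.polar ⇑Q u (a + b) = 0 := by
    rw [QuadraticMap.polar_add_right, hua, hub, add_zero]
  rw [oE_eq Q u a hu hua, oE_eq Q u b hu hub, oE_eq Q u (a + b) hu hab, eichO_mul]

theorem oE_zero (u : ι → F) (hu : Q u = 0) : oE Q u 0 = 1 := by
  apply ext_mv
  intro x
  rw [mv_oE Q u 0 hu (by simp), mv_one]
  simp

theorem oE_smul (t : F) (u b : ι → F) (hu : Q u = 0) (hub : QuadraticMap.polar ⇑Q u b = 0) :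
    oE Q (t • u) b = oE Q u (t • b) := by
  have h1 : Q (t • u) = 0 := by rw [QuadraticMap.map_smul, hu, smul_zero]
  have h2 : QuadraticMap.polar ⇑Q (t • u) b = 0 := by
    rw [QuadraticMap.polar_smul_left, hub, smul_zero]
  have h3 : QuadraticMap.polar ⇑Q u (t • b) = 0 := by
    rw [QuadraticMap.polar_smul_right, hub, smul_zero]
  apply ext_mv
  intro x
  rw [oE_eq Q _ _ h1 h2, oE_eq Q _ _ hu h3, mv_eichO, mv_eichO, eich_smul_left]

theorem oE_conj (g : ↥(isometryGroup F ⇑Q)) (u b : ι → F) (hu : Q u = 0)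
    (hub : QuadraticMap.polar ⇑Q u b = 0) :
    g * oE Q u b * g⁻¹ = oE Q (mv ⇑Q g u) (mv ⇑Q g b) := by
  have hu' : Q (mv ⇑Q g u) = 0 := by rw [mv_quad ⇑Q g]; exact hu
  have hub' : QuadraticMap.polar ⇑Q (mv ⇑Q g u) (mv ⇑Q g b) = 0 := by rw [mv_polar]; exact hub
  rw [oE_eq Q u b hu hub, oE_eq Q _ _ hu' hub', conj_eichO]

theorem mv_ne_zero (g : ↥(isometryGroup F ⇑Q)) (x : ι → F) (hx : x ≠ 0) : mv ⇑Q g x ≠ 0 := by
  intro h
  apply hx
  have h1 := mv_inv_cancel' Q g x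
  rw [h] at h1
  rw [← h1]
  exact Matrix.mulVec_zero _

/-- The hypothesis that `M` contains the stabiliser of the decomposition in `Ω`. -/
def HStab (A Wo : Submodule F (ι → F)) (M : Subgroup ↥(isometryGroup F ⇑Q)) : Prop :=
  ∀ g ∈ Omega F ⇑Q, (∀ x ∈ A, mv ⇑Q g x ∈ A) → (∀ x ∈ Wo, mv ⇑Q g x ∈ Wo) → g ∈ M

variable {Q}

theorem HStab.symm {A Wo : Submodule F (ι → F)} {M : Subgroup ↥(isometryGroup F ⇑Q)}
    (h : HStab Q A Wo M) : HStab Q Wo A M := fun g hg h1 h2 => h g hg h2 h1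

theorem ond_E_in (hQ : (QuadraticMap.polarBilin Q).Nondegenerate) (hn : 5 ≤ Fintype.card ι)
    {A Wo : Submodule F (ι → F)} (P : OPair Q A Wo) (M : Subgroup ↥(isometryGroup F ⇑Q))
    (hH : HStab Q A Wo M) (s b : ι → F) (hs : s ∈ A) (hb : b ∈ A) (hsQ : Q s = 0)
    (hsb : QuadraticMap.polar ⇑Q s b = 0) : oE Q s b ∈ M := by
  apply hH _ (oE_mem_omega Q hQ hn s b)
  · intro x hx
    rw [mv_oE Q s b hsQ hsb]
    exact A.sub_mem (A.add_mem hx (A.smul_mem _ hs)) (A.smul_mem _ hb)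
  · intro x hx
    rw [mv_oE Q s b hsQ hsb, P.perp s hs x hx, P.perp b hb x hx]
    simp only [mul_zero, sub_zero, zero_smul, add_zero]
    exact hx

theorem ond_E_fix {A Wo : Submodule F (ι → F)} (P : OPair Q A Wo) (s b : ι → F) (hs : s ∈ A)
    (hb : b ∈ A) (hsQ : Q s = 0) (hsb : QuadraticMap.polar ⇑Q s b = 0) (x : ι → F)
    (hx : x ∈ Wo) : mv ⇑Q (oE Q s b) x = x := by
  rw [mv_oE Q s b hsQ hsb, P.perp s hs x hx, P.perp b hb x hx]
  simp only [mul_zero, sub_zero, zero_smul, add_zero]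

theorem ond_R_maps {A Wo : Submodule F (ι → F)} (P : OPair Q A Wo) (a : ι → F) (ha : Q a ≠ 0)
    (haA : a ∈ A) :
    (∀ x ∈ A, mv ⇑Q (reflO Q a ha) x ∈ A) ∧ (∀ x ∈ Wo, mv ⇑Q (reflO Q a ha) x = x) := by
  constructor
  · intro x hx
    rw [mv_reflO]
    exact A.sub_mem hx (A.smul_mem _ haA)
  · intro x hx
    rw [mv_reflO, P.perp a haA x hx, mul_zero, zero_smul, sub_zero]

theorem ond_RR_in (hQ : (QuadraticMap.polarBilin Q).Nondegenerate) (hn : 5 ≤ Fintype.card ι)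
    {A Wo : Submodule F (ι → F)} (P : OPair Q A Wo) (M : Subgroup ↥(isometryGroup F ⇑Q))
    (hH : HStab Q A Wo M) (a b : ι → F) (ha : Q a ≠ 0) (hb : Q b ≠ 0) (hab : Q a = Q b)
    (haS : a ∈ A ∨ a ∈ Wo) (hbS : b ∈ A ∨ b ∈ Wo) : reflO Q a ha * reflO Q b hb ∈ M := by
  have key : ∀ (c : ι → F) (hc : Q c ≠ 0), (c ∈ A ∨ c ∈ Wo) →
      (∀ x ∈ A, mv ⇑Q (reflO Q c hc) x ∈ A) ∧ (∀ x ∈ Wo, mv ⇑Q (reflO Q c hc) x ∈ Wo) := by
    intro c hc hcS
    rcases hcS with h | h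
    · have h1 := ond_R_maps P c hc h
      exact ⟨h1.1, fun x hx => by rw [h1.2 x hx]; exact hx⟩
    · have h1 := ond_R_maps P.symm c hc h
      exact ⟨fun x hx => by rw [h1.2 x hx]; exact hx, h1.1⟩
  apply hH _ (refl_pair_mem_omega_all Q hQ (by omega) a b ha hb hab)
  · intro x hx
    rw [mv_mul]
    exact (key a ha haS).1 _ ((key b hb hbS).1 x hx)
  · intro x hx
    rw [mv_mul]
    exact (key a ha haS).2 _ ((key b hb hbS).2 x hx)

/-- One step of transitivity: two non-orthogonal singular vectors of `A`. -/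
theorem ond_trans1 (hQ : (QuadraticMap.polarBilin Q).Nondegenerate) (hn : 5 ≤ Fintype.card ι)
    {A Wo : Submodule F (ι → F)} (P : OPair Q A Wo) (hA : 5 ≤ Module.finrank F A)
    (M : Subgroup ↥(isometryGroup F ⇑Q)) (hH : HStab Q A Wo M) (u z : ι → F) (hu : u ∈ A)
    (hz : z ∈ A) (huQ : Q u = 0) (hzQ : Q z = 0) (huz : QuadraticMap.polar ⇑Q u z ≠ 0) :
    ∃ h ∈ M, mv ⇑Q h u = z ∧ ∀ w ∈ Wo, mv ⇑Q h w = w := by
  have hd : Q (u - z) = -QuadraticMap.polar ⇑Q u z := by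
    rw [q_sub, huQ, hzQ]
    ring
  have hd0 : Q (u - z) ≠ 0 := by
    rw [hd]
    exact neg_ne_zero.mpr huz
  obtain ⟨c, hc, huc, hzc, hcQ⟩ := P.exists_val_hyp hQ hA u z hu hz huQ hzQ huz (Q (u - z))
  have hc0 : Q c ≠ 0 := by rw [hcQ]; exact hd0
  refine ⟨reflO Q (u - z) hd0 * reflO Q c hc0,
    ond_RR_in hQ hn P M hH _ _ hd0 hc0 hcQ.symm (Or.inl (A.sub_mem hu hz)) (Or.inl hc), ?_, ?_⟩
  · rw [mv_mul, mv_reflO, mv_reflO, QuadraticMap.polar_comm ⇑Q c u, huc, mul_zero, zero_smul,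
      sub_zero, QuadraticMap.polar_sub_left, polar_self_zero Q u huQ,
      QuadraticMap.polar_comm ⇑Q z u, hd]
    have h1 : (-QuadraticMap.polar ⇑Q u z)⁻¹ * (0 - QuadraticMap.polar ⇑Q u z) = 1 := by
      rw [zero_sub]
      exact inv_mul_cancel₀ (neg_ne_zero.mpr huz)
    rw [h1, one_smul]
    abel
  · intro w hw
    rw [mv_mul, (ond_R_maps P c hc0 hc).2 w hw, (ond_R_maps P _ hd0 (A.sub_mem hu hz)).2 w hw]

/-- The part of `M` fixing `Wo` pointwise is transitive on the non-zero singular vectors of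
`A`. -/
theorem ond_trans (hQ : (QuadraticMap.polarBilin Q).Nondegenerate) (hn : 5 ≤ Fintype.card ι)
    {A Wo : Submodule F (ι → F)} (P : OPair Q A Wo) (hA : 5 ≤ Module.finrank F A)
    (M : Subgroup ↥(isometryGroup F ⇑Q)) (hH : HStab Q A Wo M) (u z : ι → F) (hu : u ∈ A)
    (hz : z ∈ A) (hu0 : u ≠ 0) (hz0 : z ≠ 0) (huQ : Q u = 0) (hzQ : Q z = 0) :
    ∃ h ∈ M, mv ⇑Q h u = z ∧ ∀ w ∈ Wo, mv ⇑Q h w = w := by
  by_cases huz : QuadraticMap.polar ⇑Q u z = 0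
  swap
  · exact ond_trans1 hQ hn P hA M hH u z hu hz huQ hzQ huz
  obtain ⟨x₁, hx₁, hx₁u⟩ := P.nd hQ u hu hu0
  obtain ⟨x₂, hx₂, hx₂z⟩ := P.nd hQ z hz hz0
  obtain ⟨x, hx, hxu, hxz⟩ : ∃ x ∈ A, QuadraticMap.polar ⇑Q x u ≠ 0 ∧
      QuadraticMap.polar ⇑Q x z ≠ 0 := by
    by_cases h1 : QuadraticMap.polar ⇑Q x₁ z = 0
    swap
    · exact ⟨x₁, hx₁, hx₁u, h1⟩
    by_cases h2 : QuadraticMap.polar ⇑Q x₂ u = 0
    swap
    · exact ⟨x₂, hx₂, h2, hx₂z⟩
    refine ⟨x₁ + x₂, A.add_mem hx₁ hx₂, ?_, ?_⟩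
    · rw [QuadraticMap.polar_add_left, h2, add_zero]
      exact hx₁u
    · rw [QuadraticMap.polar_add_left, h1, zero_add]
      exact hx₂z
  obtain ⟨z', hz'def⟩ : ∃ z', z' = x - (Q x / QuadraticMap.polar ⇑Q x u) • u := ⟨_, rfl⟩
  have hz'A : z' ∈ A := by
    rw [hz'def]
    exact A.sub_mem hx (A.smul_mem _ hu)
  have hz'Q : Q z' = 0 := by
    rw [hz'def, q_sub, QuadraticMap.map_smul, huQ, QuadraticMap.polar_smul_right, smul_zero,
      add_zero, smul_eq_mul, div_mul_cancel₀ _ hxu, sub_self]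
  have huz' : QuadraticMap.polar ⇑Q u z' ≠ 0 := by
    rw [hz'def, QuadraticMap.polar_sub_right, QuadraticMap.polar_smul_right,
      polar_self_zero Q u huQ, smul_zero, sub_zero, QuadraticMap.polar_comm]
    exact hxu
  have hz'z : QuadraticMap.polar ⇑Q z' z ≠ 0 := by
    rw [hz'def, QuadraticMap.polar_sub_left, QuadraticMap.polar_smul_left, huz, smul_zero,
      sub_zero]
    exact hxz
  obtain ⟨h₁, hh₁, hh₁u, hh₁w⟩ := ond_trans1 hQ hn P hA M hH u z' hu hz'A huQ hz'Q huz'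
  obtain ⟨h₂, hh₂, hh₂u, hh₂w⟩ := ond_trans1 hQ hn P hA M hH z' z hz'A hz hz'Q hzQ hz'z
  refine ⟨h₂ * h₁, M.mul_mem hh₂ hh₁, ?_, ?_⟩
  · rw [mv_mul, hh₁u, hh₂u]
  · intro w hw
    rw [mv_mul, hh₁w w hw, hh₂w w hw]

/-- The Eichler transformations of `A` act irreducibly on `A`. -/
theorem ond_eirr (hQ : (QuadraticMap.polarBilin Q).Nondegenerate)
    {A Wo : Submodule F (ι → F)} (P : OPair Q A Wo) (hA : 5 ≤ Module.finrank F A)
    (X : Submodule F (ι → F)) (hXA : X ≤ A) (hX0 : X ≠ ⊥)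
    (hinv : ∀ s ∈ A, ∀ b ∈ A, Q s = 0 → QuadraticMap.polar ⇑Q s b = 0 →
      ∀ x ∈ X, mv ⇑Q (oE Q s b) x ∈ X) : A ≤ X := by
  obtain ⟨x, hxX, hx0⟩ := (Submodule.ne_bot_iff X).mp hX0
  -- a non-zero singular vector in `X`
  obtain ⟨x₁, hx₁X, hx₁0, hx₁Q⟩ : ∃ x₁ ∈ X, x₁ ≠ 0 ∧ Q x₁ = 0 := by
    by_cases hxQ : Q x = 0
    · exact ⟨x, hxX, hx0, hxQ⟩
    obtain ⟨s, hs, hs0, hsQ, hxs, _⟩ := ond_exists_sing2 Q hA x x
    obtain ⟨b, hb, hsb, hxb⟩ := P.exists_pnp hQ s x hs (hXA hxX)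
      (fun t => ne_smul_of_sing Q x s hxQ hsQ t)
    have h1 := hinv s hs b hb hsQ hsb x hxX
    rw [mv_oE Q s b hsQ hsb, QuadraticMap.polar_comm ⇑Q s x, hxs, mul_zero, sub_zero, zero_smul,
      sub_zero] at h1
    have h2 : (QuadraticMap.polar ⇑Q b x) • s ∈ X := by
      have := X.sub_mem h1 hxX
      rwa [add_sub_cancel_left] at this
    have hbx : QuadraticMap.polar ⇑Q b x ≠ 0 := by
      rw [QuadraticMap.polar_comm]
      exact hxb
    have h3 := X.smul_mem (QuadraticMap.polar ⇑Q b x)⁻¹ h2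
    rw [smul_smul, inv_mul_cancel₀ hbx, one_smul] at h3
    exact ⟨s, h3, hs0, hsQ⟩
  have hx₁A : x₁ ∈ A := hXA hx₁X
  obtain ⟨s, hs, hsQ, hx₁s⟩ := P.exists_partner hQ x₁ hx₁A hx₁0 hx₁Q
  have hsx₁ : QuadraticMap.polar ⇑Q s x₁ ≠ 0 := by
    rw [QuadraticMap.polar_comm]
    exact hx₁s
  -- the displacement of `x₁` by an Eichler transformation with singular vector `s`
  have hf : ∀ b ∈ A, QuadraticMap.polar ⇑Q s b = 0 →
      (QuadraticMap.polar ⇑Q b x₁ - Q b * QuadraticMap.polar ⇑Q s x₁) • s -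
        (QuadraticMap.polar ⇑Q s x₁) • b ∈ X := by
    intro b hb hsb
    have h1 := hinv s hs b hb hsQ hsb x₁ hx₁X
    rw [mv_oE Q s b hsQ hsb] at h1
    have := X.sub_mem h1 hx₁X
    have e : x₁ + (QuadraticMap.polar ⇑Q b x₁ - Q b * QuadraticMap.polar ⇑Q s x₁) • s -
        (QuadraticMap.polar ⇑Q s x₁) • b - x₁ =
        (QuadraticMap.polar ⇑Q b x₁ - Q b * QuadraticMap.polar ⇑Q s x₁) • s -
        (QuadraticMap.polar ⇑Q s x₁) • b := by abel
    rwa [e] at this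
  have hsX : s ∈ X := by
    obtain ⟨c₁, hc₁, c₂, hc₂, _, hx₁c₁, hsc₁, hx₁c₂, hsc₂, hc₁c₂⟩ :=
      P.exists_hyp_perp hQ hA x₁ s hx₁A hs hx₁Q hsQ hx₁s
    have h1 := hf c₁ hc₁ hsc₁
    have h2 := hf c₂ hc₂ hsc₂
    have h3 := hf (c₁ + c₂) (A.add_mem hc₁ hc₂)
      (by rw [QuadraticMap.polar_add_right, hsc₁, hsc₂, add_zero])
    have h4 := X.sub_mem (X.sub_mem h3 h1) h2
    have e : (QuadraticMap.polar ⇑Q (c₁ + c₂) x₁ - Q (c₁ + c₂) * QuadraticMap.polar ⇑Q s x₁) • s -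
        (QuadraticMap.polar ⇑Q s x₁) • (c₁ + c₂) -
        ((QuadraticMap.polar ⇑Q c₁ x₁ - Q c₁ * QuadraticMap.polar ⇑Q s x₁) • s -
          (QuadraticMap.polar ⇑Q s x₁) • c₁) -
        ((QuadraticMap.polar ⇑Q c₂ x₁ - Q c₂ * QuadraticMap.polar ⇑Q s x₁) • s -
          (QuadraticMap.polar ⇑Q s x₁) • c₂) =
        (-(QuadraticMap.polar ⇑Q c₁ c₂ * QuadraticMap.polar ⇑Q s x₁)) • s := by
      rw [QuadraticMap.polar_add_left, Helper13.Q_add']
      module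
    rw [e] at h4
    have hne : -(QuadraticMap.polar ⇑Q c₁ c₂ * QuadraticMap.polar ⇑Q s x₁) ≠ 0 :=
      neg_ne_zero.mpr (mul_ne_zero hc₁c₂ hsx₁)
    have h5 := X.smul_mem (-(QuadraticMap.polar ⇑Q c₁ c₂ * QuadraticMap.polar ⇑Q s x₁))⁻¹ h4
    rwa [smul_smul, inv_mul_cancel₀ hne, one_smul] at h5
  have hperp : ∀ b ∈ A, QuadraticMap.polar ⇑Q s b = 0 → b ∈ X := by
    intro b hb hsb
    have h1 := hf b hb hsb
    have h2 : (QuadraticMap.polar ⇑Q s x₁) • b ∈ X := by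
      have := X.sub_mem (X.smul_mem
        (QuadraticMap.polar ⇑Q b x₁ - Q b * QuadraticMap.polar ⇑Q s x₁) hsX) h1
      rwa [sub_sub_cancel] at this
    have h3 := X.smul_mem (QuadraticMap.polar ⇑Q s x₁)⁻¹ h2
    rwa [smul_smul, inv_mul_cancel₀ hsx₁, one_smul] at h3
  intro a ha
  have h1 : a - (QuadraticMap.polar ⇑Q s a / QuadraticMap.polar ⇑Q s x₁) • x₁ ∈ X := by
    apply hperp _ (A.sub_mem ha (A.smul_mem _ hx₁A))
    rw [QuadraticMap.polar_sub_right, QuadraticMap.polar_smul_right, smul_eq_mul,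
      div_mul_cancel₀ _ hsx₁, sub_self]
  have h2 := X.add_mem h1 (X.smul_mem (QuadraticMap.polar ⇑Q s a / QuadraticMap.polar ⇑Q s x₁)
    hx₁X)
  rwa [sub_add_cancel] at h2

end ONd1

end Cfsg.Agent.Helper94
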