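import Cfsg.Agent.Helper94.UGen
import Cfsg.Agent.Helper94.Quad

/-!
Tools for maximality proofs inside the special unitary group: centres of unitary
transvections contained in a subgroup and their closure properties, Siegel elements,
hyperbolic rotations, determinant corrections, orthogonal complements.
-/

set_option autoImplicit false
set_option linter.unusedSectionVars false
set_option linter.unusedSimpArgs false
set_option linter.unusedVariables false

namespace Cfsg.Agent.Helper94

open Cfsg Cfsg.Geo Matrix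

universe u

variable {F : Type u} [Field F] {ι : Type} [Fintype ι] [DecidableEq ι]

/-! ### More field facts for an involution -/

section FieldFacts2

variable (σ : F ≃+* F) (hinv : ∀ a : F, σ (σ a) = a) (hne : ∃ a : F, σ a ≠ a)

include hinv hne in
theorem uf_exists_skew (ν : F) (hν : σ ν = -ν) : ∃ γ : F, γ - σ γ = ν := by
  obtain ⟨η, hη0, hη⟩ := uf_exists_tr0 σ hinv hne
  have hd : σ (ν / η) = ν / η := by rw [map_div₀, hν, hη, neg_div_neg_eq]
  obtain ⟨γ', hγ'⟩ := uf_exists_tr σ hinv hne (ν / η) hd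
  refine ⟨η * γ', ?_⟩
  rw [map_mul, hη]
  have : η * (γ' + σ γ') = ν := by rw [hγ']; field_simp
  linear_combination this

include hinv hne in
theorem uf_hilbert90 (d : F) (hd : d * σ d = 1) : ∃ l : F, l ≠ 0 ∧ l = d * σ l := by
  by_cases h1 : 1 + d = 0
  · obtain ⟨μ, hμ⟩ := hne
    have hd' : d = -1 := by linear_combination h1
    refine ⟨μ - σ μ, ?_, ?_⟩
    · intro h0
      exact hμ (by linear_combination -h0)
    · rw [hd', map_sub, hinv]
      ring
  · refine ⟨1 + d, h1, ?_⟩
    rw [map_add, map_one]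
    linear_combination -hd

include hinv hne in
theorem uf_exists_norm_one_ne : ∃ κ : F, κ * σ κ = 1 ∧ κ ≠ 1 := by
  obtain ⟨μ, hμ⟩ := hne
  have hμ0 : μ ≠ 0 := by
    rintro rfl
    exact hμ (map_zero σ)
  have hσμ0 : σ μ ≠ 0 := (map_ne_zero σ).mpr hμ0
  refine ⟨σ μ / μ, ?_, ?_⟩
  · rw [map_div₀, hinv]
    field_simp
  · intro h1
    apply hμ
    field_simp at h1
    exact h1

end FieldFacts2

/-- An invertible matrix mapping a subspace into itself stabilises it. -/
theorem ustab_of_maps_to (g : GL ι F) (W : Submodule F (ι → F))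
    (h : ∀ v ∈ W, (g : Matrix ι ι F) *ᵥ v ∈ W) : g ∈ subspaceStabilizer W := by
  rw [mem_subspaceStabilizer_iff]
  intro v
  refine ⟨h v, fun hv => ?_⟩
  have hmap : ∀ x ∈ W, Matrix.toLin' (g : Matrix ι ι F) x ∈ W := by
    intro x hx
    rw [Matrix.toLin'_apply]
    exact h x hx
  have hinj : Function.Injective ((Matrix.toLin' (g : Matrix ι ι F)).restrict hmap) := by
    intro x y hxy
    have h1 := congrArg Subtype.val hxy
    simp only [LinearMap.coe_restrict_apply, Matrix.toLin'_apply] at h1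
    have h2 := congrArg (fun z => ((g⁻¹ : GL ι F) : Matrix ι ι F) *ᵥ z) h1
    simp only [ugl_inv_mulVec] at h2
    exact Subtype.ext h2
  obtain ⟨w, hw⟩ := (LinearMap.injective_iff_surjective.mp hinj) ⟨_, hv⟩
  have h1 := congrArg Subtype.val hw
  simp only [LinearMap.coe_restrict_apply, Matrix.toLin'_apply] at h1
  have h2 := congrArg (fun z => ((g⁻¹ : GL ι F) : Matrix ι ι F) *ᵥ z) h1
  simp only [ugl_inv_mulVec] at h2
  rw [← h2]
  exact w.2

theorem mem_SL_of_det {g : GL ι F} (hg : (g : Matrix ι ι F).det = 1) :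
    g ∈ specialLinear ι F := by
  apply MonoidHom.mem_ker.mpr
  apply Units.ext
  simpa using hg

/-- Centres of the unitary transvections contained in `M`. -/
def uctr (σ : F ≃+* F) (f : (ι → F) → (ι → F) → F) (M : Subgroup (GL ι F)) : Set (ι → F) :=
  {c | f c c = 0 ∧ ∀ ν : F, σ ν = -ν → tvh f c (ν • c) ∈ M}

/-- The Siegel element `x ↦ x + f x w • u - f x u • w`. -/
noncomputable def sg (f : (ι → F) → (ι → F) → F) (u w : ι → F) : GL ι F :=
  tvh f u w * tvh f w (-u)

theorem sg_mem_SL (f : (ι → F) → (ι → F) → F) (u w : ι → F) : sg f u w ∈ specialLinear ι F :=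
  Subgroup.mul_mem _ (tvh_mem_SL _ _ _) (tvh_mem_SL _ _ _)

namespace UF

variable {σ : F ≃+* F} {f : (ι → F) → (ι → F) → F} (h : UF σ f)

include h

theorem sum_left {α : Type*} (s : Finset α) (w : α → ι → F) (x : ι → F) :
    f (∑ i ∈ s, w i) x = ∑ i ∈ s, f (w i) x := by
  classical
  induction s using Finset.induction_on with
  | empty => simp [h.zero_left]
  | insert a s ha ih => rw [Finset.sum_insert ha, Finset.sum_insert ha, h.add_left, ih]

/-! ### Centres -/

theorem uctr_zero (M : Subgroup (GL ι F)) : (0 : ι → F) ∈ uctr σ f M :=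
  ⟨h.zero_left 0, fun ν _ => by rw [smul_zero, h.tvh_zero]; exact M.one_mem⟩

theorem uctr_smul {M : Subgroup (GL ι F)} {c : ι → F} (hc : c ∈ uctr σ f M) (l : F) :
    l • c ∈ uctr σ f M := by
  refine ⟨by rw [h.smul_left, h.smul_right, hc.1, mul_zero, mul_zero], fun ν hν => ?_⟩
  have h0 : f c (ν • l • c) = 0 := by rw [h.smul_right, h.smul_right, hc.1, mul_zero, mul_zero]
  rw [h.tvh_smul l h0]
  have e : σ l • ν • l • c = (σ l * ν * l) • c := by rw [smul_smul, smul_smul]
  rw [e]
  apply hc.2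
  rw [map_mul, map_mul, h.invol, hν]
  ring

theorem uctr_of_smul {M : Subgroup (GL ι F)} {c : ι → F} {l : F} (hl : l ≠ 0)
    (hc : l • c ∈ uctr σ f M) : c ∈ uctr σ f M := by
  have := h.uctr_smul hc l⁻¹
  rwa [smul_smul, inv_mul_cancel₀ hl, one_smul] at this

theorem uctr_map {M : Subgroup (GL ι F)} {k : GL ι F} (hkM : k ∈ M) (hk : k ∈ isoGL f)
    {c : ι → F} (hc : c ∈ uctr σ f M) : (k : Matrix ι ι F) *ᵥ c ∈ uctr σ f M := by
  have hk' := mem_isoGL.mp hk
  refine ⟨by rw [hk', hc.1], fun ν hν => ?_⟩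
  have h0 : f c (ν • c) = 0 := by rw [h.smul_right, hc.1, mul_zero]
  have e := h.tvh_conj k (b₂ := ν • ((k : Matrix ι ι F) *ᵥ c)) h0 (fun y => by
    rw [← mulVec_smul, hk'])
  rw [← e]
  exact M.mul_mem (M.mul_mem hkM (hc.2 ν hν)) (M.inv_mem hkM)

theorem tvh_unitary_iso {c : ι → F} (hc : f c c = 0) {ν : F} (hν : σ ν = -ν) :
    tvh f c (ν • c) ∈ isoGL f :=
  mem_isoGL.mpr (h.tvh_unitary_isom hc hν)

/-- The isotropic vectors of the plane spanned by two non-perpendicular centres are centres. -/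
theorem uctr_line {M : Subgroup (GL ι F)} {c c' : ι → F} (hc : c ∈ uctr σ f M)
    (hc' : c' ∈ uctr σ f M) (hne : f c c' ≠ 0) (a b : F)
    (hiso : f (a • c + b • c') (a • c + b • c') = 0) : a • c + b • c' ∈ uctr σ f M := by
  by_cases hb : b = 0
  · rw [hb, zero_smul, add_zero]
    exact h.uctr_smul hc a
  · have hne' : f c' c ≠ 0 := h.swap_ne hne
    have hσb : σ b ≠ 0 := (map_ne_zero σ).mpr hb
    obtain ⟨α, hα⟩ : ∃ α, α = a / b := ⟨_, rfl⟩
    have hab : a = b * α := by rw [hα]; field_simp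
    have e : a • c + b • c' = b • (c' + α • c) := by
      rw [hab, smul_add, smul_smul, add_comm]
    have hiso' : α * f c c' + σ α * f c' c = 0 := by
      have key : b * σ b * (α * f c c' + σ α * f c' c) = 0 := by
        have := hiso
        rw [e] at this
        simp only [h.add_left, h.add_right, h.smul_left, h.smul_right, hc.1, hc'.1] at this
        linear_combination this
      rcases mul_eq_zero.mp key with h1 | h1
      · rcases mul_eq_zero.mp h1 with h2 | h2
        · exact absurd h2 hb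
        · exact absurd h2 hσb
      · exact h1
    rw [e]
    apply h.uctr_smul
    have hν : σ (σ (α / f c' c)) = -σ (α / f c' c) := by
      rw [h.invol, map_div₀, h.sigma_apply]
      field_simp
      linear_combination hiso'
    have h0 : f c (σ (α / f c' c) • c) = 0 := by rw [h.smul_right, hc.1, mul_zero]
    have := h.uctr_map (hc.2 _ hν) (h.tvh_unitary_iso hc.1 hν) hc'
    rw [h.tvh_mulVec h0, h.smul_right, h.invol, div_mul_cancel₀ _ hne'] at this
    exact this

/-! ### Siegel elements -/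

theorem sg_mulVec {u w : ι → F} (huw : f u w = 0) (hww : f w w = 0) (x : ι → F) :
    ((sg f u w : GL ι F) : Matrix ι ι F) *ᵥ x = x + f x w • u - f x u • w := by
  have h1 : f w (-u) = 0 := by rw [h.neg_right, h.swap_zero huw, neg_zero]
  rw [sg, ugl_mul_mulVec, h.tvh_mulVec h1, h.tvh_mulVec huw]
  simp only [h.add_left, h.smul_left, h.neg_right, hww]
  module

theorem sg_isom {u w : ι → F} (huu : f u u = 0) (hww : f w w = 0) (huw : f u w = 0) :
    sg f u w ∈ isoGL f := by
  rw [mem_isoGL]
  intro x y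
  rw [h.sg_mulVec huw hww, h.sg_mulVec huw hww]
  simp only [h.add_left, h.add_right, h.sub_left, h.sub_right, h.smul_left, h.smul_right, huu,
    hww, huw, h.swap_zero huw, h.sigma_apply]
  ring

theorem sg_comm {x w₁ w₂ : ι → F} (hxx : f x x = 0) (h1 : f x w₁ = 0) (h2 : f x w₂ = 0)
    (h11 : f w₁ w₁ = 0) (h22 : f w₂ w₂ = 0) :
    sg f x w₁ * sg f x w₂ = sg f x w₂ * sg f x w₁ * tvh f x ((f w₂ w₁ - f w₁ w₂) • x) := by
  apply ugl_ext
  intro y
  have h0 : f x ((f w₂ w₁ - f w₁ w₂) • x) = 0 := by rw [h.smul_right, hxx, mul_zero]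
  rw [ugl_mul_mulVec, ugl_mul_mulVec, ugl_mul_mulVec, h.tvh_mulVec h0, h.sg_mulVec h2 h22,
    h.sg_mulVec h1 h11, h.sg_mulVec h1 h11, h.sg_mulVec h2 h22]
  simp only [h.add_left, h.sub_left, h.smul_left, h.smul_right, map_sub, h.sigma_apply, hxx, h1,
    h2, h11, h22, h.swap_zero h1, h.swap_zero h2]
  module

theorem sg_add_smul {x w : ι → F} (hxx : f x x = 0) (hxw : f x w = 0) (hww : f w w = 0) (l : F) :
    sg f x (w + l • x) = sg f x w * tvh f x ((l - σ l) • x) := by
  have h1 : f x (w + l • x) = 0 := by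
    rw [h.add_right, h.smul_right, hxw, hxx, mul_zero, add_zero]
  have h2 : f (w + l • x) (w + l • x) = 0 := by
    simp only [h.add_left, h.add_right, h.smul_left, h.smul_right, hxx, hxw, hww,
      h.swap_zero hxw]
    ring
  have h0 : f x ((l - σ l) • x) = 0 := by rw [h.smul_right, hxx, mul_zero]
  apply ugl_ext
  intro y
  rw [ugl_mul_mulVec, h.tvh_mulVec h0, h.sg_mulVec h1 h2, h.sg_mulVec hxw hww]
  simp only [h.add_left, h.add_right, h.smul_left, h.smul_right, map_sub, h.invol, hxx, hxw]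
  module

/-! ### Hyperbolic rotations -/

/-- The map `x ↦ x + (l - 1) f(x, v) w + (m - 1) f(x, w) v`. -/
noncomputable def rot (w v : ι → F) (l m : F) : GL ι F :=
  dil ((l - 1) • h.fl v) w * dil ((m - 1) • h.fl w) v

theorem rot_aux {w v : ι → F} (hwv : f w v = 1) {l m : F} (hm : σ l * m = 1) :
    1 + ((l - 1) • h.fl v) w ≠ 0 ∧ 1 + ((m - 1) • h.fl w) v ≠ 0 := by
  have hvw : f v w = 1 := by rw [h.herm, hwv, map_one]
  have hl0 : l ≠ 0 := by
    rintro rfl
    rw [map_zero, zero_mul] at hm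
    exact zero_ne_one hm
  have hm0 : m ≠ 0 := by
    rintro rfl
    rw [mul_zero] at hm
    exact zero_ne_one hm
  constructor
  · rw [LinearMap.smul_apply, fl_apply, hwv, smul_eq_mul, mul_one, add_sub_cancel]
    exact hl0
  · rw [LinearMap.smul_apply, fl_apply, hvw, smul_eq_mul, mul_one, add_sub_cancel]
    exact hm0

theorem rot_mulVec {w v : ι → F} (hvv : f v v = 0) (hwv : f w v = 1) {l m : F}
    (hm : σ l * m = 1) (x : ι → F) :
    ((h.rot w v l m : GL ι F) : Matrix ι ι F) *ᵥ x =
      x + ((l - 1) * f x v) • w + ((m - 1) * f x w) • v := by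
  obtain ⟨h1, h2⟩ := h.rot_aux hwv hm
  rw [rot, ugl_mul_mulVec, dil_mulVec h2, dil_mulVec h1]
  simp only [LinearMap.smul_apply, fl_apply, smul_eq_mul, h.add_left, h.smul_left, hvv]
  module

theorem rot_det {w v : ι → F} (hwv : f w v = 1) {l m : F} (hm : σ l * m = 1) :
    ((h.rot w v l m : GL ι F) : Matrix ι ι F).det = l * m := by
  obtain ⟨h1, h2⟩ := h.rot_aux hwv hm
  have hvw : f v w = 1 := by rw [h.herm, hwv, map_one]
  rw [rot, Units.val_mul, Matrix.det_mul, dil_det h1, dil_det h2]
  simp only [LinearMap.smul_apply, fl_apply, smul_eq_mul, hwv, hvw]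
  ring

theorem rot_isom {w v : ι → F} (hww : f w w = 0) (hvv : f v v = 0) (hwv : f w v = 1) {l m : F}
    (hm : σ l * m = 1) : h.rot w v l m ∈ isoGL f := by
  have hvw : f v w = 1 := by rw [h.herm, hwv, map_one]
  have hm' : l * σ m = 1 := by
    have := congrArg σ hm
    rwa [map_mul, h.invol, map_one] at this
  rw [mem_isoGL]
  intro x y
  rw [h.rot_mulVec hvv hwv hm, h.rot_mulVec hvv hwv hm]
  simp only [h.add_left, h.add_right, h.smul_left, h.smul_right, hww, hvv, hwv, hvw, map_mul,
    map_sub, map_one, h.sigma_apply]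
  linear_combination (f x w * f v y) * hm + (f x v * f w y) * hm'

/-! ### Determinants of isometries -/

theorem iso_det_norm [Finite F] (hn : 6 < Fintype.card ι) {g : GL ι F} (hg : g ∈ isoGL f) :
    (g : Matrix ι ι F).det * σ ((g : Matrix ι ι F).det) = 1 := by
  obtain ⟨e₀, he, -⟩ := h.exists_aniso (k := 0) (fun i => 0) (by omega)
  obtain ⟨t, ht, l, hl, rfl⟩ := h.iso_decomp hn he g (h.iso_le_grf hg)
  rw [Units.val_mul, Matrix.det_mul, det_of_mem_SL (h.utv_le_SL ht), one_mul,
    h.grf_det (h.qr_cond he hl), div_mul_cancel₀ _ he]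
  have : 1 + (l - 1) = l := by ring
  rw [this]
  exact hl

/-- Any isometry becomes special after multiplying by a quasi-reflection in a given
anisotropic vector. -/
theorem iso_fix_det [Finite F] (hn : 6 < Fintype.card ι) {g : GL ι F} (hg : g ∈ isoGL f)
    {e : ι → F} (he : f e e ≠ 0) :
    ∃ q : GL ι F, q ∈ isoGL f ∧ (∀ x, f x e = 0 → (q : Matrix ι ι F) *ᵥ x = x) ∧
      g * q ∈ specialLinear ι F := by
  have hd := h.iso_det_norm hn hg
  have hl : σ ((g : Matrix ι ι F).det) * σ (σ ((g : Matrix ι ι F).det)) = 1 := by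
    rw [h.invol]
    linear_combination hd
  refine ⟨h.grf e ((σ ((g : Matrix ι ι F).det) - 1) / f e e), h.grf_isom (h.qr_cond he hl),
    fun x hx => ?_, ?_⟩
  · rw [h.grf_mulVec (h.qr_cond he hl), hx, mul_zero, zero_smul, add_zero]
  · apply mem_SL_of_det
    rw [Units.val_mul, Matrix.det_mul, h.grf_det (h.qr_cond he hl), div_mul_cancel₀ _ he]
    linear_combination hd

/-! ### Orthogonal complements -/

/-- The orthogonal complement of a subspace. -/
def uperp (X : Submodule F (ι → F)) : Submodule F (ι → F) where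
  carrier := {x | ∀ w ∈ X, f x w = 0}
  add_mem' := fun {a b} ha hb w hw => by rw [h.add_left, ha w hw, hb w hw, add_zero]
  zero_mem' := fun w _ => h.zero_left w
  smul_mem' := fun c {x} hx w hw => by rw [h.smul_left, hx w hw, mul_zero]

theorem mem_uperp {X : Submodule F (ι → F)} {x : ι → F} :
    x ∈ h.uperp X ↔ ∀ w ∈ X, f x w = 0 := Iff.rfl

/-- Double orthogonal complement. -/
theorem uperp_mem (X : Submodule F (ι → F)) (u : ι → F)
    (hu : ∀ x, (∀ w ∈ X, f x w = 0) → f x u = 0) : u ∈ X := by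
  obtain ⟨k, v, hv⟩ : ∃ (k : ℕ) (v : Fin k → ι → F), Submodule.span F (Set.range v) = X :=
    Submodule.fg_iff_exists_fin_generating_family.mp (IsNoetherian.noetherian X)
  have hker : ⨅ i, LinearMap.ker (h.fl (v i)) ≤ LinearMap.ker (h.fl u) := by
    intro x hx
    rw [Submodule.mem_iInf] at hx
    rw [LinearMap.mem_ker, fl_apply]
    apply hu
    intro w hw
    rw [← hv] at hw
    induction hw using Submodule.span_induction with
    | mem y hy =>
      obtain ⟨i, rfl⟩ := hy
      exact LinearMap.mem_ker.mp (hx i)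
    | zero => exact h.zero_right x
    | add a b _ _ ha hb => rw [h.add_right, ha, hb, add_zero]
    | smul c a _ ha => rw [h.smul_right, ha, mul_zero]
  have := mem_span_of_iInf_ker_le_ker hker
  obtain ⟨c, hc⟩ := (Submodule.mem_span_range_iff_exists_fun F).mp this
  have hu' : u = ∑ i, σ (c i) • v i := by
    apply h.ext_right
    intro x
    have := LinearMap.congr_fun hc x
    rw [fl_apply] at this
    rw [← this, h.sum_right]
    simp [LinearMap.sum_apply, h.smul_right, h.invol, fl_apply]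
  rw [hu', ← hv]
  exact Submodule.sum_mem _ (fun i _ => Submodule.smul_mem _ _ (Submodule.subset_span ⟨i, rfl⟩))

/-- A nonzero vector of a subspace perpendicular to fewer vectors than its dimension. -/
theorem exists_perp_in (X : Submodule F (ι → F)) {j : ℕ} (v : Fin j → ι → F)
    (hj : j < Module.finrank F X) : ∃ x ∈ X, x ≠ 0 ∧ ∀ i, f x (v i) = 0 := by
  let L : X →ₗ[F] (Fin j → F) := LinearMap.pi (fun i => (h.fl (v i)).comp X.subtype)
  have hk : LinearMap.ker L ≠ ⊥ := LinearMap.ker_ne_bot_of_finrank_lt (by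
    rw [Module.finrank_fin_fun]
    exact hj)
  obtain ⟨x, hx, hx0⟩ := Submodule.exists_mem_ne_zero_of_ne_bot hk
  refine ⟨x, x.2, fun h0 => hx0 (Subtype.ext h0), fun i => ?_⟩
  have := congrFun (LinearMap.mem_ker.mp hx) i
  exact this

/-- Adjusting a vector by a multiple of an isotropic one to prescribe its norm. -/
theorem exists_norm_add {z x : ι → F} (hzz : f z z = 0) (hzx : f z x ≠ 0) (s : F)
    (hs : σ s = s) : ∃ β : F, f (x + β • z) (x + β • z) = s := by
  have hd : σ (s - f x x) = s - f x x := by rw [map_sub, hs, h.self_fix]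
  obtain ⟨γ, hγ⟩ := uf_exists_tr σ h.invol h.ne_id (s - f x x) hd
  refine ⟨γ / f z x, ?_⟩
  simp only [h.add_left, h.add_right, h.smul_left, h.smul_right, hzz, map_div₀, h.sigma_apply]
  have hxz : f x z ≠ 0 := h.swap_ne hzx
  field_simp
  linear_combination (f z x * f x z) * hγ

end UF

end Cfsg.Agent.Helper94
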