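import Cfsg.Agent.Helper94.SpLag

/-!
# The stabiliser of a pair of complementary totally isotropic subspaces is maximal in `Sp` (odd `q`), part 2
-/

set_option autoImplicit false

namespace Cfsg.Agent.Helper94

open Cfsg Cfsg.Geo Matrix

universe u

variable {F : Type u} [Field F] {m : ℕ}

theorem two_ne_zero_of_odd_card [Fintype F] (hodd : Odd (Fintype.card F)) : (2 : F) ≠ 0 := by
  intro h2
  have hdvd : ringChar F ∣ 2 := ringChar.dvd (by exact_mod_cast h2)
  have hne1 : ringChar F ≠ 1 := CharP.ringChar_ne_one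
  have h2' : ringChar F = 2 := by
    rcases (Nat.dvd_prime Nat.prime_two).mp hdvd with h | h
    · exact absurd h hne1
    · exact h
  have := FiniteField.even_card_iff_char_two.mp h2'
  rw [Nat.odd_iff] at hodd
  omega

theorem mem_map_gl {ι : Type} [Fintype ι] [DecidableEq ι] (g : GL ι F) (A : Submodule F (ι → F)) (x : ι → F) :
    x ∈ A.map (Matrix.toLin' (g : Matrix ι ι F)) ↔ ((g⁻¹ : GL ι F) : Matrix ι ι F) *ᵥ x ∈ A := by
  constructor
  · rintro ⟨a, ha, rfl⟩
    rw [Matrix.toLin'_apply, gl_inv_mulVec]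
    exact ha
  · intro h
    exact ⟨_, h, by rw [Matrix.toLin'_apply, gl_mulVec_inv]⟩

theorem lag_map {A B : Submodule F (Fin m ⊕ Fin m → F)} (h : LagPair A B) {g : GL (Fin m ⊕ Fin m) F}
    (hg : g ∈ spGL m F) :
    LagPair (A.map (Matrix.toLin' (g : Matrix (Fin m ⊕ Fin m) (Fin m ⊕ Fin m) F)))
      (B.map (Matrix.toLin' (g : Matrix (Fin m ⊕ Fin m) (Fin m ⊕ Fin m) F))) := by
  have hinv : g⁻¹ ∈ spGL m F := inv_mem hg
  refine ⟨?_, ?_, ?_, ?_⟩
  · intro x hx y hy
    rw [mem_map_gl] at hx hy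
    rw [← sp_apply hinv x y]
    exact h.isoA _ hx _ hy
  · intro x hx y hy
    rw [mem_map_gl] at hx hy
    rw [← sp_apply hinv x y]
    exact h.isoB _ hx _ hy
  · intro x hx hx'
    rw [mem_map_gl] at hx hx'
    have := h.disj _ hx hx'
    have e := gl_mulVec_inv g x
    rw [this, mulVec_zero] at e
    exact e.symm
  · intro v
    obtain ⟨a, ha, b, hb, hab⟩ := h.dec (((g⁻¹ : GL (Fin m ⊕ Fin m) F) : Matrix (Fin m ⊕ Fin m) (Fin m ⊕ Fin m) F) *ᵥ v)
    refine ⟨(g : Matrix (Fin m ⊕ Fin m) (Fin m ⊕ Fin m) F) *ᵥ a, ?_,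
      (g : Matrix (Fin m ⊕ Fin m) (Fin m ⊕ Fin m) F) *ᵥ b, ?_, ?_⟩
    · rw [mem_map_gl, gl_inv_mulVec]; exact ha
    · rw [mem_map_gl, gl_inv_mulVec]; exact hb
    · rw [← mulVec_add, ← hab, gl_mulVec_inv]

theorem stab2_cases {ι : Type} [Fintype ι] [DecidableEq ι] (D : Fin 2 → Submodule F (ι → F)) (g : GL ι F)
    (hg : g ∈ decompositionStabilizer D) :
    ((∀ x ∈ D 0, (g : Matrix ι ι F) *ᵥ x ∈ D 0) ∧ (∀ x ∈ D 1, (g : Matrix ι ι F) *ᵥ x ∈ D 1)) ∨
    ((∀ x ∈ D 0, (g : Matrix ι ι F) *ᵥ x ∈ D 1) ∧ (∀ x ∈ D 1, (g : Matrix ι ι F) *ᵥ x ∈ D 0)) := by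
  obtain ⟨σ, hσ⟩ := hg
  have hmap : ∀ i, ∀ x ∈ D i, (g : Matrix ι ι F) *ᵥ x ∈ D (σ i) := by
    intro i x hx
    rw [← hσ i, ← Matrix.toLin'_apply]
    exact Submodule.mem_map_of_mem hx
  have h01 : σ 0 ≠ σ 1 := fun h => absurd (σ.injective h) (by decide)
  have key : ∀ a b : Fin 2, a ≠ b → (a = 0 ∧ b = 1) ∨ (a = 1 ∧ b = 0) := by decide
  rcases key _ _ h01 with ⟨h0, h1⟩ | ⟨h0, h1⟩
  · left
    exact ⟨fun x hx => by have := hmap 0 x hx; rwa [h0] at this,
      fun x hx => by have := hmap 1 x hx; rwa [h1] at this⟩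
  · right
    exact ⟨fun x hx => by have := hmap 0 x hx; rwa [h0] at this,
      fun x hx => by have := hmap 1 x hx; rwa [h1] at this⟩

theorem stab2_of_maps {ι : Type} [Fintype ι] [DecidableEq ι] {k : ℕ} (D : Fin 2 → Submodule F (ι → F))
    (hfr : ∀ l, Module.finrank F (D l) = k) (g : GL ι F)
    (h0 : ∀ x ∈ D 0, (g : Matrix ι ι F) *ᵥ x ∈ D 0) (h1 : ∀ x ∈ D 1, (g : Matrix ι ι F) *ᵥ x ∈ D 1) :
    g ∈ decompositionStabilizer D :=
  decomp_stab_of_maps D hfr g 1 (fun l x hx => by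
    fin_cases l
    · simpa using h0 x hx
    · simpa using h1 x hx)

theorem stab2_swap_of_maps {ι : Type} [Fintype ι] [DecidableEq ι] {k : ℕ} (D : Fin 2 → Submodule F (ι → F))
    (hfr : ∀ l, Module.finrank F (D l) = k) (g : GL ι F)
    (h0 : ∀ x ∈ D 0, (g : Matrix ι ι F) *ᵥ x ∈ D 1) (h1 : ∀ x ∈ D 1, (g : Matrix ι ι F) *ᵥ x ∈ D 0) :
    g ∈ decompositionStabilizer D :=
  decomp_stab_of_maps D hfr g (Equiv.swap 0 1) (fun l x hx => by
    fin_cases l
    · simpa using h0 x hx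
    · simpa using h1 x hx)

/-- A symplectic map interchanging two complementary totally isotropic subspaces. -/
theorem lag_swap {U W : Submodule F (Fin m ⊕ Fin m → F)} (h : LagPair U W) :
    ∃ s : GL (Fin m ⊕ Fin m) F, s ∈ spGL m F ∧
      (∀ x ∈ U, (s : Matrix (Fin m ⊕ Fin m) (Fin m ⊕ Fin m) F) *ᵥ x ∈ W) ∧
      (∀ x ∈ W, (s : Matrix (Fin m ⊕ Fin m) (Fin m ⊕ Fin m) F) *ᵥ x ∈ U) := by
  classical
  have hU := h.finrank_eq
  have hW := h.symm.finrank_eq
  obtain ⟨eb⟩ : Nonempty (Module.Basis (Fin m) F U) := ⟨Module.finBasisOfFinrankEq F U hU⟩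
  obtain ⟨e, he⟩ : ∃ e : Fin m → Fin m ⊕ Fin m → F, ∀ i, e i = (eb i : Fin m ⊕ Fin m → F) := ⟨_, fun i => rfl⟩
  have heU : ∀ i, e i ∈ U := fun i => by rw [he]; exact (eb i).2
  have hrepr : ∀ u ∈ U, ∃ c : Fin m → F, u = ∑ i, c i • e i := by
    intro u hu
    refine ⟨fun i => eb.repr ⟨u, hu⟩ i, ?_⟩
    have := congrArg Subtype.val (eb.sum_repr ⟨u, hu⟩)
    simp only [Submodule.coe_sum, Submodule.coe_smul] at this
    exact this.symm.trans (Finset.sum_congr rfl (fun i _ => by rw [he]))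
  obtain ⟨Φ, hΦ⟩ : ∃ Φ : W →ₗ[F] (Fin m → F),
      ∀ (w : W) i, Φ w i = sympForm m F (e i) (w : Fin m ⊕ Fin m → F) :=
    ⟨LinearMap.pi (fun i => (Helper13.sympB m F (e i)).comp W.subtype), fun w i => rfl⟩
  have hinj : Function.Injective Φ := by
    rw [injective_iff_map_eq_zero]
    intro w hw
    have h1 : ∀ u ∈ U, sympForm m F u (w : Fin m ⊕ Fin m → F) = 0 := by
      intro u hu
      obtain ⟨c, rfl⟩ := hrepr u hu
      rw [sf_sum_left]
      apply Finset.sum_eq_zero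
      intro i _
      rw [sf_smul_left, ← hΦ, hw]
      simp
    exact Subtype.ext (h.disj _ (h.perp_mem _ h1) w.2)
  have hsurj : Function.Surjective Φ :=
    (LinearMap.injective_iff_surjective_of_finrank_eq_finrank (by rw [hW, Module.finrank_fin_fun])).mp hinj
  choose fw hfw using fun j : Fin m => hsurj (Pi.single j 1)
  obtain ⟨f, hf⟩ : ∃ f : Fin m → Fin m ⊕ Fin m → F, ∀ i, f i = (fw i : Fin m ⊕ Fin m → F) := ⟨_, fun i => rfl⟩
  have hfW : ∀ i, f i ∈ W := fun i => by rw [hf]; exact (fw i).2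
  have hef : ∀ i j, sympForm m F (e i) (f j) = if i = j then 1 else 0 := by
    intro i j
    rw [hf, ← hΦ, hfw, Pi.single_apply]
  have hfe : ∀ i j, sympForm m F (f i) (e j) = if i = j then -1 else 0 := by
    intro i j
    rw [sf_swap, hef j i]
    by_cases hij : i = j
    · simp [hij]
    · simp [hij, Ne.symm hij]
  have hee : ∀ i j, sympForm m F (e i) (e j) = 0 := fun i j => h.isoA _ (heU i) _ (heU j)
  have hff : ∀ i j, sympForm m F (f i) (f j) = 0 := fun i j => h.isoB _ (hfW i) _ (hfW j)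
  have hR1 : ∀ u ∈ U, (∀ j, sympForm m F u (f j) = 0) → u = 0 := by
    intro u hu hz
    obtain ⟨c, rfl⟩ := hrepr u hu
    have hc : ∀ j, c j = 0 := by
      intro j
      have := hz j
      rw [sf_sum_left] at this
      simpa [sf_smul_left, hef] using this
    apply Finset.sum_eq_zero
    intro i _
    rw [hc i, zero_smul]
  have hR3 : ∀ y : Fin m ⊕ Fin m → F,
      y = ∑ j, (sympForm m F y (f j) • e j - sympForm m F y (e j) • f j) := by
    intro y
    obtain ⟨z, hz⟩ : ∃ z, z = y - ∑ j, (sympForm m F y (f j) • e j - sympForm m F y (e j) • f j) := ⟨_, rfl⟩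
    have hze : ∀ k, sympForm m F z (e k) = 0 := by
      intro k
      rw [hz, sf_sub_left, sf_sum_left]
      simp [sf_sub_left, sf_smul_left, hee, hfe]
    have hzf : ∀ k, sympForm m F z (f k) = 0 := by
      intro k
      rw [hz, sf_sub_left, sf_sum_left]
      simp [sf_sub_left, sf_smul_left, hff, hef]
    have hzU : z ∈ U := by
      apply h.perp_mem
      intro a ha
      obtain ⟨c, rfl⟩ := hrepr a ha
      rw [sf_sum_left]
      apply Finset.sum_eq_zero
      intro i _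
      rw [sf_smul_left, sf_swap, hze i, neg_zero, mul_zero]
    have hz0 := hR1 z hzU hzf
    rw [hz0] at hz
    exact (sub_eq_zero.mp hz.symm)
  obtain ⟨S, hS⟩ : ∃ S : (Fin m ⊕ Fin m → F) →ₗ[F] (Fin m ⊕ Fin m → F),
      ∀ x, S x = ∑ r, (sympForm m F x (f r) • f r + sympForm m F x (e r) • e r) := by
    refine ⟨∑ r, (((Helper13.sympB m F).flip (f r)).smulRight (f r) +
      ((Helper13.sympB m F).flip (e r)).smulRight (e r)), fun x => ?_⟩
    simp [LinearMap.sum_apply, Helper13.sympB_apply]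
  have k1 : ∀ x k, sympForm m F (S x) (e k) = - sympForm m F x (f k) := by
    intro x k
    rw [hS, sf_sum_left]
    simp [sf_add_left, sf_smul_left, hee, hfe]
  have k2 : ∀ x k, sympForm m F (S x) (f k) = sympForm m F x (e k) := by
    intro x k
    rw [hS, sf_sum_left]
    simp [sf_add_left, sf_smul_left, hff, hef]
  have hiso : ∀ x y, sympForm m F (S x) (S y) = sympForm m F x y := by
    intro x y
    rw [hS y, sf_sum_right]
    simp only [sf_add_right, sf_smul_right, k1, k2]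
    conv_rhs => rw [hR3 y]
    rw [sf_sum_right]
    apply Finset.sum_congr rfl
    intro r _
    rw [sf_sub_right, sf_smul_right, sf_smul_right]
    ring
  have hSinj : Function.Injective S := by
    rw [injective_iff_map_eq_zero]
    intro x hx
    apply sf_eq_zero_of_forall
    intro y
    rw [← hiso x y, hx, sf_zero_left]
  have hunit : IsUnit (LinearMap.toMatrix' S) := by
    rw [← Matrix.mulVec_injective_iff_isUnit]
    intro x y hxy
    rw [LinearMap.toMatrix'_mulVec, LinearMap.toMatrix'_mulVec] at hxy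
    exact hSinj hxy
  have hmv : ∀ x, ((hunit.unit : GL (Fin m ⊕ Fin m) F) : Matrix (Fin m ⊕ Fin m) (Fin m ⊕ Fin m) F) *ᵥ x =
      S x := by
    intro x
    rw [IsUnit.unit_spec, LinearMap.toMatrix'_mulVec]
  refine ⟨hunit.unit, ?_, ?_, ?_⟩
  · rw [mem_spGL_iff]
    intro x y
    rw [hmv, hmv]
    exact hiso x y
  · intro x hx
    rw [hmv, hS]
    apply Submodule.sum_mem
    intro r _
    rw [h.isoA x hx _ (heU r), zero_smul, add_zero]
    exact W.smul_mem _ (hfW r)
  · intro x hx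
    rw [hmv, hS]
    apply Submodule.sum_mem
    intro r _
    rw [h.isoB x hx _ (hfW r), zero_smul, zero_add]
    exact U.smul_mem _ (heU r)

/-- For odd `q`, the stabiliser in `Sp` of a pair of complementary totally isotropic subspaces is maximal. -/
theorem sp_lag_max [Fintype F] (hm : 7 ≤ m) (hodd : Odd (Fintype.card F))
    (D : Fin 2 → Submodule F (Fin m ⊕ Fin m → F)) (hD : IsMDecomposition m D)
    (hts : ∀ i, IsTotallySingularFor (sympForm m F) (D i)) :
    IsMaximalIn (spGL m F) (decompositionStabilizer D ⊓ spGL m F) := by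
  have h2 : (2 : F) ≠ 0 := two_ne_zero_of_odd_card hodd
  have hp : LagPair (D 0) (D 1) := by
    refine ⟨hts 0, hts 1, ?_, ?_⟩
    · have hdisj : Disjoint (D 0) (D 1) := hD.indep.pairwiseDisjoint (by decide)
      exact fun x hx hx' => Submodule.disjoint_def.mp hdisj x hx hx'
    · have htop : D 0 ⊔ D 1 = ⊤ := by
        rw [eq_top_iff, ← hD.iSup_eq_top]
        refine iSup_le (fun i => ?_)
        fin_cases i
        · exact le_sup_left
        · exact le_sup_right
      intro v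
      have hv : v ∈ D 0 ⊔ D 1 := by rw [htop]; exact Submodule.mem_top
      obtain ⟨a, ha, b, hb, hab⟩ := Submodule.mem_sup.mp hv
      exact ⟨a, ha, b, hb, hab.symm⟩
  obtain ⟨s, hsS, hs01, hs10⟩ := lag_swap hp
  have hsH : s ∈ decompositionStabilizer D ⊓ spGL m F :=
    Subgroup.mem_inf.mpr ⟨stab2_swap_of_maps D hD.finrank_eq s hs01 hs10, hsS⟩
  have hH0 : ∀ u ∈ D 0, ∀ w ∈ D 1, sympForm m F u w = 0 →
      eichGL u w ∈ decompositionStabilizer D ⊓ spGL m F := by
    intro u hu w hw huw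
    have hwu : sympForm m F w u = 0 := by rw [sf_swap, huw, neg_zero]
    refine Subgroup.mem_inf.mpr ⟨stab2_of_maps D hD.finrank_eq _ (fun x hx => ?_) (fun x hx => ?_),
      eichGL_mem _ _⟩
    · rw [eichGL_mulVec u w hwu, hp.isoA x hx u hu, zero_smul, add_zero]
      exact (D 0).add_mem hx ((D 0).smul_mem _ hu)
    · rw [eichGL_mulVec u w hwu, hp.isoB x hx w hw, zero_smul, add_zero]
      exact (D 1).add_mem hx ((D 1).smul_mem _ hw)
  constructor
  · rw [SetLike.lt_iff_le_and_exists]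
    refine ⟨inf_le_right, ?_⟩
    obtain ⟨u, hu, hu0⟩ : ∃ u ∈ D 0, u ≠ 0 := by
      apply Submodule.exists_mem_ne_zero_of_ne_bot
      intro hbot
      have := hD.finrank_eq 0
      rw [hbot, finrank_bot] at this
      omega
    obtain ⟨w, hw, hne⟩ := hp.exists_ne u hu hu0
    refine ⟨stGL u 1, stGL_mem u 1, fun hmem => ?_⟩
    rcases stab2_cases D _ (Subgroup.mem_inf.mp hmem).1 with ⟨k0, k1⟩ | ⟨k0, k1⟩
    · have := k1 w hw
      rw [stGL_mulVec, one_mul] at this
      have h3 : sympForm m F w u • u ∈ D 1 := by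
        have := (D 1).sub_mem this hw
        rwa [add_sub_cancel_left] at this
      have hwu : sympForm m F w u ≠ 0 := by rw [sf_swap]; exact neg_ne_zero.mpr hne
      have h4 : u ∈ D 1 := by
        have := (D 1).smul_mem (sympForm m F w u)⁻¹ h3
        rwa [smul_smul, inv_mul_cancel₀ hwu, one_smul] at this
      exact hu0 (hp.disj u hu h4)
    · have := k0 u hu
      rw [stGL_mulVec, sf_self, mul_zero, zero_smul, add_zero] at this
      exact hu0 (hp.disj u hu this)
  · intro K hHK hKS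
    by_cases hKH : K = decompositionStabilizer D ⊓ spGL m F
    · exact Or.inl hKH
    right
    refine le_antisymm hKS ?_
    obtain ⟨g, hgK, hgH⟩ := SetLike.exists_of_lt (lt_of_le_of_ne hHK (Ne.symm hKH))
    have hKimg : ∀ k ∈ K, ∀ a ∈ (D 0).map (Matrix.toLin' (k : Matrix (Fin m ⊕ Fin m) (Fin m ⊕ Fin m) F)),
        ∀ b ∈ (D 1).map (Matrix.toLin' (k : Matrix (Fin m ⊕ Fin m) (Fin m ⊕ Fin m) F)),
        sympForm m F a b = 0 → eichGL a b ∈ K := by
      intro k hk a ha b hb hab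
      rw [mem_map_gl] at ha hb
      have hkS := hKS hk
      have h0 : sympForm m F (((k⁻¹ : GL (Fin m ⊕ Fin m) F) : Matrix (Fin m ⊕ Fin m) (Fin m ⊕ Fin m) F) *ᵥ a)
          (((k⁻¹ : GL (Fin m ⊕ Fin m) F) : Matrix (Fin m ⊕ Fin m) (Fin m ⊕ Fin m) F) *ᵥ b) = 0 := by
        rw [sp_apply (inv_mem hkS)]
        exact hab
      have h1 := hHK (hH0 _ ha _ hb h0)
      have h3 := K.mul_mem (K.mul_mem hk h1) (K.inv_mem hk)
      rwa [eichGL_conj hkS, gl_mulVec_inv, gl_mulVec_inv] at h3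
    have claim : ∀ k ∈ K, k ∉ decompositionStabilizer D ⊓ spGL m F →
        ((∃ x, x ≠ 0 ∧ x ∈ D 0 ∧ x ∈ (D 0).map (Matrix.toLin' (k : Matrix (Fin m ⊕ Fin m) (Fin m ⊕ Fin m) F))) ∨
         (∃ x, x ≠ 0 ∧ x ∈ D 1 ∧ x ∈ (D 0).map (Matrix.toLin' (k : Matrix (Fin m ⊕ Fin m) (Fin m ⊕ Fin m) F)))) →
        ∃ a b, eichGL a b ∈ K ∧ sympForm m F a b = 0 ∧ a ≠ 0 ∧
          ((a ∈ D 0 ∧ b ∉ D 1) ∨ (a ∈ D 1 ∧ b ∉ D 0)) := by
      intro k hk hkH hcase
      have hkS := hKS hk
      have hp' := lag_map hp hkS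
      rcases hcase with ⟨x, hx0, hx, hx'⟩ | ⟨x, hx0, hx, hx'⟩
      · refine lag_nongeneric (by omega) hp hp' K (hKimg k hk) x hx hx' hx0 ?_
        rintro ⟨e0, e1⟩
        apply hkH
        refine Subgroup.mem_inf.mpr ⟨⟨1, fun i => ?_⟩, hkS⟩
        fin_cases i
        · simpa using e0
        · simpa using e1
      · have hne : ¬ ((D 0).map (Matrix.toLin' (k : Matrix (Fin m ⊕ Fin m) (Fin m ⊕ Fin m) F)) = D 1 ∧
            (D 1).map (Matrix.toLin' (k : Matrix (Fin m ⊕ Fin m) (Fin m ⊕ Fin m) F)) = D 0) := by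
          rintro ⟨e0, e1⟩
          apply hkH
          refine Subgroup.mem_inf.mpr ⟨⟨Equiv.swap 0 1, fun i => ?_⟩, hkS⟩
          fin_cases i
          · simpa using e0
          · simpa using e1
        obtain ⟨a, b, h1, h2', h3, h4⟩ := lag_nongeneric (by omega) hp.symm hp' K (hKimg k hk) x hx hx' hx0 hne
        exact ⟨a, b, h1, h2', h3, h4.symm⟩
    have hgood : ∃ a b, eichGL a b ∈ K ∧ sympForm m F a b = 0 ∧ a ≠ 0 ∧
        ((a ∈ D 0 ∧ b ∉ D 1) ∨ (a ∈ D 1 ∧ b ∉ D 0)) := by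
      have hgS := hKS hgK
      by_cases hc : (∃ x, x ≠ 0 ∧ x ∈ D 0 ∧
            x ∈ (D 0).map (Matrix.toLin' (g : Matrix (Fin m ⊕ Fin m) (Fin m ⊕ Fin m) F))) ∨
          (∃ x, x ≠ 0 ∧ x ∈ D 1 ∧ x ∈ (D 0).map (Matrix.toLin' (g : Matrix (Fin m ⊕ Fin m) (Fin m ⊕ Fin m) F)))
      · exact claim g hgK hgH hc
      · push Not at hc
        obtain ⟨hc1, hc2⟩ := hc
        have hp' := lag_map hp hgS
        obtain ⟨u, hu, w, hw, huw, ⟨x₁, hx₁, hx₁n⟩, ⟨x₂, hx₂, hx₂0, hx₂f⟩⟩ := lag_generic (by omega) hp hp'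
          (fun x hx hx' => by
            by_contra h0
            exact hc1 x h0 hx hx')
          (fun x hx hx' => by
            by_contra h0
            exact hc2 x h0 hx hx')
        have hh : eichGL u w ∈ K := hHK (hH0 u hu w hw huw)
        have hk : g⁻¹ * eichGL u w * g ∈ K := K.mul_mem (K.mul_mem (K.inv_mem hgK) hh) hgK
        apply claim _ hk
        · intro hkH
          rcases stab2_cases D _ (Subgroup.mem_inf.mp hkH).1 with ⟨k0, k1⟩ | ⟨k0, k1⟩
          · apply hx₁n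
            rw [mem_map_gl] at hx₁ ⊢
            have := k0 _ hx₁
            rw [gl_mul_mulVec, gl_mul_mulVec, gl_mulVec_inv] at this
            exact this
          · apply hx₂0
            have hx₂' := hx₂
            rw [mem_map_gl] at hx₂'
            have := k0 _ hx₂'
            rw [gl_mul_mulVec, gl_mul_mulVec, gl_mulVec_inv, hx₂f] at this
            exact hp'.disj x₂ hx₂ ((mem_map_gl g (D 1) x₂).mpr this)
        · left
          refine ⟨((g⁻¹ : GL (Fin m ⊕ Fin m) F) : Matrix (Fin m ⊕ Fin m) (Fin m ⊕ Fin m) F) *ᵥ x₂, ?_, ?_, ?_⟩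
          · intro h0
            have e := gl_mulVec_inv g x₂
            rw [h0, mulVec_zero] at e
            exact hx₂0 e.symm
          · exact (mem_map_gl g (D 0) x₂).mp hx₂
          · refine Submodule.mem_map.mpr ⟨_, (mem_map_gl g (D 0) x₂).mp hx₂, ?_⟩
            rw [Matrix.toLin'_apply, gl_mul_mulVec, gl_mul_mulVec, gl_mulVec_inv, hx₂f]
    obtain ⟨a, b, hρ, hab, ha0, hcase⟩ := hgood
    have hK0 : ∀ u ∈ D 0, ∀ w ∈ D 1, sympForm m F u w = 0 → eichGL u w ∈ K :=
      fun u hu w hw huw => hHK (hH0 u hu w hw huw)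
    have hK1 : ∀ u ∈ D 1, ∀ w ∈ D 0, sympForm m F u w = 0 → eichGL u w ∈ K := by
      intro u hu w hw huw
      have hwu : sympForm m F w u = 0 := by rw [sf_swap, huw, neg_zero]
      rw [eichGL_symm u w hwu]
      exact hK0 w hw u hu hwu
    have hsK : s ∈ K := hHK hsH
    have hboth : (∀ x ∈ D 0, x ∈ tvCentres K) ∧ (∀ x ∈ D 1, x ∈ tvCentres K) := by
      rcases hcase with ⟨ha, hb⟩ | ⟨ha, hb⟩
      · have h0 := lag_centres h2 (by omega) hp K hK0 a b ha ha0 hab hb hρ
        refine ⟨h0, fun x hx => ?_⟩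
        have := tvCentres_map K (K.inv_mem hsK) (inv_mem hsS) (h0 _ (hs10 x hx))
        rwa [gl_inv_mulVec] at this
      · have h1 := lag_centres h2 (by omega) hp.symm K hK1 a b ha ha0 hab hb hρ
        refine ⟨fun x hx => ?_, h1⟩
        have := tvCentres_map K (K.inv_mem hsK) (inv_mem hsS) (h1 _ (hs01 x hx))
        rwa [gl_inv_mulVec] at this
    apply spGL_le_of_tvCentres
    intro v
    obtain ⟨a', ha', b', hb', rfl⟩ := hp.dec v
    by_cases ha'0 : a' = 0
    · rw [ha'0, zero_add]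
      exact hboth.2 _ hb'
    obtain ⟨b₂, hb₂, hne⟩ := hp.exists_ne a' ha' ha'0
    by_cases hab' : sympForm m F a' b' ≠ 0
    · have := tvCentres_line K (hboth.1 _ ha') (hboth.2 _ hb') hab' 1 1
      rwa [one_smul, one_smul] at this
    · push Not at hab'
      have h1 := tvCentres_line K (hboth.1 _ ha') (hboth.2 _ hb₂) hne 1 1
      rw [one_smul, one_smul] at h1
      have h3 : sympForm m F (a' + b₂) (b' - b₂) ≠ 0 := by
        rw [sf_add_left, sf_sub_right, sf_sub_right, hab', hp.isoB b₂ hb₂ b' hb', sf_self]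
        simpa using hne
      have := tvCentres_line K h1 (hboth.2 _ (Submodule.sub_mem _ hb' hb₂)) h3 1 1
      rw [one_smul, one_smul] at this
      have e : a' + b₂ + (b' - b₂) = a' + b' := by abel
      rwa [e] at this

end Cfsg.Agent.Helper94
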