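import Cfsg.Agent.Helper94.UK
import Cfsg.Agent.Helper94.SpLag2

/-!
Pairs of complementary totally singular subspaces of a Hermitian space: Siegel elements of
the pair, the dichotomy lemma, spreading of transvection centres, the swap.
-/

set_option autoImplicit false
set_option linter.unusedSectionVars false
set_option linter.unusedSimpArgs false
set_option linter.unusedVariables false
set_option maxHeartbeats 1000000

namespace Cfsg.Agent.Helper94

open Cfsg Cfsg.Geo Matrix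

universe u

variable {F : Type u} [Field F] {ι : Type} [Fintype ι] [DecidableEq ι]

/-- A pair of complementary totally singular subspaces. -/
structure ULagPair (f : (ι → F) → (ι → F) → F) (A B : Submodule F (ι → F)) : Prop where
  isoA : ∀ x ∈ A, ∀ y ∈ A, f x y = 0
  isoB : ∀ x ∈ B, ∀ y ∈ B, f x y = 0
  disj : ∀ x, x ∈ A → x ∈ B → x = 0
  dec : ∀ v : ι → F, ∃ a ∈ A, ∃ b ∈ B, v = a + b

theorem ULagPair.symm {f : (ι → F) → (ι → F) → F} {A B : Submodule F (ι → F)}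
    (p : ULagPair f A B) : ULagPair f B A :=
  ⟨p.isoB, p.isoA, fun x hx hx' => p.disj x hx' hx, fun v => by
    obtain ⟨a, ha, b, hb, rfl⟩ := p.dec v
    exact ⟨b, hb, a, ha, add_comm a b⟩⟩

namespace UF

variable {σ : F ≃+* F} {f : (ι → F) → (ι → F) → F} (h : UF σ f)

include h

theorem lp_zero_of_perp {A B : Submodule F (ι → F)} (p : ULagPair f A B) {a : ι → F}
    (ha : a ∈ A) (hp : ∀ b ∈ B, f a b = 0) : a = 0 := by
  by_contra h0
  obtain ⟨x, hx⟩ := h.nondeg a h0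
  obtain ⟨a', ha', b', hb', rfl⟩ := p.dec x
  apply hx
  rw [h.add_left, p.isoA a' ha' a ha, zero_add]
  exact h.swap_zero (hp b' hb')

theorem lp_perp_mem {A B : Submodule F (ι → F)} (p : ULagPair f A B) (x : ι → F)
    (hx : ∀ a ∈ A, f x a = 0) : x ∈ A := by
  obtain ⟨a, ha, b, hb, rfl⟩ := p.dec x
  have hb0 : b = 0 := by
    apply h.lp_zero_of_perp p.symm hb
    intro a' ha'
    have := hx a' ha'
    rw [h.add_left, p.isoA a ha a' ha', zero_add] at this
    exact this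
  rw [hb0, add_zero]
  exact ha

theorem lp_exists_ne {A B : Submodule F (ι → F)} (p : ULagPair f A B) {a : ι → F} (ha : a ∈ A)
    (ha0 : a ≠ 0) : ∃ b ∈ B, f a b ≠ 0 := by
  by_contra hcon
  push Not at hcon
  exact ha0 (h.lp_zero_of_perp p ha hcon)

theorem lp_sep {A B : Submodule F (ι → F)} (p : ULagPair f A B) {a y : ι → F} (ha : a ∈ A)
    (hy : y ∈ A) (hay : a ∉ Submodule.span F {y}) : ∃ w ∈ B, f a w = 1 ∧ f y w = 0 := by
  have key : ∃ w ∈ B, f y w = 0 ∧ f a w ≠ 0 := by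
    by_contra hcon
    push Not at hcon
    apply hay
    by_cases hy0 : y = 0
    · have : a = 0 := h.lp_zero_of_perp p ha (fun b hb => hcon b hb (by rw [hy0, h.zero_left]))
      rw [this]
      exact Submodule.zero_mem _
    · obtain ⟨b₁, hb₁, hne⟩ := h.lp_exists_ne p hy hy0
      have hz : a - (f a b₁ / f y b₁) • y = 0 := by
        apply h.lp_zero_of_perp p (A.sub_mem ha (A.smul_mem _ hy))
        intro b hb
        have h1 := hcon (b - σ (f y b / f y b₁) • b₁) (B.sub_mem hb (B.smul_mem _ hb₁))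
          (by rw [h.sub_right, h.smul_right, h.invol, div_mul_cancel₀ _ hne, sub_self])
        rw [h.sub_right, h.smul_right, h.invol, sub_eq_zero] at h1
        rw [h.sub_left, h.smul_left, h1]
        field_simp
        ring
      rw [sub_eq_zero] at hz
      rw [hz]
      exact Submodule.smul_mem _ _ (Submodule.mem_span_singleton_self y)
  obtain ⟨w, hw, hyw, haw⟩ := key
  refine ⟨σ ((f a w)⁻¹) • w, B.smul_mem _ hw, ?_, ?_⟩
  · rw [h.smul_right, h.invol, inv_mul_cancel₀ haw]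
  · rw [h.smul_right, hyw, mul_zero]

theorem lp_perp_line {A B : Submodule F (ι → F)} (p : ULagPair f A B) {x w : ι → F}
    (hx : x ∈ A) (hx0 : x ≠ 0) (hwx : f w x = 0) (hw : ∀ w' ∈ B, f w' x = 0 → f w w' = 0) :
    ∃ l : F, ∃ w' ∈ B, f w' x = 0 ∧ w = l • x + w' := by
  obtain ⟨wA, hwA, wB, hwB, rfl⟩ := p.dec w
  have hwBx : f wB x = 0 := by
    rw [h.add_left, p.isoA wA hwA x hx, zero_add] at hwx
    exact hwx
  have hspan : wA ∈ Submodule.span F {x} := by
    by_contra hns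
    obtain ⟨w', hw', h1, h0⟩ := h.lp_sep p hwA hx hns
    have := hw w' hw' (h.swap_zero h0)
    rw [h.add_left, h1, p.isoB wB hwB w' hw', add_zero] at this
    exact one_ne_zero this
  obtain ⟨l, rfl⟩ := Submodule.mem_span_singleton.mp hspan
  exact ⟨l, wB, hwB, hwBx, rfl⟩

/-! ### Siegel elements of a pair -/

theorem sg_swap {u w : ι → F} (huu : f u u = 0) (hww : f w w = 0) (huw : f u w = 0) :
    sg f w u = sg f (-u) w := by
  apply ugl_ext
  intro x
  have hwu := h.swap_zero huw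
  rw [h.sg_mulVec hwu huu, h.sg_mulVec (by rw [h.neg_left, huw, neg_zero]) hww, h.neg_right]
  module

theorem sg_in_symm {A B : Submodule F (ι → F)} (p : ULagPair f A B) (M : Subgroup (GL ι F))
    (hM : ∀ u ∈ A, ∀ w ∈ B, f u w = 0 → sg f u w ∈ M) :
    ∀ u ∈ B, ∀ w ∈ A, f u w = 0 → sg f u w ∈ M := by
  intro u hu w hw huw
  rw [h.sg_swap (p.isoA w hw w hw) (p.isoB u hu u hu) (h.swap_zero huw)]
  exact hM (-w) (A.neg_mem hw) u hu (by rw [h.neg_left, h.swap_zero huw, neg_zero])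

theorem sg_conj {k : GL ι F} (hk : k ∈ isoGL f) {u w : ι → F} (huw : f u w = 0) :
    k * sg f u w * k⁻¹ = sg f ((k : Matrix ι ι F) *ᵥ u) ((k : Matrix ι ι F) *ᵥ w) := by
  have hk' := mem_isoGL.mp hk
  have e1 := h.tvh_conj k (b₂ := (k : Matrix ι ι F) *ᵥ w) huw (fun y => (hk' y w).symm)
  have hwu : f w (-u) = 0 := by rw [h.neg_right, h.swap_zero huw, neg_zero]
  have e2 := h.tvh_conj k (b₂ := -((k : Matrix ι ι F) *ᵥ u)) hwu
    (fun y => by rw [← mulVec_neg, hk'])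
  rw [sg, sg, ← e1, ← e2]
  group

/-- The dichotomy: a common vector of `A` and `A'` is a centre, or `B ∩ x^⊥ ⊆ B'`. -/
theorem lp_dich {A B A' B' : Submodule F (ι → F)} (p : ULagPair f A B) (p' : ULagPair f A' B')
    (M : Subgroup (GL ι F)) (hM : ∀ u ∈ A, ∀ w ∈ B, f u w = 0 → sg f u w ∈ M)
    (hM' : ∀ u ∈ A', ∀ w ∈ B', f u w = 0 → sg f u w ∈ M)
    {x : ι → F} (hxA : x ∈ A) (hxA' : x ∈ A') (hx0 : x ≠ 0) (hxK : x ∉ uctr σ f M) :
    ∀ w ∈ B, f x w = 0 → w ∈ B' := by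
  intro w hw hxw
  have hxx : f x x = 0 := p.isoA x hxA x hxA
  have hww : f w w = 0 := p.isoB w hw w hw
  have step1 : ∀ w' ∈ B', f w' x = 0 → f w w' = 0 := by
    intro w' hw' hw'x
    by_contra hne
    apply hxK
    refine ⟨hxx, fun ν hν => ?_⟩
    obtain ⟨γ, hγ⟩ := uf_exists_skew σ h.invol h.ne_id ν hν
    obtain ⟨μ, hμ⟩ : ∃ μ, μ = -γ / f w w' := ⟨_, rfl⟩
    have hμw : μ * f w w' = -γ := by
      rw [hμ]
      field_simp
    have hxw' : f x w' = 0 := h.swap_zero hw'x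
    have h1 : f x (μ • w) = 0 := by rw [h.smul_right, hxw, mul_zero]
    have h11 : f (μ • w) (μ • w) = 0 := by
      rw [h.smul_left, h.smul_right, hww, mul_zero, mul_zero]
    have h22 : f w' w' = 0 := p'.isoB w' hw' w' hw'
    have hcomm := h.sg_comm hxx h1 hxw' h11 h22
    have hν' : f w' (μ • w) - f (μ • w) w' = ν := by
      rw [h.smul_right, h.smul_left, hμw]
      have : σ μ * f w' w = -σ γ := by
        rw [← h.sigma_apply w w', ← map_mul, hμw, map_neg]
      rw [this]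
      linear_combination hγ
    rw [hν'] at hcomm
    have hS1 := hM x hxA (μ • w) (B.smul_mem μ hw) h1
    have hS2 := hM' x hxA' w' hw' hxw'
    have : tvh f x (ν • x) = (sg f x w' * sg f x (μ • w))⁻¹ * (sg f x (μ • w) * sg f x w') := by
      rw [hcomm]
      group
    rw [this]
    exact M.mul_mem (M.inv_mem (M.mul_mem hS2 hS1)) (M.mul_mem hS1 hS2)
  obtain ⟨l, w', hw', hw'x, hwe⟩ := h.lp_perp_line p' hxA' hx0 (h.swap_zero hxw) step1
  by_cases hl : l = 0
  · rw [hwe, hl, zero_smul, zero_add]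
    exact hw'
  · exfalso
    apply hxK
    refine ⟨hxx, fun ν hν => ?_⟩
    obtain ⟨γ, hγ⟩ := uf_exists_skew σ h.invol h.ne_id ν hν
    have hxw' : f x w' = 0 := h.swap_zero hw'x
    have h1 : f x ((γ / l) • w') = 0 := by rw [h.smul_right, hxw', mul_zero]
    have h11 : f ((γ / l) • w') ((γ / l) • w') = 0 := by
      rw [h.smul_left, h.smul_right, p'.isoB w' hw' w' hw', mul_zero, mul_zero]
    have hadd := h.sg_add_smul hxx h1 h11 γ
    have e : (γ / l) • w' + γ • x = (γ / l) • w := by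
      rw [hwe, smul_add, smul_smul, div_mul_cancel₀ _ hl, add_comm]
    rw [e, hγ] at hadd
    have hS1 := hM x hxA ((γ / l) • w) (B.smul_mem _ hw) (by rw [h.smul_right, hxw, mul_zero])
    have hS2 := hM' x hxA' ((γ / l) • w') (B'.smul_mem _ hw') h1
    have : tvh f x (ν • x) = (sg f x ((γ / l) • w'))⁻¹ * sg f x ((γ / l) • w) := by
      rw [hadd]
      group
    rw [this]
    exact M.mul_mem (M.inv_mem hS2) hS1

/-- Two distinct pairs sharing a vector, both with their Siegel elements in `M`, give a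
transvection centre. -/
theorem lp_nongeneric {A B A' B' : Submodule F (ι → F)} (p : ULagPair f A B)
    (p' : ULagPair f A' B') (hA : 1 < Module.finrank F A) (hB : 2 < Module.finrank F B)
    (hA' : 1 < Module.finrank F A') (hB' : 2 < Module.finrank F B')
    (M : Subgroup (GL ι F)) (hM : ∀ u ∈ A, ∀ w ∈ B, f u w = 0 → sg f u w ∈ M)
    (hM' : ∀ u ∈ A', ∀ w ∈ B', f u w = 0 → sg f u w ∈ M)
    {x₀ : ι → F} (hx₀ : x₀ ∈ A) (hx₀' : x₀ ∈ A') (hx₀0 : x₀ ≠ 0) (hne : ¬ (A' = A ∧ B' = B)) :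
    ∃ c, c ≠ 0 ∧ (c ∈ A ∨ c ∈ B) ∧ c ∈ uctr σ f M := by
  by_contra hcon
  push Not at hcon
  have hMs := h.sg_in_symm p M hM
  have hMs' := h.sg_in_symm p' M hM'
  have dA : ∀ x ∈ A, x ∈ A' → x ≠ 0 → ∀ w ∈ B, f x w = 0 → w ∈ B' :=
    fun x hx hx' hx0 => h.lp_dich p p' M hM hM' hx hx' hx0 (hcon x hx0 (Or.inl hx))
  have dB : ∀ y ∈ B, y ∈ B' → y ≠ 0 → ∀ a ∈ A, f y a = 0 → a ∈ A' :=
    fun y hy hy' hy0 => h.lp_dich p.symm p'.symm M hMs hMs' hy hy' hy0 (hcon y hy0 (Or.inr hy))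
  have dA' : ∀ x ∈ A', x ∈ A → x ≠ 0 → ∀ w ∈ B', f x w = 0 → w ∈ B :=
    fun x hx' hx hx0 => h.lp_dich p' p M hM' hM hx' hx hx0 (hcon x hx0 (Or.inl hx))
  have dB' : ∀ y ∈ B', y ∈ B → y ≠ 0 → ∀ a ∈ A', f y a = 0 → a ∈ A :=
    fun y hy' hy hy0 => h.lp_dich p'.symm p.symm M hMs' hMs hy' hy hy0 (hcon y hy0 (Or.inr hy))
  have hAA' : A ≤ A' := by
    intro a ha
    obtain ⟨y, hy, hy0, hyp⟩ := h.exists_perp_in B ![x₀, a] hB
    have h1 : f y x₀ = 0 := by simpa using hyp 0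
    have h2 : f y a = 0 := by simpa using hyp 1
    exact dB y hy (dA x₀ hx₀ hx₀' hx₀0 y hy (h.swap_zero h1)) hy0 a ha h2
  have hA'A : A' ≤ A := by
    intro a ha
    obtain ⟨y, hy, hy0, hyp⟩ := h.exists_perp_in B' ![x₀, a] hB'
    have h1 : f y x₀ = 0 := by simpa using hyp 0
    have h2 : f y a = 0 := by simpa using hyp 1
    exact dB' y hy (dA' x₀ hx₀' hx₀ hx₀0 y hy (h.swap_zero h1)) hy0 a ha h2
  have hBB' : B ≤ B' := by
    intro w hw
    obtain ⟨x, hx, hx0, hxp⟩ := h.exists_perp_in A ![w] hA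
    have h1 : f x w = 0 := by simpa using hxp 0
    exact dA x hx (hAA' hx) hx0 w hw h1
  have hB'B : B' ≤ B := by
    intro w hw
    obtain ⟨x, hx, hx0, hxp⟩ := h.exists_perp_in A' ![w] hA'
    have h1 : f x w = 0 := by simpa using hxp 0
    exact dA' x hx (hA'A hx) hx0 w hw h1
  exact hne ⟨le_antisymm hA'A hAA', le_antisymm hB'B hBB'⟩

/-- Spreading a transvection centre inside `A`. -/
theorem lp_spread {A B : Submodule F (ι → F)} (p : ULagPair f A B) (M : Subgroup (GL ι F))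
    (hM : ∀ u ∈ A, ∀ w ∈ B, f u w = 0 → sg f u w ∈ M) {a : ι → F} (ha : a ∈ A) (ha0 : a ≠ 0)
    (haK : a ∈ uctr σ f M) : ∀ x ∈ A, x ∈ uctr σ f M := by
  intro x hx
  by_cases hxa : x ∈ Submodule.span F {a}
  · obtain ⟨t, rfl⟩ := Submodule.mem_span_singleton.mp hxa
    exact h.uctr_smul haK t
  · have hay : a ∉ Submodule.span F {x - a} := by
      intro hmem
      obtain ⟨t, ht⟩ := Submodule.mem_span_singleton.mp hmem
      apply hxa
      rw [Submodule.mem_span_singleton]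
      have ht0 : t ≠ 0 := by
        rintro rfl
        rw [zero_smul] at ht
        exact ha0 ht.symm
      refine ⟨t⁻¹ * (1 + t), ?_⟩
      have e : t • x = (1 + t) • a := by
        rw [smul_sub] at ht
        rw [add_smul, one_smul]
        rw [sub_eq_iff_eq_add] at ht
        exact ht
      rw [mul_smul, ← e, smul_smul, inv_mul_cancel₀ ht0, one_smul]
    obtain ⟨w, hw, hw1, hw0⟩ := h.lp_sep p ha (A.sub_mem hx ha) hay
    have hS := hM (x - a) (A.sub_mem hx ha) w hw hw0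
    have hxa' := A.sub_mem hx ha
    have := h.uctr_map hS (h.sg_isom (p.isoA _ hxa' _ hxa') (p.isoB w hw w hw) hw0) haK
    rw [h.sg_mulVec hw0 (p.isoB w hw w hw), hw1, one_smul, p.isoA a ha (x - a) hxa', zero_smul,
      sub_zero] at this
    have e : a + (x - a) = x := by abel
    rwa [e] at this

/-- The image of a pair under an isometry. -/
theorem lp_map {A B : Submodule F (ι → F)} (p : ULagPair f A B) {g : GL ι F}
    (hg : g ∈ isoGL f) :
    ULagPair f (A.map (Matrix.toLin' (g : Matrix ι ι F)))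
      (B.map (Matrix.toLin' (g : Matrix ι ι F))) := by
  have hinv : g⁻¹ ∈ isoGL f := inv_mem hg
  have hi := mem_isoGL.mp hinv
  refine ⟨?_, ?_, ?_, ?_⟩
  · intro x hx y hy
    rw [mem_map_gl] at hx hy
    rw [← hi x y]
    exact p.isoA _ hx _ hy
  · intro x hx y hy
    rw [mem_map_gl] at hx hy
    rw [← hi x y]
    exact p.isoB _ hx _ hy
  · intro x hx hx'
    rw [mem_map_gl] at hx hx'
    exact ugl_mulVec_eq_zero _ (p.disj _ hx hx')
  · intro v
    obtain ⟨a, ha, b, hb, hab⟩ := p.dec (((g⁻¹ : GL ι F) : Matrix ι ι F) *ᵥ v)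
    refine ⟨(g : Matrix ι ι F) *ᵥ a, (mem_map_gl g A _).mpr (by rw [ugl_inv_mulVec]; exact ha),
      (g : Matrix ι ι F) *ᵥ b, (mem_map_gl g B _).mpr (by rw [ugl_inv_mulVec]; exact hb), ?_⟩
    rw [← mulVec_add, ← hab, ugl_mulVec_inv]

/-- Two pairs in general position: a Siegel element of the first moving the second pair while
fixing one of its vectors. -/
theorem lp_generic {A B A' B' : Submodule F (ι → F)} (p : ULagPair f A B)
    (p' : ULagPair f A' B') (hA : 0 < Module.finrank F A) (hB : 2 < Module.finrank F B)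
    (hA' : 2 < Module.finrank F A')
    (hg1 : ∀ x, x ∈ A → x ∈ A' → x = 0) (hg2 : ∀ x, x ∈ B → x ∈ A' → x = 0) :
    ∃ u ∈ A, ∃ w ∈ B, f u w = 0 ∧
      (∃ x ∈ A', ((sg f u w : GL ι F) : Matrix ι ι F) *ᵥ x ∉ A') ∧
      (∃ x ∈ A', x ≠ 0 ∧ ((sg f u w : GL ι F) : Matrix ι ι F) *ᵥ x = x) := by
  obtain ⟨u, hu, hu0⟩ : ∃ u ∈ A, u ≠ 0 := by
    obtain ⟨⟨u, hu⟩, hne⟩ := Module.finrank_pos_iff_exists_ne_zero.mp hA
    exact ⟨u, hu, fun h0 => hne (Subtype.ext h0)⟩
  have huA' : u ∉ A' := fun hmem => hu0 (hg1 u hu hmem)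
  obtain ⟨w₁, hw₁, hw₁0, hw₁p⟩ := h.exists_perp_in B ![u] (by omega)
  have hw₁u : f w₁ u = 0 := by simpa using hw₁p 0
  obtain ⟨z, hz⟩ := h.nondeg w₁ hw₁0
  obtain ⟨w₂, hw₂, hw₂0, hw₂p⟩ := h.exists_perp_in B ![u, z] hB
  have hw₂u : f w₂ u = 0 := by simpa using hw₂p 0
  have hw₂z : f w₂ z = 0 := by simpa using hw₂p 1
  -- one of `w₁`, `w₂` is good
  obtain ⟨w, hw, hw0, hwu, hgood⟩ : ∃ w ∈ B, w ≠ 0 ∧ f w u = 0 ∧ ∀ β : F, u + β • w ∉ A' := by
    by_cases hc1 : ∀ β : F, u + β • w₁ ∉ A'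
    · exact ⟨w₁, hw₁, hw₁0, hw₁u, hc1⟩
    · push Not at hc1
      obtain ⟨β₁, hβ₁⟩ := hc1
      refine ⟨w₂, hw₂, hw₂0, hw₂u, fun β₂ hβ₂ => ?_⟩
      have hdiff : β₁ • w₁ - β₂ • w₂ ∈ A' := by
        have := A'.sub_mem hβ₁ hβ₂
        have e : u + β₁ • w₁ - (u + β₂ • w₂) = β₁ • w₁ - β₂ • w₂ := by abel
        rwa [e] at this
      have h0 := hg2 _ (B.sub_mem (B.smul_mem β₁ hw₁) (B.smul_mem β₂ hw₂)) hdiff
      rw [sub_eq_zero] at h0
      have hβ₁0 : β₁ ≠ 0 := by
        rintro rfl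
        rw [zero_smul, add_zero] at hβ₁
        exact huA' hβ₁
      have h1 : f (β₁ • w₁) z = 0 := by rw [h0, h.smul_left, hw₂z, mul_zero]
      rw [h.smul_left] at h1
      rcases mul_eq_zero.mp h1 with h2 | h2
      · exact hβ₁0 h2
      · exact hz (h.swap_zero h2)
  have huw : f u w = 0 := h.swap_zero hwu
  have hww : f w w = 0 := p.isoB w hw w hw
  refine ⟨u, hu, w, hw, huw, ?_, ?_⟩
  · obtain ⟨x, hx, hxu, hxw⟩ : ∃ x ∈ A', f x u = 0 ∧ f x w ≠ 0 := by
      by_contra hcon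
      push Not at hcon
      obtain ⟨x₁, hx₁, hx₁u⟩ : ∃ x₁ ∈ A', f x₁ u ≠ 0 := by
        by_contra hno
        push Not at hno
        exact huA' (h.lp_perp_mem p' u (fun a ha => h.swap_zero (hno a ha)))
      obtain ⟨c, hc⟩ : ∃ c, c = f x₁ w / f x₁ u := ⟨_, rfl⟩
      have hmem : w - σ c • u ∈ A' := by
        apply h.lp_perp_mem p'
        intro x hx
        apply h.swap_zero
        have h1 := hcon (x - (f x u / f x₁ u) • x₁) (A'.sub_mem hx (A'.smul_mem _ hx₁))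
          (by rw [h.sub_left, h.smul_left, div_mul_cancel₀ _ hx₁u, sub_self])
        rw [h.sub_left, h.smul_left, sub_eq_zero] at h1
        rw [h.sub_right, h.smul_right, h.invol, h1, hc]
        field_simp
        ring
      by_cases hc0 : σ c = 0
      · rw [hc0, zero_smul, sub_zero] at hmem
        exact hw0 (hg2 w hw hmem)
      · apply hgood (-(σ c)⁻¹)
        have := A'.smul_mem (-(σ c)⁻¹) hmem
        have e : (-(σ c)⁻¹) • (w - σ c • u) = u + (-(σ c)⁻¹) • w := by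
          rw [smul_sub, smul_smul, neg_mul, inv_mul_cancel₀ hc0]
          module
        rwa [e] at this
    refine ⟨x, hx, fun hmem => ?_⟩
    rw [h.sg_mulVec huw hww, hxu, zero_smul, sub_zero] at hmem
    have h1 : f x w • u ∈ A' := by
      have := A'.sub_mem hmem hx
      rwa [add_sub_cancel_left] at this
    have h2 : u ∈ A' := by
      have := A'.smul_mem (f x w)⁻¹ h1
      rwa [smul_smul, inv_mul_cancel₀ hxw, one_smul] at this
    exact huA' h2
  · obtain ⟨x, hx, hx0, hxp⟩ := h.exists_perp_in A' ![u, w] hA'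
    have h1 : f x u = 0 := by simpa using hxp 0
    have h2 : f x w = 0 := by simpa using hxp 1
    refine ⟨x, hx, hx0, ?_⟩
    rw [h.sg_mulVec huw hww, h1, h2, zero_smul, zero_smul, add_zero, sub_zero]

end UF

end Cfsg.Agent.Helper94
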