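import Cfsg.Agent.Helper94.UK

/-!
Nondegenerate subspaces of a Hermitian space: coordinates, orthogonal projection,
anisotropic vectors, isotropic spanning, partners of isotropic vectors.
-/

set_option autoImplicit false
set_option linter.unusedSectionVars false
set_option linter.unusedSimpArgs false
set_option linter.unusedVariables false

namespace Cfsg.Agent.Helper94

open Cfsg Cfsg.Geo Matrix

universe u

variable {F : Type u} [Field F] {ι : Type} [Fintype ι] [DecidableEq ι]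

namespace UF

variable {σ : F ≃+* F} {f : (ι → F) → (ι → F) → F} (h : UF σ f)

include h

/-- Coordinates on a nondegenerate subspace. -/
theorem sub_coords (U : Submodule F (ι → F)) (hU : ∀ u ∈ U, u ≠ 0 → ∃ x ∈ U, f x u ≠ 0) :
    ∃ φ : (Fin (Module.finrank F U) → F) →ₗ[F] (ι → F), Function.Injective φ ∧
      (∀ x, φ x ∈ U) ∧ (∀ u ∈ U, ∃ x, φ x = u) ∧ UF σ (fun x y => f (φ x) (φ y)) := by
  obtain ⟨b⟩ : Nonempty (Module.Basis (Fin (Module.finrank F U)) F U) :=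
    ⟨Module.finBasisOfFinrankEq F U rfl⟩
  obtain ⟨e, he⟩ : ∃ e : (Fin (Module.finrank F U) → F) ≃ₗ[F] U, e = b.equivFun.symm := ⟨_, rfl⟩
  have hinj : Function.Injective (U.subtype.comp e.toLinearMap) := by
    intro x y hxy
    exact e.injective (Subtype.ext hxy)
  refine ⟨U.subtype.comp e.toLinearMap, hinj, fun x => (e x).2,
    fun u hu => ⟨e.symm ⟨u, hu⟩, by simp⟩, ?_⟩
  refine ⟨h.invol, h.ne_id, ?_, ?_, ?_, ?_⟩
  · intro x y v
    simp only [map_add]
    exact h.add_left _ _ _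
  · intro c x v
    simp only [map_smul]
    exact h.smul_left _ _ _
  · intro v w
    exact h.herm _ _
  · intro v hv
    have hv' : (U.subtype.comp e.toLinearMap) v ≠ 0 := by
      intro h0
      apply hv
      apply hinj
      rw [h0, map_zero]
    obtain ⟨x, hx, hne⟩ := hU _ (e v).2 hv'
    exact ⟨e.symm ⟨x, hx⟩, by simpa using hne⟩

/-- Orthogonal projection onto a nondegenerate subspace. -/
theorem sub_proj (U : Submodule F (ι → F)) (hU : ∀ u ∈ U, u ≠ 0 → ∃ x ∈ U, f x u ≠ 0)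
    (x : ι → F) : ∃ u ∈ U, ∀ y ∈ U, f y (x - u) = 0 := by
  obtain ⟨φ, hinj, hφU, hsurj, hφ⟩ := h.sub_coords U hU
  obtain ⟨b, hb⟩ := hφ.riesz ((h.fl x).comp φ)
  refine ⟨φ b, hφU b, fun y hy => ?_⟩
  obtain ⟨y', rfl⟩ := hsurj y hy
  have := hb y'
  simp only [LinearMap.comp_apply, fl_apply] at this
  rw [h.sub_right, this, sub_self]

/-- An anisotropic vector of a nondegenerate subspace perpendicular to `j` given vectors. -/
theorem sub_exists_aniso (U : Submodule F (ι → F)) (hU : ∀ u ∈ U, u ≠ 0 → ∃ x ∈ U, f x u ≠ 0)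
    {j : ℕ} (v : Fin j → ι → F) (hj : 2 * j < Module.finrank F U) :
    ∃ z ∈ U, f z z ≠ 0 ∧ ∀ i, f z (v i) = 0 := by
  obtain ⟨φ, hinj, hφU, hsurj, hφ⟩ := h.sub_coords U hU
  choose p hpU hp using fun i => h.sub_proj U hU (v i)
  choose p' hp' using fun i => hsurj (p i) (hpU i)
  obtain ⟨z, hzz, hz⟩ := hφ.exists_aniso p' (by rw [Fintype.card_fin]; exact hj)
  refine ⟨φ z, hφU z, hzz, fun i => ?_⟩
  have h1 := hp i (φ z) (hφU z)
  have h2 := hz i
  simp only [hp'] at h2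
  rw [h.sub_right, h2, sub_zero] at h1
  exact h1

theorem uperp_nondeg (W : Submodule F (ι → F)) (hW : ∀ u ∈ W, u ≠ 0 → ∃ x ∈ W, f x u ≠ 0) :
    ∀ u ∈ h.uperp W, u ≠ 0 → ∃ x ∈ h.uperp W, f x u ≠ 0 := by
  intro u hu hu0
  obtain ⟨y, hy⟩ := h.nondeg u hu0
  obtain ⟨w, hw, hwp⟩ := h.sub_proj W hW y
  refine ⟨y - w, fun w' hw' => h.swap_zero (hwp w' hw'), ?_⟩
  rw [h.sub_left, h.swap_zero (hu w hw), sub_zero]
  exact hy

theorem sub_decomp (W : Submodule F (ι → F)) (hW : ∀ u ∈ W, u ≠ 0 → ∃ x ∈ W, f x u ≠ 0)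
    (x : ι → F) : ∃ w ∈ W, ∃ u ∈ h.uperp W, x = w + u := by
  obtain ⟨w, hw, hwp⟩ := h.sub_proj W hW x
  exact ⟨w, hw, x - w, fun w' hw' => h.swap_zero (hwp w' hw'), by abel⟩

theorem sub_disj (W : Submodule F (ι → F)) (hW : ∀ u ∈ W, u ≠ 0 → ∃ x ∈ W, f x u ≠ 0)
    {x : ι → F} (hx : x ∈ W) (hx' : x ∈ h.uperp W) : x = 0 := by
  by_contra h0
  obtain ⟨y, hy, hne⟩ := hW x hx h0
  exact hne (h.swap_zero (hx' y hy))

theorem uperp_uperp (X : Submodule F (ι → F)) : h.uperp (h.uperp X) = X := by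
  apply le_antisymm
  · intro x hx
    apply h.uperp_mem
    intro y hy
    exact h.swap_zero (hx y hy)
  · intro x hx u hu
    exact h.swap_zero (hu x hx)

theorem finrank_uperp_ge (W : Submodule F (ι → F))
    (hW : ∀ u ∈ W, u ≠ 0 → ∃ x ∈ W, f x u ≠ 0) :
    Fintype.card ι ≤ Module.finrank F W + Module.finrank F (h.uperp W) := by
  have htop : W ⊔ h.uperp W = ⊤ := by
    rw [eq_top_iff]
    intro x _
    obtain ⟨w, hw, u, hu, rfl⟩ := h.sub_decomp W hW x
    exact Submodule.add_mem_sup hw hu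
  have := Submodule.finrank_sup_add_finrank_inf_eq W (h.uperp W)
  rw [htop, finrank_top, Module.finrank_pi] at this
  omega

/-- A nondegenerate subspace of dimension at least three is spanned by its isotropic vectors. -/
theorem sub_iso_span [Finite F] (U : Submodule F (ι → F))
    (hU : ∀ u ∈ U, u ≠ 0 → ∃ x ∈ U, f x u ≠ 0) (hd : 2 < Module.finrank F U) {u : ι → F}
    (hu : u ∈ U) :
    ∃ c₁ ∈ U, ∃ c₂ ∈ U, ∃ a b : F, f c₁ c₁ = 0 ∧ f c₂ c₂ = 0 ∧ u = a • c₁ + b • c₂ := by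
  by_cases huu : f u u = 0
  · exact ⟨u, hu, 0, U.zero_mem, 1, 0, huu, h.zero_left 0, by simp⟩
  · obtain ⟨e, heU, hee, he⟩ := h.sub_exists_aniso U hU ![u] (by omega)
    have heu : f e u = 0 := by simpa using he 0
    obtain ⟨l, hl⟩ := h.exists_iso_add (h.swap_zero heu) hee
    obtain ⟨κ, hκ, hκ1⟩ := uf_exists_norm_one_ne σ h.invol h.ne_id
    have hκ' : κ - 1 ≠ 0 := sub_ne_zero.mpr hκ1
    refine ⟨u + l • e, U.add_mem hu (U.smul_mem l heU), u + (κ * l) • e,
      U.add_mem hu (U.smul_mem _ heU), κ / (κ - 1), -1 / (κ - 1), hl, ?_, ?_⟩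
    · have := hl
      simp only [h.add_left, h.add_right, h.smul_left, h.smul_right, heu, h.swap_zero heu,
        map_mul] at this ⊢
      linear_combination this + (l * σ l * f e e) * hκ
    · have e1 : κ / (κ - 1) + -1 / (κ - 1) = 1 := by field_simp; ring
      have e2 : κ / (κ - 1) * l + -1 / (κ - 1) * (κ * l) = 0 := by field_simp; ring
      calc u = (κ / (κ - 1) + -1 / (κ - 1)) • u
            + (κ / (κ - 1) * l + -1 / (κ - 1) * (κ * l)) • e := by
              rw [e1, e2, one_smul, zero_smul, add_zero]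
        _ = _ := by module

/-- In a nondegenerate subspace, a nonzero isotropic vector has non-perpendicular partners of
any norm. -/
theorem sub_partner (W : Submodule F (ι → F)) (hW : ∀ u ∈ W, u ≠ 0 → ∃ x ∈ W, f x u ≠ 0)
    {z : ι → F} (hz : z ∈ W) (hz0 : z ≠ 0) (hzz : f z z = 0) (s : F) (hs : σ s = s) :
    ∃ y ∈ W, f y y = s ∧ f z y ≠ 0 := by
  obtain ⟨x, hx, hne⟩ := hW z hz hz0
  have hzx : f z x ≠ 0 := h.swap_ne hne
  obtain ⟨β, hβ⟩ := h.exists_norm_add hzz hzx s hs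
  refine ⟨x + β • z, W.add_mem hx (W.smul_mem β hz), hβ, ?_⟩
  rw [h.add_right, h.smul_right, hzz, mul_zero, add_zero]
  exact hzx

/-- Hyperbolic partners with prescribed pairing. -/
theorem sub_hyp (W : Submodule F (ι → F)) (hW : ∀ u ∈ W, u ≠ 0 → ∃ x ∈ W, f x u ≠ 0)
    {z : ι → F} (hz : z ∈ W) (hz0 : z ≠ 0) (hzz : f z z = 0) (μ : F) :
    ∃ z' ∈ W, f z' z' = 0 ∧ f z z' = μ := by
  obtain ⟨y, hy, hyy, hzy⟩ := h.sub_partner W hW hz hz0 hzz 0 (map_zero σ)
  refine ⟨σ (μ / f z y) • y, W.smul_mem _ hy, ?_, ?_⟩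
  · rw [h.smul_left, h.smul_right, hyy, mul_zero, mul_zero]
  · rw [h.smul_right, h.invol, div_mul_cancel₀ _ hzy]

end UF

end Cfsg.Agent.Helper94
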