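import Mathlib
import Cfsg.Prelude.Def_GeometricClasses

/-!
Tensor decompositions: coordinates `x ↦ P (x ∘ e)`, pure tensors, the action of the tensor product
subgroup, the tensor form structure on pure tensors, and an abstract "frame" of pairwise orthogonal
embedded copies of one factor (used to show that the stabiliser of a tensor decomposition with a
monomial small factor lies in the stabiliser of a direct sum decomposition).
-/

set_option autoImplicit false
set_option linter.unusedSectionVars false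
set_option linter.unusedVariables false

universe u

namespace Cfsg.Agent.Helper94

open Matrix Cfsg Cfsg.Geo
open scoped Kronecker

section Tens

variable {ι : Type} [Fintype ι] [DecidableEq ι] {F : Type u} [Field F] {n₁ n₂ : ℕ}

/-- The pure tensor `x ⊗ y` as a coordinate vector. -/
def tpv (x : Fin n₁ → F) (y : Fin n₂ → F) : Fin n₁ × Fin n₂ → F := fun p => x p.1 * y p.2

theorem tpv_apply (x : Fin n₁ → F) (y : Fin n₂ → F) (p : Fin n₁ × Fin n₂) :
    tpv x y p = x p.1 * y p.2 := rfl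

theorem tpv_add_left (x x' : Fin n₁ → F) (y : Fin n₂ → F) :
    tpv (x + x') y = tpv x y + tpv x' y := by
  funext p
  simp only [tpv, Pi.add_apply, add_mul]

theorem tpv_add_right (x : Fin n₁ → F) (y y' : Fin n₂ → F) :
    tpv x (y + y') = tpv x y + tpv x y' := by
  funext p
  simp only [tpv, Pi.add_apply, mul_add]

theorem tpv_smul_left (c : F) (x : Fin n₁ → F) (y : Fin n₂ → F) :
    tpv (c • x) y = c • tpv x y := by
  funext p
  simp only [tpv, Pi.smul_apply, smul_eq_mul, mul_assoc]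

theorem tpv_smul_right (c : F) (x : Fin n₁ → F) (y : Fin n₂ → F) :
    tpv x (c • y) = c • tpv x y := by
  funext p
  simp only [tpv, Pi.smul_apply, smul_eq_mul]
  ring

theorem tpv_eq_zero_right {x : Fin n₁ → F} (hx : x ≠ 0) {y : Fin n₂ → F} (h : tpv x y = 0) :
    y = 0 := by
  obtain ⟨i, hi⟩ : ∃ i, x i ≠ 0 := by
    by_contra hcon
    push Not at hcon
    exact hx (funext hcon)
  funext j
  have h1 := congrFun h (i, j)
  simp only [tpv, Pi.zero_apply] at h1
  exact (mul_eq_zero.mp h1).resolve_left hi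

theorem tpv_eq_zero_left {y : Fin n₂ → F} (hy : y ≠ 0) {x : Fin n₁ → F} (h : tpv x y = 0) :
    x = 0 := by
  obtain ⟨j, hj⟩ : ∃ j, y j ≠ 0 := by
    by_contra hcon
    push Not at hcon
    exact hy (funext hcon)
  funext i
  have h1 := congrFun h (i, j)
  simp only [tpv, Pi.zero_apply] at h1
  exact (mul_eq_zero.mp h1).resolve_right hj

/-- A Kronecker product acts factorwise on pure tensors. -/
theorem tpv_kron (a : Matrix (Fin n₁) (Fin n₁) F) (b : Matrix (Fin n₂) (Fin n₂) F)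
    (x : Fin n₁ → F) (y : Fin n₂ → F) : (a ⊗ₖ b) *ᵥ tpv x y = tpv (a *ᵥ x) (b *ᵥ y) := by
  funext p
  obtain ⟨i, j⟩ := p
  simp only [Matrix.mulVec, dotProduct, tpv, Matrix.kroneckerMap_apply, Fintype.sum_prod_type]
  rw [Finset.sum_mul_sum]
  refine Finset.sum_congr rfl fun k _ => Finset.sum_congr rfl fun l _ => ?_
  ring

/-- The coordinate map `x ↦ P (x ∘ e)`. -/
def tPhi (e : ι ≃ Fin n₁ × Fin n₂) (P : GL ι F) : (Fin n₁ × Fin n₂ → F) →ₗ[F] (ι → F) :=
  (Matrix.toLin' (P : Matrix ι ι F)) ∘ₗ (LinearMap.funLeft F F e)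

theorem tPhi_apply (e : ι ≃ Fin n₁ × Fin n₂) (P : GL ι F) (x : Fin n₁ × Fin n₂ → F) :
    tPhi e P x = (P : Matrix ι ι F) *ᵥ (x ∘ e) := rfl

theorem tPhi_injective (e : ι ≃ Fin n₁ × Fin n₂) (P : GL ι F) :
    Function.Injective (tPhi e P) := by
  intro x y h
  rw [tPhi_apply, tPhi_apply] at h
  have h1 := congrArg (fun z => ((P⁻¹ : GL ι F) : Matrix ι ι F) *ᵥ z) h
  simp only [Matrix.mulVec_mulVec, ← Units.val_mul, inv_mul_cancel, Units.val_one,
    Matrix.one_mulVec] at h1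
  funext p
  have h2 := congrFun h1 (e.symm p)
  simpa using h2

/-- Elements of the tensor product subgroup act as Kronecker products in the coordinates. -/
theorem tens_mem_act (e : ι ≃ Fin n₁ × Fin n₂) (P : GL ι F) (g : GL ι F)
    (hg : g ∈ tensorProductSubgroup n₁ n₂ e P) :
    ∃ (a : GL (Fin n₁) F) (b : GL (Fin n₂) F), ∀ x : Fin n₁ × Fin n₂ → F,
      (g : Matrix ι ι F) *ᵥ tPhi e P x =
        tPhi e P (((a : Matrix (Fin n₁) (Fin n₁) F) ⊗ₖ (b : Matrix (Fin n₂) (Fin n₂) F)) *ᵥ x) := by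
  obtain ⟨y, hy, rfl⟩ := Subgroup.mem_map.mp hg
  obtain ⟨z, ⟨a, b, hz⟩, rfl⟩ := Subgroup.mem_map.mp hy
  refine ⟨a, b, fun x => ?_⟩
  have h1 : (((MulAut.conj P).toMonoidHom ((glReindex e.symm).toMonoidHom z) : GL ι F) :
      Matrix ι ι F) = (P : Matrix ι ι F) * (z : Matrix _ _ F).submatrix e e *
        ((P⁻¹ : GL ι F) : Matrix ι ι F) := rfl
  rw [h1, tPhi_apply, tPhi_apply, Matrix.mulVec_mulVec, mul_assoc, mul_assoc, ← Units.val_mul,
    inv_mul_cancel, Units.val_one, mul_one, ← Matrix.mulVec_mulVec, ← hz,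
    Matrix.submatrix_mulVec_equiv, Function.comp_assoc, Equiv.self_comp_symm, Function.comp_id]

/-- The form with Gram matrix a Kronecker product, on pure tensors. -/
theorem formOfGram_tpv (σ : F → F) (hσ : ∀ r s : F, σ (r * s) = σ r * σ s)
    (G₁ : Matrix (Fin n₁) (Fin n₁) F) (G₂ : Matrix (Fin n₂) (Fin n₂) F)
    (x x' : Fin n₁ → F) (y y' : Fin n₂ → F) :
    formOfGram σ (G₁ ⊗ₖ G₂) (tpv x y) (tpv x' y') =
      formOfGram σ G₁ x x' * formOfGram σ G₂ y y' := by
  simp only [formOfGram, tpv, Matrix.kroneckerMap_apply, Fintype.sum_prod_type, hσ]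
  rw [Finset.sum_mul]
  refine Finset.sum_congr rfl fun a _ => ?_
  rw [Finset.sum_mul]
  refine Finset.sum_comm.trans ?_
  refine Finset.sum_congr rfl fun b _ => ?_
  rw [Finset.mul_sum]
  refine Finset.sum_congr rfl fun c _ => ?_
  rw [Finset.mul_sum]
  refine Finset.sum_congr rfl fun d _ => ?_
  ring

/-- A sesquilinear form is the form of its Gram matrix. -/
theorem formOfGram_gram {κ : Type} [Fintype κ] [DecidableEq κ] (σ : F → F)
    (f : (κ → F) → (κ → F) → F) (h1 : ∀ x y v, f (x + y) v = f x v + f y v)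
    (h2 : ∀ (c : F) (x v : κ → F), f (c • x) v = c * f x v)
    (h3 : ∀ v x y, f v (x + y) = f v x + f v y)
    (h4 : ∀ (c : F) (v x : κ → F), f v (c • x) = σ c * f v x) (x y : κ → F) :
    formOfGram σ (gramMatrix f) x y = f x y := by
  have hz1 : ∀ v, f 0 v = 0 := by
    intro v
    have := h2 0 0 v
    rwa [zero_smul, zero_mul] at this
  have hz2 : ∀ v, f v 0 = 0 := by
    intro v
    have := h3 v 0 0
    rw [add_zero] at this
    exact left_eq_add.mp this
  have hs1 : ∀ (s : Finset κ) (w : κ → κ → F) (v : κ → F),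
      f (∑ a ∈ s, w a) v = ∑ a ∈ s, f (w a) v := by
    intro s w v
    induction s using Finset.induction_on with
    | empty => simp [hz1]
    | insert a s ha ih => rw [Finset.sum_insert ha, Finset.sum_insert ha, h1, ih]
  have hs2 : ∀ (s : Finset κ) (w : κ → κ → F) (v : κ → F),
      f v (∑ a ∈ s, w a) = ∑ a ∈ s, f v (w a) := by
    intro s w v
    induction s using Finset.induction_on with
    | empty => simp [hz2]
    | insert a s ha ih => rw [Finset.sum_insert ha, Finset.sum_insert ha, h3, ih]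
  conv_rhs => rw [pi_eq_sum_univ' x, hs1]
  unfold formOfGram gramMatrix
  refine Finset.sum_congr rfl fun a _ => ?_
  rw [h2]
  conv_rhs => rw [pi_eq_sum_univ' y, hs2, Finset.mul_sum]
  refine Finset.sum_congr rfl fun b _ => ?_
  rw [h4]
  ring

/-- The value of a form with a tensor form structure on pure tensors. -/
theorem tens_val (σ : F → F) (hσ : ∀ r s : F, σ (r * s) = σ r * σ s)
    (f : (ι → F) → (ι → F) → F) (f₁ : (Fin n₁ → F) → (Fin n₁ → F) → F)
    (f₂ : (Fin n₂ → F) → (Fin n₂ → F) → F)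
    (hf₁ : ∀ x x', formOfGram σ (gramMatrix f₁) x x' = f₁ x x')
    (hf₂ : ∀ y y', formOfGram σ (gramMatrix f₂) y y' = f₂ y y')
    (e : ι ≃ Fin n₁ × Fin n₂) (P : GL ι F) (hT : IsTensorFormStructure σ f f₁ f₂ e P) :
    ∃ c : F, c ≠ 0 ∧ ∀ (x x' : Fin n₁ → F) (y y' : Fin n₂ → F),
      f (tPhi e P (tpv x y)) (tPhi e P (tpv x' y')) = c * (f₁ x x' * f₂ y y') := by
  obtain ⟨c, hc, h⟩ := hT
  refine ⟨c, hc, fun x x' y y' => ?_⟩
  rw [tPhi_apply, tPhi_apply, h, formOfGram_tpv σ hσ, hf₁, hf₂]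

/-- `x ↦ x ⊗ y` as a linear map. -/
def tpvL (y : Fin n₂ → F) : (Fin n₁ → F) →ₗ[F] (Fin n₁ × Fin n₂ → F) where
  toFun x := tpv x y
  map_add' x x' := tpv_add_left x x' y
  map_smul' c x := tpv_smul_left c x y

/-- `y ↦ x ⊗ y` as a linear map. -/
def tpvR (x : Fin n₁ → F) : (Fin n₂ → F) →ₗ[F] (Fin n₁ × Fin n₂ → F) where
  toFun y := tpv x y
  map_add' y y' := tpv_add_right x y y'
  map_smul' c y := tpv_smul_right c x y

theorem tpvL_apply (y : Fin n₂ → F) (x : Fin n₁ → F) : tpvL y x = tpv x y := rfl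

theorem tpvR_apply (x : Fin n₁ → F) (y : Fin n₂ → F) : tpvR x y = tpv x y := rfl

/-- If a product of two forms is preserved by a pair of maps, the second map is a similarity. -/
theorem tens_simil_right {α β : Type} (f₁ : (α → F) → (α → F) → F) (f₂ : (β → F) → (β → F) → F)
    (A : (α → F) → (α → F)) (Bm : (β → F) → (β → F))
    (h : ∀ x x' y y', f₁ (A x) (A x') * f₂ (Bm y) (Bm y') = f₁ x x' * f₂ y y')
    (h1 : ∃ x x', f₁ x x' ≠ 0) (h2 : ∃ y y', f₂ y y' ≠ 0) :
    ∃ μ : F, μ ≠ 0 ∧ ∀ y y', f₂ (Bm y) (Bm y') = μ * f₂ y y' := by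
  obtain ⟨x, x', hx⟩ := h1
  obtain ⟨y₀, y₀', hy⟩ := h2
  have h3 := h x x' y₀ y₀'
  have h4 : f₁ (A x) (A x') ≠ 0 := by
    intro h0
    rw [h0, zero_mul] at h3
    exact mul_ne_zero hx hy h3.symm
  refine ⟨f₁ x x' / f₁ (A x) (A x'), div_ne_zero hx h4, fun y y' => ?_⟩
  have h5 := h x x' y y'
  field_simp
  linear_combination h5

/-- If a product of two forms is preserved by a pair of maps, the first map is a similarity. -/
theorem tens_simil_left {α β : Type} (f₁ : (α → F) → (α → F) → F) (f₂ : (β → F) → (β → F) → F)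
    (A : (α → F) → (α → F)) (Bm : (β → F) → (β → F))
    (h : ∀ x x' y y', f₁ (A x) (A x') * f₂ (Bm y) (Bm y') = f₁ x x' * f₂ y y')
    (h1 : ∃ x x', f₁ x x' ≠ 0) (h2 : ∃ y y', f₂ y y' ≠ 0) :
    ∃ μ : F, μ ≠ 0 ∧ ∀ x x', f₁ (A x) (A x') = μ * f₁ x x' :=
  tens_simil_right f₂ f₁ Bm A (fun y y' x x' => by rw [mul_comm, h, mul_comm]) h2 h1

end Tens

section TFrame

variable {ι : Type} [Fintype ι] [DecidableEq ι] {F : Type u} [Field F]
  {κ : Type} [Fintype κ] [DecidableEq κ]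

/-- A frame: embeddings `J i` of `κ → F` into `ι → F` with pairwise `f`-orthogonal images, on
each of which `f` is a non-zero multiple of a non-degenerate form `f₀`. -/
structure TFrame (f : (ι → F) → (ι → F) → F) (f₀ : (κ → F) → (κ → F) → F) {t : ℕ}
    (J : Fin t → (κ → F) →ₗ[F] (ι → F)) : Prop where
  inj : ∀ i, Function.Injective (J i)
  orth : ∀ i j, i ≠ j → ∀ y y', f (J i y) (J j y') = 0
  diag : ∀ i, ∃ c : F, c ≠ 0 ∧ ∀ y y', f (J i y) (J i y') = c * f₀ y y'
  nd : IsNondegenerateForm f₀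

/-- The members of the decomposition attached to a frame. -/
def tBlock {t : ℕ} (J : Fin t → (κ → F) →ₗ[F] (ι → F)) (i : Fin t) : Submodule F (ι → F) :=
  LinearMap.range (J i)

theorem mem_tBlock {t : ℕ} (J : Fin t → (κ → F) →ₗ[F] (ι → F)) (i : Fin t) (v : ι → F) :
    v ∈ tBlock J i ↔ ∃ y, J i y = v := LinearMap.mem_range

namespace TFrame

variable {f : (ι → F) → (ι → F) → F} {f₀ : (κ → F) → (κ → F) → F} {t : ℕ}
  {J : Fin t → (κ → F) →ₗ[F] (ι → F)} (h : TFrame f f₀ J)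

include h

theorem orthogonal (i j : Fin t) (hij : i ≠ j) : AreOrthogonalFor f (tBlock J i) (tBlock J j) := by
  rintro u ⟨y, rfl⟩ v ⟨y', rfl⟩
  exact h.orth i j hij y y'

theorem nondeg (i : Fin t) : IsNondegenerateOn f (tBlock J i) := by
  rintro w ⟨y, rfl⟩ hw0
  have hy0 : y ≠ 0 := by
    rintro rfl
    exact hw0 (map_zero _)
  obtain ⟨c, hc, hd⟩ := h.diag i
  obtain ⟨⟨x, hx⟩, ⟨x', hx'⟩⟩ := h.nd y hy0
  refine ⟨⟨J i x, ⟨x, rfl⟩, ?_⟩, ⟨J i x', ⟨x', rfl⟩, ?_⟩⟩
  · rw [hd]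
    exact mul_ne_zero hc hx
  · rw [hd]
    exact mul_ne_zero hc hx'

theorem disj (i j : Fin t) (hij : i ≠ j) (v : ι → F) (hvi : v ∈ tBlock J i)
    (hvj : v ∈ tBlock J j) : v = 0 := by
  by_contra h0
  obtain ⟨⟨x, hx, hxv⟩, -⟩ := h.nondeg i v hvi h0
  exact hxv (h.orthogonal i j hij x hx v hvj)

theorem finrank_block (i : Fin t) : Module.finrank F (tBlock J i) = Fintype.card κ := by
  unfold tBlock
  rw [LinearMap.finrank_range_of_inj (h.inj i), Module.finrank_fintype_fun_eq_card]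

/-- An invertible matrix mapping each member into a member (along a permutation) lies in the
stabiliser of the decomposition. -/
theorem stab_of_maps (g : GL ι F) (σ : Equiv.Perm (Fin t))
    (hg : ∀ i, ∀ v ∈ tBlock J i, (g : Matrix ι ι F) *ᵥ v ∈ tBlock J (σ i)) :
    g ∈ decompositionStabilizer (tBlock J) := by
  refine ⟨σ, fun i => ?_⟩
  apply Submodule.eq_of_le_of_finrank_eq
  · rintro _ ⟨x, hx, rfl⟩
    rw [Matrix.toLin'_apply]
    exact hg i x hx
  · have hinj : Function.Injective (Matrix.toLin' (g : Matrix ι ι F)) := by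
      intro x y hxy
      rw [Matrix.toLin'_apply, Matrix.toLin'_apply] at hxy
      have h1 := congrArg (fun z => ((g⁻¹ : GL ι F) : Matrix ι ι F) *ᵥ z) hxy
      simpa only [Matrix.mulVec_mulVec, ← Units.val_mul, inv_mul_cancel, Units.val_one,
        Matrix.one_mulVec] using h1
    rw [← (Submodule.equivMapOfInjective _ hinj (tBlock J i)).finrank_eq, h.finrank_block,
      h.finrank_block]

/-- A "monomial" matrix lies in the stabiliser of the decomposition. -/
theorem stab_of_mono (g : GL ι F) (σ : Equiv.Perm (Fin t)) (l : Fin t → F)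
    (β : (κ → F) → (κ → F))
    (hg : ∀ i y, (g : Matrix ι ι F) *ᵥ J i y = J (σ i) (l i • β y)) :
    g ∈ decompositionStabilizer (tBlock J) := by
  apply h.stab_of_maps g σ
  rintro i _ ⟨y, rfl⟩
  rw [hg]
  exact ⟨_, rfl⟩

theorem gl_mulVec_ne_zero (g : GL ι F) {v : ι → F} (hv : v ≠ 0) :
    (g : Matrix ι ι F) *ᵥ v ≠ 0 := by
  intro h0
  apply hv
  have h1 := congrArg (fun z => ((g⁻¹ : GL ι F) : Matrix ι ι F) *ᵥ z) h0
  simpa only [Matrix.mulVec_mulVec, ← Units.val_mul, inv_mul_cancel, Units.val_one,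
    Matrix.one_mulVec, Matrix.mulVec_zero] using h1

/-- Rigidity: a monomial matrix fixing one member pointwise and stabilising another acts on the
latter as a scalar. -/
theorem scalar_of_mono [Nonempty κ] (g : GL ι F) (σ : Equiv.Perm (Fin t)) (l : Fin t → F)
    (β : (κ → F) → (κ → F))
    (hg : ∀ i y, (g : Matrix ι ι F) *ᵥ J i y = J (σ i) (l i • β y)) (i₁ i₂ : Fin t)
    (hfix : ∀ v ∈ tBlock J i₂, (g : Matrix ι ι F) *ᵥ v = v)
    (hstab : ∀ v ∈ tBlock J i₁, (g : Matrix ι ι F) *ᵥ v ∈ tBlock J i₁) :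
    ∃ μ : F, ∀ v ∈ tBlock J i₁, (g : Matrix ι ι F) *ᵥ v = μ • v := by
  classical
  obtain ⟨k⟩ := ‹Nonempty κ›
  obtain ⟨y₀, hy₀⟩ : ∃ y₀ : κ → F, y₀ ≠ 0 := ⟨Pi.single k 1, by
    intro h0
    have := congrFun h0 k
    simp at this⟩
  have hJne : ∀ i, J i y₀ ≠ 0 := by
    intro i h0
    exact hy₀ (h.inj i (h0.trans (map_zero _).symm))
  have hσ2 : σ i₂ = i₂ := by
    by_contra hne
    apply hJne i₂
    have h1 : J i₂ y₀ ∈ tBlock J (σ i₂) := by
      rw [← hfix (J i₂ y₀) ⟨y₀, rfl⟩, hg]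
      exact ⟨_, rfl⟩
    exact h.disj (σ i₂) i₂ hne _ h1 ⟨y₀, rfl⟩
  have hβ : ∀ y, l i₂ • β y = y := by
    intro y
    apply h.inj i₂
    have h1 := hg i₂ y
    rw [hσ2, hfix (J i₂ y) ⟨y, rfl⟩] at h1
    exact h1.symm
  have hl2 : l i₂ ≠ 0 := by
    intro h0
    have h1 := hβ y₀
    rw [h0, zero_smul] at h1
    exact hy₀ h1.symm
  have hσ1 : σ i₁ = i₁ := by
    by_contra hne
    apply gl_mulVec_ne_zero h g (hJne i₁)
    have h1 : (g : Matrix ι ι F) *ᵥ J i₁ y₀ ∈ tBlock J (σ i₁) := by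
      rw [hg]
      exact ⟨_, rfl⟩
    exact h.disj (σ i₁) i₁ hne _ h1 (hstab _ ⟨y₀, rfl⟩)
  refine ⟨l i₁ * (l i₂)⁻¹, ?_⟩
  rintro _ ⟨y, rfl⟩
  rw [hg, hσ1, ← map_smul]
  congr 1
  have h1 : β y = (l i₂)⁻¹ • y := by
    calc β y = (l i₂)⁻¹ • (l i₂ • β y) := by rw [smul_smul, inv_mul_cancel₀ hl2, one_smul]
      _ = (l i₂)⁻¹ • y := by rw [hβ y]
  rw [h1, smul_smul]

/-- A matrix moving a vector of one member to a sum of non-zero vectors of two different members
does not stabilise the decomposition. -/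
theorem not_stab (hadd : ∀ v x y, f v (x + y) = f v x + f v y) (g : GL ι F) (i₀ i₁ : Fin t)
    (hi : i₀ ≠ i₁) (y p q : ι → F) (hy : y ∈ tBlock J i₀) (hp : p ∈ tBlock J i₀)
    (hq : q ∈ tBlock J i₁) (hp0 : p ≠ 0) (hq0 : q ≠ 0)
    (hgy : (g : Matrix ι ι F) *ᵥ y = p + q) : g ∉ decompositionStabilizer (tBlock J) := by
  rintro ⟨σ, hσ⟩
  have h1 : p + q ∈ tBlock J (σ i₀) := by
    rw [← hσ i₀, ← hgy]
    exact ⟨y, hy, Matrix.toLin'_apply _ _⟩
  by_cases h0 : σ i₀ = i₀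
  · rw [h0] at h1
    have h2 := (tBlock J i₀).sub_mem h1 hp
    rw [add_sub_cancel_left] at h2
    exact hq0 (h.disj i₀ i₁ hi q h2 hq)
  by_cases h1' : σ i₀ = i₁
  · rw [h1'] at h1
    have h2 := (tBlock J i₁).sub_mem h1 hq
    rw [add_sub_cancel_right] at h2
    exact hp0 (h.disj i₀ i₁ hi p hp h2)
  have h3 : p + q = 0 := by
    by_contra hne
    obtain ⟨⟨x, hx, hxv⟩, -⟩ := h.nondeg (σ i₀) (p + q) h1 hne
    apply hxv
    rw [hadd, h.orthogonal (σ i₀) i₀ h0 x hx p hp, h.orthogonal (σ i₀) i₁ h1' x hx q hq, add_zero]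
  have h4 : p ∈ tBlock J i₁ := by
    have h5 : p = -q := eq_neg_of_add_eq_zero_left h3
    rw [h5]
    exact (tBlock J i₁).neg_mem hq
  exact hp0 (h.disj i₀ i₁ hi p hp h4)

end TFrame

end TFrame

end Cfsg.Agent.Helper94
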