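import Mathlib
import Cfsg.Prelude.Def_GeometricClasses
import Cfsg.Agent.Helper71.SODefs
import Cfsg.Agent.Helper94.Tens
import Cfsg.Agent.Helper94.SpGen

/-!
helper94: piece RED of CALL S5843 (helper71): transport of the "Kronecker or all pure
transvections" dichotomy on `GL (Fin 2 × Fin n) F` to the maximality of the tensor product
subgroup `Sp_2 ⊗ O_n` in `Sp_{2n}`.
-/

set_option autoImplicit false
set_option linter.unusedVariables false

namespace Cfsg.Agent.Helper94.SORED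

open Matrix Cfsg.Agent.Helper71.T4 Cfsg.Agent.Helper71.SO
open scoped Kronecker

/-- `formOfGram id G` is the bilinear form `x ⬝ᵥ G *ᵥ y`. -/
theorem sored_fog {F : Type*} [Field F] {κ : Type} [Fintype κ] (G : Matrix κ κ F) (x y : κ → F) :
    Cfsg.Geo.formOfGram id G x y = x ⬝ᵥ G *ᵥ y := by
  simp only [Cfsg.Geo.formOfGram, dotProduct, Matrix.mulVec, id, Finset.mul_sum, mul_assoc]

theorem sored_j2 {F : Type*} [Field F] (A : Matrix (Fin 2) (Fin 2) F) :
    Aᵀ * J2 F * A = A.det • J2 F := by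
  ext i j
  fin_cases i <;> fin_cases j <;>
    simp [J2, Matrix.mul_apply, Fin.sum_univ_two, Matrix.det_fin_two] <;> ring

theorem sored_kron {F : Type*} [Field F] {n : ℕ} (S : Matrix (Fin n) (Fin n) F)
    (A : Matrix (Fin 2) (Fin 2) F) (B : Matrix (Fin n) (Fin n) F) (μ : F)
    (hB : Bᵀ * S * B = μ • S) (hA : A.det * μ = 1) : IsSpM S (A ⊗ₖ B) := by
  unfold IsSpM Om
  rw [← Matrix.kroneckerMap_transpose, ← Matrix.mul_kronecker_mul, ← Matrix.mul_kronecker_mul,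
    sored_j2, hB, Matrix.smul_kronecker, Matrix.kronecker_smul, smul_smul, hA, one_smul]

theorem sored_vmv {F : Type*} [Field F] {κ : Type} [Fintype κ] (u v x : κ → F) :
    Matrix.vecMulVec u v *ᵥ x = (v ⬝ᵥ x) • u := by
  funext i
  simp only [Matrix.mulVec, dotProduct, Matrix.vecMulVec_apply, Pi.smul_apply, smul_eq_mul,
    Finset.sum_mul]
  refine Finset.sum_congr rfl fun j _ => ?_
  ring

theorem sored_ext {F : Type*} [Field F] {κ : Type} [Fintype κ] [DecidableEq κ]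
    (M N : Matrix κ κ F) (h : ∀ x y : κ → F, x ⬝ᵥ M *ᵥ y = x ⬝ᵥ N *ᵥ y) : M = N := by
  ext p q
  have := h (Pi.single p 1) (Pi.single q 1)
  simpa using this

theorem sored_spm {F : Type*} [Field F] {n : ℕ} (S : Matrix (Fin n) (Fin n) F)
    (g : Matrix (Fin 2 × Fin n) (Fin 2 × Fin n) F) :
    IsSpM S g ↔ ∀ x y : Fin 2 × Fin n → F,
      (g *ᵥ x) ⬝ᵥ Om S *ᵥ (g *ᵥ y) = x ⬝ᵥ Om S *ᵥ y := by
  have key : ∀ x y : Fin 2 × Fin n → F,
      (g *ᵥ x) ⬝ᵥ Om S *ᵥ (g *ᵥ y) = x ⬝ᵥ (gᵀ * Om S * g) *ᵥ y := by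
    intro x y
    rw [← Matrix.mulVec_mulVec, ← Matrix.mulVec_mulVec, Matrix.dotProduct_mulVec x gᵀ,
      Matrix.vecMul_transpose]
  constructor
  · intro h x y
    rw [key, h]
  · intro h
    apply sored_ext
    intro x y
    rw [← key, h]

/-- PIECE RED -/
theorem red {F : Type*} [Field F] [Fintype F] (m n : ℕ) (hn : 3 ≤ n)
    (hodd : Odd (Fintype.card F))
    (e : (Fin m ⊕ Fin m) ≃ Fin 2 × Fin n) (P : Matrix.GeneralLinearGroup (Fin m ⊕ Fin m) F)
    (f₁ : (Fin 2 → F) → (Fin 2 → F) → F) (f₂ : (Fin n → F) → (Fin n → F) → F)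
    (h₁ : Cfsg.Geo.IsSymplecticForm f₁) (h₂ : Cfsg.Geo.IsSymmetricForm f₂)
    (hT : Cfsg.Geo.IsTensorFormStructure id (Cfsg.sympForm m F) f₁ f₂ e P)
    (hmain : ∀ S : Matrix (Fin n) (Fin n) F, Sᵀ = S → S.det ≠ 0 →
      ∀ M : Subgroup (GL (Fin 2 × Fin n) F), SpLE S M → HasH S M →
        (∀ g ∈ M, IsKron (g : Matrix (Fin 2 × Fin n) (Fin 2 × Fin n) F)) ∨ TvP S M)
    (hcen : ∀ S : Matrix (Fin n) (Fin n) F, Sᵀ = S → S.det ≠ 0 →
      ∀ C : Set (Fin 2 × Fin n → F),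
        (∀ (a : Fin 2 → F) (s : Fin n → F), bl S s s = 0 → pt a s ∈ C) →
        (∀ v v' : Fin 2 × Fin n → F, v ∈ C → v' ∈ C → v ⬝ᵥ Om S *ᵥ v' ≠ 0 → v + v' ∈ C) →
        ∀ v : Fin 2 × Fin n → F, v ∈ C) :
    Cfsg.Geo.IsMaximalIn (Cfsg.spGL m F)
      (Cfsg.Geo.tensorProductSubgroup 2 n e P ⊓ Cfsg.spGL m F) := by
  classical
  obtain ⟨ψ, hψ⟩ : ∃ ψ : GL (Fin 2 × Fin n) F ≃* GL (Fin m ⊕ Fin m) F,
      ψ = (Cfsg.Geo.glReindex e.symm).trans (MulAut.conj P) := ⟨_, rfl⟩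
  have hTP : Cfsg.Geo.tensorProductSubgroup 2 n e P
      = (Cfsg.Geo.kroneckerSubgroup 2 n F).map ψ.toMonoidHom := by
    unfold Cfsg.Geo.tensorProductSubgroup
    rw [Subgroup.map_map, hψ]
    rfl
  have hmemT : ∀ g : GL (Fin 2 × Fin n) F,
      ψ g ∈ Cfsg.Geo.tensorProductSubgroup 2 n e P ↔ g ∈ Cfsg.Geo.kroneckerSubgroup 2 n F := by
    intro g
    rw [hTP]
    constructor
    · rintro ⟨g', hg', h⟩
      have h' : g' = g := ψ.injective h
      rwa [← h']
    · intro h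
      exact ⟨g, h, rfl⟩
  have hact : ∀ (g : GL (Fin 2 × Fin n) F) (x : Fin 2 × Fin n → F),
      ((ψ g : GL (Fin m ⊕ Fin m) F) : Matrix (Fin m ⊕ Fin m) (Fin m ⊕ Fin m) F)
          *ᵥ Helper94.tPhi e P x
        = Helper94.tPhi e P ((g : Matrix (Fin 2 × Fin n) (Fin 2 × Fin n) F) *ᵥ x) := by
    intro g x
    have h1 : ((ψ g : GL (Fin m ⊕ Fin m) F) : Matrix (Fin m ⊕ Fin m) (Fin m ⊕ Fin m) F)
        = (P : Matrix (Fin m ⊕ Fin m) (Fin m ⊕ Fin m) F)
          * (g : Matrix (Fin 2 × Fin n) (Fin 2 × Fin n) F).submatrix e e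
          * ((P⁻¹ : GL (Fin m ⊕ Fin m) F) : Matrix (Fin m ⊕ Fin m) (Fin m ⊕ Fin m) F) := by
      rw [hψ]
      rfl
    rw [h1, Helper94.tPhi_apply, Helper94.tPhi_apply, Matrix.mulVec_mulVec, mul_assoc, mul_assoc,
      ← Units.val_mul, inv_mul_cancel, Units.val_one, mul_one, ← Matrix.mulVec_mulVec,
      Matrix.submatrix_mulVec_equiv, Function.comp_assoc, Equiv.self_comp_symm, Function.comp_id]
  have hsurj : ∀ w : Fin m ⊕ Fin m → F, ∃ x, Helper94.tPhi e P x = w := by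
    intro w
    refine ⟨(((P⁻¹ : GL (Fin m ⊕ Fin m) F) : Matrix (Fin m ⊕ Fin m) (Fin m ⊕ Fin m) F) *ᵥ w)
      ∘ e.symm, ?_⟩
    rw [Helper94.tPhi_apply, Function.comp_assoc, Equiv.symm_comp_self, Function.comp_id,
      Matrix.mulVec_mulVec, ← Units.val_mul, mul_inv_cancel, Units.val_one, Matrix.one_mulVec]
  have hf₁ := Helper94.formOfGram_gram id f₁ h₁.bilinear.add_left h₁.bilinear.smul_left
    h₁.bilinear.add_right h₁.bilinear.smul_right
  have hf₂ := Helper94.formOfGram_gram id f₂ h₂.bilinear.add_left h₂.bilinear.smul_left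
    h₂.bilinear.add_right h₂.bilinear.smul_right
  obtain ⟨c₂, hc₂, hval⟩ := Helper94.tens_val id (fun r s => rfl) (Cfsg.sympForm m F) f₁ f₂
    hf₁ hf₂ e P hT
  obtain ⟨c, hc, hform⟩ := hT
  obtain ⟨d, hd⟩ : ∃ d : F, d = f₁ (Pi.single 0 1) (Pi.single 1 1) := ⟨_, rfl⟩
  have hG₁ : Cfsg.Geo.gramMatrix f₁ = d • J2 F := by
    ext i j
    fin_cases i <;> fin_cases j
    · simp [Cfsg.Geo.gramMatrix, J2, h₁.alternating]
    · simp [Cfsg.Geo.gramMatrix, J2, hd]
    · simp only [Cfsg.Geo.gramMatrix, J2, hd]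
      rw [h₁.skew]
      simp
    · simp [Cfsg.Geo.gramMatrix, J2, h₁.alternating]
  have hd0 : d ≠ 0 := by
    intro h0
    obtain ⟨⟨x, hx⟩, -⟩ := h₁.nondegenerate (Pi.single 1 1) (by
      intro h
      have := congrFun h 1
      simp at this)
    apply hx
    rw [← hf₁, hG₁, h0, zero_smul]
    simp [Cfsg.Geo.formOfGram]
  obtain ⟨S, hSdef⟩ : ∃ S : Matrix (Fin n) (Fin n) F, S = Cfsg.Geo.gramMatrix f₂ := ⟨_, rfl⟩
  have hS : Sᵀ = S := by
    ext i j
    rw [hSdef]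
    exact h₂.symm _ _
  have hbl : ∀ x y, bl S x y = f₂ x y := by
    intro x y
    rw [← hf₂, sored_fog, hSdef]
    rfl
  have hSdet : S.det ≠ 0 := by
    intro h0
    obtain ⟨v, hv, hSv⟩ := Matrix.exists_mulVec_eq_zero_iff.mpr h0
    obtain ⟨⟨x, hx⟩, -⟩ := h₂.nondegenerate v hv
    apply hx
    rw [← hbl]
    unfold bl
    rw [hSv, dotProduct_zero]
  have hκ : ∀ x y : Fin 2 × Fin n → F,
      Cfsg.sympForm m F (Helper94.tPhi e P x) (Helper94.tPhi e P y)
        = (c * d) * (x ⬝ᵥ Om S *ᵥ y) := by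
    intro x y
    rw [Helper94.tPhi_apply, Helper94.tPhi_apply, hform, hG₁, sored_fog, Matrix.smul_kronecker,
      Matrix.smul_mulVec, dotProduct_smul, smul_eq_mul, mul_assoc, hSdef]
    rfl
  have hκ0 : c * d ≠ 0 := mul_ne_zero hc hd0
  have hmemS : ∀ g : GL (Fin 2 × Fin n) F, ψ g ∈ Cfsg.spGL m F
      ↔ IsSpM S (g : Matrix (Fin 2 × Fin n) (Fin 2 × Fin n) F) := by
    intro g
    rw [Helper94.mem_spGL_iff, sored_spm]
    constructor
    · intro h x y
      have := h (Helper94.tPhi e P x) (Helper94.tPhi e P y)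
      rw [hact, hact, hκ, hκ] at this
      exact mul_left_cancel₀ hκ0 this
    · intro h u v
      obtain ⟨x, rfl⟩ := hsurj u
      obtain ⟨y, rfl⟩ := hsurj v
      rw [hact, hact, hκ, hκ, h]
  have hc1 : Fintype.card (Fin 2) ≠ 0 := by
    rw [Fintype.card_fin]; omega
  have hc2 : Fintype.card (Fin n) ≠ 0 := by
    rw [Fintype.card_fin]; omega
  constructor
  · -- the tensor product group is proper in `Sp`
    rw [SetLike.lt_iff_le_and_exists]
    refine ⟨inf_le_right, ?_⟩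
    obtain ⟨k0, hk0⟩ : ∃ k0 : Fin n, k0 = ⟨0, by omega⟩ := ⟨_, rfl⟩
    obtain ⟨k1, hk1⟩ : ∃ k1 : Fin n, k1 = ⟨1, by omega⟩ := ⟨_, rfl⟩
    have hk01 : k0 ≠ k1 := by
      rw [hk0, hk1]
      intro h
      have := congrArg Fin.val h
      simp at this
    obtain ⟨a₀, ha₀⟩ : ∃ a₀ : Fin 2 → F, a₀ = Pi.single 0 1 := ⟨_, rfl⟩
    obtain ⟨a₁, ha₁⟩ : ∃ a₁ : Fin 2 → F, a₁ = Pi.single 1 1 := ⟨_, rfl⟩
    obtain ⟨u₀, hu₀⟩ : ∃ u₀ : Fin n → F, u₀ = Pi.single k0 1 := ⟨_, rfl⟩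
    obtain ⟨u₁, hu₁⟩ : ∃ u₁ : Fin n → F, u₁ = Pi.single k1 1 := ⟨_, rfl⟩
    refine ⟨Helper94.stGL (Helper94.tPhi e P (Helper94.tpv a₀ u₀)) 1, Helper94.stGL_mem _ _,
      fun hmem => ?_⟩
    obtain ⟨A, B, hAB⟩ := Helper94.tens_mem_act e P _ hmem.1
    have hstar : ∀ (a' : Fin 2 → F) (y : Fin n → F) (i : Fin 2) (k : Fin n),
        ((A : Matrix (Fin 2) (Fin 2) F) *ᵥ a') i * ((B : Matrix (Fin n) (Fin n) F) *ᵥ y) k
          = a' i * y k + (c₂ * (f₁ a' a₀ * f₂ y u₀)) * (a₀ i * u₀ k) := by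
      intro a' y i k
      have h1 := hAB (Helper94.tpv a' y)
      rw [Helper94.stGL_mulVec, one_mul, hval, ← map_smul, ← map_add, Helper94.tpv_kron] at h1
      have h3 := congrFun (Helper94.tPhi_injective e P h1) (i, k)
      simp only [Helper94.tpv, Pi.add_apply, Pi.smul_apply, smul_eq_mul] at h3
      exact h3.symm
    -- `B` is scalar
    have hB : ∀ (y : Fin n → F) (k : Fin n),
        ((A : Matrix (Fin 2) (Fin 2) F) *ᵥ a₁) 1 * ((B : Matrix (Fin n) (Fin n) F) *ᵥ y) k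
          = y k := by
      intro y k
      have := hstar a₁ y 1 k
      rw [ha₁, ha₀] at this
      rw [ha₁]
      simpa using this
    have hA0 : ((A : Matrix (Fin 2) (Fin 2) F) *ᵥ a₁) 0 = 0 := by
      have h1 := hstar a₁ u₁ 0 k1
      have h2 := hB u₁ k1
      have h3 : ((B : Matrix (Fin n) (Fin n) F) *ᵥ u₁) k1 ≠ 0 := by
        intro h0
        rw [h0, mul_zero, hu₁] at h2
        simp at h2
      have h4 : ((A : Matrix (Fin 2) (Fin 2) F) *ᵥ a₁) 0
          * ((B : Matrix (Fin n) (Fin n) F) *ᵥ u₁) k1 = 0 := by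
        rw [h1, ha₁, hu₀]
        simp [hk01]
      exact (mul_eq_zero.mp h4).resolve_right h3
    have hu₀ne : u₀ ≠ 0 := by
      intro h
      have := congrFun h k0
      rw [hu₀] at this
      simp at this
    obtain ⟨⟨y, hy⟩, -⟩ := h₂.nondegenerate u₀ hu₀ne
    have h5 := hstar a₁ y 0 k0
    rw [hA0, zero_mul] at h5
    have h6 : f₁ a₁ a₀ = -d := by
      rw [hd, ha₁, ha₀, h₁.skew]
    rw [h6, ha₁, ha₀, hu₀] at h5
    simp at h5
    rcases h5 with h5 | h5
    · exact hc₂ h5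
    · rcases h5 with h5 | h5
      · exact hd0 h5
      · rw [hu₀] at hy
        exact hy h5
  · intro K hHK hKS
    have hSp : SpLE S (K.comap ψ.toMonoidHom) := by
      intro g hg
      exact (hmemS g).mp (hKS hg)
    have hH : HasH S (K.comap ψ.toMonoidHom) := by
      intro A B μ hB hA
      have hμ : μ ≠ 0 := by
        rintro rfl
        rw [mul_zero] at hA
        exact zero_ne_one hA
      have hAdet : A.det ≠ 0 := by
        intro h
        rw [h, zero_mul] at hA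
        exact zero_ne_one hA
      have hBdet : B.det ≠ 0 := by
        intro h
        have h1 := congrArg Matrix.det hB
        rw [Matrix.det_mul, Matrix.det_mul, Matrix.det_transpose, h, zero_mul, zero_mul,
          Matrix.det_smul] at h1
        exact (mul_ne_zero (pow_ne_zero _ hμ) hSdet) h1.symm
      have hdetAB : (A ⊗ₖ B).det ≠ 0 := by
        rw [Matrix.det_kronecker]
        exact mul_ne_zero (pow_ne_zero _ hAdet) (pow_ne_zero _ hBdet)
      refine ⟨Matrix.GeneralLinearGroup.mkOfDetNeZero (A ⊗ₖ B) hdetAB, ?_, rfl⟩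
      show ψ (Matrix.GeneralLinearGroup.mkOfDetNeZero (A ⊗ₖ B) hdetAB) ∈ K
      apply hHK
      refine ⟨(hmemT _).mpr ⟨Matrix.GeneralLinearGroup.mkOfDetNeZero A hAdet,
        Matrix.GeneralLinearGroup.mkOfDetNeZero B hBdet, rfl⟩, (hmemS _).mpr ?_⟩
      exact sored_kron S A B μ hB hA
    rcases hmain S hS hSdet _ hSp hH with hk | htv
    · left
      apply le_antisymm _ hHK
      intro k hk'
      obtain ⟨g, rfl⟩ := ψ.surjective k
      obtain ⟨A, B, hAB⟩ := hk g hk'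
      have hdetg : (g : Matrix (Fin 2 × Fin n) (Fin 2 × Fin n) F).det ≠ 0 :=
        ((Matrix.isUnit_iff_isUnit_det _).1 g.isUnit).ne_zero
      rw [hAB, Matrix.det_kronecker] at hdetg
      have hA : A.det ≠ 0 := by
        intro h
        apply hdetg
        rw [h, zero_pow hc2, zero_mul]
      have hB : B.det ≠ 0 := by
        intro h
        apply hdetg
        rw [h, zero_pow hc1, mul_zero]
      exact ⟨(hmemT g).mpr ⟨Matrix.GeneralLinearGroup.mkOfDetNeZero A hA,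
        Matrix.GeneralLinearGroup.mkOfDetNeZero B hB, hAB⟩, hKS hk'⟩
    · right
      apply le_antisymm hKS
      apply Helper94.spGL_le_of_tvCentres
      have hC := hcen S hS hSdet {v | Helper94.tPhi e P v ∈ Helper94.tvCentres K} ?_ ?_
      · intro w
        obtain ⟨x, rfl⟩ := hsurj w
        exact hC x
      · intro a s hs c₀
        obtain ⟨g, hgM, hg⟩ := htv a s (c₀ * (c * d)) hs
        have hgK : ψ g ∈ K := hgM
        have heq : ψ g = Helper94.stGL (Helper94.tPhi e P (pt a s)) c₀ := by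
          apply Helper94.gl_ext
          intro w
          obtain ⟨x, rfl⟩ := hsurj w
          rw [hact, hg, Helper94.stGL_mulVec, hκ, Matrix.add_mulVec, Matrix.one_mulVec,
            Matrix.smul_mulVec, sored_vmv, map_add, map_smul, map_smul, smul_smul,
            dotProduct_comm (Om S *ᵥ pt a s) x, mul_assoc]
        rw [← heq]
        exact hgK
      · intro v v' hv hv' hne
        have := Helper94.tvCentres_line K hv hv' (by rw [hκ]; exact mul_ne_zero hκ0 hne) 1 1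
        rw [one_smul, one_smul, ← map_add] at this
        exact this

end Cfsg.Agent.Helper94.SORED
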