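import Mathlib
import Cfsg.Agent.Helper13.TIDefs
import Cfsg.Agent.Helper36.AltEven

set_option autoImplicit false

/-!
# S5955 piece ODD (helper94): an invariant subspace of odd "cyclotomic degree" contains a
nonzero invariant totally isotropic subspace.
-/

namespace Cfsg.Agent.Helper94.TI5955

open Module Polynomial
open Cfsg.Agent.Helper42.SpForm Cfsg.Agent.Helper42.SpGroup Cfsg.Agent.Helper42.SpModels
open Cfsg.Agent.Helper13.TIsp Cfsg.Agent.Helper90.BG

section geom2

variable {F : Type*} [Field F] {V : Type*} [AddCommGroup V] [Module F V] [FiniteDimensional F V]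
  (B : LinearMap.BilinForm F V)

/-- ODD (uses LAG (evenness), helper90 chain_exists/cyc_dvd, helper46) -/
theorem ti_odd [Fintype F] (halt : ∀ v, B v v = 0) (T : Module.End F V) (hT : Preserves B T)
    (r : ℕ) [Fact r.Prime] (hrF : (r : F) ≠ 0) (hTr : T ^ r = 1)
    (hodd : Odd (orderOf ((Fintype.card F : ℕ) : ZMod r))) (U : Submodule F V)
    (hU : U.map T ≤ U) (hU0 : U ≠ ⊥) (hUk : U ⊓ LinearMap.ker (T - 1) = ⊥) :
    ∃ W' : Submodule F V, W' ≤ U ∧ TI B W' ∧ W'.map T ≤ W' ∧ W' ≠ ⊥ := by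
  classical
  set i := orderOf ((Fintype.card F : ℕ) : ZMod r) with hi
  have hd : ∀ g : F[X], Irreducible g → g ∣ ∑ j ∈ Finset.range r, (X : F[X]) ^ j →
      g.natDegree = i := fun g hg hdvd =>
    Cfsg.Agent.Helper46.bgl_irr_factor_degree r hrF g hg hdvd
  -- i divides finrank U
  have hdvd := cyc_dvd T r i hrF hTr hd U hU
  rw [hUk, finrank_bot, Nat.sub_zero] at hdvd
  have hUpos : 0 < finrank F U := by
    rw [Nat.pos_iff_ne_zero]
    intro h0
    exact hU0 (Submodule.finrank_eq_zero.mp h0)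
  have hile : i ≤ finrank F U := Nat.le_of_dvd hUpos hdvd
  -- Φ(T) kills U
  have hPhi : (∑ j ∈ Finset.range r, (X : F[X]) ^ j) ≠ 0 := by
    intro h0
    have h1 := congrArg (Polynomial.eval (1 : F)) h0
    simp [Polynomial.eval_finsetSum] at h1
    exact hrF h1
  have hkill : ∀ v ∈ U, aeval T (∑ j ∈ Finset.range r, (X : F[X]) ^ j) v ∈ (⊥ : Submodule F V) := by
    intro v hv
    have h1 : aeval T (∑ j ∈ Finset.range r, (X : F[X]) ^ j) v ∈ U := aeval_mem T U hU _ hv
    have h2 : aeval T (∑ j ∈ Finset.range r, (X : F[X]) ^ j) v ∈ LinearMap.ker (T - 1) := by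
      rw [LinearMap.mem_ker, ← Module.End.mul_apply]
      have h3 : (T - 1) * aeval T (∑ j ∈ Finset.range r, (X : F[X]) ^ j) = 0 := by
        have h4 : (T - 1) * aeval T (∑ j ∈ Finset.range r, (X : F[X]) ^ j)
            = aeval T ((X - 1) * ∑ j ∈ Finset.range r, (X : F[X]) ^ j) := by
          simp [map_mul, map_sub]
        rw [h4, mul_comm, geom_sum_mul]
        simp [hTr]
      rw [h3, LinearMap.zero_apply]
    have h5 : aeval T (∑ j ∈ Finset.range r, (X : F[X]) ^ j) v ∈ U ⊓ LinearMap.ker (T - 1) :=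
      ⟨h1, h2⟩
    rwa [hUk] at h5
  obtain ⟨U₁, -, hU₁U, hU₁T, hU₁fr⟩ := chain_exists T ⊥ U bot_le (by simp) hU
    (∑ j ∈ Finset.range r, (X : F[X]) ^ j) hPhi hkill i hd 1 (by simpa using hile)
  rw [finrank_bot, zero_add, mul_one] at hU₁fr
  -- T is injective, hence maps U₁ onto U₁
  have hr0 : r ≠ 0 := (Fact.out : r.Prime).ne_zero
  have hTinj : Function.Injective T := by
    intro x y hxy
    have h1 : (T ^ r) x = (T ^ r) y := by
      obtain ⟨k, rfl⟩ := Nat.exists_eq_succ_of_ne_zero hr0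
      rw [pow_succ, Module.End.mul_apply, Module.End.mul_apply, hxy]
    simpa [hTr] using h1
  have hU₁eq : U₁.map T = U₁ := by
    apply Submodule.eq_of_le_of_finrank_eq hU₁T
    exact (LinearEquiv.finrank_eq (Submodule.equivMapOfInjective T hTinj U₁)).symm
  -- the radical of U₁
  let R : Submodule F V :=
    { carrier := {v | v ∈ U₁ ∧ ∀ w ∈ U₁, B v w = 0}
      add_mem' := by
        rintro a b ⟨ha, ha'⟩ ⟨hb, hb'⟩
        refine ⟨U₁.add_mem ha hb, fun w hw => ?_⟩
        rw [map_add, LinearMap.add_apply, ha' w hw, hb' w hw, add_zero]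
      zero_mem' := ⟨U₁.zero_mem, fun w _ => by simp⟩
      smul_mem' := by
        rintro c a ⟨ha, ha'⟩
        refine ⟨U₁.smul_mem c ha, fun w hw => ?_⟩
        rw [map_smul, LinearMap.smul_apply, ha' w hw, smul_zero] }
  have hRmem : ∀ v, v ∈ R ↔ v ∈ U₁ ∧ ∀ w ∈ U₁, B v w = 0 := fun v => Iff.rfl
  refine ⟨R, fun v hv => hU₁U ((hRmem v).mp hv).1, ?_, ?_, ?_⟩
  · intro u hu v hv
    exact ((hRmem u).mp hu).2 v ((hRmem v).mp hv).1
  · rintro _ ⟨v, hv, rfl⟩
    have hv' := (hRmem v).mp hv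
    refine (hRmem _).mpr ⟨hU₁T (Submodule.mem_map_of_mem hv'.1), fun w hw => ?_⟩
    have hw' : w ∈ U₁.map T := by rw [hU₁eq]; exact hw
    obtain ⟨w₀, hw₀, rfl⟩ := hw'
    rw [hT]
    exact hv'.2 w₀ hw₀
  · intro hR
    -- nondegenerate on U₁, so finrank U₁ is even
    have hnd : ∀ v : U₁, (∀ w : U₁, (B.restrict U₁) v w = 0) → v = 0 := by
      intro v hv
      have hmem : (v : V) ∈ R := (hRmem _).mpr ⟨v.2, fun w hw => hv ⟨w, hw⟩⟩
      rw [hR, Submodule.mem_bot] at hmem
      exact Subtype.ext hmem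
    have heven := Cfsg.Agent.Helper36.even_finrank_of_alt (F := F) (finrank F U₁) U₁
      (B.restrict U₁) (fun v => halt v) hnd rfl
    rw [hU₁fr] at heven
    exact (Nat.not_even_iff_odd.mpr hodd) heven

end geom2

end Cfsg.Agent.Helper94.TI5955
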