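import Cfsg.Agent.Helper94.SpPerp

/-!
# The orthogonal groups are maximal in the symplectic group in characteristic two
-/

set_option autoImplicit false

namespace Cfsg.Agent.Helper94

open Cfsg Cfsg.Geo Matrix

universe u

variable {F : Type u} [Field F] {m : ℕ}

/-- A quadratic form polarising to the standard alternating form, over a perfect field of
characteristic two. -/
structure QS (Q : (Fin m ⊕ Fin m → F) → F) : Prop where
  two : (2 : F) = 0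
  smul : ∀ (c : F) (v : Fin m ⊕ Fin m → F), Q (c • v) = c ^ 2 * Q v
  add : ∀ u v : Fin m ⊕ Fin m → F, Q (u + v) = Q u + Q v + sympForm m F u v
  sq : ∀ t : F, ∃ r : F, r ^ 2 = t

theorem qs_of [Fintype F] {Q : (Fin m ⊕ Fin m → F) → F} (heven : ¬ Odd (Fintype.card F))
    (hQ : IsNondegenerateQuadraticForm Q)
    (hpol : ∀ u v, QuadraticMap.polar Q u v = sympForm m F u v) : QS Q := by
  have hchar : ringChar F = 2 := by
    rw [FiniteField.even_card_iff_char_two]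
    exact Nat.even_iff.mp (Nat.not_odd_iff_even.mp heven)
  have h2 : (2 : F) = 0 := by
    have : CharP F 2 := ringChar.of_eq hchar
    exact_mod_cast CharP.cast_eq_zero F 2
  refine ⟨h2, hQ.smul, ?_, ?_⟩
  · intro u v
    have := hpol u v
    rw [QuadraticMap.polar] at this
    linear_combination this
  · intro t
    obtain ⟨r, hr⟩ := FiniteField.isSquare_of_char_two hchar t
    exact ⟨r, by rw [hr]; ring⟩

variable {Q : (Fin m ⊕ Fin m → F) → F}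

theorem qs_zero (hQ : QS Q) : Q 0 = 0 := by
  have := hQ.smul 0 0
  rw [zero_smul] at this
  rw [this]; ring

theorem qs_tv (hQ : QS Q) (u : Fin m ⊕ Fin m → F) (c : F) (x : Fin m ⊕ Fin m → F) :
    Q (((stGL u c : GL (Fin m ⊕ Fin m) F) : Matrix (Fin m ⊕ Fin m) (Fin m ⊕ Fin m) F) *ᵥ x) =
      Q x + (sympForm m F x u) ^ 2 * (c + c ^ 2 * Q u) := by
  rw [stGL_mulVec, hQ.add, hQ.smul, sf_smul_right]
  ring

/-- The subgroup of symplectic maps `g` with `Q ∘ g = Q + f(a, ·)²` where `Q a` is of the form `φ² + φ`. -/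
def cocSub (hQ : QS Q) : Subgroup (GL (Fin m ⊕ Fin m) F) where
  carrier := {g | g ∈ spGL m F ∧ ∃ (a : Fin m ⊕ Fin m → F) (φ : F), Q a = φ ^ 2 + φ ∧
    ∀ v, Q ((g : Matrix (Fin m ⊕ Fin m) (Fin m ⊕ Fin m) F) *ᵥ v) = Q v + (sympForm m F a v) ^ 2}
  mul_mem' := by
    rintro g₁ g₂ ⟨h1, a₁, φ₁, hq1, hv1⟩ ⟨h2, a₂, φ₂, hq2, hv2⟩
    obtain ⟨w, hw⟩ : ∃ w, w = ((g₂⁻¹ : GL (Fin m ⊕ Fin m) F) : Matrix (Fin m ⊕ Fin m) (Fin m ⊕ Fin m) F) *ᵥ a₁ :=
      ⟨_, rfl⟩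
    have hgw : (g₂ : Matrix (Fin m ⊕ Fin m) (Fin m ⊕ Fin m) F) *ᵥ w = a₁ := by rw [hw, gl_mulVec_inv]
    refine ⟨mul_mem h1 h2, a₂ + w, φ₁ + φ₂ + sympForm m F a₂ w, ?_, ?_⟩
    · have hw2 := hv2 w
      rw [hgw] at hw2
      rw [hQ.add, hq2]
      linear_combination hq1 - hw2 + (-(sympForm m F a₂ w) ^ 2 - φ₁ * φ₂ - φ₁ * sympForm m F a₂ w
        - φ₂ * sympForm m F a₂ w) * hQ.two
    · intro v
      rw [gl_mul_mulVec, hv1, hv2]
      have := sp_apply h2 w v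
      rw [hgw] at this
      rw [this, sf_add_left]
      linear_combination (-(sympForm m F a₂ v) * sympForm m F w v) * hQ.two
  one_mem' := by
    refine ⟨one_mem _, 0, 0, ?_, fun v => ?_⟩
    · rw [qs_zero hQ]; ring
    · rw [Units.val_one, one_mulVec, sf_zero_left]; ring
  inv_mem' := by
    rintro g ⟨h1, a, φ, hq, hv⟩
    refine ⟨inv_mem h1, (g : Matrix (Fin m ⊕ Fin m) (Fin m ⊕ Fin m) F) *ᵥ a, φ, ?_, fun v => ?_⟩
    · rw [hv a, sf_self, hq]; ring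
    · have := hv (((g⁻¹ : GL (Fin m ⊕ Fin m) F) : Matrix (Fin m ⊕ Fin m) (Fin m ⊕ Fin m) F) *ᵥ v)
      rw [gl_mulVec_inv] at this
      rw [sp_apply_left h1]
      linear_combination (-1 : F) * this - (sympForm m F a
        (((g⁻¹ : GL (Fin m ⊕ Fin m) F) : Matrix (Fin m ⊕ Fin m) (Fin m ⊕ Fin m) F) *ᵥ v)) ^ 2 * hQ.two

/-- Every symplectic map moves `Q` to `Q + f(a, ·)²` with `Q a` of the form `φ² + φ`. -/
theorem qs_cocycle (hQ : QS Q) {g : GL (Fin m ⊕ Fin m) F} (hg : g ∈ spGL m F) :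
    ∃ (a : Fin m ⊕ Fin m → F) (φ : F), Q a = φ ^ 2 + φ ∧
      ∀ v, Q ((g : Matrix (Fin m ⊕ Fin m) (Fin m ⊕ Fin m) F) *ᵥ v) = Q v + (sympForm m F a v) ^ 2 := by
  have key : spGL m F ≤ cocSub hQ := by
    apply spGL_le_of_tv
    intro u c
    refine ⟨stGL_mem u c, ?_⟩
    obtain ⟨r, hr⟩ := hQ.sq (c + c ^ 2 * Q u)
    refine ⟨r • u, c * Q u, ?_, fun v => ?_⟩
    · rw [hQ.smul, hr]; ring
    · rw [qs_tv hQ, sf_smul_left, mul_pow, hr, sf_swap v u]; ring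
  exact (key hg).2

theorem qs_exists_nonsing (hQ : QS Q) (X : Submodule F (Fin m ⊕ Fin m → F))
    (hX : Module.finrank F X < m) : ∃ u ∈ perp X, u ∉ X ∧ Q u ≠ 0 := by
  have h1 : ¬ (perp X ≤ X) := by
    intro hle
    have := Submodule.finrank_mono hle
    rw [finrank_perp] at this
    omega
  obtain ⟨u, hu, huX⟩ := SetLike.not_le_iff_exists.mp h1
  obtain ⟨v, hv, hvu⟩ := exists_perp_ne X u huX
  have hvX : v ∉ X := fun hvX => hvu (hu v hvX)
  have huvX : u + v ∉ X := by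
    intro h
    have := hu (u + v) h
    rw [Helper13.sympB_apply, sf_add_left, sf_self, zero_add] at this
    exact hvu this
  by_cases hQu : Q u = 0
  · by_cases hQv : Q v = 0
    · refine ⟨u + v, (perp X).add_mem hu hv, huvX, ?_⟩
      rw [hQ.add, hQu, hQv, zero_add, zero_add, sf_swap]
      exact neg_ne_zero.mpr hvu
    · exact ⟨v, hv, hvX, hQv⟩
  · exact ⟨u, hu, huX, hQu⟩

theorem qs_isom_mem {g : GL (Fin m ⊕ Fin m) F} (hg : g ∈ spGL m F)
    (h : ∀ v, Q ((g : Matrix (Fin m ⊕ Fin m) (Fin m ⊕ Fin m) F) *ᵥ v) = Q v) :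
    g ∈ quadSimilarityGroup Q ⊓ spGL m F :=
  Subgroup.mem_inf.mpr ⟨⟨1, fun v => by rw [Units.val_one, one_mul]; exact h v⟩, hg⟩

theorem qs_refl_map (hQ : QS Q) (x y : Fin m ⊕ Fin m → F) (hxy : sympForm m F x y ≠ 0) (hq : Q x = Q y) :
    ∃ h ∈ quadSimilarityGroup Q ⊓ spGL m F,
      (h : Matrix (Fin m ⊕ Fin m) (Fin m ⊕ Fin m) F) *ᵥ x = y := by
  refine ⟨stGL (x + y) (sympForm m F x y)⁻¹, qs_isom_mem (stGL_mem _ _) (fun v => ?_), ?_⟩
  · rw [qs_tv hQ, hQ.add, hq]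
    have hs : (sympForm m F x y)⁻¹ * sympForm m F x y = 1 := inv_mul_cancel₀ hxy
    linear_combination ((sympForm m F v (x + y)) ^ 2 * (sympForm m F x y)⁻¹) * hs +
      ((sympForm m F v (x + y)) ^ 2 * ((sympForm m F x y)⁻¹ + (sympForm m F x y)⁻¹ ^ 2 * Q y)) * hQ.two
  · rw [stGL_mulVec, sf_add_right, sf_self, zero_add, inv_mul_cancel₀ hxy, one_smul]
    have : x + x = 0 := by rw [← two_smul F x, hQ.two, zero_smul]
    rw [← add_assoc, this, zero_add]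

/-- Witt's lemma for vectors: the isometry group of `Q` is transitive on the non-zero vectors of a given
value of `Q`. -/
theorem qs_witt (hQ : QS Q) (hm : 3 < m) (x y : Fin m ⊕ Fin m → F) (hx : x ≠ 0) (hy : y ≠ 0)
    (hq : Q x = Q y) :
    ∃ h ∈ quadSimilarityGroup Q ⊓ spGL m F,
      (h : Matrix (Fin m ⊕ Fin m) (Fin m ⊕ Fin m) F) *ᵥ x = y := by
  by_cases hxy : sympForm m F x y ≠ 0
  · exact qs_refl_map hQ x y hxy hq
  obtain ⟨x', hx'⟩ := sf_exists_ne x hx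
  obtain ⟨y', hy'⟩ := sf_exists_ne y hy
  obtain ⟨w₁, -, h1, h2⟩ := exists_both_ne ⊤ x y
    ⟨x', trivial, by rw [sf_swap]; exact neg_ne_zero.mpr hx'⟩
    ⟨y', trivial, by rw [sf_swap]; exact neg_ne_zero.mpr hy'⟩
  classical
  have hfin : Module.finrank F
      (Submodule.span F ((({x, y, w₁} : Finset (Fin m ⊕ Fin m → F))) : Set (Fin m ⊕ Fin m → F))) < m :=
    lt_of_le_of_lt (le_trans (finrank_span_finset_le_card _) Finset.card_le_three) hm
  obtain ⟨u₀, hu₀, -, hQu₀⟩ := qs_exists_nonsing hQ _ hfin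
  obtain ⟨l, hl⟩ := hQ.sq ((Q x + Q w₁) / Q u₀)
  have hl' : l ^ 2 * Q u₀ = Q x + Q w₁ := by rw [hl]; field_simp
  have hxu : sympForm m F x u₀ = 0 := hu₀ x (Submodule.subset_span (by simp))
  have hyu : sympForm m F y u₀ = 0 := hu₀ y (Submodule.subset_span (by simp))
  have hwu : sympForm m F w₁ u₀ = 0 := hu₀ w₁ (Submodule.subset_span (by simp))
  have hQw : Q (w₁ + l • u₀) = Q x := by
    rw [hQ.add, hQ.smul, hl', sf_smul_right, hwu]
    linear_combination (Q w₁) * hQ.two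
  obtain ⟨h₁, hh₁, e₁⟩ := qs_refl_map hQ x (w₁ + l • u₀)
    (by rw [sf_add_right, sf_smul_right, hxu, mul_zero, add_zero, sf_swap]; exact neg_ne_zero.mpr h1)
    hQw.symm
  obtain ⟨h₂, hh₂, e₂⟩ := qs_refl_map hQ (w₁ + l • u₀) y
    (by rw [sf_add_left, sf_smul_left, sf_swap u₀ y, hyu, neg_zero, mul_zero, add_zero]; exact h2)
    (hQw.trans hq)
  exact ⟨h₂ * h₁, mul_mem hh₂ hh₁, by rw [gl_mul_mulVec, e₁, e₂]⟩

theorem qs_singular (hQ : QS Q) (hm : 1 < m) : ∃ b : Fin m ⊕ Fin m → F, b ≠ 0 ∧ Q b = 0 := by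
  obtain ⟨u, -, -, hu⟩ := qs_exists_nonsing hQ ⊥ (by rw [finrank_bot]; omega)
  have hu0 : u ≠ 0 := by
    rintro rfl
    exact hu (qs_zero hQ)
  obtain ⟨u', hu'p, hu'X, hu'⟩ := qs_exists_nonsing hQ (Submodule.span F {u})
    (by rw [finrank_span_singleton hu0]; exact hm)
  obtain ⟨l, hl⟩ := hQ.sq (Q u' / Q u)
  have hl' : l ^ 2 * Q u = Q u' := by rw [hl]; field_simp
  refine ⟨u' + l • u, ?_, ?_⟩
  · intro h
    apply hu'X
    have : u' = (-l) • u := by rw [neg_smul]; exact eq_neg_of_add_eq_zero_left h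
    rw [this]
    exact Submodule.smul_mem _ _ (Submodule.mem_span_singleton_self u)
  · have h0 : sympForm m F u' u = 0 := by
      have := hu'p u (Submodule.mem_span_singleton_self u)
      rw [Helper13.sympB_apply] at this
      rw [sf_swap, this, neg_zero]
    rw [hQ.add, hQ.smul, sf_smul_right, h0, hl']
    linear_combination (Q u') * hQ.two

theorem qs_lt (hQ : QS Q) (hm : 1 < m) : quadSimilarityGroup Q ⊓ spGL m F < spGL m F := by
  refine lt_of_le_of_ne inf_le_right ?_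
  intro heq
  obtain ⟨b, hb, hQb⟩ := qs_singular hQ hm
  obtain ⟨v₁, hv₁⟩ := sf_exists_ne b hb
  have hmem : stGL b 1 ∈ quadSimilarityGroup Q ⊓ spGL m F := by rw [heq]; exact stGL_mem b 1
  obtain ⟨c, hc⟩ := (Subgroup.mem_inf.mp hmem).1
  have hvb : sympForm m F v₁ b ≠ 0 := by rw [sf_swap]; exact neg_ne_zero.mpr hv₁
  obtain ⟨μ, hμ⟩ : ∃ μ : F, μ * sympForm m F v₁ b = Q v₁ := ⟨Q v₁ / sympForm m F v₁ b, by field_simp⟩
  have hQv : Q (v₁ + μ • b) = 0 := by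
    rw [hQ.add, hQ.smul, hQb, sf_smul_right, hμ]
    linear_combination (Q v₁) * hQ.two
  have := hc (v₁ + μ • b)
  rw [qs_tv hQ, hQv, hQb, sf_add_left, sf_smul_left, sf_self] at this
  have h3 : (sympForm m F v₁ b) ^ 2 = 0 := by linear_combination this
  exact hvb ((pow_eq_zero_iff two_ne_zero).mp h3)

theorem qs_exists_s (a : Fin m ⊕ Fin m → F) (φ : F) (h : Q a = φ ^ 2 + φ) :
    ∃ s : F, s + s ^ 2 * Q a = 1 := by
  by_cases h0 : Q a = 0
  · exact ⟨1, by rw [h0]; ring⟩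
  · refine ⟨φ / Q a, ?_⟩
    have : φ / Q a + (φ / Q a) ^ 2 * Q a = (φ ^ 2 + φ) / Q a := by
      field_simp
      ring
    rw [this, ← h, div_self h0]

theorem qs_quot (hQ : QS Q) {g : GL (Fin m ⊕ Fin m) F} (hg : g ∈ spGL m F) (a : Fin m ⊕ Fin m → F)
    (hga : ∀ v, Q ((g : Matrix (Fin m ⊕ Fin m) (Fin m ⊕ Fin m) F) *ᵥ v) = Q v + (sympForm m F a v) ^ 2)
    (s : F) (hs : s + s ^ 2 * Q a = 1) :
    g * (stGL a s)⁻¹ ∈ quadSimilarityGroup Q ⊓ spGL m F := by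
  apply qs_isom_mem (mul_mem hg (inv_mem (stGL_mem a s)))
  intro v
  rw [gl_mul_mulVec, hga]
  have := qs_tv hQ a s
    ((((stGL a s)⁻¹ : GL (Fin m ⊕ Fin m) F) : Matrix (Fin m ⊕ Fin m) (Fin m ⊕ Fin m) F) *ᵥ v)
  rw [gl_mulVec_inv, hs, mul_one] at this
  rw [sf_swap a]
  linear_combination (-1 : F) * this

/-- In characteristic two, the isometry group of a non-degenerate quadratic form is a maximal subgroup of
the symplectic group of its polar form. -/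
theorem sp_orth_max [Fintype F] (hm : 7 ≤ m) (heven : ¬ Odd (Fintype.card F))
    (Q : (Fin m ⊕ Fin m → F) → F) (hQ0 : IsNondegenerateQuadraticForm Q)
    (hpol : ∀ u v, QuadraticMap.polar Q u v = sympForm m F u v) :
    IsMaximalIn (spGL m F) (quadSimilarityGroup Q ⊓ spGL m F) := by
  have hQ := qs_of heven hQ0 hpol
  refine ⟨qs_lt hQ (by omega), fun K hHK hKS => ?_⟩
  by_cases hKH : K = quadSimilarityGroup Q ⊓ spGL m F
  · exact Or.inl hKH
  right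
  refine le_antisymm hKS ?_
  obtain ⟨g₀, hg₀K, hg₀H⟩ := SetLike.exists_of_lt (lt_of_le_of_ne hHK (Ne.symm hKH))
  obtain ⟨a₀, φ₀, hq₀, hv₀⟩ := qs_cocycle hQ (hKS hg₀K)
  have ha₀ : a₀ ≠ 0 := by
    rintro rfl
    apply hg₀H
    exact qs_isom_mem (hKS hg₀K) (fun v => by rw [hv₀, sf_zero_left]; ring)
  obtain ⟨s₀, hs₀⟩ := qs_exists_s a₀ φ₀ hq₀
  have hτ₀ : stGL a₀ s₀ ∈ K := by
    have h1 := hHK (qs_quot hQ (hKS hg₀K) a₀ hv₀ s₀ hs₀)
    have h2 := K.mul_mem (K.inv_mem h1) hg₀K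
    rwa [_root_.mul_inv_rev, inv_inv, inv_mul_cancel_right] at h2
  have conj : ∀ (a : Fin m ⊕ Fin m → F) (s : F) (b : Fin m ⊕ Fin m → F), a ≠ 0 → b ≠ 0 → Q b = Q a →
      stGL a s ∈ K → stGL b s ∈ K := by
    intro a s b ha hb hq hτ
    obtain ⟨h, hh, e⟩ := qs_witt hQ (by omega) a b ha hb hq.symm
    have := K.mul_mem (K.mul_mem (hHK hh) hτ) (K.inv_mem (hHK hh))
    rwa [stGL_conj (Subgroup.mem_inf.mp hh).2, e] at this
  have step : ∀ ψ : F, ψ ≠ 0 → ∃ (z : Fin m ⊕ Fin m → F) (s' : F), z ≠ 0 ∧ Q z = ψ ^ 2 + ψ ∧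
      s' + s' ^ 2 * Q z = 1 ∧ stGL z s' ∈ K := by
    intro ψ hψ
    obtain ⟨y₁, hy₁⟩ := sf_exists_ne a₀ ha₀
    obtain ⟨y₀, hy₀⟩ : ∃ y₀, sympForm m F a₀ y₀ = ψ :=
      ⟨(ψ / sympForm m F a₀ y₁) • y₁, by rw [sf_smul_right]; field_simp⟩
    classical
    have hfin : Module.finrank F
        (Submodule.span F ((({a₀, y₀} : Finset (Fin m ⊕ Fin m → F))) : Set (Fin m ⊕ Fin m → F))) < m :=
      lt_of_le_of_lt (le_trans (finrank_span_finset_le_card _) Finset.card_le_two) (by omega)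
    obtain ⟨u₀, hu₀, -, hQu₀⟩ := qs_exists_nonsing hQ _ hfin
    obtain ⟨l, hl⟩ := hQ.sq ((Q a₀ + Q y₀) / Q u₀)
    have hl' : l ^ 2 * Q u₀ = Q a₀ + Q y₀ := by rw [hl]; field_simp
    have hau : sympForm m F a₀ u₀ = 0 := hu₀ a₀ (Submodule.subset_span (by simp))
    have hyu : sympForm m F y₀ u₀ = 0 := hu₀ y₀ (Submodule.subset_span (by simp))
    obtain ⟨y, hydef⟩ : ∃ y, y = y₀ + l • u₀ := ⟨_, rfl⟩
    have hQy : Q y = Q a₀ := by
      rw [hydef, hQ.add, hQ.smul, hl', sf_smul_right, hyu]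
      linear_combination (Q y₀) * hQ.two
    have hfy : sympForm m F a₀ y = ψ := by
      rw [hydef, sf_add_right, sf_smul_right, hau, mul_zero, add_zero, hy₀]
    have hy : y ≠ 0 := by
      rintro rfl
      rw [sf_zero_right] at hfy
      exact hψ hfy.symm
    have hτy : stGL y s₀ ∈ K := conj a₀ s₀ y ha₀ hy hQy hτ₀
    have hgK : stGL a₀ s₀ * stGL y s₀ ∈ K := K.mul_mem hτ₀ hτy
    obtain ⟨z, hz⟩ : ∃ z, z = a₀ + (1 + s₀ * ψ) • y := ⟨_, rfl⟩
    have hQz : Q z = ψ ^ 2 + ψ := by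
      rw [hz, hQ.add, hQ.smul, sf_smul_right, hfy, hQy]
      linear_combination (Q a₀ + s₀ * ψ * Q a₀) * hQ.two + ψ ^ 2 * hs₀
    have hzne : z ≠ 0 := by
      intro h0
      have : sympForm m F z y = ψ := by
        rw [hz, sf_add_left, sf_smul_left, sf_self, mul_zero, add_zero, hfy]
      rw [h0, sf_zero_left] at this
      exact hψ this.symm
    have hgz : ∀ v, Q (((stGL a₀ s₀ * stGL y s₀ : GL (Fin m ⊕ Fin m) F) :
        Matrix (Fin m ⊕ Fin m) (Fin m ⊕ Fin m) F) *ᵥ v) = Q v + (sympForm m F z v) ^ 2 := by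
      intro v
      have hA : sympForm m F (((stGL y s₀ : GL (Fin m ⊕ Fin m) F) :
          Matrix (Fin m ⊕ Fin m) (Fin m ⊕ Fin m) F) *ᵥ v) a₀ =
          sympForm m F v a₀ - s₀ * sympForm m F v y * ψ := by
        rw [stGL_mulVec, sf_add_left, sf_smul_left, sf_swap y a₀, hfy]; ring
      have hZ : sympForm m F z v = - sympForm m F v a₀ - (1 + s₀ * ψ) * sympForm m F v y := by
        rw [hz, sf_add_left, sf_smul_left, sf_swap a₀ v, sf_swap y v]; ring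
      rw [gl_mul_mulVec, qs_tv hQ a₀ s₀, qs_tv hQ y s₀ v, hQy, hs₀, hA, hZ]
      linear_combination (-(2 * s₀ * ψ * sympForm m F v a₀ * sympForm m F v y +
        sympForm m F v a₀ * sympForm m F v y + s₀ * ψ * (sympForm m F v y) ^ 2)) * hQ.two
    obtain ⟨s', hs'⟩ := qs_exists_s z ψ hQz
    refine ⟨z, s', hzne, hQz, hs', ?_⟩
    have h1 := hHK (qs_quot hQ (hKS hgK) z hgz s' hs')
    have h2 := K.mul_mem (K.inv_mem h1) hgK
    rwa [_root_.mul_inv_rev, inv_inv, inv_mul_cancel_right] at h2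
  have all : ∀ (b : Fin m ⊕ Fin m → F) (φ : F), b ≠ 0 → Q b = φ ^ 2 + φ →
      ∃ s : F, s + s ^ 2 * Q b = 1 ∧ stGL b s ∈ K := by
    intro b φ hb hqb
    have : ∃ ψ : F, ψ ≠ 0 ∧ Q b = ψ ^ 2 + ψ := by
      by_cases hφ : φ = 0
      · refine ⟨1, one_ne_zero, ?_⟩
        rw [hqb, hφ]
        linear_combination (-1 : F) * hQ.two
      · exact ⟨φ, hφ, hqb⟩
    obtain ⟨ψ, hψ, hqb'⟩ := this
    obtain ⟨z, s', hz, hQz, hs', hτ⟩ := step ψ hψ
    refine ⟨s', ?_, conj z s' b hz hb (hqb'.trans hQz.symm) hτ⟩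
    rw [hqb', ← hQz]
    exact hs'
  intro g hg
  obtain ⟨a, φ, hq, hv⟩ := qs_cocycle hQ hg
  by_cases ha : a = 0
  · subst ha
    exact hHK (qs_isom_mem hg (fun v => by rw [hv, sf_zero_left]; ring))
  · obtain ⟨s, hs, hτ⟩ := all a φ ha hq
    have h1 := hHK (qs_quot hQ hg a hv s hs)
    have := K.mul_mem h1 hτ
    rwa [inv_mul_cancel_right] at this

end Cfsg.Agent.Helper94
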