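import Mathlib
import Cfsg.Prelude.Def_GeometricClasses
import Cfsg.Prelude.Def_Classical
import Cfsg.Agent.Helper58.TSDefs

/-!
# helper94: sub-CALL TSR2 (helper90), shared core of the pieces SKEVEN and SKSUB.

`M * M = -1` with `-1` a nonsquare: an invariant subspace `W'` and `w ∉ W'` give the invariant
subspace `W' ⊔ span {w, M w}` of dimension `dim W' + 2`.
-/

set_option autoImplicit false

namespace Cfsg.Agent.Helper94.TSR2

open Module Cfsg Cfsg.Geo Cfsg.Agent.Helper58.TS
open scoped MatrixGroups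

section pieces

variable {ι : Type} [Fintype ι] [DecidableEq ι] {F : Type*} [Field F] [Fintype F]

theorem sk_sq (M : Matrix ι ι F) (hM2 : M * M = -1) (v : ι → F) :
    Matrix.toLin' M (Matrix.toLin' M v) = -v := by
  rw [Matrix.toLin'_apply, Matrix.toLin'_apply, Matrix.mulVec_mulVec, hM2, Matrix.neg_mulVec,
    Matrix.one_mulVec]

theorem sk_key (M : Matrix ι ι F) (hM2 : M * M = -1) (hm1 : ¬ IsSquare (-1 : F))
    (W' : Submodule F (ι → F)) (hW' : W'.map (Matrix.toLin' M) ≤ W') (w : ι → F) (hw : w ∉ W')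
    (a b : F) (hab : a • w + b • Matrix.toLin' M w ∈ W') : a = 0 ∧ b = 0 := by
  have h1 : Matrix.toLin' M (a • w + b • Matrix.toLin' M w) ∈ W' :=
    hW' (Submodule.mem_map_of_mem hab)
  rw [map_add, map_smul, map_smul, sk_sq M hM2] at h1
  have h2 : (a * a + b * b) • w ∈ W' := by
    have h3 := Submodule.sub_mem W' (Submodule.smul_mem W' a hab) (Submodule.smul_mem W' b h1)
    have e : a • (a • w + b • Matrix.toLin' M w) - b • (a • Matrix.toLin' M w + b • -w) =
        (a * a + b * b) • w := by
      simp only [smul_add, smul_neg, smul_smul, add_smul]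
      rw [mul_comm b a]
      abel
    rw [e] at h3
    exact h3
  have h4 : a * a + b * b = 0 := by
    by_contra hne
    exact hw ((Submodule.smul_mem_iff W' hne).mp h2)
  have hb : b = 0 := by
    by_contra hb
    apply hm1
    refine ⟨a / b, ?_⟩
    field_simp
    linear_combination -h4
  subst hb
  have ha : a * a = 0 := by simpa using h4
  exact ⟨mul_self_eq_zero.mp ha, rfl⟩

theorem sk_ext (M : Matrix ι ι F) (hM2 : M * M = -1) (hm1 : ¬ IsSquare (-1 : F))
    (W' : Submodule F (ι → F)) (hW' : W'.map (Matrix.toLin' M) ≤ W') (w : ι → F) (hw : w ∉ W') :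
    (W' ⊔ Submodule.span F {w, Matrix.toLin' M w}).map (Matrix.toLin' M) ≤
        W' ⊔ Submodule.span F {w, Matrix.toLin' M w} ∧
      finrank F ↥(W' ⊔ Submodule.span F {w, Matrix.toLin' M w}) = finrank F W' + 2 := by
  constructor
  · rw [Submodule.map_sup]
    refine sup_le (le_trans hW' le_sup_left) ?_
    rw [Submodule.map_span, Submodule.span_le]
    rintro _ ⟨v, hv, rfl⟩
    rcases hv with rfl | rfl
    · exact Submodule.mem_sup_right (Submodule.subset_span (by simp))
    · show Matrix.toLin' M (Matrix.toLin' M w) ∈ _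
      rw [sk_sq M hM2]
      exact Submodule.mem_sup_right (Submodule.neg_mem _ (Submodule.subset_span (by simp)))
  · have hli : LinearIndependent F ![w, Matrix.toLin' M w] := by
      rw [LinearIndependent.pair_iff]
      intro s t hst
      exact sk_key M hM2 hm1 W' hW' w hw s t (by rw [hst]; exact W'.zero_mem)
    have hS : finrank F ↥(Submodule.span F ({w, Matrix.toLin' M w} : Set (ι → F))) = 2 := by
      have h := finrank_span_eq_card hli
      rw [Matrix.range_cons_cons_empty] at h
      simpa using h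
    have hinf : W' ⊓ Submodule.span F ({w, Matrix.toLin' M w} : Set (ι → F)) = ⊥ := by
      rw [eq_bot_iff]
      rintro v ⟨hv1, hv2⟩
      obtain ⟨a, b, rfl⟩ := Submodule.mem_span_pair.mp hv2
      obtain ⟨rfl, rfl⟩ := sk_key M hM2 hm1 W' hW' w hw a b hv1
      simp
    have h := Submodule.finrank_sup_add_finrank_inf_eq W'
      (Submodule.span F ({w, Matrix.toLin' M w} : Set (ι → F)))
    rw [hinf, finrank_bot, add_zero, hS] at h
    exact h

theorem sk_chain (M : Matrix ι ι F) (hM2 : M * M = -1) (hm1 : ¬ IsSquare (-1 : F))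
    (W : Submodule F (ι → F)) (hW : W.map (Matrix.toLin' M) ≤ W) :
    ∀ j, 2 * j ≤ finrank F W → ∃ W' : Submodule F (ι → F), W' ≤ W ∧
      W'.map (Matrix.toLin' M) ≤ W' ∧ finrank F W' = 2 * j := by
  intro j
  induction j with
  | zero =>
    intro _
    exact ⟨⊥, bot_le, by simp, by simp⟩
  | succ j ih =>
    intro hj
    obtain ⟨W', hW'W, hW'inv, hW'dim⟩ := ih (by omega)
    have hne : W' ≠ W := by
      intro h
      rw [h] at hW'dim
      omega
    obtain ⟨w, hwW, hwW'⟩ := SetLike.exists_of_lt (lt_of_le_of_ne hW'W hne)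
    obtain ⟨hinv, hdim⟩ := sk_ext M hM2 hm1 W' hW'inv w hwW'
    refine ⟨_, ?_, hinv, by rw [hdim, hW'dim]; ring⟩
    refine sup_le hW'W ?_
    rw [Submodule.span_le]
    rintro v hv
    rcases hv with rfl | rfl
    · exact hwW
    · exact hW (Submodule.mem_map_of_mem hwW)

end pieces

end Cfsg.Agent.Helper94.TSR2
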