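import Mathlib
import Cfsg.Prelude.Def_GeometricClasses
import Cfsg.Prelude.Def_Classical
import Cfsg.Agent.Helper58.TSDefs
import Cfsg.Agent.Helper94.TSR2SKCore

/-!
# helper94: sub-CALL TSR2 (helper90), piece SKEVEN.
-/

set_option autoImplicit false

namespace Cfsg.Agent.Helper94.TSR2

open Module Cfsg Cfsg.Geo Cfsg.Agent.Helper58.TS
open scoped MatrixGroups

section pieces

variable {ι : Type} [Fintype ι] [DecidableEq ι] {F : Type*} [Field F] [Fintype F]

/-- SKEVEN [S-M, pure linear algebra]: `M² = -1`, `-1` a nonsquare: invariant subspaces have even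
dimension (`W` is a module over `F[√-1]`; or: induction, `W = W' ⊕ ⟨w, M w⟩`). -/
theorem r2_skew_even (M : Matrix ι ι F) (hM2 : M * M = -1) (hm1 : ¬ IsSquare (-1 : F))
    (W : Submodule F (ι → F)) (hW : W.map (Matrix.toLin' M) ≤ W) : Even (finrank F W) := by
  by_contra hne
  obtain ⟨j, hj⟩ := Nat.not_even_iff_odd.mp hne
  obtain ⟨W', hW'W, hW'inv, hW'dim⟩ := sk_chain M hM2 hm1 W hW j (by omega)
  have hne' : W' ≠ W := by
    intro h
    rw [h] at hW'dim
    omega
  obtain ⟨w, hwW, hwW'⟩ := SetLike.exists_of_lt (lt_of_le_of_ne hW'W hne')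
  obtain ⟨-, hdim⟩ := sk_ext M hM2 hm1 W' hW'inv w hwW'
  have hle : W' ⊔ Submodule.span F {w, Matrix.toLin' M w} ≤ W := by
    refine sup_le hW'W ?_
    rw [Submodule.span_le]
    rintro v hv
    rcases hv with rfl | rfl
    · exact hwW
    · exact hW (Submodule.mem_map_of_mem hwW)
  have h := Submodule.finrank_mono hle
  omega

end pieces

end Cfsg.Agent.Helper94.TSR2
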