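import Mathlib
import Cfsg.Prelude.Def_GeometricClasses
import Cfsg.Prelude.Def_Classical
import Cfsg.Agent.Helper58.TSDefs
import Cfsg.Agent.Helper94.TSR2SKCore

/-!
# helper94: sub-CALL TSR2 (helper90), piece SKSUB.
-/

set_option autoImplicit false

namespace Cfsg.Agent.Helper94.TSR2

open Module Cfsg Cfsg.Geo Cfsg.Agent.Helper58.TS
open scoped MatrixGroups

section pieces

variable {ι : Type} [Fintype ι] [DecidableEq ι] {F : Type*} [Field F] [Fintype F]

/-- SKSUB [M, pure linear algebra]: invariant subspaces of every even dimension inside an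
invariant subspace (`W' ↦ W' + ⟨w, M w⟩`, `w ∈ W \ W'`, raises the dimension by exactly 2). -/
theorem r2_skew_sub (M : Matrix ι ι F) (hM2 : M * M = -1) (hm1 : ¬ IsSquare (-1 : F))
    (W : Submodule F (ι → F)) (hW : W.map (Matrix.toLin' M) ≤ W) (k : ℕ) (hk : Even k)
    (hkW : k ≤ finrank F W) :
    ∃ W' : Submodule F (ι → F), W' ≤ W ∧ W'.map (Matrix.toLin' M) ≤ W' ∧ finrank F W' = k := by
  obtain ⟨j, hj⟩ := hk
  obtain ⟨W', h1, h2, h3⟩ := sk_chain M hM2 hm1 W hW j (by omega)
  exact ⟨W', h1, h2, by omega⟩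

end pieces

end Cfsg.Agent.Helper94.TSR2
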