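-- helper94 library: abstract symmetric bilinear forms on `F^ι` (perpendiculars, adjoints), a copy of
-- helper96's symplectic toolkit `Helper96/SpBasic.lean` for `IsSymmetricForm`.
import Cfsg.Agent.Helper96.SpTensor3

set_option autoImplicit false
set_option linter.unusedSectionVars false
set_option linter.unusedVariables false
open Cfsg Cfsg.Geo Matrix
open Cfsg.Agent.Helper96

namespace Cfsg.Agent.Helper94.OA

variable {ι : Type} [Fintype ι] [DecidableEq ι] {F : Type*} [Field F]
variable {f : (ι → F) → (ι → F) → F}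

theorem zero_left (hf : IsSymmetricForm f) (v : ι → F) : f 0 v = 0 :=
  (Helper97.Gen.isSesq_of_bilinear hf.bilinear).zero_left v

theorem zero_right (hf : IsSymmetricForm f) (v : ι → F) : f v 0 = 0 :=
  (Helper97.Gen.isSesq_of_bilinear hf.bilinear).zero_right v

theorem neg_left (hf : IsSymmetricForm f) (u v : ι → F) : f (-u) v = - f u v := by
  have := hf.bilinear.smul_left (-1) u v
  simpa using this

theorem neg_right (hf : IsSymmetricForm f) (u v : ι → F) : f u (-v) = - f u v := by
  have := hf.bilinear.smul_right (-1) u v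
  simpa using this

theorem sub_left (hf : IsSymmetricForm f) (u u' v : ι → F) : f (u - u') v = f u v - f u' v := by
  rw [sub_eq_add_neg, hf.bilinear.add_left, neg_left hf, ← sub_eq_add_neg]

theorem sub_right (hf : IsSymmetricForm f) (u v v' : ι → F) : f u (v - v') = f u v - f u v' := by
  rw [sub_eq_add_neg, hf.bilinear.add_right, neg_right hf, ← sub_eq_add_neg]

theorem sep_right (hf : IsSymmetricForm f) {v : ι → F} (h : ∀ x, f x v = 0) : v = 0 := by
  by_contra hv
  obtain ⟨⟨x, hx⟩, -⟩ := hf.nondegenerate v hv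
  exact hx (h x)

theorem sep_left (hf : IsSymmetricForm f) {v : ι → F} (h : ∀ x, f v x = 0) : v = 0 := by
  by_contra hv
  obtain ⟨-, ⟨x, hx⟩⟩ := hf.nondegenerate v hv
  exact hx (h x)

/-- The bundled bilinear form. -/
noncomputable def toB (hf : IsSymmetricForm f) : LinearMap.BilinForm F (ι → F) :=
  LinearMap.mk₂ F f hf.bilinear.add_left hf.bilinear.smul_left hf.bilinear.add_right
    hf.bilinear.smul_right

theorem toB_apply (hf : IsSymmetricForm f) (u v : ι → F) : toB hf u v = f u v := rfl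

theorem toB_refl (hf : IsSymmetricForm f) : (toB hf).IsRefl := by
  intro x y h
  rw [toB_apply] at h ⊢
  rw [hf.symm, h]

theorem toB_nondeg (hf : IsSymmetricForm f) : (toB hf).Nondegenerate :=
  ⟨fun _ h => sep_left hf h, fun _ h => sep_right hf h⟩

/-- The perpendicular subspace. -/
noncomputable def perp (hf : IsSymmetricForm f) (X : Submodule F (ι → F)) : Submodule F (ι → F) :=
  (toB hf).orthogonal X

theorem mem_perp (hf : IsSymmetricForm f) (X : Submodule F (ι → F)) (v : ι → F) :
    v ∈ perp hf X ↔ ∀ w ∈ X, f w v = 0 := Iff.rfl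

theorem mem_perp' (hf : IsSymmetricForm f) (X : Submodule F (ι → F)) (v : ι → F) :
    v ∈ perp hf X ↔ ∀ w ∈ X, f v w = 0 := by
  rw [mem_perp]
  exact ⟨fun h w hw => by rw [hf.symm]; exact h w hw, fun h w hw => by rw [hf.symm]; exact h w hw⟩

theorem finrank_perp (hf : IsSymmetricForm f) (X : Submodule F (ι → F)) :
    Module.finrank F X + Module.finrank F (perp hf X) = Fintype.card ι := by
  have h1 := LinearMap.BilinForm.finrank_orthogonal (toB_nondeg hf) X
  have h2 := Submodule.finrank_le X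
  rw [Module.finrank_fintype_fun_eq_card] at h1 h2
  rw [perp, h1]
  omega

theorem ts_iff (hf : IsSymmetricForm f) (X : Submodule F (ι → F)) :
    IsTotallySingularFor f X ↔ X ≤ perp hf X :=
  ⟨fun h v hv w hw => h w hw v hv, fun h u hu v hv => h hv u hu⟩

theorem finrank_ts (hf : IsSymmetricForm f) (X : Submodule F (ι → F))
    (hX : IsTotallySingularFor f X) : 2 * Module.finrank F X ≤ Fintype.card ι := by
  have h1 := Submodule.finrank_mono ((ts_iff hf X).mp hX)
  have h2 := finrank_perp hf X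
  omega

/-! ### Gram matrix and adjoints -/

theorem apply_eq (hf : IsSymmetricForm f) (u v : ι → F) :
    f u v = u ⬝ᵥ (Helper97.Gen.gram f *ᵥ v) := by
  have := (Helper97.Gen.isSesq_of_bilinear hf.bilinear).apply_eq u v
  simpa using this

theorem det_gram_ne_zero (hf : IsSymmetricForm f) : (Helper97.Gen.gram f).det ≠ 0 :=
  (Helper97.Gen.isSesq_of_bilinear hf.bilinear).det_gram_ne_zero
    (fun v hv => (hf.nondegenerate v hv).1)

theorem adj_spec (hf : IsSymmetricForm f) (k : Matrix ι ι F) (u v : ι → F) :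
    f (k *ᵥ u) v = f u (Sy.adj f k *ᵥ v) := by
  have hu : IsUnit (Helper97.Gen.gram f).det := isUnit_iff_ne_zero.mpr (det_gram_ne_zero hf)
  rw [apply_eq hf, apply_eq hf, Sy.adj, Matrix.mulVec_mulVec, ← mul_assoc, ← mul_assoc,
    Matrix.mul_nonsing_inv _ hu, one_mul, ← Matrix.mulVec_mulVec, Matrix.dotProduct_mulVec u kᵀ,
    Matrix.vecMul_transpose]

theorem adj_spec' (hf : IsSymmetricForm f) (k : Matrix ι ι F) (u v : ι → F) :
    f u (k *ᵥ v) = f (Sy.adj f k *ᵥ u) v := by
  rw [hf.symm u (k *ᵥ v), adj_spec hf, hf.symm]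

theorem mat_eq (hf : IsSymmetricForm f) {A B : Matrix ι ι F}
    (h : ∀ u v, f u (A *ᵥ v) = f u (B *ᵥ v)) : A = B := by
  have h1 : A - B = 0 := by
    apply Helper97.Gen.eq_zero_of_mulVec_eq_zero
    intro w
    apply sep_right hf
    intro x
    rw [Matrix.sub_mulVec, sub_right hf, h, sub_self]
  exact sub_eq_zero.mp h1

theorem adj_unique (hf : IsSymmetricForm f) {k k' : Matrix ι ι F}
    (h : ∀ u v, f (k *ᵥ u) v = f u (k' *ᵥ v)) : Sy.adj f k = k' :=
  mat_eq hf (fun u v => by rw [← adj_spec hf, h])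

theorem adj_mul (hf : IsSymmetricForm f) (a b : Matrix ι ι F) :
    Sy.adj f (a * b) = Sy.adj f b * Sy.adj f a :=
  adj_unique hf (fun u v => by
    rw [← Matrix.mulVec_mulVec, adj_spec hf, adj_spec hf, Matrix.mulVec_mulVec])

theorem adj_one (hf : IsSymmetricForm f) : Sy.adj f (1 : Matrix ι ι F) = 1 :=
  adj_unique hf (fun u v => by rw [Matrix.one_mulVec, Matrix.one_mulVec])

theorem adj_adj (hf : IsSymmetricForm f) (k : Matrix ι ι F) : Sy.adj f (Sy.adj f k) = k :=
  adj_unique hf (fun u v => (adj_spec' hf k u v).symm)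

theorem adj_iso (hf : IsSymmetricForm f) {g : GL ι F} (hg : g ∈ Sy.isoSub f) :
    Sy.adj f (g : Matrix ι ι F) = ((g⁻¹ : GL ι F) : Matrix ι ι F) :=
  adj_unique hf (fun u v => Sy.iso_apply_left hg u v)

theorem adj_conj (hf : IsSymmetricForm f) {g : GL ι F} (hg : g ∈ Sy.isoSub f) (k : Matrix ι ι F) :
    Sy.adj f ((g : Matrix ι ι F) * k * ((g⁻¹ : GL ι F) : Matrix ι ι F))
      = (g : Matrix ι ι F) * Sy.adj f k * ((g⁻¹ : GL ι F) : Matrix ι ι F) := by
  have h1 := adj_iso hf hg
  have h2 := adj_iso hf ((Sy.isoSub f).inv_mem hg)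
  rw [inv_inv] at h2
  rw [adj_mul hf, adj_mul hf, h1, h2, mul_assoc]

theorem adj_smul_one (hf : IsSymmetricForm f) (c : F) :
    Sy.adj f (c • (1 : Matrix ι ι F)) = c • (1 : Matrix ι ι F) := by
  rw [Sy.adj_smul, adj_one hf]

/-- The determinant of the adjoint. -/
theorem det_adj (hf : IsSymmetricForm f) (k : Matrix ι ι F) : (Sy.adj f k).det = k.det := by
  have hu : IsUnit (Helper97.Gen.gram f).det := isUnit_iff_ne_zero.mpr (det_gram_ne_zero hf)
  rw [Sy.adj, Matrix.det_mul, Matrix.det_mul, Matrix.det_transpose, Matrix.det_nonsing_inv,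
    Ring.inverse_eq_inv', mul_comm ((Helper97.Gen.gram f).det)⁻¹, mul_assoc,
    inv_mul_cancel₀ (det_gram_ne_zero hf), mul_one]

/-- A skew-adjoint matrix in odd dimension is singular (odd characteristic). -/
theorem det_skew_odd (hf : IsSymmetricForm f) (h2 : (2 : F) ≠ 0) (hodd : Odd (Fintype.card ι))
    (s : Matrix ι ι F) (hs : Sy.adj f s = -s) : s.det = 0 := by
  have h1 := det_adj hf s
  rw [hs, Matrix.det_neg, hodd.neg_one_pow] at h1
  have h3 : (2 : F) * s.det = 0 := by linear_combination -h1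
  exact (mul_eq_zero.mp h3).resolve_left h2

end Cfsg.Agent.Helper94.OA
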