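-- helper94 library: the centre of the centraliser of a normal subgroup of an irreducible group of
-- isometries of a symmetric bilinear form in ODD dimension and odd characteristic (copy-adaptation of
-- helper96's `Helper96/SpZ.lean`, `SpZ2.lean`).
import Cfsg.Agent.Helper94.OA1

set_option autoImplicit false
set_option linter.unusedSectionVars false
set_option linter.unusedVariables false
open Cfsg Cfsg.Geo Matrix
open Cfsg.Agent.Helper96

namespace Cfsg.Agent.Helper94.OA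

variable {F : Type*} [Field F] {n : ℕ} {f : (Fin n → F) → (Fin n → F) → F}

theorem cent_adj (hf : IsSymmetricForm f) {T : Set (Matrix (Fin n) (Fin n) F)} (hT : Sy.IsoSet f T)
    {c : Matrix (Fin n) (Fin n) F} (hc : Cent T c) : Cent T (Sy.adj f c) := by
  intro s hs
  obtain ⟨g, hg, rfl, hginv⟩ := hT s hs
  have h1 := congrArg (Sy.adj f) (hc _ hginv)
  have h2 := adj_iso hf ((Sy.isoSub f).inv_mem hg)
  rw [inv_inv] at h2
  rw [adj_mul hf, adj_mul hf, h2] at h1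
  exact h1.symm

theorem zcent_adj (hf : IsSymmetricForm f) {T : Set (Matrix (Fin n) (Fin n) F)} (hT : Sy.IsoSet f T)
    {a : Matrix (Fin n) (Fin n) F} (ha : ZCent T a) : ZCent T (Sy.adj f a) := by
  refine ⟨cent_adj hf hT ha.1, fun c hc => ?_⟩
  have h1 := congrArg (Sy.adj f) (ha.2 _ (cent_adj hf hT hc))
  rw [adj_mul hf, adj_mul hf, adj_adj hf] at h1
  exact h1.symm

/-- The self-adjoint part of the centre of the centraliser. -/
def zcp (f : (Fin n → F) → (Fin n → F) → F) (hf : IsSymmetricForm f)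
    (T : Set (Matrix (Fin n) (Fin n) F)) : Subalgebra F (Matrix (Fin n) (Fin n) F) where
  carrier := {M | ZCent T M ∧ Sy.adj f M = M}
  mul_mem' := by
    rintro a b ⟨ha, ha'⟩ ⟨hb, hb'⟩
    exact ⟨(zc T).mul_mem ha hb, by rw [adj_mul hf, ha', hb', hb.2 a ha.1]⟩
  add_mem' := by
    rintro a b ⟨ha, ha'⟩ ⟨hb, hb'⟩
    exact ⟨(zc T).add_mem ha hb, by rw [Sy.adj_add, ha', hb']⟩
  algebraMap_mem' := by
    intro c
    exact ⟨(zc T).algebraMap_mem c, by rw [Algebra.algebraMap_eq_smul_one, adj_smul_one hf]⟩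

theorem mem_zcp (hf : IsSymmetricForm f) (T : Set (Matrix (Fin n) (Fin n) F))
    (M : Matrix (Fin n) (Fin n) F) : M ∈ zcp f hf T ↔ ZCent T M ∧ Sy.adj f M = M := Iff.rfl

/-- A commutative conjugation-stable family of self-adjoint matrices containing a non-zero singular
matrix yields a non-degenerate decomposition. -/
theorem nondeg_decomp [Finite F] (hf : IsSymmetricForm f) (H : Subgroup (GL (Fin n) F))
    (hH : H ≤ Sy.isoSub f) (hirr : ActsIrreducibly (matrixSet H))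
    (S : Set (Matrix (Fin n) (Fin n) F)) (hcomm : ∀ a ∈ S, ∀ b ∈ S, a * b = b * a)
    (hstab : ∀ g ∈ H, ∀ a ∈ S, (g : Matrix (Fin n) (Fin n) F) * a *
      ((g⁻¹ : GL (Fin n) F) : Matrix (Fin n) (Fin n) F) ∈ S)
    (hsa : ∀ a ∈ S, Sy.adj f a = a)
    (a : Matrix (Fin n) (Fin n) F) (haS : a ∈ S) (ha0 : a ≠ 0) (v : Fin n → F) (hv0 : v ≠ 0)
    (hav : a *ᵥ v = 0) :
    ∃ (t k : ℕ) (D : Fin t → Submodule F (Fin n → F)),
      IsNondegenerateMDecomposition f k D ∧ H ≤ decompositionStabilizer D := by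
  classical
  haveI : Fact (Fintype.card (Fin n) = n) := ⟨Fintype.card_fin n⟩
  obtain ⟨t, m, D, hD, hHD, hpres, hsep⟩ :=
    Helper97.Gen.exists_decomp_of_comm_stable_sep H hirr S hcomm hstab a haS ha0 v hv0 hav
  have orth : ∀ i j, i ≠ j → AreOrthogonalFor f (D i) (D j) := by
    intro i j hij u hu w hw
    obtain ⟨s, hs, hkill, hinj⟩ := hsep i j hij
    obtain ⟨w', hw', rfl⟩ := Sy.surj_of_inj_on s (D j) (hpres s hs j) hinj w hw
    rw [adj_spec' hf, hsa s hs, hkill u hu, zero_left hf]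
  refine ⟨t, m, D, ⟨hD, ?_, orth⟩, hHD⟩
  intro i w hw hw0
  have key : ∃ x ∈ D i, f x w ≠ 0 := by
    by_contra hcon
    push Not at hcon
    apply hw0
    apply sep_right hf
    intro x
    have hle : iSup D ≤ perp hf (Submodule.span F {w}) := by
      apply iSup_le
      intro j y hy
      rw [mem_perp']
      intro z hz
      obtain ⟨c, rfl⟩ := Submodule.mem_span_singleton.mp hz
      rw [hf.bilinear.smul_right]
      by_cases hji : j = i
      · subst hji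
        rw [hcon y hy, mul_zero]
      · rw [orth j i hji y hy w hw, mul_zero]
    have hx : x ∈ perp hf (Submodule.span F {w}) := hle (by rw [hD.iSup_eq_top]; exact Submodule.mem_top)
    exact (mem_perp' hf _ x).mp hx w (Submodule.mem_span_singleton_self w)
  obtain ⟨x, hx, hxw⟩ := key
  exact ⟨⟨x, hx, hxw⟩, ⟨x, hx, by rw [hf.symm]; exact hxw⟩⟩

/-- The analysis of the centre `Z` of the centraliser of a normal subgroup `N` of an irreducible
group `H` of isometries of a symmetric bilinear form, odd dimension and odd characteristic. -/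
theorem z_analysis [Fintype F] (h2 : (2 : F) ≠ 0) (hodd : Odd n) (hf : IsSymmetricForm f)
    (H N : Subgroup (GL (Fin n) F))
    (hH : H ≤ Sy.isoSub f) (hirr : ActsIrreducibly (matrixSet H)) (hNH : N ≤ H)
    (hNn : ∀ h ∈ H, ∀ x ∈ N, h * x * h⁻¹ ∈ N) :
    (∃ (t k : ℕ) (D : Fin t → Submodule F (Fin n → F)),
      IsNondegenerateMDecomposition f k D ∧ H ≤ decompositionStabilizer D) ∨
    (∃ (r : ℕ) (K : Subalgebra F (Matrix (Fin n) (Fin n) F)), r.Prime ∧ IsFieldSubalgebra r K ∧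
      IsSelfAdjointFor f K ∧ (∀ k ∈ K, ZCent (matrixSet N) k) ∧
      H ≤ subalgebraNormalizer K) ∨
    (∀ k, ZCent (matrixSet N) k → ∃ c : F, k = c • (1 : Matrix (Fin n) (Fin n) F)) := by
  classical
  have hn : 0 < n := hodd.pos
  have hne : NeZero n := ⟨hn.ne'⟩
  obtain ⟨T, hT⟩ : ∃ T, T = matrixSet N := ⟨_, rfl⟩
  rw [← hT]
  have hconj1 : ∀ g ∈ H, ∀ s ∈ T, (g : Matrix (Fin n) (Fin n) F) * s *
      ((g⁻¹ : GL (Fin n) F) : Matrix (Fin n) (Fin n) F) ∈ T := by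
    intro g hg
    rw [hT]
    exact matrixSet_conj N g (hNn g hg)
  have hconj2 : ∀ g ∈ H, ∀ s ∈ T, ((g⁻¹ : GL (Fin n) F) : Matrix (Fin n) (Fin n) F) * s *
      (g : Matrix (Fin n) (Fin n) F) ∈ T := by
    intro g hg
    rw [hT]
    have := matrixSet_conj N g⁻¹ (hNn g⁻¹ (H.inv_mem hg))
    simpa using this
  have hiso : Sy.IsoSet f T := by
    intro s hs
    rw [hT] at hs ⊢
    obtain ⟨x, hx, rfl⟩ := hs
    exact ⟨x, hH (hNH hx), rfl, Helper97.coe_mem_matrixSet (N.inv_mem hx)⟩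
  have hZconj : ∀ g ∈ H, ∀ a, ZCent T a → ZCent T ((g : Matrix (Fin n) (Fin n) F) * a *
      ((g⁻¹ : GL (Fin n) F) : Matrix (Fin n) (Fin n) F)) :=
    fun g hg a ha => zcent_conj T g (hconj2 g hg) (hconj1 g hg) a ha
  have hZadj : ∀ a, ZCent T a → ZCent T (Sy.adj f a) := fun a ha => zcent_adj hf hiso ha
  have hZcomm : ∀ a, ZCent T a → ∀ b, ZCent T b → a * b = b * a := fun a ha b hb => ha.2 b hb.1
  by_cases hD1 : ∃ M, (ZCent T M ∧ Sy.adj f M = M) ∧ M ≠ 0 ∧ ∃ v : Fin n → F, v ≠ 0 ∧ M *ᵥ v = 0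
  · left
    obtain ⟨M, hM, hM0, v, hv0, hMv⟩ := hD1
    exact nondeg_decomp hf H hH hirr {M | ZCent T M ∧ Sy.adj f M = M}
      (fun a ha b hb => hZcomm a ha.1 b hb.1)
      (fun g hg a ha => ⟨hZconj g hg a ha.1, by rw [adj_conj hf (hH hg), ha.2]⟩)
      (fun a ha => ha.2) M hM hM0 v hv0 hMv
  have hZp : ∀ M, ZCent T M → Sy.adj f M = M → M ≠ 0 → ∀ v : Fin n → F, M *ᵥ v = 0 → v = 0 := by
    intro M hM hM' hM0 v hv
    by_contra hv0
    exact hD1 ⟨M, ⟨hM, hM'⟩, hM0, v, hv0, hv⟩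
  have hFSp : Helper98.IsFS (zcp f hf T) := by
    constructor
    · intro x hx y hy
      exact hZcomm x hx.1 y hy.1
    · intro x hx hx0
      have hdet : x.det ≠ 0 := Helper97.det_ne_zero_of_injective x (hZp x hx.1 hx.2 hx0)
      have hu : IsUnit x.det := isUnit_iff_ne_zero.mpr hdet
      refine ⟨x⁻¹, ⟨⟨fun s hs => inv_comm_of_comm x s hdet (hx.1.1 s hs),
        fun c hc => inv_comm_of_comm x c hdet (hx.1.2 c hc)⟩, ?_⟩, Matrix.mul_nonsing_inv x hu⟩
      have h1 : Sy.adj f x⁻¹ * x = 1 := by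
        have h2 := adj_mul hf x x⁻¹
        rw [Matrix.mul_nonsing_inv x hu, adj_one hf, hx.2] at h2
        exact h2.symm
      exact (Matrix.inv_eq_left_inv h1).symm
  have hpconj : ∀ g ∈ H, ∀ k, k ∈ zcp f hf T → (g : Matrix (Fin n) (Fin n) F) * k *
      ((g⁻¹ : GL (Fin n) F) : Matrix (Fin n) (Fin n) F) ∈ zcp f hf T :=
    fun g hg k hk => ⟨hZconj g hg k hk.1, by rw [adj_conj hf (hH hg), hk.2]⟩
  have hHnormp : H ≤ subalgebraNormalizer (zcp f hf T) := by
    intro g hg k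
    constructor
    · exact hpconj g hg k
    · intro hk
      have h3 := hpconj g⁻¹ (H.inv_mem hg) _ hk
      have h4 : ((g⁻¹ : GL (Fin n) F) : Matrix (Fin n) (Fin n) F) * ((g : Matrix (Fin n) (Fin n) F) * k *
          ((g⁻¹ : GL (Fin n) F) : Matrix (Fin n) (Fin n) F)) *
          (((g⁻¹)⁻¹ : GL (Fin n) F) : Matrix (Fin n) (Fin n) F) = k := by
        rw [inv_inv]
        simp only [mul_assoc, Units.inv_mul, mul_one]
        rw [← mul_assoc, Units.inv_mul, one_mul]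
      rw [h4] at h3
      exact h3
  by_cases hA : ∃ k ∈ zcp f hf T, ∀ c : F, k ≠ c • (1 : Matrix (Fin n) (Fin n) F)
  · right; left
    obtain ⟨r, K₀, hr, hK₀, hle, hnorm⟩ := Sy.exists_prime_subfield' (zcp f hf T) hFSp hA
    have hsa : ∀ k ∈ K₀, Sy.adj f k = k := fun k hk => (hle hk).2
    exact ⟨r, K₀, hr, hK₀, fun k hk u v => by rw [adj_spec hf, hsa k hk],
      fun k hk => (hle hk).1, hHnormp.trans hnorm⟩
  have hsc : ∀ k, ZCent T k → Sy.adj f k = k → ∃ c : F, k = c • (1 : Matrix (Fin n) (Fin n) F) := by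
    intro k hk hk'
    by_contra hcon
    exact hA ⟨k, ⟨hk, hk'⟩, fun c hc => hcon ⟨c, hc⟩⟩
  right; right
  intro k₀ hk₀
  by_contra hk₀ns
  have hk₀ns' : ∀ c : F, k₀ ≠ c • (1 : Matrix (Fin n) (Fin n) F) := fun c hc => hk₀ns ⟨c, hc⟩
  -- the skew-adjoint part of `k₀`
  obtain ⟨s₀, hs₀⟩ : ∃ s₀, s₀ = k₀ - Sy.adj f k₀ := ⟨_, rfl⟩
  have hs₀Z : ZCent T s₀ := hs₀ ▸ (zc T).sub_mem hk₀ (hZadj k₀ hk₀)
  have hs₀adj : Sy.adj f s₀ = -s₀ := by rw [hs₀, Sy.adj_sub, adj_adj hf, neg_sub]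
  have hs₀0 : s₀ ≠ 0 := by
    intro h0
    rw [hs₀, sub_eq_zero] at h0
    obtain ⟨c, hc⟩ := hsc k₀ hk₀ h0.symm
    exact hk₀ns' c hc
  have hcardn : Odd (Fintype.card (Fin n)) := by rw [Fintype.card_fin]; exact hodd
  have hs₀det : s₀.det = 0 := det_skew_odd hf h2 hcardn s₀ hs₀adj
  obtain ⟨v, hv0, hMv⟩ := Matrix.exists_mulVec_eq_zero_iff.mpr hs₀det
  -- a singular element of `Z`: a pair of complementary totally singular subspaces, impossible
  have : Fact (Fintype.card (Fin n) = n) := ⟨Fintype.card_fin n⟩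
  obtain ⟨t, m, D, hD, -, hpres, hsep⟩ :=
    Helper97.Gen.exists_decomp_of_comm_stable_sep H hirr {M | ZCent T M}
      (fun a ha b hb => hZcomm a ha b hb) (fun g hg a ha => hZconj g hg a ha) s₀ hs₀Z hs₀0 v hv0 hMv
  have ht := hD.two_le
  obtain ⟨a, haZ, hkill, hinj⟩ := hsep ⟨0, by omega⟩ ⟨1, by omega⟩ (by simp [Fin.ext_iff])
  have hex : ∀ i, ∃ w ∈ D i, w ≠ 0 := by
    intro i
    have h1 := hD.finrank_eq i
    have h2' := hD.pos
    by_contra hcon
    push Not at hcon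
    have h3 : D i = ⊥ := (Submodule.eq_bot_iff _).mpr hcon
    rw [h3, finrank_bot] at h1
    omega
  obtain ⟨w0, hw0, hw00⟩ := hex ⟨0, by omega⟩
  obtain ⟨w1, hw1, hw10⟩ := hex ⟨1, by omega⟩
  obtain ⟨c₁, hc₁⟩ := hsc (Sy.adj f a * a) ((zc T).mul_mem (hZadj a haZ) haZ)
    (by rw [adj_mul hf, adj_adj hf])
  have hc₁0 : c₁ = 0 := by
    have h3 : (Sy.adj f a * a) *ᵥ w0 = 0 := by
      rw [← Matrix.mulVec_mulVec, hkill w0 hw0, Matrix.mulVec_zero]
    rw [hc₁, Matrix.smul_mulVec, Matrix.one_mulVec] at h3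
    exact (smul_eq_zero.mp h3).resolve_right hw00
  rw [hc₁0, zero_smul] at hc₁
  obtain ⟨c, hc⟩ := hsc (a + Sy.adj f a) ((zc T).add_mem haZ (hZadj a haZ))
    (by rw [Sy.adj_add, adj_adj hf, add_comm])
  have hc0 : c ≠ 0 := by
    rintro rfl
    rw [zero_smul] at hc
    have h3 : Sy.adj f a = -a := eq_neg_of_add_eq_zero_right hc
    rw [h3, neg_mul, neg_eq_zero] at hc₁
    have h4 : a *ᵥ (a *ᵥ w1) = 0 := by rw [Matrix.mulVec_mulVec, hc₁, Matrix.zero_mulVec]
    exact hw10 (hinj w1 hw1 (hinj _ (hpres a haZ _ w1 hw1) h4))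
  obtain ⟨e, hedef⟩ : ∃ e, e = c⁻¹ • a := ⟨_, rfl⟩
  have he1 : e + Sy.adj f e = 1 := by
    rw [hedef, Sy.adj_smul, ← smul_add, hc, smul_smul, inv_mul_cancel₀ hc0, one_smul]
  have he2 : Sy.adj f e * e = 0 := by
    rw [hedef, Sy.adj_smul, Matrix.smul_mul, Matrix.mul_smul, hc₁, smul_zero, smul_zero]
  have hadj : Sy.adj f e = 1 - e := eq_sub_of_add_eq' he1
  have hidem : e * e = e := by
    have h3 := he2
    rw [hadj, Matrix.sub_mul, Matrix.one_mul] at h3
    exact (sub_eq_zero.mp h3).symm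
  obtain ⟨A, hA'⟩ : ∃ A : Submodule F (Fin n → F), A = LinearMap.range (Matrix.toLin' e) := ⟨_, rfl⟩
  obtain ⟨B, hB⟩ : ∃ B : Submodule F (Fin n → F), B = LinearMap.ker (Matrix.toLin' e) := ⟨_, rfl⟩
  have memA : ∀ x, x ∈ A ↔ ∃ y, e *ᵥ y = x := by
    intro x
    rw [hA', LinearMap.mem_range]
    simp only [Matrix.toLin'_apply]
  have memB : ∀ x, x ∈ B ↔ e *ᵥ x = 0 := by
    intro x
    rw [hB, LinearMap.mem_ker, Matrix.toLin'_apply]
  have hAts : IsTotallySingularFor f A := by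
    intro u hu v hv
    obtain ⟨y, rfl⟩ := (memA u).mp hu
    obtain ⟨z, rfl⟩ := (memA v).mp hv
    rw [adj_spec hf, Matrix.mulVec_mulVec, he2, Matrix.zero_mulVec, zero_right hf]
  have hBts : IsTotallySingularFor f B := by
    intro u hu v hv
    have h1 : Sy.adj f e *ᵥ u = u := by
      rw [hadj, Matrix.sub_mulVec, Matrix.one_mulVec, (memB u).mp hu, sub_zero]
    rw [← h1, ← adj_spec' hf, (memB v).mp hv, zero_right hf]
  have hrn := LinearMap.finrank_range_add_finrank_ker (Matrix.toLin' e)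
  rw [← hA', ← hB, Module.finrank_fintype_fun_eq_card, Fintype.card_fin] at hrn
  have hA2 := finrank_ts hf A hAts
  have hB2 := finrank_ts hf B hBts
  rw [Fintype.card_fin] at hA2 hB2
  obtain ⟨j, hj⟩ := hodd
  omega

end Cfsg.Agent.Helper94.OA
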