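-- helper94 library: the centre of the centraliser of a normal subgroup of an irreducible group of
-- isometries of a quadratic form in odd characteristic, ANY dimension (piece ZAO of CALL S5874;
-- the even-dimensional ending of `OA2.z_analysis`).
import Cfsg.Agent.Helper94.OA2
import Cfsg.Agent.Helper97.OForm

set_option autoImplicit false
set_option linter.unusedSectionVars false
set_option linter.unusedVariables false
open Cfsg Cfsg.Geo Matrix
open Cfsg.Agent.Helper96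

namespace Cfsg.Agent.Helper94.OA

variable {F : Type*} [Field F]

/-- The analysis of the centre `Z` of the centraliser of a normal subgroup `N` of an irreducible
group `H` of isometries of a quadratic form, odd characteristic, any dimension. -/
theorem o12_z_odd [Fintype F] (h2 : (2 : F) ≠ 0) {n : ℕ} (hn : 2 ≤ n) (Q : (Fin n → F) → F)
    (hQ : IsNondegenerateQuadraticForm Q) (H N : Subgroup (GL (Fin n) F))
    (hH : ∀ h ∈ H, ∀ x, Q ((h : Matrix (Fin n) (Fin n) F) *ᵥ x) = Q x)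
    (hirr : ActsIrreducibly (matrixSet H)) (hNH : N ≤ H)
    (hNn : ∀ h ∈ H, ∀ x ∈ N, h * x * h⁻¹ ∈ N) :
    (∃ (t k : ℕ) (D : Fin t → Submodule F (Fin n → F)),
      IsNondegenerateMDecomposition (QuadraticMap.polar Q) k D ∧ H ≤ decompositionStabilizer D) ∨
    (∃ (r : ℕ) (K : Subalgebra F (Matrix (Fin n) (Fin n) F)), r.Prime ∧ IsFieldSubalgebra r K ∧
      H ≤ subalgebraNormalizer K) ∨
    IsPlusTypeOn Q ⊤ ∨
    (∀ k, Cfsg.Agent.Helper96.ZCent (matrixSet N) k →
      ∃ c : F, k = c • (1 : Matrix (Fin n) (Fin n) F)) := by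
  classical
  obtain ⟨f, hfdef⟩ : ∃ f, f = QuadraticMap.polar Q := ⟨_, rfl⟩
  have hf : IsSymmetricForm f :=
    hfdef ▸ ⟨hQ.polar_bilinear, fun u v => QuadraticMap.polar_comm Q u v, hQ.nondegenerate⟩
  have hH' : H ≤ Sy.isoSub f := by
    intro g hg
    rw [Sy.mem_isoSub, hfdef]
    exact Helper97.Gen.polar_isometry ((Helper97.Gen.mem_isometryGroup_iff Q g).mpr (hH g hg))
  have hQf : ∀ x, f x x = 0 → Q x = 0 := by
    intro x hx
    have h1 : QuadraticMap.polar Q x x = 2 * Q x := by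
      unfold QuadraticMap.polar
      have h3 : x + x = (2 : F) • x := (two_smul F x).symm
      rw [h3, hQ.smul]
      ring
    rw [hfdef, h1] at hx
    exact (mul_eq_zero.mp hx).resolve_left h2
  rw [← hfdef]
  have hH := hH'
  have hne : NeZero n := ⟨by omega⟩
  obtain ⟨T, hT⟩ : ∃ T, T = matrixSet N := ⟨_, rfl⟩
  rw [← hT]
  have hconj1 : ∀ g ∈ H, ∀ s ∈ T, (g : Matrix (Fin n) (Fin n) F) * s *
      ((g⁻¹ : GL (Fin n) F) : Matrix (Fin n) (Fin n) F) ∈ T := by
    intro g hg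
    rw [hT]
    exact matrixSet_conj N g (hNn g hg)
  have hconj2 : ∀ g ∈ H, ∀ s ∈ T, ((g⁻¹ : GL (Fin n) F) : Matrix (Fin n) (Fin n) F) * s *
      (g : Matrix (Fin n) (Fin n) F) ∈ T := by
    intro g hg
    rw [hT]
    have := matrixSet_conj N g⁻¹ (hNn g⁻¹ (H.inv_mem hg))
    simpa using this
  have hiso : Sy.IsoSet f T := by
    intro s hs
    rw [hT] at hs ⊢
    obtain ⟨x, hx, rfl⟩ := hs
    exact ⟨x, hH (hNH hx), rfl, Helper97.coe_mem_matrixSet (N.inv_mem hx)⟩
  have hZconj : ∀ g ∈ H, ∀ a, ZCent T a → ZCent T ((g : Matrix (Fin n) (Fin n) F) * a *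
      ((g⁻¹ : GL (Fin n) F) : Matrix (Fin n) (Fin n) F)) :=
    fun g hg a ha => zcent_conj T g (hconj2 g hg) (hconj1 g hg) a ha
  have hZadj : ∀ a, ZCent T a → ZCent T (Sy.adj f a) := fun a ha => zcent_adj hf hiso ha
  have hZcomm : ∀ a, ZCent T a → ∀ b, ZCent T b → a * b = b * a := fun a ha b hb => ha.2 b hb.1
  by_cases hD1 : ∃ M, (ZCent T M ∧ Sy.adj f M = M) ∧ M ≠ 0 ∧ ∃ v : Fin n → F, v ≠ 0 ∧ M *ᵥ v = 0
  · left
    obtain ⟨M, hM, hM0, v, hv0, hMv⟩ := hD1
    exact nondeg_decomp hf H hH hirr {M | ZCent T M ∧ Sy.adj f M = M}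
      (fun a ha b hb => hZcomm a ha.1 b hb.1)
      (fun g hg a ha => ⟨hZconj g hg a ha.1, by rw [adj_conj hf (hH hg), ha.2]⟩)
      (fun a ha => ha.2) M hM hM0 v hv0 hMv
  have hZp : ∀ M, ZCent T M → Sy.adj f M = M → M ≠ 0 → ∀ v : Fin n → F, M *ᵥ v = 0 → v = 0 := by
    intro M hM hM' hM0 v hv
    by_contra hv0
    exact hD1 ⟨M, ⟨hM, hM'⟩, hM0, v, hv0, hv⟩
  have hFSp : Helper98.IsFS (zcp f hf T) := by
    constructor
    · intro x hx y hy
      exact hZcomm x hx.1 y hy.1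
    · intro x hx hx0
      have hdet : x.det ≠ 0 := Helper97.det_ne_zero_of_injective x (hZp x hx.1 hx.2 hx0)
      have hu : IsUnit x.det := isUnit_iff_ne_zero.mpr hdet
      refine ⟨x⁻¹, ⟨⟨fun s hs => inv_comm_of_comm x s hdet (hx.1.1 s hs),
        fun c hc => inv_comm_of_comm x c hdet (hx.1.2 c hc)⟩, ?_⟩, Matrix.mul_nonsing_inv x hu⟩
      have h1 : Sy.adj f x⁻¹ * x = 1 := by
        have h2 := adj_mul hf x x⁻¹
        rw [Matrix.mul_nonsing_inv x hu, adj_one hf, hx.2] at h2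
        exact h2.symm
      exact (Matrix.inv_eq_left_inv h1).symm
  have hpconj : ∀ g ∈ H, ∀ k, k ∈ zcp f hf T → (g : Matrix (Fin n) (Fin n) F) * k *
      ((g⁻¹ : GL (Fin n) F) : Matrix (Fin n) (Fin n) F) ∈ zcp f hf T :=
    fun g hg k hk => ⟨hZconj g hg k hk.1, by rw [adj_conj hf (hH hg), hk.2]⟩
  have hHnormp : H ≤ subalgebraNormalizer (zcp f hf T) := by
    intro g hg k
    constructor
    · exact hpconj g hg k
    · intro hk
      have h3 := hpconj g⁻¹ (H.inv_mem hg) _ hk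
      have h4 : ((g⁻¹ : GL (Fin n) F) : Matrix (Fin n) (Fin n) F) * ((g : Matrix (Fin n) (Fin n) F) * k *
          ((g⁻¹ : GL (Fin n) F) : Matrix (Fin n) (Fin n) F)) *
          (((g⁻¹)⁻¹ : GL (Fin n) F) : Matrix (Fin n) (Fin n) F) = k := by
        rw [inv_inv]
        simp only [mul_assoc, Units.inv_mul, mul_one]
        rw [← mul_assoc, Units.inv_mul, one_mul]
      rw [h4] at h3
      exact h3
  by_cases hA : ∃ k ∈ zcp f hf T, ∀ c : F, k ≠ c • (1 : Matrix (Fin n) (Fin n) F)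
  · right; left
    obtain ⟨r, K₀, hr, hK₀, hle, hnorm⟩ := Sy.exists_prime_subfield' (zcp f hf T) hFSp hA
    have hsa : ∀ k ∈ K₀, Sy.adj f k = k := fun k hk => (hle hk).2
    exact ⟨r, K₀, hr, hK₀, hHnormp.trans hnorm⟩
  have hsc : ∀ k, ZCent T k → Sy.adj f k = k → ∃ c : F, k = c • (1 : Matrix (Fin n) (Fin n) F) := by
    intro k hk hk'
    by_contra hcon
    exact hA ⟨k, ⟨hk, hk'⟩, fun c hc => hcon ⟨c, hc⟩⟩
  by_cases hsing : ∃ M, ZCent T M ∧ M ≠ 0 ∧ ∃ v : Fin n → F, v ≠ 0 ∧ M *ᵥ v = 0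
  · -- a singular element of `Z`: a pair of complementary totally singular subspaces
    right; right; left
    obtain ⟨s₀, hs₀Z, hs₀0, v, hv0, hMv⟩ := hsing
    have : Fact (Fintype.card (Fin n) = n) := ⟨Fintype.card_fin n⟩
    obtain ⟨t, m, D, hD, -, hpres, hsep⟩ :=
      Helper97.Gen.exists_decomp_of_comm_stable_sep H hirr {M | ZCent T M}
        (fun a ha b hb => hZcomm a ha b hb) (fun g hg a ha => hZconj g hg a ha) s₀ hs₀Z hs₀0 v hv0 hMv
    have ht := hD.two_le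
    obtain ⟨a, haZ, hkill, hinj⟩ := hsep ⟨0, by omega⟩ ⟨1, by omega⟩ (by simp [Fin.ext_iff])
    have hex : ∀ i, ∃ w ∈ D i, w ≠ 0 := by
      intro i
      have h1 := hD.finrank_eq i
      have h2' := hD.pos
      by_contra hcon
      push Not at hcon
      have h3 : D i = ⊥ := (Submodule.eq_bot_iff _).mpr hcon
      rw [h3, finrank_bot] at h1
      omega
    obtain ⟨w0, hw0, hw00⟩ := hex ⟨0, by omega⟩
    obtain ⟨w1, hw1, hw10⟩ := hex ⟨1, by omega⟩
    obtain ⟨c₁, hc₁⟩ := hsc (Sy.adj f a * a) ((zc T).mul_mem (hZadj a haZ) haZ)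
      (by rw [adj_mul hf, adj_adj hf])
    have hc₁0 : c₁ = 0 := by
      have h3 : (Sy.adj f a * a) *ᵥ w0 = 0 := by
        rw [← Matrix.mulVec_mulVec, hkill w0 hw0, Matrix.mulVec_zero]
      rw [hc₁, Matrix.smul_mulVec, Matrix.one_mulVec] at h3
      exact (smul_eq_zero.mp h3).resolve_right hw00
    rw [hc₁0, zero_smul] at hc₁
    obtain ⟨c, hc⟩ := hsc (a + Sy.adj f a) ((zc T).add_mem haZ (hZadj a haZ))
      (by rw [Sy.adj_add, adj_adj hf, add_comm])
    have hc0 : c ≠ 0 := by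
      rintro rfl
      rw [zero_smul] at hc
      have h3 : Sy.adj f a = -a := eq_neg_of_add_eq_zero_right hc
      rw [h3, neg_mul, neg_eq_zero] at hc₁
      have h4 : a *ᵥ (a *ᵥ w1) = 0 := by rw [Matrix.mulVec_mulVec, hc₁, Matrix.zero_mulVec]
      exact hw10 (hinj w1 hw1 (hinj _ (hpres a haZ _ w1 hw1) h4))
    obtain ⟨e, hedef⟩ : ∃ e, e = c⁻¹ • a := ⟨_, rfl⟩
    have he1 : e + Sy.adj f e = 1 := by
      rw [hedef, Sy.adj_smul, ← smul_add, hc, smul_smul, inv_mul_cancel₀ hc0, one_smul]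
    have he2 : Sy.adj f e * e = 0 := by
      rw [hedef, Sy.adj_smul, Matrix.smul_mul, Matrix.mul_smul, hc₁, smul_zero, smul_zero]
    have hadj : Sy.adj f e = 1 - e := eq_sub_of_add_eq' he1
    have hidem : e * e = e := by
      have h3 := he2
      rw [hadj, Matrix.sub_mul, Matrix.one_mul] at h3
      exact (sub_eq_zero.mp h3).symm
    obtain ⟨A, hA'⟩ : ∃ A : Submodule F (Fin n → F), A = LinearMap.range (Matrix.toLin' e) := ⟨_, rfl⟩
    obtain ⟨B, hB⟩ : ∃ B : Submodule F (Fin n → F), B = LinearMap.ker (Matrix.toLin' e) := ⟨_, rfl⟩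
    have memA : ∀ x, x ∈ A ↔ ∃ y, e *ᵥ y = x := by
      intro x
      rw [hA', LinearMap.mem_range]
      simp only [Matrix.toLin'_apply]
    have memB : ∀ x, x ∈ B ↔ e *ᵥ x = 0 := by
      intro x
      rw [hB, LinearMap.mem_ker, Matrix.toLin'_apply]
    have hAts : IsTotallySingularFor f A := by
      intro u hu v hv
      obtain ⟨y, rfl⟩ := (memA u).mp hu
      obtain ⟨z, rfl⟩ := (memA v).mp hv
      rw [adj_spec hf, Matrix.mulVec_mulVec, he2, Matrix.zero_mulVec, zero_right hf]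
    have hBts : IsTotallySingularFor f B := by
      intro u hu v hv
      have h1 : Sy.adj f e *ᵥ u = u := by
        rw [hadj, Matrix.sub_mulVec, Matrix.one_mulVec, (memB u).mp hu, sub_zero]
      rw [← h1, ← adj_spec' hf, (memB v).mp hv, zero_right hf]
    have hrn := LinearMap.finrank_range_add_finrank_ker (Matrix.toLin' e)
    rw [← hA', ← hB, Module.finrank_fintype_fun_eq_card, Fintype.card_fin] at hrn
    have hA2 := finrank_ts hf A hAts
    have hB2 := finrank_ts hf B hBts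
    rw [Fintype.card_fin] at hA2 hB2
    refine ⟨A, le_top, fun w hw => hQf w (hAts w hw w hw), ?_⟩
    rw [finrank_top, Module.finrank_fintype_fun_eq_card, Fintype.card_fin]
    omega
  by_cases hns : ∃ k₀, ZCent T k₀ ∧ ∀ c : F, k₀ ≠ c • (1 : Matrix (Fin n) (Fin n) F)
  · -- `Z` is a field
    right; left
    obtain ⟨k₀, hk₀, hk₀ns⟩ := hns
    have hFS : Helper98.IsFS (zc T) := isFS_zc T (fun M hM hM0 v hv => by
      by_contra hv0
      exact hsing ⟨M, hM, hM0, v, hv0, hv⟩)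
    obtain ⟨r, K₀, hr, hK₀, hle, hnorm⟩ := Sy.exists_prime_subfield' (zc T) hFS ⟨k₀, hk₀, hk₀ns⟩
    have hHnorm : H ≤ subalgebraNormalizer (zc T) := hT ▸ le_normalizer_zc H N hNn
    exact ⟨r, K₀, hr, hK₀, hHnorm.trans hnorm⟩
  · right; right; right
    intro k hk
    by_contra hcon
    exact hns ⟨k, hk, fun c hc => hcon ⟨c, hc⟩⟩

end Cfsg.Agent.Helper94.OA
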