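-- helper94 library: the Gram matrix of a symmetric bilinear form in tensor coordinates (copy-adaptation
-- of helper96's `Helper96/SpTensor.lean` for `IsSymmetricForm`), and the tensor case in odd dimension.
import Cfsg.Agent.Helper94.OA2

set_option autoImplicit false
set_option linter.unusedSectionVars false
set_option linter.unusedVariables false
open Cfsg Cfsg.Geo Matrix
open Cfsg.Agent.Helper96
open scoped Kronecker

namespace Cfsg.Agent.Helper94.OA

variable {F : Type*} [Field F] {n : ℕ} {f : (Fin n → F) → (Fin n → F) → F}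

theorem gram_iso (hf : IsSymmetricForm f) {g : GL (Fin n) F} (hg : g ∈ Sy.isoSub f) :
    (g : Matrix (Fin n) (Fin n) F)ᵀ * Helper97.Gen.gram f * (g : Matrix (Fin n) (Fin n) F)
      = Helper97.Gen.gram f := by
  have h1 := (Helper97.Gen.isSesq_of_bilinear hf.bilinear).gram_of_similar
    (g : Matrix (Fin n) (Fin n) F) 1 (fun u v => by rw [one_mul]; exact Sy.iso_apply hg u v)
  rwa [one_smul, Sy.map_refl'] at h1

theorem gram_conj_apply (hf : IsSymmetricForm f) (P : Matrix (Fin n) (Fin n) F) (i j : Fin n) :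
    (Pᵀ * Helper97.Gen.gram f * P) i j = f (P *ᵥ Pi.single i 1) (P *ᵥ Pi.single j 1) := by
  have h1 := (Helper97.Gen.isSesq_of_bilinear hf.bilinear).gram_mul P i j
  rwa [Sy.map_refl'] at h1

/-- An antisymmetric matrix of odd size is singular (odd characteristic). -/
theorem det_antisymm_odd (h2 : (2 : F) ≠ 0) {d : ℕ} (hd : Odd d) (B : Matrix (Fin d) (Fin d) F)
    (hB : Bᵀ = -B) : B.det = 0 := by
  have h1 := Matrix.det_transpose B
  rw [hB, Matrix.det_neg, Fintype.card_fin, hd.neg_one_pow] at h1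
  have h3 : (2 : F) * B.det = 0 := by linear_combination -h1
  exact (mul_eq_zero.mp h3).resolve_left h2

/-- The Gram matrix of a symmetric form preserved by a group with tensor coordinates. -/
theorem tensor_gram (hf : IsSymmetricForm f) {N : Subgroup (GL (Fin n) F)} {d k : ℕ}
    {e : Fin n ≃ Fin d × Fin k} {P : GL (Fin n) F}
    {ρ : Matrix (Fin n) (Fin n) F → Matrix (Fin d) (Fin d) F} (D : TensorData N d k e P ρ)
    (hN : N ≤ Sy.isoSub f) :
    ∃ (B₁ : Matrix (Fin d) (Fin d) F) (C : Matrix (Fin k) (Fin k) F),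
      Helper97.Gen.gram f = formOf e P (B₁ ⊗ₖ C) ∧ B₁.det ≠ 0 ∧ C.det ≠ 0 ∧
      (B₁ᵀ = B₁ ∧ Cᵀ = C ∨ B₁ᵀ = -B₁ ∧ Cᵀ = -C) ∧
      (∀ s ∈ matrixSet N, (ρ s)ᵀ * B₁ * ρ s = B₁) := by
  classical
  obtain ⟨G, hG⟩ : ∃ G, G = Helper97.Gen.gram f := ⟨_, rfl⟩
  obtain ⟨X₀, hX₀⟩ : ∃ X₀, X₀ = Matrix.reindexAlgEquiv F F e
      ((P : Matrix (Fin n) (Fin n) F)ᵀ * G * (P : Matrix (Fin n) (Fin n) F)) := ⟨_, rfl⟩
  have hGX : G = formOf e P X₀ := by rw [hX₀, Sy.formOf_reindex]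
  have hX₀apply : ∀ i j, X₀ i j = f ((P : Matrix (Fin n) (Fin n) F) *ᵥ Pi.single (e.symm i) 1)
      ((P : Matrix (Fin n) (Fin n) F) *ᵥ Pi.single (e.symm j) 1) := by
    intro i j
    rw [hX₀, hG, ← gram_conj_apply hf]
    simp [Matrix.coe_reindexAlgEquiv]
  obtain ⟨R, hR⟩ : ∃ R, R = ρ '' matrixSet N := ⟨_, rfl⟩
  have habs : ActsAbsolutelyIrreducibly R := hR ▸ D.absIrred_image
  have hinv : ∀ x ∈ R, ∃ y ∈ R, x * y = 1 ∧ y * x = 1 := by
    intro x hx
    rw [hR] at hx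
    obtain ⟨s, hs, rfl⟩ := hx
    obtain ⟨g, hg, rfl⟩ := hs
    have hs' : ((g⁻¹ : GL (Fin n) F) : Matrix (Fin n) (Fin n) F) ∈ matrixSet N :=
      Helper97.coe_mem_matrixSet (N.inv_mem hg)
    refine ⟨ρ ((g⁻¹ : GL (Fin n) F) : Matrix (Fin n) (Fin n) F), by rw [hR]; exact ⟨_, hs', rfl⟩, ?_, ?_⟩
    · apply kron_one_injective D.hk
      apply Helper98.conjReindex_injective e P
      rw [← mul_one (1 : Matrix (Fin k) (Fin k) F), Matrix.mul_kronecker_mul, map_mul,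
        ← D.eq _ (Helper97.coe_mem_matrixSet hg), ← D.eq _ hs', mul_one, Matrix.one_kronecker_one,
        map_one, ← Units.val_mul, mul_inv_cancel, Units.val_one]
    · apply kron_one_injective D.hk
      apply Helper98.conjReindex_injective e P
      rw [← mul_one (1 : Matrix (Fin k) (Fin k) F), Matrix.mul_kronecker_mul, map_mul,
        ← D.eq _ (Helper97.coe_mem_matrixSet hg), ← D.eq _ hs', mul_one, Matrix.one_kronecker_one,
        map_one, ← Units.val_mul, inv_mul_cancel, Units.val_one]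
  have hXinv : ∀ s ∈ matrixSet N, (ρ s ⊗ₖ (1 : Matrix (Fin k) (Fin k) F))ᵀ * X₀ *
      (ρ s ⊗ₖ (1 : Matrix (Fin k) (Fin k) F)) = X₀ := by
    intro s hs
    obtain ⟨g, hg, rfl⟩ := hs
    have h1 := gram_iso hf (hN hg)
    rw [← hG, hGX] at h1
    nth_rewrite 1 [D.eq _ (Helper97.coe_mem_matrixSet hg)] at h1
    nth_rewrite 2 [D.eq _ (Helper97.coe_mem_matrixSet hg)] at h1
    rw [Sy.formOf_mul] at h1
    exact Sy.formOf_inj e P h1
  have hblk : ∀ b b' : Fin k, ∀ x ∈ R,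
      xᵀ * (Matrix.of fun a a' => X₀ (a, b) (a', b') : Matrix (Fin d) (Fin d) F) * x
        = (Matrix.of fun a a' => X₀ (a, b) (a', b') : Matrix (Fin d) (Fin d) F) := by
    intro b b' x hx
    rw [hR] at hx
    obtain ⟨s, hs, rfl⟩ := hx
    ext a a'
    rw [← Sy.block_form_apply, hXinv s hs]
    rfl
  have hGdet : G.det ≠ 0 := hG ▸ det_gram_ne_zero hf
  have hPdet : (P : Matrix (Fin n) (Fin n) F).det ≠ 0 := (Matrix.GeneralLinearGroup.det P).ne_zero
  have hX₀det : X₀.det ≠ 0 := by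
    rw [hX₀, Matrix.det_reindexAlgEquiv, Matrix.det_mul, Matrix.det_mul, Matrix.det_transpose]
    exact mul_ne_zero (mul_ne_zero hPdet hGdet) hPdet
  have hex : ∃ b₀ b₀' : Fin k,
      (Matrix.of fun a a' => X₀ (a, b₀) (a', b₀') : Matrix (Fin d) (Fin d) F) ≠ 0 := by
    by_contra hcon
    push Not at hcon
    apply hX₀det
    have h0 : X₀ = 0 := by
      ext ⟨a, b⟩ ⟨a', b'⟩
      exact congrFun (congrFun (hcon b b') a) a'
    rw [h0]
    haveI : Nonempty (Fin d × Fin k) := ⟨(⟨0, D.hd⟩, ⟨0, D.hk⟩)⟩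
    exact Matrix.det_zero
  obtain ⟨b₀, b₀', hB₁0⟩ := hex
  obtain ⟨B₁, hB₁⟩ : ∃ B₁ : Matrix (Fin d) (Fin d) F,
      B₁ = Matrix.of fun a a' => X₀ (a, b₀) (a', b₀') := ⟨_, rfl⟩
  rw [← hB₁] at hB₁0
  have hB₁fix : ∀ x ∈ R, xᵀ * B₁ * x = B₁ := hB₁ ▸ hblk b₀ b₀'
  obtain ⟨hB₁det, hprop⟩ := Sy.inv_form_set R habs hinv B₁ hB₁0 hB₁fix
  choose C hC using fun b b' => hprop _ (hblk b b')
  have hXBC : X₀ = B₁ ⊗ₖ (Matrix.of C : Matrix (Fin k) (Fin k) F) := by
    ext ⟨a, b⟩ ⟨a', b'⟩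
    have h1 := congrFun (congrFun (hC b b') a) a'
    rw [Matrix.kronecker_apply, Matrix.of_apply, mul_comm]
    exact h1
  have hCdet : (Matrix.of C : Matrix (Fin k) (Fin k) F).det ≠ 0 := by
    intro h0
    apply hX₀det
    rw [hXBC, Matrix.det_kronecker, h0, Fintype.card_fin, Fintype.card_fin,
      zero_pow (by have := D.hd; omega), mul_zero]
  have hX₀t : X₀ᵀ = X₀ := by
    ext i j
    rw [Matrix.transpose_apply, hX₀apply, hX₀apply, hf.symm]
  have hsym := Sy.inv_form_symm R habs hinv B₁ hB₁0 hB₁fix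
  have hkt : B₁ᵀ ⊗ₖ (Matrix.of C : Matrix (Fin k) (Fin k) F)ᵀ
      = B₁ ⊗ₖ (Matrix.of C : Matrix (Fin k) (Fin k) F) := by
    rw [← kron_transpose, ← hXBC, hX₀t]
  refine ⟨B₁, Matrix.of C, by rw [← hG, hGX, hXBC], hB₁det, hCdet, ?_, ?_⟩
  · rcases hsym with h | h
    · left
      refine ⟨h, ?_⟩
      rw [h] at hkt
      exact Sy.kron_left_cancel B₁ hB₁0 hkt
    · right
      refine ⟨h, ?_⟩
      rw [h, kron_neg_left, ← kron_neg_right] at hkt
      have h5 := Sy.kron_left_cancel B₁ hB₁0 hkt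
      exact neg_eq_iff_eq_neg.mp h5
  · intro s hs
    exact hB₁fix _ (by rw [hR]; exact ⟨s, hs, rfl⟩)

/-- The tensor form structure attached to a Gram matrix in tensor coordinates. -/
theorem tensor_form_structure (hf : IsSymmetricForm f) {n₁ n₂ : ℕ} (e : Fin n ≃ Fin n₁ × Fin n₂)
    (P : GL (Fin n) F) (A : Matrix (Fin n₁) (Fin n₁) F) (S : Matrix (Fin n₂) (Fin n₂) F)
    (hG : Helper97.Gen.gram f = formOf e P (A ⊗ₖ S)) :
    IsTensorFormStructure id f (bf A) (bf S) e P := by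
  refine ⟨1, one_ne_zero, fun x y => ?_⟩
  rw [one_mul, Sy.gramMatrix_bf, Sy.gramMatrix_bf]
  have h1 := (Helper97.Gen.isSesq_of_bilinear hf.bilinear).apply_mulVec (P : Matrix (Fin n) (Fin n) F)
    (x ∘ e) (y ∘ e)
  rw [h1, Sy.map_refl', hG, formOf_conj]
  simp only [formOfGram, dotProduct, Matrix.mulVec, Matrix.coe_reindexAlgEquiv, Matrix.reindex_apply,
    Matrix.submatrix_apply, Equiv.symm_symm, Function.comp_apply, RingEquiv.refl_apply, id]
  rw [← Equiv.sum_comp e]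
  apply Finset.sum_congr rfl
  intro i _
  rw [Finset.mul_sum, ← Equiv.sum_comp e]
  apply Finset.sum_congr rfl
  intro j _
  ring

/-- The tensor case in odd dimension: symmetric Gram factors and containment in the tensor product
subgroup. -/
theorem tensor_cases [Fintype F] (h2 : (2 : F) ≠ 0) (hodd : Odd n) (hf : IsSymmetricForm f)
    (H N : Subgroup (GL (Fin n) F))
    (hH : H ≤ Sy.isoSub f) (hNH : N ≤ H)
    (hNn : ∀ h ∈ H, ∀ x ∈ N, h * x * h⁻¹ ∈ N) {d k : ℕ} {e : Fin n ≃ Fin d × Fin k}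
    {P : GL (Fin n) F} {ρ : Matrix (Fin n) (Fin n) F → Matrix (Fin d) (Fin d) F}
    (D : TensorData N d k e P ρ) :
    Odd d ∧ Odd k ∧ ∃ (B₁ : Matrix (Fin d) (Fin d) F) (C : Matrix (Fin k) (Fin k) F),
      B₁ᵀ = B₁ ∧ Cᵀ = C ∧ B₁.det ≠ 0 ∧ C.det ≠ 0 ∧
      Helper97.Gen.gram f = formOf e P (B₁ ⊗ₖ C) ∧ H ≤ tensorProductSubgroup d k e P := by
  classical
  have hle : H ≤ tensorProductSubgroup d k e P := by
    intro h hh
    refine D.normalizer_mem h (hNn h hh) ?_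
    have := hNn h⁻¹ (H.inv_mem hh)
    simpa using this
  have hdk : d * k = n := D.card_eq
  have hdo : Odd d := by
    rw [← hdk] at hodd
    exact (Nat.odd_mul.mp hodd).1
  have hko : Odd k := by
    rw [← hdk] at hodd
    exact (Nat.odd_mul.mp hodd).2
  obtain ⟨B₁, C, hG, hB₁det, hCdet, hsym, hB₁fix⟩ := tensor_gram hf D (hNH.trans hH)
  refine ⟨hdo, hko, B₁, C, ?_, ?_, hB₁det, hCdet, hG, hle⟩
  · rcases hsym with h | h
    · exact h.1
    · exact absurd (det_antisymm_odd h2 hdo B₁ h.1) hB₁det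
  · rcases hsym with h | h
    · exact h.2
    · exact absurd (det_antisymm_odd h2 hdo B₁ h.1) hB₁det

end Cfsg.Agent.Helper94.OA
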