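-- helper94 library: refined analysis of the centre `Z` of the centraliser of a normal subgroup `N` of
-- an irreducible group of isometries of a quadratic form, all characteristics: a non-degenerate
-- decomposition, a pair of complementary totally singular subspaces, `Z` a self-adjoint field,
-- `Z` a field of degree two over its self-adjoint part (with the similarity property), or `Z` scalar.
import Cfsg.Agent.Helper94.OAE
import Cfsg.Agent.Helper95.O12Core

set_option autoImplicit false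
set_option linter.unusedSectionVars false
set_option linter.unusedVariables false
open Cfsg Cfsg.Geo Matrix
open Cfsg.Agent.Helper96

namespace Cfsg.Agent.Helper94.O10

open Cfsg.Agent.Helper94.OA

variable {F : Type*} [Field F] {n : ℕ}

/-- An idempotent `e` with `e* = 1 - e` (for a symmetric form), conjugated to itself or its
complement, gives the pair `(range e, ker e)` of complementary totally isotropic subspaces. -/
theorem pair_of_idem_sym {f : (Fin n → F) → (Fin n → F) → F} (hn : 0 < n)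
    (hf : IsSymmetricForm f) (H : Subgroup (GL (Fin n) F))
    (e : Matrix (Fin n) (Fin n) F) (he1 : e + Sy.adj f e = 1) (he2 : Sy.adj f e * e = 0)
    (hconj : ∀ h ∈ H,
      (h : Matrix (Fin n) (Fin n) F) * e * ((h⁻¹ : GL (Fin n) F) : Matrix (Fin n) (Fin n) F) = e ∨
      (h : Matrix (Fin n) (Fin n) F) * e * ((h⁻¹ : GL (Fin n) F) : Matrix (Fin n) (Fin n) F) = 1 - e) :
    ∃ k : ℕ, IsMDecomposition k
        (Sy.pairD (LinearMap.range (Matrix.toLin' e)) (LinearMap.ker (Matrix.toLin' e))) ∧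
      H ≤ decompositionStabilizer
        (Sy.pairD (LinearMap.range (Matrix.toLin' e)) (LinearMap.ker (Matrix.toLin' e))) := by
  have hadj : Sy.adj f e = 1 - e := eq_sub_of_add_eq' he1
  have hidem : e * e = e := by
    rw [hadj, Matrix.sub_mul, Matrix.one_mul] at he2
    exact (sub_eq_zero.mp he2).symm
  obtain ⟨A, hA⟩ : ∃ A : Submodule F (Fin n → F), A = LinearMap.range (Matrix.toLin' e) := ⟨_, rfl⟩
  obtain ⟨B, hB⟩ : ∃ B : Submodule F (Fin n → F), B = LinearMap.ker (Matrix.toLin' e) := ⟨_, rfl⟩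
  rw [← hA, ← hB]
  have memA : ∀ x, x ∈ A ↔ ∃ y, e *ᵥ y = x := by
    intro x
    rw [hA, LinearMap.mem_range]
    simp only [Matrix.toLin'_apply]
  have memB : ∀ x, x ∈ B ↔ e *ᵥ x = 0 := by
    intro x
    rw [hB, LinearMap.mem_ker, Matrix.toLin'_apply]
  have hAts : IsTotallySingularFor f A := by
    intro u hu v hv
    obtain ⟨y, rfl⟩ := (memA u).mp hu
    obtain ⟨z, rfl⟩ := (memA v).mp hv
    rw [adj_spec hf, Matrix.mulVec_mulVec, he2, Matrix.zero_mulVec, zero_right hf]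
  have hBts : IsTotallySingularFor f B := by
    intro u hu v hv
    have h1 : Sy.adj f e *ᵥ u = u := by
      rw [hadj, Matrix.sub_mulVec, Matrix.one_mulVec, (memB u).mp hu, sub_zero]
    rw [← h1, ← adj_spec' hf, (memB v).mp hv, zero_right hf]
  have hinf : A ⊓ B = ⊥ := by
    rw [Submodule.eq_bot_iff]
    rintro x ⟨hxA, hxB⟩
    obtain ⟨y, rfl⟩ := (memA x).mp hxA
    have h1 := (memB _).mp hxB
    rwa [Matrix.mulVec_mulVec, hidem] at h1
  have hsup : A ⊔ B = ⊤ := by
    rw [eq_top_iff]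
    intro x _
    have h1 : x = e *ᵥ x + (x - e *ᵥ x) := by abel
    rw [h1]
    refine Submodule.add_mem_sup ((memA _).mpr ⟨x, rfl⟩) ((memB _).mpr ?_)
    rw [Matrix.mulVec_sub, Matrix.mulVec_mulVec, hidem, sub_self]
  have hrn := LinearMap.finrank_range_add_finrank_ker (Matrix.toLin' e)
  rw [← hA, ← hB, Module.finrank_fintype_fun_eq_card, Fintype.card_fin] at hrn
  have hA2 := finrank_ts hf A hAts
  have hB2 := finrank_ts hf B hBts
  rw [Fintype.card_fin] at hA2 hB2
  obtain ⟨k, hk⟩ : ∃ k, Module.finrank F A = k := ⟨_, rfl⟩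
  have hkB : Module.finrank F B = k := by omega
  have hkpos : 0 < k := by omega
  refine ⟨k, Sy.pair_decomp A B hinf hsup k hk hkB hkpos, ?_⟩
  intro h hh
  rcases hconj h hh with hc | hc
  · have hcm : (h : Matrix (Fin n) (Fin n) F) * e = e * (h : Matrix (Fin n) (Fin n) F) := by
      have h1 := congrArg (fun M => M * (h : Matrix (Fin n) (Fin n) F)) hc
      simp only [mul_assoc, Units.inv_mul, mul_one] at h1
      exact h1
    refine Sy.pair_stab_fix A B k hk hkB h ?_ ?_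
    · intro x hx
      obtain ⟨y, rfl⟩ := (memA x).mp hx
      rw [Matrix.mulVec_mulVec, hcm, ← Matrix.mulVec_mulVec]
      exact (memA _).mpr ⟨_, rfl⟩
    · intro x hx
      rw [memB, Matrix.mulVec_mulVec, ← hcm, ← Matrix.mulVec_mulVec, (memB x).mp hx,
        Matrix.mulVec_zero]
  · have hcm : (h : Matrix (Fin n) (Fin n) F) * e = (1 - e) * (h : Matrix (Fin n) (Fin n) F) := by
      have h1 := congrArg (fun M => M * (h : Matrix (Fin n) (Fin n) F)) hc
      simp only [mul_assoc, Units.inv_mul, mul_one] at h1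
      exact h1
    refine Sy.pair_stab_swap A B k hk hkB h ?_ ?_
    · intro x hx
      obtain ⟨y, rfl⟩ := (memA x).mp hx
      have h5 : (h : Matrix (Fin n) (Fin n) F) *ᵥ (e *ᵥ y)
          = (1 - e) *ᵥ ((h : Matrix (Fin n) (Fin n) F) *ᵥ y) := by
        rw [Matrix.mulVec_mulVec, hcm, ← Matrix.mulVec_mulVec]
      rw [memB, h5, Matrix.mulVec_mulVec, Matrix.mul_sub, mul_one, hidem, sub_self,
        Matrix.zero_mulVec]
    · intro x hx
      rw [memA]
      refine ⟨(h : Matrix (Fin n) (Fin n) F) *ᵥ x, ?_⟩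
      have h1 : e * (h : Matrix (Fin n) (Fin n) F)
          = (h : Matrix (Fin n) (Fin n) F) - (h : Matrix (Fin n) (Fin n) F) * e := by
        rw [hcm, Matrix.sub_mul, Matrix.one_mul, sub_sub_cancel]
      rw [Matrix.mulVec_mulVec, h1, Matrix.sub_mulVec, ← Matrix.mulVec_mulVec, (memB x).mp hx,
        Matrix.mulVec_zero, sub_zero]

/-- The refined analysis of the centre `Z` of the centraliser of a normal subgroup `N` of an
irreducible group `H` of isometries of a quadratic form `Q`, all characteristics. -/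
theorem o_z_ref [Fintype F] (hn : 2 ≤ n) (Q : (Fin n → F) → F)
    (hQ : IsNondegenerateQuadraticForm Q) (H N : Subgroup (GL (Fin n) F))
    (hH : ∀ h ∈ H, ∀ x, Q ((h : Matrix (Fin n) (Fin n) F) *ᵥ x) = Q x)
    (hirr : ActsIrreducibly (matrixSet H)) (hNH : N ≤ H)
    (hNn : ∀ h ∈ H, ∀ x ∈ N, h * x * h⁻¹ ∈ N) :
    (∃ (t k : ℕ) (D : Fin t → Submodule F (Fin n → F)),
      IsNondegenerateMDecomposition (QuadraticMap.polar Q) k D ∧ H ≤ decompositionStabilizer D) ∨
    (∃ (k : ℕ) (D : Fin 2 → Submodule F (Fin n → F)), IsMDecomposition k D ∧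
      (∀ i, IsTotallySingularQuad Q (D i)) ∧ H ≤ decompositionStabilizer D) ∨
    (Helper98.IsFS (zc (matrixSet N)) ∧
      (∀ k, ZCent (matrixSet N) k → Sy.adj (QuadraticMap.polar Q) k = k) ∧
      (∃ k, ZCent (matrixSet N) k ∧ ∀ c : F, k ≠ c • (1 : Matrix (Fin n) (Fin n) F))) ∨
    (∃ E₀ : Subalgebra F (Matrix (Fin n) (Fin n) F), Helper98.IsFS (zc (matrixSet N)) ∧
      Helper98.IsFS E₀ ∧
      (∀ M, M ∈ E₀ ↔ ZCent (matrixSet N) M ∧ Sy.adj (QuadraticMap.polar Q) M = M) ∧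
      (∀ k, ZCent (matrixSet N) k → ZCent (matrixSet N) (Sy.adj (QuadraticMap.polar Q) k)) ∧
      (∃ k, ZCent (matrixSet N) k ∧ Sy.adj (QuadraticMap.polar Q) k ≠ k) ∧
      Module.finrank F (zc (matrixSet N)) = 2 * Module.finrank F E₀ ∧
      (∀ k, ZCent (matrixSet N) k → ∀ c : F,
        Sy.adj (QuadraticMap.polar Q) k * k = c • (1 : Matrix (Fin n) (Fin n) F) →
        ∀ v, Q (k *ᵥ v) = c * Q v)) ∨
    (∀ k, ZCent (matrixSet N) k → ∃ c : F, k = c • (1 : Matrix (Fin n) (Fin n) F)) := by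
  classical
  obtain ⟨f, hfdef⟩ : ∃ f, f = QuadraticMap.polar Q := ⟨_, rfl⟩
  have hf : IsSymmetricForm f :=
    hfdef ▸ ⟨hQ.polar_bilinear, fun u v => QuadraticMap.polar_comm Q u v, hQ.nondegenerate⟩
  have hH' : H ≤ Sy.isoSub f := by
    rw [hfdef]
    exact Helper95.O12.le_isoSub H hH
  rw [← hfdef]
  have hne : NeZero n := ⟨by omega⟩
  obtain ⟨T, hT⟩ : ∃ T, T = matrixSet N := ⟨_, rfl⟩
  rw [← hT]
  have hconj1 : ∀ g ∈ H, ∀ s ∈ T, (g : Matrix (Fin n) (Fin n) F) * s *
      ((g⁻¹ : GL (Fin n) F) : Matrix (Fin n) (Fin n) F) ∈ T := by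
    intro g hg
    rw [hT]
    exact matrixSet_conj N g (hNn g hg)
  have hconj2 : ∀ g ∈ H, ∀ s ∈ T, ((g⁻¹ : GL (Fin n) F) : Matrix (Fin n) (Fin n) F) * s *
      (g : Matrix (Fin n) (Fin n) F) ∈ T := by
    intro g hg
    rw [hT]
    have := matrixSet_conj N g⁻¹ (hNn g⁻¹ (H.inv_mem hg))
    simpa using this
  have hiso : Sy.IsoSet f T := by
    intro s hs
    rw [hT] at hs ⊢
    obtain ⟨x, hx, rfl⟩ := hs
    exact ⟨x, hH' (hNH hx), rfl, Helper97.coe_mem_matrixSet (N.inv_mem hx)⟩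
  have hZconj : ∀ g ∈ H, ∀ a, ZCent T a → ZCent T ((g : Matrix (Fin n) (Fin n) F) * a *
      ((g⁻¹ : GL (Fin n) F) : Matrix (Fin n) (Fin n) F)) :=
    fun g hg a ha => zcent_conj T g (hconj2 g hg) (hconj1 g hg) a ha
  have hZadj : ∀ a, ZCent T a → ZCent T (Sy.adj f a) := fun a ha => zcent_adj hf hiso ha
  have hZcomm : ∀ a, ZCent T a → ∀ b, ZCent T b → a * b = b * a := fun a ha b hb => ha.2 b hb.1
  by_cases hD1 : ∃ M, (ZCent T M ∧ Sy.adj f M = M) ∧ M ≠ 0 ∧ ∃ v : Fin n → F, v ≠ 0 ∧ M *ᵥ v = 0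
  · left
    obtain ⟨M, hM, hM0, v, hv0, hMv⟩ := hD1
    exact nondeg_decomp hf H hH' hirr {M | ZCent T M ∧ Sy.adj f M = M}
      (fun a ha b hb => hZcomm a ha.1 b hb.1)
      (fun g hg a ha => ⟨hZconj g hg a ha.1, by rw [adj_conj hf (hH' hg), ha.2]⟩)
      (fun a ha => ha.2) M hM hM0 v hv0 hMv
  have hZp : ∀ M, ZCent T M → Sy.adj f M = M → M ≠ 0 → ∀ v : Fin n → F, M *ᵥ v = 0 → v = 0 := by
    intro M hM hM' hM0 v hv
    by_contra hv0
    exact hD1 ⟨M, ⟨hM, hM'⟩, hM0, v, hv0, hv⟩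
  have hFSp : Helper98.IsFS (zcp f hf T) := by
    constructor
    · intro x hx y hy
      exact hZcomm x hx.1 y hy.1
    · intro x hx hx0
      have hdet : x.det ≠ 0 := Helper97.det_ne_zero_of_injective x (hZp x hx.1 hx.2 hx0)
      have hu : IsUnit x.det := isUnit_iff_ne_zero.mpr hdet
      refine ⟨x⁻¹, ⟨⟨fun s hs => inv_comm_of_comm x s hdet (hx.1.1 s hs),
        fun c hc => inv_comm_of_comm x c hdet (hx.1.2 c hc)⟩, ?_⟩, Matrix.mul_nonsing_inv x hu⟩
      have h1 : Sy.adj f x⁻¹ * x = 1 := by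
        have h2 := adj_mul hf x x⁻¹
        rw [Matrix.mul_nonsing_inv x hu, adj_one hf, hx.2] at h2
        exact h2.symm
      exact (Matrix.inv_eq_left_inv h1).symm
  -- the quadratic form is `x ↦ f (e x) x` for every `e` in `Z` with `e + e* = 1`
  have hQe : ∀ e, ZCent T e → e + Sy.adj f e = 1 → ∀ x, Q x = f (e *ᵥ x) x := by
    intro e heZ he1 x
    have hadj : Sy.adj f e = 1 - e := eq_sub_of_add_eq' he1
    have hsplit : ∀ u v : Fin n → F, f (e *ᵥ u) v + f (e *ᵥ v) u = f u v := by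
      intro u v
      rw [adj_spec hf e v u, hadj, Matrix.sub_mulVec, Matrix.one_mulVec, sub_right hf, hf.symm v u,
        hf.symm v (e *ᵥ u)]
      ring
    by_cases h2 : (2 : F) = 0
    · have hfs : IsSymplecticForm f := hfdef ▸ Helper95.O12.polar_symplectic h2 hQ
      have halt := Sy.selfadj_alt hfs (zcp f hf T) hFSp (fun k hk => hk.2)
      obtain ⟨Δ, hΔ⟩ : ∃ Δ : (Fin n → F) → F, Δ = fun x => Q x - f (e *ᵥ x) x := ⟨_, rfl⟩
      have hΔx : ∀ x, Δ x = Q x - f (e *ᵥ x) x := fun x => by rw [hΔ]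
      have hadd : ∀ x y, Δ (x + y) = Δ x + Δ y := by
        intro x y
        have h1 : Q (x + y) = Q x + Q y + f x y := by
          rw [hfdef]
          unfold QuadraticMap.polar
          ring
        rw [hΔx, hΔx, hΔx, h1, Matrix.mulVec_add, hf.bilinear.add_left, hf.bilinear.add_right,
          hf.bilinear.add_right, ← hsplit x y]
        ring
      have hsmul : ∀ (c : F) (x : Fin n → F), Δ (c • x) = c ^ 2 * Δ x := by
        intro c x
        rw [hΔx, hΔx, hQ.smul, Matrix.mulVec_smul, hf.bilinear.smul_left, hf.bilinear.smul_right]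
        ring
      have hinv : ∀ h ∈ H, ∀ x, Δ ((h : Matrix (Fin n) (Fin n) F) *ᵥ x) = Δ x := by
        intro h hh x
        obtain ⟨e', he'def⟩ : ∃ e', e' = ((h⁻¹ : GL (Fin n) F) : Matrix (Fin n) (Fin n) F) * e *
            (h : Matrix (Fin n) (Fin n) F) := ⟨_, rfl⟩
        have he'Z : ZCent T e' := by
          have := hZconj h⁻¹ (H.inv_mem hh) e heZ
          rw [inv_inv] at this
          rw [he'def]
          exact this
        have hadj' : Sy.adj f e' = 1 - e' := by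
          have h3 := adj_conj hf (hH' (H.inv_mem hh)) e
          rw [inv_inv] at h3
          rw [he'def, h3, hadj, Matrix.mul_sub, Matrix.sub_mul, mul_one, Units.inv_mul]
        have hδ : (e' - e) ∈ zcp f hf T := by
          refine ⟨(zc T).sub_mem he'Z heZ, ?_⟩
          rw [Sy.adj_sub, hadj', hadj]
          have h4 : ∀ M : Matrix (Fin n) (Fin n) F, -M = M := fun M => by
            rw [neg_eq_iff_add_eq_zero, ← two_smul F M, h2, zero_smul]
          rw [← h4 (e' - e)]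
          abel
        have h5 : e *ᵥ ((h : Matrix (Fin n) (Fin n) F) *ᵥ x)
            = (h : Matrix (Fin n) (Fin n) F) *ᵥ (e' *ᵥ x) := by
          rw [Matrix.mulVec_mulVec, Matrix.mulVec_mulVec, he'def, ← mul_assoc, ← mul_assoc,
            Units.mul_inv, one_mul]
        have h6 : f (e' *ᵥ x) x = f (e *ᵥ x) x := by
          have h7 := halt (e' - e) hδ x
          rw [Matrix.sub_mulVec, sub_left hf] at h7
          exact sub_eq_zero.mp h7
        rw [hΔx, hΔx, hH h hh, h5, Sy.iso_apply (hH' hh), h6]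
      have hzero := Helper95.O12ZP.o12_zero_polar h2 (by rw [Fintype.card_fin]; exact hn) Δ hadd hsmul
        H hirr hinv x
      rw [hΔx] at hzero
      exact sub_eq_zero.mp hzero
    · have h1 : f x x = 2 * Q x := by rw [hfdef]; exact Helper97.polar_self Q hQ x
      have h3 := hsplit x x
      have h4 : (2 : F) * (Q x - f (e *ᵥ x) x) = 0 := by linear_combination (-1 : F) * h1 - h3
      exact sub_eq_zero.mp ((mul_eq_zero.mp h4).resolve_left h2)
  by_cases hsing : ∃ M, ZCent T M ∧ M ≠ 0 ∧ ∃ v : Fin n → F, v ≠ 0 ∧ M *ᵥ v = 0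
  · -- a singular element of `Z`: a pair of complementary totally singular subspaces
    right; left
    obtain ⟨s₀, hs₀Z, hs₀0, v, hv0, hMv⟩ := hsing
    have : Fact (Fintype.card (Fin n) = n) := ⟨Fintype.card_fin n⟩
    obtain ⟨t, m, D, hD, -, hpres, hsep⟩ :=
      Helper97.Gen.exists_decomp_of_comm_stable_sep H hirr {M | ZCent T M}
        (fun a ha b hb => hZcomm a ha b hb) (fun g hg a ha => hZconj g hg a ha) s₀ hs₀Z hs₀0 v hv0 hMv
    have ht := hD.two_le
    obtain ⟨a, haZ, hkill, hinj⟩ := hsep ⟨0, by omega⟩ ⟨1, by omega⟩ (by simp [Fin.ext_iff])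
    have hex : ∀ i, ∃ w ∈ D i, w ≠ 0 := by
      intro i
      have h1 := hD.finrank_eq i
      have h2' := hD.pos
      by_contra hcon
      push Not at hcon
      have h3 : D i = ⊥ := (Submodule.eq_bot_iff _).mpr hcon
      rw [h3, finrank_bot] at h1
      omega
    obtain ⟨w0, hw0, hw00⟩ := hex ⟨0, by omega⟩
    obtain ⟨w1, hw1, hw10⟩ := hex ⟨1, by omega⟩
    have hp0 : Sy.adj f a * a = 0 := by
      by_contra hne0
      have h3 : (Sy.adj f a * a) *ᵥ w0 = 0 := by
        rw [← Matrix.mulVec_mulVec, hkill w0 hw0, Matrix.mulVec_zero]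
      exact hw00 (hZp _ ((zc T).mul_mem (hZadj a haZ) haZ) (by rw [adj_mul hf, adj_adj hf]) hne0 w0 h3)
    obtain ⟨c, hcdef⟩ : ∃ c, c = a + Sy.adj f a := ⟨_, rfl⟩
    have hcp : c ∈ zcp f hf T :=
      ⟨hcdef ▸ (zc T).add_mem haZ (hZadj a haZ), by rw [hcdef, Sy.adj_add, adj_adj hf, add_comm]⟩
    have hc0 : c ≠ 0 := by
      intro hc
      rw [hc] at hcdef
      have h3 : Sy.adj f a = -a := eq_neg_of_add_eq_zero_right hcdef.symm
      rw [h3, neg_mul, neg_eq_zero] at hp0
      have h4 : a *ᵥ (a *ᵥ w1) = 0 := by rw [Matrix.mulVec_mulVec, hp0, Matrix.zero_mulVec]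
      exact hw10 (hinj w1 hw1 (hinj _ (hpres a haZ _ w1 hw1) h4))
    obtain ⟨c', hc'p, hcc'⟩ := hFSp.inv c hcp hc0
    obtain ⟨e, hedef⟩ : ∃ e, e = c' * a := ⟨_, rfl⟩
    have heZ : ZCent T e := hedef ▸ (zc T).mul_mem hc'p.1 haZ
    have hadje : Sy.adj f e = c' * Sy.adj f a := by
      rw [hedef, adj_mul hf, hc'p.2, hZcomm _ (hZadj a haZ) _ hc'p.1]
    have he1 : e + Sy.adj f e = 1 := by
      rw [hadje, hedef, ← mul_add, ← hcdef, hZcomm _ hc'p.1 _ hcp.1, hcc']
    have he2 : Sy.adj f e * e = 0 := by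
      rw [hadje, hedef]
      calc c' * Sy.adj f a * (c' * a) = c' * (Sy.adj f a * c') * a := by simp only [mul_assoc]
        _ = c' * (c' * Sy.adj f a) * a := by rw [hZcomm _ (hZadj a haZ) _ hc'p.1]
        _ = c' * c' * (Sy.adj f a * a) := by simp only [mul_assoc]
        _ = 0 := by rw [hp0, mul_zero]
    have hadj : Sy.adj f e = 1 - e := eq_sub_of_add_eq' he1
    have hidem : e * e = e := by
      have h3 := he2
      rw [hadj, Matrix.sub_mul, Matrix.one_mul] at h3
      exact (sub_eq_zero.mp h3).symm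
    have hconj : ∀ h ∈ H,
        (h : Matrix (Fin n) (Fin n) F) * e * ((h⁻¹ : GL (Fin n) F) : Matrix (Fin n) (Fin n) F) = e ∨
        (h : Matrix (Fin n) (Fin n) F) * e * ((h⁻¹ : GL (Fin n) F) : Matrix (Fin n) (Fin n) F) = 1 - e := by
      intro h hh
      obtain ⟨e', he'def⟩ : ∃ e', e' = (h : Matrix (Fin n) (Fin n) F) * e *
          ((h⁻¹ : GL (Fin n) F) : Matrix (Fin n) (Fin n) F) := ⟨_, rfl⟩
      rw [← he'def]
      have he'Z : ZCent T e' := he'def ▸ hZconj h hh e heZ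
      have hadj' : Sy.adj f e' = 1 - e' := by
        rw [he'def, adj_conj hf (hH' hh), hadj, Matrix.mul_sub, Matrix.sub_mul, mul_one, Units.mul_inv]
      have hidem' : e' * e' = e' := by
        rw [he'def]
        calc (h : Matrix (Fin n) (Fin n) F) * e * ((h⁻¹ : GL (Fin n) F) : Matrix (Fin n) (Fin n) F) *
              ((h : Matrix (Fin n) (Fin n) F) * e * ((h⁻¹ : GL (Fin n) F) : Matrix (Fin n) (Fin n) F))
            = (h : Matrix (Fin n) (Fin n) F) * (e * (((h⁻¹ : GL (Fin n) F) : Matrix (Fin n) (Fin n) F) *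
              (h : Matrix (Fin n) (Fin n) F)) * e) * ((h⁻¹ : GL (Fin n) F) : Matrix (Fin n) (Fin n) F) := by
              simp only [mul_assoc]
          _ = _ := by rw [Units.inv_mul, mul_one, hidem]
      have hcm : e * e' = e' * e := hZcomm e heZ e' he'Z
      obtain ⟨pm, hpm⟩ : ∃ pm, pm = e * e' + (1 - e) * (1 - e') := ⟨_, rfl⟩
      have hpmZ : ZCent T pm := hpm ▸ (zc T).add_mem ((zc T).mul_mem heZ he'Z)
        ((zc T).mul_mem ((zc T).sub_mem (zc T).one_mem heZ) ((zc T).sub_mem (zc T).one_mem he'Z))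
      have hpmadj : Sy.adj f pm = pm := by
        have h3 : (1 - e') * (1 - e) = (1 - e) * (1 - e') := by
          simp only [mul_sub, sub_mul, mul_one, one_mul, hcm]
          abel
        rw [hpm, Sy.adj_add, adj_mul hf, adj_mul hf, Sy.adj_sub, Sy.adj_sub, adj_one hf, hadj, hadj',
          sub_sub_cancel, sub_sub_cancel, h3, ← hcm, add_comm]
      let _ : CommRing ↥(zc T) :=
        { (inferInstance : Ring ↥(zc T)) with
          mul_comm := fun x y => Subtype.ext (x.2.2 y.1 y.2.1) }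
      have hres := Sy.idem_dichotomy (⟨e, heZ⟩ : ↥(zc T)) ⟨e', he'Z⟩ ⟨pm, hpmZ⟩
        (Subtype.ext hidem) (Subtype.ext hidem') (Subtype.ext hpm.symm) (by
          by_cases hl : pm = 0
          · left
            exact Subtype.ext hl
          · right
            obtain ⟨q, hqp, hq⟩ := hFSp.inv pm ⟨hpmZ, hpmadj⟩ hl
            refine ⟨⟨q, hqp.1⟩, ?_⟩
            apply Subtype.ext
            show q * pm = 1
            rw [hZcomm q hqp.1 pm hpmZ, hq])
      rcases hres with h3 | h3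
      · left
        exact congrArg Subtype.val h3
      · right
        exact congrArg Subtype.val h3
    obtain ⟨k, hk, hle⟩ := pair_of_idem_sym (by omega) hf H e he1 he2 hconj
    refine ⟨k, _, hk, ?_, hle⟩
    intro i w hw
    rw [hQe e heZ he1 w]
    rcases Sy.fin2_cases i with rfl | rfl
    · rw [Sy.pairD_zero, LinearMap.mem_range] at hw
      obtain ⟨y, rfl⟩ := hw
      rw [Matrix.toLin'_apply, adj_spec' hf, Matrix.mulVec_mulVec, Matrix.mulVec_mulVec,
        he2, zero_mul, Matrix.zero_mulVec, zero_left hf]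
    · rw [Sy.pairD_one, LinearMap.mem_ker, Matrix.toLin'_apply] at hw
      rw [hw, zero_left hf]
  -- `Z` is a field
  have hZinj : ∀ M, ZCent T M → M ≠ 0 → ∀ v : Fin n → F, M *ᵥ v = 0 → v = 0 := by
    intro M hM hM0 v hv
    by_contra hv0
    exact hsing ⟨M, hM, hM0, v, hv0, hv⟩
  have hFS : Helper98.IsFS (zc T) := isFS_zc T hZinj
  by_cases hsa : ∀ k, ZCent T k → Sy.adj f k = k
  · by_cases hns : ∃ k₀, ZCent T k₀ ∧ ∀ c : F, k₀ ≠ c • (1 : Matrix (Fin n) (Fin n) F)
    · right; right; left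
      exact ⟨hFS, hsa, hns⟩
    · right; right; right; right
      intro k hk
      by_contra hcon
      exact hns ⟨k, hk, fun c hc => hcon ⟨c, hc⟩⟩
  -- `Z` is not self-adjoint
  right; right; right; left
  push Not at hsa
  obtain ⟨θ, hθZ, hθ⟩ := hsa
  -- an element `e` of `Z` with `e + e* = 1`
  obtain ⟨e, heZ, he1⟩ : ∃ e, ZCent T e ∧ e + Sy.adj f e = 1 := by
    by_cases h2 : (2 : F) = 0
    · obtain ⟨c, hcdef⟩ : ∃ c, c = θ + Sy.adj f θ := ⟨_, rfl⟩
      have hcp : c ∈ zcp f hf T :=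
        ⟨hcdef ▸ (zc T).add_mem hθZ (hZadj θ hθZ), by rw [hcdef, Sy.adj_add, adj_adj hf, add_comm]⟩
      have hc0 : c ≠ 0 := by
        intro hc
        rw [hc] at hcdef
        have h3 : Sy.adj f θ = -θ := eq_neg_of_add_eq_zero_right hcdef.symm
        have h4 : -θ = θ := by
          rw [neg_eq_iff_add_eq_zero, ← two_smul F θ, h2, zero_smul]
        exact hθ (h3.trans h4)
      obtain ⟨c', hc'p, hcc'⟩ := hFSp.inv c hcp hc0
      refine ⟨c' * θ, (zc T).mul_mem hc'p.1 hθZ, ?_⟩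
      rw [adj_mul hf, hc'p.2, hZcomm _ (hZadj θ hθZ) _ hc'p.1, ← mul_add, ← hcdef,
        hZcomm _ hc'p.1 _ hcp.1, hcc']
    · refine ⟨(2 : F)⁻¹ • (1 : Matrix (Fin n) (Fin n) F), (zc T).smul_mem (zc T).one_mem _, ?_⟩
      rw [adj_smul_one hf, ← add_smul, ← two_mul, mul_inv_cancel₀ h2, one_smul]
  refine ⟨zcp f hf T, hFS, hFSp, fun M => Iff.rfl, hZadj, ⟨θ, hθZ, hθ⟩, ?_, ?_⟩
  · -- the degree of `Z` over its self-adjoint part
    obtain ⟨δ, hδdef⟩ : ∃ δ, δ = θ - Sy.adj f θ := ⟨_, rfl⟩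
    have hδZ : ZCent T δ := hδdef ▸ (zc T).sub_mem hθZ (hZadj θ hθZ)
    have hδ0 : δ ≠ 0 := by
      intro h
      rw [h] at hδdef
      exact hθ (sub_eq_zero.mp hδdef.symm).symm
    have hδadj : Sy.adj f δ = -δ := by
      rw [hδdef, Sy.adj_sub, adj_adj hf]
      abel
    obtain ⟨δ', hδ'Z, hδδ'⟩ := hFS.inv δ hδZ hδ0
    have hδ'δ : δ' * δ = 1 := by rw [hZcomm δ' hδ'Z δ hδZ, hδδ']
    have hδ'adj : Sy.adj f δ' = -δ' := by
      have h1 : Sy.adj f δ' * Sy.adj f δ = 1 := by rw [← adj_mul hf, hδδ', adj_one hf]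
      rw [hδadj, mul_neg] at h1
      have h2' : -(Sy.adj f δ') * δ = 1 := by rw [neg_mul]; exact h1
      calc Sy.adj f δ' = -(-(Sy.adj f δ') * (δ * δ')) := by rw [hδδ', mul_one, neg_neg]
        _ = -(-(Sy.adj f δ') * δ * δ') := by rw [mul_assoc]
        _ = -δ' := by rw [h2', one_mul]
    let φ : (↥(zcp f hf T) × ↥(zcp f hf T)) →ₗ[F] ↥(zc T) :=
      { toFun := fun p => ⟨(p.1 : Matrix (Fin n) (Fin n) F) + (p.2 : Matrix (Fin n) (Fin n) F) * θ,
          (zc T).add_mem p.1.2.1 ((zc T).mul_mem p.2.2.1 hθZ)⟩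
        map_add' := by
          intro p q
          apply Subtype.ext
          show ((p.1 + q.1 : ↥(zcp f hf T)) : Matrix (Fin n) (Fin n) F) +
            ((p.2 + q.2 : ↥(zcp f hf T)) : Matrix (Fin n) (Fin n) F) * θ =
            ((p.1 : Matrix (Fin n) (Fin n) F) + (p.2 : Matrix (Fin n) (Fin n) F) * θ) +
            ((q.1 : Matrix (Fin n) (Fin n) F) + (q.2 : Matrix (Fin n) (Fin n) F) * θ)
          rw [Subalgebra.coe_add, Subalgebra.coe_add, add_mul]
          abel
        map_smul' := by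
          intro c p
          apply Subtype.ext
          show ((c • p.1 : ↥(zcp f hf T)) : Matrix (Fin n) (Fin n) F) +
            ((c • p.2 : ↥(zcp f hf T)) : Matrix (Fin n) (Fin n) F) * θ =
            c • ((p.1 : Matrix (Fin n) (Fin n) F) + (p.2 : Matrix (Fin n) (Fin n) F) * θ)
          rw [Subalgebra.coe_smul, Subalgebra.coe_smul, smul_add, Matrix.smul_mul] }
    have hφ : ∀ p : ↥(zcp f hf T) × ↥(zcp f hf T), ((φ p : ↥(zc T)) : Matrix (Fin n) (Fin n) F) =
        (p.1 : Matrix (Fin n) (Fin n) F) + (p.2 : Matrix (Fin n) (Fin n) F) * θ := fun p => rfl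
    have hinj : Function.Injective φ := by
      rw [← LinearMap.ker_eq_bot, Submodule.eq_bot_iff]
      intro p hp
      have h1 : (p.1 : Matrix (Fin n) (Fin n) F) + (p.2 : Matrix (Fin n) (Fin n) F) * θ = 0 := by
        rw [← hφ, LinearMap.mem_ker.mp hp]
        rfl
      have h2' := congrArg (Sy.adj f) h1
      rw [Sy.adj_add, adj_mul hf, p.1.2.2, p.2.2.2, Sy.adj_zero,
        hZcomm _ (hZadj θ hθZ) _ p.2.2.1] at h2'
      have h3 : (p.2 : Matrix (Fin n) (Fin n) F) * δ = 0 := by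
        rw [hδdef, mul_sub]
        rw [← sub_eq_zero] at h1
        have := congrArg₂ (· - ·) h1 h2'
        simp only [sub_zero] at this
        rw [← this]
        abel
      have h4 : (p.2 : Matrix (Fin n) (Fin n) F) = 0 := by
        calc (p.2 : Matrix (Fin n) (Fin n) F) = (p.2 : Matrix (Fin n) (Fin n) F) * (δ * δ') := by
              rw [hδδ', mul_one]
          _ = 0 := by rw [← mul_assoc, h3, zero_mul]
      rw [h4, zero_mul, add_zero] at h1
      exact Prod.ext (Subtype.ext h1) (Subtype.ext h4)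
    have hsurj : Function.Surjective φ := by
      rintro ⟨x, hx⟩
      obtain ⟨b, hbdef⟩ : ∃ b, b = (x - Sy.adj f x) * δ' := ⟨_, rfl⟩
      have hbZ : ZCent T b := hbdef ▸ (zc T).mul_mem ((zc T).sub_mem hx (hZadj x hx)) hδ'Z
      have hbadj : Sy.adj f b = b := by
        rw [hbdef, adj_mul hf, hδ'adj, Sy.adj_sub, adj_adj hf,
          hZcomm _ ((zc T).neg_mem hδ'Z) _ ((zc T).sub_mem (hZadj x hx) hx)]
        noncomm_ring
      obtain ⟨a, hadef⟩ : ∃ a, a = x - b * θ := ⟨_, rfl⟩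
      have haZ : ZCent T a := hadef ▸ (zc T).sub_mem hx ((zc T).mul_mem hbZ hθZ)
      have hbδ : b * δ = x - Sy.adj f x := by
        rw [hbdef, mul_assoc, hδ'δ, mul_one]
      have haadj : Sy.adj f a = a := by
        rw [hadef, Sy.adj_sub, adj_mul hf, hbadj, hZcomm _ (hZadj θ hθZ) _ hbZ]
        have h5 : b * θ - b * Sy.adj f θ = x - Sy.adj f x := by
          rw [← mul_sub, ← hδdef, hbδ]
        have h6 : Sy.adj f x - b * Sy.adj f θ - (x - b * θ) = 0 := by
          rw [← sub_eq_zero] at h5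
          rw [← h5]
          abel
        exact sub_eq_zero.mp h6
      refine ⟨(⟨a, haZ, haadj⟩, ⟨b, hbZ, hbadj⟩), ?_⟩
      apply Subtype.ext
      rw [hφ]
      show a + b * θ = x
      rw [hadef]
      abel
    have hle := LinearEquiv.finrank_eq (LinearEquiv.ofBijective φ ⟨hinj, hsurj⟩)
    rw [Module.finrank_prod] at hle
    rw [← hle]
    ring
  · -- the similarity property
    intro k hk c hc v
    rw [hQe e heZ he1 (k *ᵥ v), hQe e heZ he1 v, adj_spec' hf, Matrix.mulVec_mulVec,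
      Matrix.mulVec_mulVec]
    have h1 : Sy.adj f k * (e * k) = c • e := by
      rw [hZcomm e heZ k hk, ← mul_assoc, hc, Matrix.smul_mul, Matrix.one_mul]
    rw [mul_assoc, h1, Matrix.smul_mulVec, hf.bilinear.smul_left]

/-- The plus-aware analysis in the shape of `o12_z_odd` / `o12_z_two` (all characteristics): the
plus-type outcome is replaced by the explicit pair of complementary totally singular subspaces. -/
theorem o_z_pair [Fintype F] (hn : 2 ≤ n) (Q : (Fin n → F) → F)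
    (hQ : IsNondegenerateQuadraticForm Q) (H N : Subgroup (GL (Fin n) F))
    (hH : ∀ h ∈ H, ∀ x, Q ((h : Matrix (Fin n) (Fin n) F) *ᵥ x) = Q x)
    (hirr : ActsIrreducibly (matrixSet H)) (hNH : N ≤ H)
    (hNn : ∀ h ∈ H, ∀ x ∈ N, h * x * h⁻¹ ∈ N) :
    (∃ (t k : ℕ) (D : Fin t → Submodule F (Fin n → F)),
      IsNondegenerateMDecomposition (QuadraticMap.polar Q) k D ∧ H ≤ decompositionStabilizer D) ∨
    (∃ (r : ℕ) (K : Subalgebra F (Matrix (Fin n) (Fin n) F)), r.Prime ∧ IsFieldSubalgebra r K ∧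
      H ≤ subalgebraNormalizer K) ∨
    (∃ (m : ℕ) (D : Fin 2 → Submodule F (Fin n → F)), IsMDecomposition m D ∧
      (∀ i, IsTotallySingularQuad Q (D i)) ∧ H ≤ decompositionStabilizer D) ∨
    (∀ k, Cfsg.Agent.Helper96.ZCent (matrixSet N) k →
      ∃ c : F, k = c • (1 : Matrix (Fin n) (Fin n) F)) := by
  have hne : NeZero n := ⟨by omega⟩
  have hnorm : H ≤ subalgebraNormalizer (zc (matrixSet N)) := le_normalizer_zc H N hNn
  rcases o_z_ref hn Q hQ H N hH hirr hNH hNn with h | h | ⟨hFS, -, k₀, hk₀, hk₀ns⟩ |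
    ⟨E₀, hFS, -, -, -, ⟨θ, hθZ, hθ⟩, -, -⟩ | h
  · exact Or.inl h
  · exact Or.inr (Or.inr (Or.inl h))
  · obtain ⟨r, K₀, hr, hK₀, -, hn'⟩ :=
      Sy.exists_prime_subfield' (zc (matrixSet N)) hFS ⟨k₀, hk₀, hk₀ns⟩
    exact Or.inr (Or.inl ⟨r, K₀, hr, hK₀, hnorm.trans hn'⟩)
  · have hf : IsSymmetricForm (QuadraticMap.polar Q) :=
      ⟨hQ.polar_bilinear, fun u v => QuadraticMap.polar_comm Q u v, hQ.nondegenerate⟩
    obtain ⟨r, K₀, hr, hK₀, -, hn'⟩ :=
      Sy.exists_prime_subfield' (zc (matrixSet N)) hFS ⟨θ, hθZ, fun c hc => hθ (by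
        rw [hc, adj_smul_one hf])⟩
    exact Or.inr (Or.inl ⟨r, K₀, hr, hK₀, hnorm.trans hn'⟩)
  · exact Or.inr (Or.inr (Or.inr h))

end Cfsg.Agent.Helper94.O10
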