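-- helper94 library: the field package for quadratic forms in dimension 10 (rows S5850 / S5847):
-- from the refined analysis `o_z_ref` to a self-adjoint field of degree 2 (odd characteristic) or a
-- unitary-type field of degree 2 with the similarity property; fields of degree 5 are excluded by the
-- minimality of the normal subgroup ("rotations commute", pieces HFO / HFE of CALL S5850).
import Cfsg.Agent.Helper94.O10Z
import Cfsg.Agent.Helper66.O10HFO
import Cfsg.Agent.Helper58.O10HFE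

set_option autoImplicit false
set_option linter.unusedSectionVars false
set_option linter.unusedVariables false
open Cfsg Cfsg.Geo Matrix
open Cfsg.Agent.Helper96

namespace Cfsg.Agent.Helper94.O10

open Cfsg.Agent.Helper94.OA

variable {F : Type*} [Field F] {n : ℕ}

/-- The adjoint of a power. -/
theorem adj_pow_sym {f : (Fin n → F) → (Fin n → F) → F} (hf : IsSymmetricForm f)
    (k : Matrix (Fin n) (Fin n) F) (m : ℕ) : Sy.adj f (k ^ m) = Sy.adj f k ^ m := by
  induction m with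
  | zero => rw [pow_zero, pow_zero, adj_one hf]
  | succ m ih => rw [pow_succ, adj_mul hf, ih, pow_succ']

/-- A field subalgebra of even degree contains a subfield of degree two, normalised by everything
normalising the field; it is the whole field or the set of fixed points of `x ↦ x ^ (q ^ 2)`. -/
theorem deg_two_subfield [Fintype F] [NeZero n] (E : Subalgebra F (Matrix (Fin n) (Fin n) F))
    (hE : Helper98.IsFS E) {d : ℕ} (hd : Module.finrank F E = d) (h2d : 2 ∣ d) :
    ∃ K : Subalgebra F (Matrix (Fin n) (Fin n) F), IsFieldSubalgebra 2 K ∧ K ≤ E ∧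
      subalgebraNormalizer E ≤ subalgebraNormalizer K ∧
      (K = E ∨ ∀ x, x ∈ K ↔ x ∈ E ∧ x ^ (Fintype.card F ^ 2) = x) := by
  classical
  have : Nonempty (Fin n) := ⟨0⟩
  by_cases hd2 : d = 2
  · exact ⟨E, ⟨hE.comm, hE.inv, hd.trans hd2⟩, le_refl _, le_refl _, Or.inl rfl⟩
  have hpos : 0 < d := by
    rw [← hd]
    let _i := hE.field
    exact Module.finrank_pos
  have hlt : 2 < d := by
    obtain ⟨j, hj⟩ := h2d
    omega
  obtain ⟨p, hp⟩ := CharP.exists F
  have := hp
  have : Fact p.Prime := ⟨CharP.char_is_prime F p⟩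
  obtain ⟨f, -, hf⟩ := FiniteField.card F p
  have hN : Fintype.card F ^ 2 = p ^ ((f : ℕ) * 2) := by rw [hf, pow_mul]
  have hadd : ∀ x ∈ E, ∀ y ∈ E, (x + y) ^ (Fintype.card F ^ 2) =
      x ^ (Fintype.card F ^ 2) + y ^ (Fintype.card F ^ 2) := by
    intro x hx y hy
    rw [hN]
    exact add_pow_char_pow_of_commute p _ (hE.comm x hx y hy)
  have hm : ∀ c : F, c ^ (Fintype.card F ^ 2) = c := fun c => FiniteField.pow_card_pow 2 c
  have hK₀ : Helper98.IsFS (Helper98.frobFix E hE (Fintype.card F ^ 2) hadd hm) :=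
    Helper98.isFS_frobFix
  obtain ⟨-, -, hfr⟩ := Helper98.frobFix_facts hE hd h2d (le_refl 2) hlt
    (Helper98.frobFix E hE (Fintype.card F ^ 2) hadd hm) (fun x => Helper98.mem_frobFix)
  have hge := finrank_frobFix_ge hE hK₀ hd h2d (by norm_num) (fun x => Helper98.mem_frobFix)
  exact ⟨_, ⟨hK₀.comm, hK₀.inv, le_antisymm hfr hge⟩, Helper98.frobFix_le,
    Helper98.normalizer_le_frobFix, Or.inr (fun x => Helper98.mem_frobFix)⟩

/-- Two field subalgebras inside a commutative family, of coprime degrees, meet in the scalars. -/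
theorem inf_scalar [Finite F] (hn : 0 < n) (K K' : Subalgebra F (Matrix (Fin n) (Fin n) F))
    (hK : Helper98.IsFS K) (hK' : Helper98.IsFS K')
    (hcop : Nat.Coprime (Module.finrank F K) (Module.finrank F K'))
    (m : Matrix (Fin n) (Fin n) F) (hm : m ∈ K) (hm' : m ∈ K') :
    ∃ c : F, m = c • (1 : Matrix (Fin n) (Fin n) F) := by
  classical
  have hinv : ∀ x ∈ K ⊓ K', x ≠ 0 → ∃ y ∈ K ⊓ K', x * y = 1 := by
    intro x hx hx0
    obtain ⟨y, hy, hxy⟩ := hK.inv x hx.1 hx0
    obtain ⟨y', hy', hxy'⟩ := hK'.inv x hx.2 hx0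
    have hyx : y * x = 1 := by rw [hK.comm y hy x hx.1, hxy]
    have hyy : y = y' := by
      calc y = y * (x * y') := by rw [hxy', mul_one]
        _ = y * x * y' := (mul_assoc _ _ _).symm
        _ = y' := by rw [hyx, one_mul]
    exact ⟨y, ⟨hy, hyy ▸ hy'⟩, hxy⟩
  obtain ⟨v, hv⟩ : ∃ v : Fin n → F, v ≠ 0 :=
    ⟨fun _ => 1, fun h => one_ne_zero (congrFun h ⟨0, hn⟩)⟩
  have h1 : Module.finrank F ↥(K ⊓ K') ∣ Module.finrank F K := by
    rw [← (Sy.orb_min K hK.inv v hv).2]
    apply Sy.dvd_finrank_of_inv (K ⊓ K') hinv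
    intro k hk u hu
    obtain ⟨k₁, hk₁, rfl⟩ := (Sy.mem_orb K v u).mp hu
    exact (Sy.mem_orb K v _).mpr ⟨k * k₁, K.mul_mem hk.1 hk₁, (Matrix.mulVec_mulVec _ _ _).symm⟩
  have h2 : Module.finrank F ↥(K ⊓ K') ∣ Module.finrank F K' := by
    rw [← (Sy.orb_min K' hK'.inv v hv).2]
    apply Sy.dvd_finrank_of_inv (K ⊓ K') hinv
    intro k hk u hu
    obtain ⟨k₁, hk₁, rfl⟩ := (Sy.mem_orb K' v u).mp hu
    exact (Sy.mem_orb K' v _).mpr ⟨k * k₁, K'.mul_mem hk.2 hk₁, (Matrix.mulVec_mulVec _ _ _).symm⟩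
  have h3 : Module.finrank F ↥(K ⊓ K') = 1 := Nat.eq_one_of_dvd_coprimes hcop h1 h2
  exact Helper97.eq_smul_one_of_finrank_one (K ⊓ K') h3 m ⟨hm, hm'⟩

/-- A subalgebra of degree two has a non-scalar element. -/
theorem exists_nonscalar_of_finrank_two [NeZero n] (K : Subalgebra F (Matrix (Fin n) (Fin n) F))
    (hK : Module.finrank F K = 2) : ∃ k ∈ K, ∀ c : F, k ≠ c • (1 : Matrix (Fin n) (Fin n) F) := by
  have : Nonempty (Fin n) := ⟨0⟩
  by_contra hcon
  push Not at hcon
  have hle : K ≤ ⊥ := by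
    intro k hk
    obtain ⟨c, hc⟩ := hcon k hk
    rw [Algebra.mem_bot]
    exact ⟨c, by rw [Algebra.algebraMap_eq_smul_one, hc]⟩
  have h1 : K = ⊥ := le_antisymm hle bot_le
  rw [h1, Subalgebra.finrank_bot] at hK
  omega

/-- A self-adjoint field `Z` of degree 5 is impossible in dimension 10: the elements of `N` whose
square is not `1` commute pairwise, so `N` is abelian, hence inside `Z`, hence scalar. -/
theorem no_selfadj_five [Fintype F] (Q : (Fin 10 → F) → F) (hQ : IsNondegenerateQuadraticForm Q)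
    (H N : Subgroup (GL (Fin 10) F))
    (hH : ∀ h ∈ H, ∀ x, Q ((h : Matrix (Fin 10) (Fin 10) F) *ᵥ x) = Q x)
    (hNH : N ≤ H) (hNn : ∀ h ∈ H, ∀ x ∈ N, h * x * h⁻¹ ∈ N) (hNZ : ¬ N ≤ scalars (Fin 10) F)
    (hNmin : ∀ N' : Subgroup (GL (Fin 10) F), N' ≤ N → (∀ h ∈ H, ∀ x ∈ N', h * x * h⁻¹ ∈ N') →
      N' ≤ scalars (Fin 10) F ∨ N' = N)
    (hFS : Helper98.IsFS (zc (matrixSet N)))
    (hsa : ∀ k, ZCent (matrixSet N) k → Sy.adj (QuadraticMap.polar Q) k = k)
    (hd : Module.finrank F (zc (matrixSet N)) = 5) : False := by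
  classical
  obtain ⟨f, hfdef⟩ : ∃ f, f = QuadraticMap.polar Q := ⟨_, rfl⟩
  have hf : IsSymmetricForm f :=
    hfdef ▸ ⟨hQ.polar_bilinear, fun u v => QuadraticMap.polar_comm Q u v, hQ.nondegenerate⟩
  have hH' : H ≤ Sy.isoSub f := by
    rw [hfdef]
    exact Helper95.O12.le_isoSub H hH
  rw [← hfdef] at hsa
  obtain ⟨T, hT⟩ : ∃ T, T = matrixSet N := ⟨_, rfl⟩
  rw [← hT] at hFS hsa hd
  have hE : IsFieldSubalgebra 5 (zc T) := ⟨hFS.comm, hFS.inv, hd⟩
  have hsaE : IsSelfAdjointFor f (zc T) := fun k hk u v => by rw [adj_spec hf k u v, hsa k hk]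
  have hcard : Fintype.card (Fin 10) = 2 * 5 := by simp
  have hcommE : ∀ g ∈ N, ∀ k ∈ zc T, (g : Matrix (Fin 10) (Fin 10) F) * k = k * (g : Matrix (Fin 10) (Fin 10) F) := by
    intro g hg k hk
    exact (hk.1 _ (hT ▸ Helper97.coe_mem_matrixSet hg)).symm
  -- rotations commute
  have hrot : ∀ g ∈ N, ∀ g' ∈ N, g * g ≠ 1 → g' * g' ≠ 1 → g * g' = g' * g := by
    intro g hg g' hg' hg2 hg'2
    by_cases h2 : (2 : F) = 0
    · have hfs : IsSymplecticForm f := hfdef ▸ Helper95.O12.polar_symplectic h2 hQ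
      have halt := Sy.selfadj_alt hfs (zc T) hFS hsa
      exact Cfsg.Agent.Helper58.o10_rot_comm_two h2 Q hQ hcard (zc T) hE (hfdef ▸ hsaE) (hfdef ▸ halt) g g'
        (hH g (hNH hg)) (hH g' (hNH hg')) (hcommE g hg) (hcommE g' hg') hg2 hg'2
    · exact Cfsg.Agent.Helper66.o10_rot_comm_odd h2 f hf hcard (zc T) hE hsaE g g'
        (fun u v => Sy.iso_apply (hH' (hNH hg)) u v) (fun u v => Sy.iso_apply (hH' (hNH hg')) u v)
        (hcommE g hg) (hcommE g' hg') hg2 hg'2
  -- the subgroup generated by the rotations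
  obtain ⟨T₂, hT₂⟩ : ∃ T₂ : Set (GL (Fin 10) F), T₂ = {g | g ∈ N ∧ g * g ≠ 1} := ⟨_, rfl⟩
  have hT₂mem : ∀ g, g ∈ T₂ ↔ g ∈ N ∧ g * g ≠ 1 := fun g => by rw [hT₂]; rfl
  obtain ⟨R, hR⟩ : ∃ R : Subgroup (GL (Fin 10) F), R = Subgroup.closure T₂ := ⟨_, rfl⟩
  have hRN : R ≤ N := by
    rw [hR, Subgroup.closure_le]
    intro g hg
    exact ((hT₂mem g).mp hg).1
  have hRn : ∀ h ∈ H, ∀ x ∈ R, h * x * h⁻¹ ∈ R := by
    intro h hh x hx
    rw [hR] at hx ⊢
    induction hx using Subgroup.closure_induction with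
    | mem y hy =>
      apply Subgroup.subset_closure
      rw [hT₂mem] at hy ⊢
      refine ⟨hNn h hh y hy.1, fun h1 => hy.2 ?_⟩
      have h3 : h * y * h⁻¹ * (h * y * h⁻¹) = h * (y * y) * h⁻¹ := by group
      rw [h3] at h1
      have h4 : y * y = h⁻¹ * (h * (y * y) * h⁻¹) * h := by group
      rw [h4, h1]
      group
    | one =>
      have h3 : h * 1 * h⁻¹ = (1 : GL (Fin 10) F) := by group
      rw [h3]
      exact Subgroup.one_mem _
    | mul y z _ _ hy hz =>
      have h3 : h * (y * z) * h⁻¹ = h * y * h⁻¹ * (h * z * h⁻¹) := by group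
      rw [h3]
      exact Subgroup.mul_mem _ hy hz
    | inv y _ hy =>
      have h3 : h * y⁻¹ * h⁻¹ = (h * y * h⁻¹)⁻¹ := by group
      rw [h3]
      exact Subgroup.inv_mem _ hy
  have hRcomm : ∀ x ∈ R, ∀ y ∈ R, x * y = y * x := by
    have h1 : R ≤ Subgroup.centralizer T₂ := by
      rw [hR, Subgroup.closure_le]
      intro x hx
      rw [SetLike.mem_coe, Subgroup.mem_centralizer_iff]
      intro y hy
      exact hrot y ((hT₂mem y).mp hy).1 x ((hT₂mem x).mp hx).1 ((hT₂mem y).mp hy).2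
        ((hT₂mem x).mp hx).2
    have h2 : R ≤ Subgroup.centralizer (R : Set (GL (Fin 10) F)) := by
      rw [hR, Subgroup.closure_le]
      intro x hx
      rw [SetLike.mem_coe, Subgroup.mem_centralizer_iff]
      intro y hy
      rw [← hR] at hy
      have h3 := Subgroup.mem_centralizer_iff.mp (h1 hy) x hx
      exact h3.symm
    intro x hx y hy
    exact Subgroup.mem_centralizer_iff.mp (h2 hy) x hx
  -- a vector with `Q x ≠ 0`
  obtain ⟨x₀, hx₀⟩ : ∃ x₀ : Fin 10 → F, Q x₀ ≠ 0 := by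
    by_contra hcon
    push Not at hcon
    have hv : (fun _ : Fin 10 => (1 : F)) ≠ 0 := fun h => one_ne_zero (congrFun h 0)
    obtain ⟨⟨x, hx⟩, -⟩ := hQ.nondegenerate _ hv
    apply hx
    unfold QuadraticMap.polar
    rw [hcon, hcon, hcon]
    ring
  -- `N` is abelian
  have hNab : ∀ a ∈ N, ∀ b ∈ N, a * b = b * a := by
    rcases hNmin R hRN hRn with hRZ | hRN'
    · have hsq : ∀ g ∈ N, g * g = 1 := by
        intro g hg
        by_contra hg2
        have hgR : g ∈ R := by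
          rw [hR]
          exact Subgroup.subset_closure ((hT₂mem g).mpr ⟨hg, hg2⟩)
        obtain ⟨c, hc⟩ := (Helper97.scalar_mem_scalars_iff g).mp (hRZ hgR)
        have h1 := hH g (hNH hg) x₀
        rw [hc, Matrix.smul_mulVec, Matrix.one_mulVec, hQ.smul] at h1
        have h3 : c ^ 2 = 1 := by
          have h4 : (c ^ 2 - 1) * Q x₀ = 0 := by linear_combination h1
          exact sub_eq_zero.mp ((mul_eq_zero.mp h4).resolve_right hx₀)
        apply hg2
        apply Units.ext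
        rw [Units.val_mul, Units.val_one, hc, Matrix.smul_mul, Matrix.one_mul, smul_smul, ← sq, h3,
          one_smul]
      intro a ha b hb
      have h1 := hsq a ha
      have h2 := hsq b hb
      have h3 := hsq (a * b) (N.mul_mem ha hb)
      calc a * b = b * b * (a * b) * (a * a) := by rw [h1, h2, one_mul, mul_one]
        _ = b * (b * a * (b * a)) * a := by group
        _ = b * (a * b * (a * b))⁻¹⁻¹ * a := by
            have h4 : b * a * (b * a) = (a * b * (a * b))⁻¹⁻¹ := by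
              rw [h3, inv_one, inv_one]
              have h5 : b * a * (b * a) = b * (a * b * (a * b)) * b⁻¹ := by group
              rw [h5, h3]
              group
            rw [h4]
        _ = b * a := by rw [h3, inv_one, inv_one, mul_one]
    · intro a ha b hb
      exact hRcomm a (hRN' ▸ ha) b (hRN' ▸ hb)
  -- hence `N` is inside `Z`, whose elements are self-adjoint
  apply hNZ
  intro g hg
  have hgZ : ZCent T (g : Matrix (Fin 10) (Fin 10) F) := by
    refine ⟨?_, fun c hc => (hc _ (hT ▸ Helper97.coe_mem_matrixSet hg)).symm⟩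
    intro s hs
    rw [hT] at hs
    obtain ⟨x, hx, rfl⟩ := hs
    rw [← Units.val_mul, ← Units.val_mul, hNab g hg x hx]
  have h1 : Sy.adj f (g : Matrix (Fin 10) (Fin 10) F) = (g : Matrix (Fin 10) (Fin 10) F) := hsa _ hgZ
  have h2 : Sy.adj f (g : Matrix (Fin 10) (Fin 10) F) = ((g⁻¹ : GL (Fin 10) F) : Matrix (Fin 10) (Fin 10) F) :=
    adj_iso hf (hH' (hNH hg))
  have h3 : (g : Matrix (Fin 10) (Fin 10) F) * (g : Matrix (Fin 10) (Fin 10) F) = 1 := by
    nth_rewrite 2 [← h1]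
    rw [h2, Units.mul_inv]
  rw [Helper97.scalar_mem_scalars_iff]
  by_cases hg1 : (g : Matrix (Fin 10) (Fin 10) F) - 1 = 0
  · exact ⟨1, by rw [one_smul]; exact sub_eq_zero.mp hg1⟩
  · obtain ⟨y, hy, hgy⟩ := hFS.inv _ ((zc T).sub_mem hgZ (zc T).one_mem) hg1
    have h4 : ((g : Matrix (Fin 10) (Fin 10) F) - 1) * ((g : Matrix (Fin 10) (Fin 10) F) + 1) = 0 := by
      rw [sub_mul, mul_add, mul_one, one_mul, h3]
      abel
    have h5 : (g : Matrix (Fin 10) (Fin 10) F) + 1 = 0 := by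
      have hyg : y * ((g : Matrix (Fin 10) (Fin 10) F) - 1) = 1 := by
        rw [hFS.comm y hy _ ((zc T).sub_mem hgZ (zc T).one_mem), hgy]
      calc (g : Matrix (Fin 10) (Fin 10) F) + 1
          = y * ((g : Matrix (Fin 10) (Fin 10) F) - 1) * ((g : Matrix (Fin 10) (Fin 10) F) + 1) := by
            rw [hyg, one_mul]
        _ = 0 := by rw [mul_assoc, h4, mul_zero]
    exact ⟨-1, by rw [neg_smul, one_smul]; exact eq_neg_of_add_eq_zero_left h5⟩

/-- The field package in dimension 10: the analysis of the centre of the centraliser of a minimal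
non-scalar normal subgroup `N` of an irreducible group `H` of isometries of a quadratic form on
`F^10`: a non-degenerate decomposition, a pair of complementary totally singular subspaces, a
self-adjoint field of degree 2 (odd characteristic), a field of degree 2 of unitary type acting by
similarities, or scalars. -/
theorem o10_field_cases [Fintype F] (Q : (Fin 10 → F) → F) (hQ : IsNondegenerateQuadraticForm Q)
    (H N : Subgroup (GL (Fin 10) F))
    (hH : ∀ h ∈ H, ∀ x, Q ((h : Matrix (Fin 10) (Fin 10) F) *ᵥ x) = Q x)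
    (hirr : ActsIrreducibly (matrixSet H)) (hNH : N ≤ H)
    (hNn : ∀ h ∈ H, ∀ x ∈ N, h * x * h⁻¹ ∈ N) (hNZ : ¬ N ≤ scalars (Fin 10) F)
    (hNmin : ∀ N' : Subgroup (GL (Fin 10) F), N' ≤ N → (∀ h ∈ H, ∀ x ∈ N', h * x * h⁻¹ ∈ N') →
      N' ≤ scalars (Fin 10) F ∨ N' = N) :
    (∃ (t k : ℕ) (D : Fin t → Submodule F (Fin 10 → F)),
      IsNondegenerateMDecomposition (QuadraticMap.polar Q) k D ∧ H ≤ decompositionStabilizer D) ∨
    (∃ (k : ℕ) (D : Fin 2 → Submodule F (Fin 10 → F)), IsMDecomposition k D ∧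
      (∀ i, IsTotallySingularQuad Q (D i)) ∧ H ≤ decompositionStabilizer D) ∨
    ((2 : F) ≠ 0 ∧ ∃ K : Subalgebra F (Matrix (Fin 10) (Fin 10) F), IsFieldSubalgebra 2 K ∧
      IsSelfAdjointFor (QuadraticMap.polar Q) K ∧ H ≤ subalgebraNormalizer K) ∨
    (∃ K : Subalgebra F (Matrix (Fin 10) (Fin 10) F), IsFieldSubalgebra 2 K ∧
      IsAdjointClosedFor (QuadraticMap.polar Q) K ∧ ¬ IsSelfAdjointFor (QuadraticMap.polar Q) K ∧
      (∀ k ∈ K, ∃ c : F, ∀ v : Fin 10 → F, Q (k *ᵥ v) = c * Q v) ∧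
      H ≤ subalgebraNormalizer K) ∨
    (∀ k, Cfsg.Agent.Helper96.ZCent (matrixSet N) k →
      ∃ c : F, k = c • (1 : Matrix (Fin 10) (Fin 10) F)) := by
  classical
  have hf : IsSymmetricForm (QuadraticMap.polar Q) :=
    ⟨hQ.polar_bilinear, fun u v => QuadraticMap.polar_comm Q u v, hQ.nondegenerate⟩
  have hnorm : H ≤ subalgebraNormalizer (zc (matrixSet N)) := le_normalizer_zc H N hNn
  rcases o_z_ref (by norm_num) Q hQ H N hH hirr hNH hNn with h | h | ⟨hFS, hsa, k₀, hk₀, hk₀ns⟩ |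
    ⟨E₀, hFS, hFS₀, hE₀, hZadj, ⟨θ, hθZ, hθ⟩, hfin, hsim⟩ | h
  · exact Or.inl h
  · exact Or.inr (Or.inl h)
  · -- `Z` is a self-adjoint field
    obtain ⟨d, hd⟩ : ∃ d, Module.finrank F (zc (matrixSet N)) = d := ⟨_, rfl⟩
    have hdvd : d ∣ 10 := hd ▸ (Helper97.finrank_dvd_of_division (zc (matrixSet N)) hFS.inv).1
    have hd1 : d ≠ 1 := by
      intro h1
      obtain ⟨c, hc⟩ := Helper97.eq_smul_one_of_finrank_one (zc (matrixSet N)) (hd.trans h1) k₀ hk₀
      exact hk₀ns c hc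
    have hdle : d ≤ 10 := Nat.le_of_dvd (by norm_num) hdvd
    have hcases : d = 5 ∨ 2 ∣ d := by
      interval_cases d <;> simp_all
    rcases hcases with h5 | h2d
    · exact (no_selfadj_five Q hQ H N hH hNH hNn hNZ hNmin hFS hsa (hd.trans h5)).elim
    · obtain ⟨K, hK, hKE, hKn, -⟩ := deg_two_subfield (zc (matrixSet N)) hFS hd h2d
      have hKsa : ∀ k ∈ K, Sy.adj (QuadraticMap.polar Q) k = k := fun k hk => hsa k (hKE hk)
      have hKsa' : IsSelfAdjointFor (QuadraticMap.polar Q) K := fun k hk u v => by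
        rw [adj_spec hf k u v, hKsa k hk]
      by_cases h2 : (2 : F) = 0
      · exfalso
        have hfs : IsSymplecticForm (QuadraticMap.polar Q) := Helper95.O12.polar_symplectic h2 hQ
        have halt := Sy.selfadj_alt hfs K (Helper98.IsFS.of hK) hKsa
        have h4 := Sy.two_mul_dvd_of_selfadj hfs K hK hKsa' halt
        rw [Fintype.card_fin] at h4
        omega
      · exact Or.inr (Or.inr (Or.inl ⟨h2, K, hK, hKsa', hnorm.trans hKn⟩))
  · -- `Z` is a field of degree two over its self-adjoint part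
    right; right; right; left
    obtain ⟨d₀, hd₀⟩ : ∃ d₀, Module.finrank F E₀ = d₀ := ⟨_, rfl⟩
    rw [hd₀] at hfin
    have hdvd : 2 * d₀ ∣ 10 := hfin ▸ (Helper97.finrank_dvd_of_division (zc (matrixSet N)) hFS.inv).1
    have hd₀odd : Nat.Coprime 2 d₀ := by
      have h5 : d₀ ∣ 5 := (Nat.mul_dvd_mul_iff_left (by norm_num : 0 < 2)).mp hdvd
      exact Nat.Coprime.coprime_dvd_right h5 (by decide)
    obtain ⟨K, hK, hKE, hKn, hKdesc⟩ := deg_two_subfield (zc (matrixSet N)) hFS hfin ⟨d₀, rfl⟩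
    have hKFS : Helper98.IsFS K := Helper98.IsFS.of hK
    have hKadj : ∀ k ∈ K, Sy.adj (QuadraticMap.polar Q) k ∈ K := by
      intro k hk
      rcases hKdesc with hKeq | hKdesc
      · rw [hKeq] at hk ⊢
        exact hZadj k hk
      · rw [hKdesc] at hk ⊢
        refine ⟨hZadj k hk.1, ?_⟩
        rw [← adj_pow_sym hf, hk.2]
    have hscal : ∀ m ∈ K, Sy.adj (QuadraticMap.polar Q) m = m →
        ∃ c : F, m = c • (1 : Matrix (Fin 10) (Fin 10) F) := by
      intro m hm hmadj
      refine inf_scalar (by norm_num) K E₀ hKFS hFS₀ ?_ m hm ((hE₀ m).mpr ⟨hKE hm, hmadj⟩)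
      rw [hK.finrank_eq, hd₀]
      exact hd₀odd
    refine ⟨K, hK, fun k hk => ⟨_, hKadj k hk, fun u v => adj_spec hf k u v⟩, ?_, ?_, hnorm.trans hKn⟩
    · intro hsaK
      obtain ⟨k, hk, hkns⟩ := exists_nonscalar_of_finrank_two K hK.finrank_eq
      obtain ⟨c, hc⟩ := hscal k hk (adj_unique hf (fun u v => hsaK k hk u v))
      exact hkns c hc
    · intro k hk
      obtain ⟨c, hc⟩ := hscal (Sy.adj (QuadraticMap.polar Q) k * k) (K.mul_mem (hKadj k hk) hk)
        (by rw [adj_mul hf, adj_adj hf])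
      exact ⟨c, hsim k (hKE hk) c hc⟩
  · exact Or.inr (Or.inr (Or.inr (Or.inr h)))

end Cfsg.Agent.Helper94.O10
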