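import Cfsg.Agent.Helper94.PlusBlocks

set_option autoImplicit false
set_option linter.unusedSectionVars false
set_option linter.unusedSimpArgs false
set_option linter.unnecessarySeqFocus false
set_option linter.unusedVariables false

namespace Cfsg.Agent.Helper94

open Cfsg Cfsg.Geo Matrix
open scoped commutatorElement

universe u

variable {ι : Type} [Fintype ι] [DecidableEq ι] {F : Type u} [Field F]
variable {Q : (ι → F) → F}

/-- The value of `Q` on a combination of a hyperbolic basis. -/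
theorem q_hyp4 (hQ : IsNondegenerateQuadraticForm Q) (e₁ f₁ e₂ f₂ : ι → F) (he₁ : Q e₁ = 0) (hf₁ : Q f₁ = 0)
    (he₂ : Q e₂ = 0) (hf₂ : Q f₂ = 0) (h11 : polB hQ e₁ f₁ = 1) (h22 : polB hQ e₂ f₂ = 1)
    (h1 : polB hQ e₁ e₂ = 0) (h2 : polB hQ e₁ f₂ = 0) (h3 : polB hQ f₁ e₂ = 0) (h4 : polB hQ f₁ f₂ = 0)
    (α β γ δ : F) : Q (α • e₁ + β • f₁ + γ • e₂ + δ • f₂) = α * β + γ * δ := by
  rw [q_add hQ, q_add hQ, q_add hQ, q_smul hQ, q_smul hQ, q_smul hQ, q_smul hQ, he₁, hf₁, he₂, hf₂]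
  simp only [map_add, map_smul, LinearMap.add_apply, LinearMap.smul_apply, smul_eq_mul, h11, h22, h1, h2,
    h3, h4]
  ring

/-- The structure of the vectors of value one in a plus-type space of dimension four over the field with two
elements: two orthogonal triangles. -/
theorem plus4_struct [Fintype F] (hQ : IsNondegenerateQuadraticForm Q) (hq : Fintype.card F = 2)
    (W : Submodule F (ι → F)) (hdim : Module.finrank F W = 4)
    (hW : IsNondegenerateOn (QuadraticMap.polar Q) W) (hWp : IsPlusTypeOn Q W) :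
    ∃ a b c d : ι → F, a ∈ W ∧ b ∈ W ∧ c ∈ W ∧ d ∈ W ∧ Q a = 1 ∧ Q b = 1 ∧ Q c = 1 ∧ Q d = 1 ∧
      polB hQ a b = 1 ∧ polB hQ c d = 1 ∧ polB hQ a c = 0 ∧ polB hQ a d = 0 ∧ polB hQ b c = 0 ∧
      polB hQ b d = 0 ∧
      ∀ s ∈ W, Q s = 1 → s = a ∨ s = b ∨ s = a + b ∨ s = c ∨ s = d ∨ s = c + d := by
  have h2 := two_eq_zero_of_card_two hq
  have h01 := eq_zero_or_one_of_card_two hq
  obtain ⟨e₁, f₁, e₂, f₂, he₁W, hf₁W, he₂W, hf₂W, he₁, hf₁, he₂, hf₂, h11, h22, o1, o2, o3, o4, hall⟩ :=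
    plus4_basis hQ W hdim hW hWp
  have hform := q_hyp4 hQ e₁ f₁ e₂ f₂ he₁ hf₁ he₂ hf₂ h11 h22 o1 o2 o3 o4
  have b11 : polB hQ f₁ e₁ = 1 := by rw [polB_comm]; exact h11
  have b22 : polB hQ f₂ e₂ = 1 := by rw [polB_comm]; exact h22
  have o1' : polB hQ e₂ e₁ = 0 := by rw [polB_comm]; exact o1
  have o2' : polB hQ f₂ e₁ = 0 := by rw [polB_comm]; exact o2
  have o3' : polB hQ e₂ f₁ = 0 := by rw [polB_comm]; exact o3
  have o4' : polB hQ f₂ f₁ = 0 := by rw [polB_comm]; exact o4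
  have s1 : polB hQ e₁ e₁ = 0 := by rw [polB_self, he₁, mul_zero]
  have s2 : polB hQ f₁ f₁ = 0 := by rw [polB_self, hf₁, mul_zero]
  have s3 : polB hQ e₂ e₂ = 0 := by rw [polB_self, he₂, mul_zero]
  have s4 : polB hQ f₂ f₂ = 0 := by rw [polB_self, hf₂, mul_zero]
  have hvv : ∀ x : ι → F, x + x = 0 := by
    intro x
    rw [← two_smul F x, h2, zero_smul]
  refine ⟨e₁ + f₁, e₁ + e₂ + f₂, e₂ + f₂, e₂ + e₁ + f₁, W.add_mem he₁W hf₁W,
    W.add_mem (W.add_mem he₁W he₂W) hf₂W, W.add_mem he₂W hf₂W, W.add_mem (W.add_mem he₂W he₁W) hf₁W,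
    ?_, ?_, ?_, ?_, ?_, ?_, ?_, ?_, ?_, ?_, ?_⟩
  · have := hform 1 1 0 0
    simp only [one_smul, zero_smul, add_zero] at this
    rw [this]; ring
  · have := hform 1 0 1 1
    simp only [one_smul, zero_smul, add_zero] at this
    rw [this]; ring
  · have := hform 0 0 1 1
    simp only [one_smul, zero_smul, add_zero, zero_add] at this
    rw [this]; ring
  · have := hform 1 1 1 0
    simp only [one_smul, zero_smul, add_zero] at this
    have h' : e₂ + e₁ + f₁ = e₁ + f₁ + e₂ := by abel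
    rw [h', this]; ring
  · simp only [map_add, LinearMap.add_apply, h11, h22, o1, o2, o3, o4, b11, b22, o1', o2', o3', o4', s1,
      s2, s3, s4]
    ring
  · simp only [map_add, LinearMap.add_apply, h11, h22, o1, o2, o3, o4, b11, b22, o1', o2', o3', o4', s1,
      s2, s3, s4]
    ring
  · simp only [map_add, LinearMap.add_apply, h11, h22, o1, o2, o3, o4, b11, b22, o1', o2', o3', o4', s1,
      s2, s3, s4]
    ring
  · simp only [map_add, LinearMap.add_apply, h11, h22, o1, o2, o3, o4, b11, b22, o1', o2', o3', o4', s1,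
      s2, s3, s4]
    linear_combination h2
  · simp only [map_add, LinearMap.add_apply, h11, h22, o1, o2, o3, o4, b11, b22, o1', o2', o3', o4', s1,
      s2, s3, s4]
    linear_combination h2
  · simp only [map_add, LinearMap.add_apply, h11, h22, o1, o2, o3, o4, b11, b22, o1', o2', o3', o4', s1,
      s2, s3, s4]
    linear_combination h2
  · intro s hs hQs
    obtain ⟨α, β, γ, δ, rfl⟩ := hall s hs
    rw [hform] at hQs
    rcases h01 α with rfl | rfl <;> rcases h01 β with rfl | rfl <;> rcases h01 γ with rfl | rfl <;>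
      rcases h01 δ with rfl | rfl
    · exfalso; simp at hQs
    · exfalso; simp at hQs
    · exfalso; simp at hQs
    · -- (0,0,1,1)
      right; right; right; left
      simp only [one_smul, zero_smul, add_zero, zero_add]
    · exfalso; simp at hQs
    · exfalso; simp at hQs
    · exfalso; simp at hQs
    · -- (0,1,1,1) = a + b
      right; right; left
      simp only [one_smul, zero_smul, add_zero, zero_add]
      have : e₁ + f₁ + (e₁ + e₂ + f₂) = f₁ + e₂ + f₂ + (e₁ + e₁) := by abel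
      rw [this, hvv, add_zero]
    · exfalso; simp at hQs
    · exfalso; simp at hQs
    · exfalso; simp at hQs
    · -- (1,0,1,1) = b
      right; left
      simp only [one_smul, zero_smul, add_zero, zero_add]
    · -- (1,1,0,0) = a
      left
      simp only [one_smul, zero_smul, add_zero, zero_add]
    · -- (1,1,0,1) = c + d
      right; right; right; right; right
      simp only [one_smul, zero_smul, add_zero, zero_add]
      have : e₂ + f₂ + (e₂ + e₁ + f₁) = e₁ + f₁ + f₂ + (e₂ + e₂) := by abel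
      rw [this, hvv, add_zero]
    · -- (1,1,1,0) = d
      right; right; right; right; left
      simp only [one_smul, zero_smul, add_zero, zero_add]
      abel
    · exfalso
      have : (1 : F) = 0 := by linear_combination hQs
      exact one_ne_zero this


/-- The Siegel-type map `x ↦ x - B(x,w) u - B(x,u) w`. -/
noncomputable def sgLin (hQ : IsNondegenerateQuadraticForm Q) (u w : ι → F) : (ι → F) →ₗ[F] (ι → F) :=
  LinearMap.id - ((polB hQ).flip w).smulRight u - ((polB hQ).flip u).smulRight w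

theorem sgLin_apply (hQ : IsNondegenerateQuadraticForm Q) (u w x : ι → F) :
    sgLin hQ u w x = x - polB hQ x w • u - polB hQ x u • w := by
  simp [sgLin]

theorem q_sgLin (hQ : IsNondegenerateQuadraticForm Q) (h2 : (2 : F) = 0) (u w : ι → F) (hu : Q u = 0)
    (hw : Q w = 0) (huw : polB hQ u w = 0) (x : ι → F) : Q (sgLin hQ u w x) = Q x := by
  rw [sgLin_apply, q_sub hQ, q_sub hQ, q_smul hQ, q_smul hQ, hu, hw]
  simp only [map_sub, map_smul, LinearMap.sub_apply, LinearMap.smul_apply, smul_eq_mul, huw]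
  linear_combination (-(polB hQ x w * polB hQ x u)) * h2

theorem sgLin_invol (hQ : IsNondegenerateQuadraticForm Q) (h2 : (2 : F) = 0) (u w : ι → F) (hu : Q u = 0)
    (hw : Q w = 0) (huw : polB hQ u w = 0) (x : ι → F) : sgLin hQ u w (sgLin hQ u w x) = x := by
  have hwu : polB hQ w u = 0 := by rw [polB_comm]; exact huw
  have buu : polB hQ u u = 0 := by rw [polB_self, hu, mul_zero]
  have bww : polB hQ w w = 0 := by rw [polB_self, hw, mul_zero]
  rw [sgLin_apply, sgLin_apply]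
  simp only [map_sub, map_smul, LinearMap.sub_apply, LinearMap.smul_apply, smul_eq_mul, huw, hwu, buu, bww,
    mul_zero, sub_zero]
  have e : x - polB hQ x w • u - polB hQ x u • w - polB hQ x w • u - polB hQ x u • w =
      x - (2 : F) • (polB hQ x w • u) - (2 : F) • (polB hQ x u • w) := by module
  rw [e, h2, zero_smul, zero_smul, sub_zero, sub_zero]

/-- The Siegel-type map as an element of the general linear group (characteristic two). -/
noncomputable def sgGL (hQ : IsNondegenerateQuadraticForm Q) (h2 : (2 : F) = 0) (u w : ι → F) (hu : Q u = 0)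
    (hw : Q w = 0) (huw : polB hQ u w = 0) : GL ι F :=
  glOfInvol (sgLin hQ u w) (sgLin_invol hQ h2 u w hu hw huw)

theorem sgGL_mulVec (hQ : IsNondegenerateQuadraticForm Q) (h2 : (2 : F) = 0) (u w : ι → F) (hu : Q u = 0)
    (hw : Q w = 0) (huw : polB hQ u w = 0) (x : ι → F) :
    ((sgGL hQ h2 u w hu hw huw : GL ι F) : Matrix ι ι F) *ᵥ x = sgLin hQ u w x :=
  glOfInvol_mulVec _ _ _

theorem sgGL_inv (hQ : IsNondegenerateQuadraticForm Q) (h2 : (2 : F) = 0) (u w : ι → F) (hu : Q u = 0)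
    (hw : Q w = 0) (huw : polB hQ u w = 0) : (sgGL hQ h2 u w hu hw huw)⁻¹ = sgGL hQ h2 u w hu hw huw := rfl

theorem sgGL_mem (hQ : IsNondegenerateQuadraticForm Q) (h2 : (2 : F) = 0) (u w : ι → F) (hu : Q u = 0)
    (hw : Q w = 0) (huw : polB hQ u w = 0) : sgGL hQ h2 u w hu hw huw ∈ isometryGroup F Q := by
  intro x _
  change Q (((sgGL hQ h2 u w hu hw huw : GL ι F) : Matrix ι ι F) *ᵥ x) = Q x
  rw [sgGL_mulVec, q_sgLin hQ h2 u w hu hw huw]

/-- The commutator of two involutions applied to a vector. -/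
theorem comm_invol_mulVec (g h : GL ι F) (hg : g⁻¹ = g) (hh : h⁻¹ = h) (v : ι → F) :
    ((⁅g, h⁆ : GL ι F) : Matrix ι ι F) *ᵥ v =
      (g : Matrix ι ι F) *ᵥ ((h : Matrix ι ι F) *ᵥ ((g : Matrix ι ι F) *ᵥ ((h : Matrix ι ι F) *ᵥ v))) := by
  rw [commutatorElement_def, hg, hh, Units.val_mul, Units.val_mul, Units.val_mul, ← mulVec_mulVec,
    ← mulVec_mulVec, ← mulVec_mulVec]

/-- Plus-type spaces of dimension four over the field with two elements: each member is the orthogonal sum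
of two anisotropic planes, and the stabiliser of the finer family of planes lies strictly in between. -/
theorem plus4_q2_not_max [Fintype F] (hQ : IsNondegenerateQuadraticForm Q) (hq : Fintype.card F = 2) {t : ℕ}
    (D : Fin t → Submodule F (ι → F)) (hD : IsOrthogonalMDecomposition Q 4 D) (ht : 3 ≤ t)
    (hplus : ∀ i, IsPlusTypeOn Q (D i)) :
    ∃ K : Subgroup (GL ι F), decompositionStabilizer D ⊓ omegaGL Q < K ∧ K < omegaGL Q := by
  classical
  have h2 := two_eq_zero_of_card_two hq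
  have horth : ∀ i j, i ≠ j → ∀ u ∈ D i, ∀ v ∈ D j, polB hQ u v = 0 :=
    fun i j hij u hu v hv => hD.decomp.orthogonal i j hij u hu v hv
  obtain ⟨i₀, i₁, i₂, n01, n02, n12⟩ : ∃ i₀ i₁ i₂ : Fin t, i₀ ≠ i₁ ∧ i₀ ≠ i₂ ∧ i₁ ≠ i₂ :=
    ⟨⟨0, by omega⟩, ⟨1, by omega⟩, ⟨2, by omega⟩, by simp [Fin.ext_iff], by simp [Fin.ext_iff],
      by simp [Fin.ext_iff]⟩
  have n10 := n01.symm
  have n20 := n02.symm
  have n21 := n12.symm
  obtain ⟨a0, b0, c0, d0, ha0D, hb0D, hc0D, hd0D, hQa0, hQb0, hQc0, hQd0, bab0, bcd0, bac0, bad0, bbc0,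
    bbd0, hall0⟩ := plus4_struct hQ hq (D i₀) (hD.decomp.decomp.finrank_eq i₀)
      (hD.decomp.nondegenerate i₀) (hplus i₀)
  obtain ⟨a1, b1, c1, d1, ha1D, hb1D, hc1D, hd1D, hQa1, hQb1, hQc1, hQd1, bab1, bcd1, bac1, bad1, bbc1,
    bbd1, hall1⟩ := plus4_struct hQ hq (D i₁) (hD.decomp.decomp.finrank_eq i₁)
      (hD.decomp.nondegenerate i₁) (hplus i₁)
  obtain ⟨a2, -, -, -, ha2D, -, -, -, hQa2, -⟩ := plus4_struct hQ hq (D i₂)
    (hD.decomp.decomp.finrank_eq i₂) (hD.decomp.nondegenerate i₂) (hplus i₂)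
  have X01 := horth i₀ i₁ n01
  have X10 := horth i₁ i₀ n10
  have X02 := horth i₀ i₂ n02
  have X20 := horth i₂ i₀ n20
  have X12 := horth i₁ i₂ n12
  have X21 := horth i₂ i₁ n21
  have bba0 : polB hQ b0 a0 = 1 := by rw [polB_comm]; exact bab0
  have bdc0 : polB hQ d0 c0 = 1 := by rw [polB_comm]; exact bcd0
  have bca0 : polB hQ c0 a0 = 0 := by rw [polB_comm]; exact bac0
  have bda0 : polB hQ d0 a0 = 0 := by rw [polB_comm]; exact bad0
  have bcb0 : polB hQ c0 b0 = 0 := by rw [polB_comm]; exact bbc0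
  have bdb0 : polB hQ d0 b0 = 0 := by rw [polB_comm]; exact bbd0
  have bba1 : polB hQ b1 a1 = 1 := by rw [polB_comm]; exact bab1
  have bdc1 : polB hQ d1 c1 = 1 := by rw [polB_comm]; exact bcd1
  have bca1 : polB hQ c1 a1 = 0 := by rw [polB_comm]; exact bac1
  have bda1 : polB hQ d1 a1 = 0 := by rw [polB_comm]; exact bad1
  have bcb1 : polB hQ c1 b1 = 0 := by rw [polB_comm]; exact bbc1
  have bdb1 : polB hQ d1 b1 = 0 := by rw [polB_comm]; exact bbd1
  have hself : ∀ x : ι → F, Q x = 1 → polB hQ x x = 0 := by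
    intro x hx
    rw [polB_self, hx]; linear_combination h2
  have saa0 := hself a0 hQa0
  have sbb0 := hself b0 hQb0
  have scc0 := hself c0 hQc0
  have sdd0 := hself d0 hQd0
  have saa1 := hself a1 hQa1
  have sbb1 := hself b1 hQb1
  have scc1 := hself c1 hQc1
  have sdd1 := hself d1 hQd1
  -- the two Siegel elements
  have hQu1 : Q (c0 - a0) = 0 := by
    rw [q_sub hQ, hQc0, hQa0, bca0]; linear_combination h2
  have hQw1 : Q (d0 - b0) = 0 := by
    rw [q_sub hQ, hQd0, hQb0, bdb0]; linear_combination h2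
  have huw1 : polB hQ (c0 - a0) (d0 - b0) = 0 := by
    simp only [map_sub, LinearMap.sub_apply, bcd0, bcb0, bad0, bab0]
    linear_combination h2
  have hQu2 : Q (a1 - c0) = 0 := by
    rw [q_sub hQ, hQa1, hQc0, X10 a1 ha1D c0 hc0D]; linear_combination h2
  have hQw2 : Q (b1 - d0) = 0 := by
    rw [q_sub hQ, hQb1, hQd0, X10 b1 hb1D d0 hd0D]; linear_combination h2
  have huw2 : polB hQ (a1 - c0) (b1 - d0) = 0 := by
    simp only [map_sub, LinearMap.sub_apply, bab1, bcd0, X10 a1 ha1D d0 hd0D, X01 c0 hc0D b1 hb1D]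
    linear_combination h2
  obtain ⟨σ₁, hσ₁⟩ : ∃ σ₁ : GL ι F, σ₁ = sgGL hQ h2 (c0 - a0) (d0 - b0) hQu1 hQw1 huw1 := ⟨_, rfl⟩
  obtain ⟨σ₂, hσ₂⟩ : ∃ σ₂ : GL ι F, σ₂ = sgGL hQ h2 (a1 - c0) (b1 - d0) hQu2 hQw2 huw2 := ⟨_, rfl⟩
  have hσ₁v : ∀ x, (σ₁ : Matrix ι ι F) *ᵥ x = x - polB hQ x (d0 - b0) • (c0 - a0) -
      polB hQ x (c0 - a0) • (d0 - b0) := by
    intro x
    rw [hσ₁, sgGL_mulVec, sgLin_apply]
  have hσ₂v : ∀ x, (σ₂ : Matrix ι ι F) *ᵥ x = x - polB hQ x (b1 - d0) • (a1 - c0) -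
      polB hQ x (a1 - c0) • (b1 - d0) := by
    intro x
    rw [hσ₂, sgGL_mulVec, sgLin_apply]
  have hσ₁inv : σ₁⁻¹ = σ₁ := by rw [hσ₁]; rfl
  have hσ₂inv : σ₂⁻¹ = σ₂ := by rw [hσ₂]; rfl
  have hσ₁iso : σ₁ ∈ isometryGroup F Q := by rw [hσ₁]; exact sgGL_mem hQ h2 _ _ _ _ _
  have hσ₂iso : σ₂ ∈ isometryGroup F Q := by rw [hσ₂]; exact sgGL_mem hQ h2 _ _ _ _ _
  -- values of the Siegel elements
  have S1a0 : (σ₁ : Matrix ι ι F) *ᵥ a0 = c0 := by
    rw [hσ₁v]
    simp only [map_sub, bad0, bab0, bac0, saa0]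
    module
  have S1c0 : (σ₁ : Matrix ι ι F) *ᵥ c0 = a0 := by
    rw [hσ₁v]
    simp only [map_sub, bcd0, bcb0, bca0, scc0]
    module
  have S1a1 : (σ₁ : Matrix ι ι F) *ᵥ a1 = a1 := by
    rw [hσ₁v]
    simp only [map_sub, X10 a1 ha1D d0 hd0D, X10 a1 ha1D b0 hb0D, X10 a1 ha1D c0 hc0D, X10 a1 ha1D a0 ha0D]
    module
  have S2a0 : (σ₂ : Matrix ι ι F) *ᵥ a0 = a0 := by
    rw [hσ₂v]
    simp only [map_sub, X01 a0 ha0D b1 hb1D, X01 a0 ha0D a1 ha1D, bad0, bac0]
    module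
  have S2b0 : (σ₂ : Matrix ι ι F) *ᵥ b0 = b0 := by
    rw [hσ₂v]
    simp only [map_sub, X01 b0 hb0D b1 hb1D, X01 b0 hb0D a1 ha1D, bbd0, bbc0]
    module
  have S2c0 : (σ₂ : Matrix ι ι F) *ᵥ c0 = a1 := by
    rw [hσ₂v]
    simp only [map_sub, X01 c0 hc0D b1 hb1D, X01 c0 hc0D a1 ha1D, bcd0, scc0]
    module
  have S2d0 : (σ₂ : Matrix ι ι F) *ᵥ d0 = b1 := by
    rw [hσ₂v]
    simp only [map_sub, X01 d0 hd0D b1 hb1D, X01 d0 hd0D a1 ha1D, bdc0, sdd0]
    module
  have S2a1 : (σ₂ : Matrix ι ι F) *ᵥ a1 = c0 := by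
    rw [hσ₂v]
    simp only [map_sub, X10 a1 ha1D d0 hd0D, X10 a1 ha1D c0 hc0D, bab1, saa1]
    module
  have S2b1 : (σ₂ : Matrix ι ι F) *ᵥ b1 = d0 := by
    rw [hσ₂v]
    simp only [map_sub, X10 b1 hb1D d0 hd0D, X10 b1 hb1D c0 hc0D, bba1, sbb1]
    module
  have S2c1 : (σ₂ : Matrix ι ι F) *ᵥ c1 = c1 := by
    rw [hσ₂v]
    simp only [map_sub, X10 c1 hc1D d0 hd0D, X10 c1 hc1D c0 hc0D, bcb1, bca1]
    module
  have S2d1 : (σ₂ : Matrix ι ι F) *ᵥ d1 = d1 := by
    rw [hσ₂v]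
    simp only [map_sub, X10 d1 hd1D d0 hd0D, X10 d1 hd1D c0 hc0D, bdb1, bda1]
    module
  have hst1 : σ₁ ∈ Cfsg.stabilizing (Cfsg.glToMat ι F) (frameSet Q D 1) := by
    apply mem_stabilizing_of_invol _ _ hσ₁inv
    rintro s ⟨j, hsj, hs⟩
    by_cases hj : j = i₀
    · subst hj
      refine ⟨j, ?_, by rw [isom_apply hσ₁iso, hs]⟩
      rw [hσ₁v]
      exact (D j).sub_mem ((D j).sub_mem hsj ((D j).smul_mem _ ((D j).sub_mem hc0D ha0D)))
        ((D j).smul_mem _ ((D j).sub_mem hd0D hb0D))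
    · refine ⟨j, ?_, by rw [isom_apply hσ₁iso, hs]⟩
      rw [hσ₁v]
      simp only [map_sub, horth j i₀ hj s hsj d0 hd0D, horth j i₀ hj s hsj b0 hb0D,
        horth j i₀ hj s hsj c0 hc0D, horth j i₀ hj s hsj a0 ha0D, sub_zero, zero_smul]
      exact hsj
  have hst2 : σ₂ ∈ Cfsg.stabilizing (Cfsg.glToMat ι F) (frameSet Q D 1) := by
    apply mem_stabilizing_of_invol _ _ hσ₂inv
    rintro s ⟨j, hsj, hs⟩
    have hQ' : Q ((σ₂ : Matrix ι ι F) *ᵥ s) = 1 := by rw [isom_apply hσ₂iso, hs]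
    by_cases hj0 : j = i₀
    · subst hj0
      rcases hall0 s hsj hs with rfl | rfl | rfl | rfl | rfl | rfl
      · exact ⟨j, by rw [S2a0]; exact ha0D, hQ'⟩
      · exact ⟨j, by rw [S2b0]; exact hb0D, hQ'⟩
      · exact ⟨j, by rw [mulVec_add, S2a0, S2b0]; exact hsj, hQ'⟩
      · exact ⟨i₁, by rw [S2c0]; exact ha1D, hQ'⟩
      · exact ⟨i₁, by rw [S2d0]; exact hb1D, hQ'⟩
      · exact ⟨i₁, by rw [mulVec_add, S2c0, S2d0]; exact (D i₁).add_mem ha1D hb1D, hQ'⟩
    · by_cases hj1 : j = i₁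
      · subst hj1
        rcases hall1 s hsj hs with rfl | rfl | rfl | rfl | rfl | rfl
        · exact ⟨i₀, by rw [S2a1]; exact hc0D, hQ'⟩
        · exact ⟨i₀, by rw [S2b1]; exact hd0D, hQ'⟩
        · exact ⟨i₀, by rw [mulVec_add, S2a1, S2b1]; exact (D i₀).add_mem hc0D hd0D, hQ'⟩
        · exact ⟨j, by rw [S2c1]; exact hc1D, hQ'⟩
        · exact ⟨j, by rw [S2d1]; exact hd1D, hQ'⟩
        · exact ⟨j, by rw [mulVec_add, S2c1, S2d1]; exact hsj, hQ'⟩
      · refine ⟨j, ?_, hQ'⟩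
        rw [hσ₂v]
        simp only [map_sub, horth j i₁ hj1 s hsj b1 hb1D, horth j i₀ hj0 s hsj d0 hd0D,
          horth j i₁ hj1 s hsj a1 ha1D, horth j i₀ hj0 s hsj c0 hc0D, sub_zero, zero_smul]
        exact hsj
  -- the second witness
  obtain ⟨p, hp⟩ : ∃ p, p = a0 + a1 + a2 := ⟨_, rfl⟩
  have hQp : Q p = 1 := by
    rw [hp, q_add hQ, q_add hQ, hQa0, hQa1, hQa2]
    simp only [map_add, LinearMap.add_apply, X01 a0 ha0D a1 ha1D, X02 a0 ha0D a2 ha2D, X12 a1 ha1D a2 ha2D]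
    linear_combination h2
  have hp1 : Q p ≠ 0 := by rw [hQp]; exact one_ne_zero
  have hb01 : Q b0 ≠ 0 := by rw [hQb0]; exact one_ne_zero
  refine between_of_witness D (frameSet Q D 1) (frame_fwd D 1) ⁅σ₁, σ₂⁆
    (comm_mem_omega hσ₁iso hσ₂iso) ?_ ?_
    ⁅reflGL hQ p hp1, reflGL hQ b0 hb01⁆
    (comm_mem_omega (reflGL_mem hQ _ hp1) (reflGL_mem hQ _ hb01)) ?_
  · rw [commutatorElement_def]
    exact Subgroup.mul_mem _ (Subgroup.mul_mem _ (Subgroup.mul_mem _ hst1 hst2)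
      (Subgroup.inv_mem _ hst1)) (Subgroup.inv_mem _ hst2)
  · rintro ⟨σ, hσ⟩
    have c1 : ((⁅σ₁, σ₂⁆ : GL ι F) : Matrix ι ι F) *ᵥ a0 = a1 := by
      rw [comm_invol_mulVec _ _ hσ₁inv hσ₂inv, S2a0, S1a0, S2c0, S1a1]
    have c2 : ((⁅σ₁, σ₂⁆ : GL ι F) : Matrix ι ι F) *ᵥ c0 = a0 := by
      rw [comm_invol_mulVec _ _ hσ₁inv hσ₂inv, S2c0, S1a1, S2a1, S1c0]
    have m1 : a1 ∈ D (σ i₀) := by
      rw [← hσ i₀]
      exact ⟨a0, ha0D, by rw [Matrix.toLin'_apply, c1]⟩
    have m2 : a0 ∈ D (σ i₀) := by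
      rw [← hσ i₀]
      exact ⟨c0, hc0D, by rw [Matrix.toLin'_apply, c2]⟩
    have hσ1 : σ i₀ = i₁ := by
      by_contra hne
      have := horth (σ i₀) i₁ hne _ m1 _ hb1D
      rw [bab1] at this
      exact one_ne_zero this
    rw [hσ1] at m2
    have := horth i₁ i₀ n10 _ m2 _ hb0D
    rw [bab0] at this
    exact one_ne_zero this
  · intro hst
    have hin := ((mem_stabilizing_iff _ _).mp hst b0).mp ⟨i₀, hb0D, hQb0⟩
    have bb0p : polB hQ b0 p = 1 := by
      rw [hp]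
      simp only [map_add, bba0, X01 b0 hb0D a1 ha1D, X02 b0 hb0D a2 ha2D]
      ring
    have bpb0 : polB hQ p b0 = 1 := by rw [polB_comm]; exact bb0p
    have bpp : polB hQ p p = 0 := hself p hQp
    have r1 : reflLin hQ b0 b0 = b0 := by
      rw [reflLin_apply, sbb0, mul_zero, zero_smul, sub_zero]
    have r2 : reflLin hQ p b0 = b0 - p := by
      rw [reflLin_apply, hQp, bb0p]
      module
    have r3 : reflLin hQ b0 (b0 - p) = b0 - p + b0 := by
      rw [reflLin_apply, hQb0]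
      simp only [map_sub, LinearMap.sub_apply, sbb0, bpb0]
      module
    have r4 : reflLin hQ p (b0 - p + b0) = b0 - p + b0 := by
      rw [reflLin_apply, hQp]
      simp only [map_add, map_sub, LinearMap.add_apply, LinearMap.sub_apply, bb0p, bpp]
      have : ((1 : F)⁻¹ * (1 - 0 + 1)) = 0 := by linear_combination h2
      rw [this]
      module
    rw [comm_refl_mulVec, r1, r2, r3, r4] at hin
    obtain ⟨j, hj, -⟩ := hin
    have p1 : polB hQ (b0 - p + b0) b1 = -1 := by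
      rw [hp]
      simp only [map_add, map_sub, LinearMap.add_apply, LinearMap.sub_apply, X01 b0 hb0D b1 hb1D,
        X01 a0 ha0D b1 hb1D, bab1, X21 a2 ha2D b1 hb1D]
      ring
    have p0 : polB hQ (b0 - p + b0) b0 = -1 := by
      rw [hp]
      simp only [map_add, map_sub, LinearMap.add_apply, LinearMap.sub_apply, sbb0, bab0,
        X10 a1 ha1D b0 hb0D, X20 a2 ha2D b0 hb0D]
      ring
    have hj1 : j = i₁ := by
      by_contra hne
      have := horth j i₁ hne _ hj _ hb1D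
      rw [p1] at this
      exact one_ne_zero (neg_eq_zero.mp this)
    rw [hj1] at hj
    have := horth i₁ i₀ n10 _ hj _ hb0D
    rw [p0] at this
    exact one_ne_zero (neg_eq_zero.mp this)

end Cfsg.Agent.Helper94
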