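import Mathlib
import Cfsg.Agent.Helper43.QuadFin

/-!
Partial hyperbolic frames of a quadratic space with non-degenerate polar form: the complement of
a partial frame, the projection onto it, extension of a partial frame by a singular vector of the
complement, and (over a finite field, in dimension at least 13) frames of size six through a
given singular vector or a given totally singular pair.
-/

set_option autoImplicit false
set_option linter.unusedSectionVars false
set_option linter.unusedVariables false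

namespace Cfsg.Agent.Helper94

open Module

section PFrame

variable {K : Type*} [Field K] {V : Type*} [AddCommGroup V] [Module K V] (Q : QuadraticForm K V)

/-- A partial hyperbolic frame of size `j` (families indexed by `ℕ`, only the indices `< j`
matter). -/
def PFr (j : ℕ) (e f : ℕ → V) : Prop :=
  (∀ i < j, Q (e i) = 0 ∧ Q (f i) = 0) ∧
  ∀ i < j, ∀ i' < j, QuadraticMap.polar ⇑Q (e i) (e i') = 0 ∧
    QuadraticMap.polar ⇑Q (f i) (f i') = 0 ∧
    QuadraticMap.polar ⇑Q (e i) (f i') = if i = i' then 1 else 0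

theorem PFr.mono {j : ℕ} {e f : ℕ → V} (h : PFr Q (j + 1) e f) : PFr Q j e f :=
  ⟨fun i hi => h.1 i (by omega), fun i hi i' hi' => h.2 i (by omega) i' (by omega)⟩

theorem pfr_zero (e f : ℕ → V) : PFr Q 0 e f :=
  ⟨fun i hi => absurd hi (Nat.not_lt_zero i), fun i hi => absurd hi (Nat.not_lt_zero i)⟩

/-- The orthogonal complement of a partial frame. -/
def pfrPerp (j : ℕ) (e f : ℕ → V) : Submodule K V where
  carrier := {v | ∀ i < j, QuadraticMap.polar ⇑Q (e i) v = 0 ∧ QuadraticMap.polar ⇑Q (f i) v = 0}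
  add_mem' := by
    intro a b ha hb i hi
    rw [QuadraticMap.polar_add_right, QuadraticMap.polar_add_right, (ha i hi).1, (hb i hi).1,
      (ha i hi).2, (hb i hi).2, add_zero]
    exact ⟨rfl, rfl⟩
  zero_mem' := by
    intro i hi
    rw [QuadraticMap.polar_zero_right, QuadraticMap.polar_zero_right]
    exact ⟨rfl, rfl⟩
  smul_mem' := by
    intro c a ha i hi
    rw [QuadraticMap.polar_smul_right, QuadraticMap.polar_smul_right, (ha i hi).1, (ha i hi).2,
      smul_zero]
    exact ⟨rfl, rfl⟩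

theorem mem_pfrPerp (j : ℕ) (e f : ℕ → V) (v : V) :
    v ∈ pfrPerp Q j e f ↔
      ∀ i < j, QuadraticMap.polar ⇑Q (e i) v = 0 ∧ QuadraticMap.polar ⇑Q (f i) v = 0 := Iff.rfl

/-- The projection onto the complement of a partial frame. -/
def pfrProj (e f : ℕ → V) : ℕ → V → V
  | 0, z => z
  | j + 1, z => pfrProj e f j z - QuadraticMap.polar ⇑Q (f j) (pfrProj e f j z) • e j
      - QuadraticMap.polar ⇑Q (e j) (pfrProj e f j z) • f j

theorem pfrProj_spec {e f : ℕ → V} (z : V) : ∀ j, PFr Q j e f →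
    pfrProj Q e f j z ∈ pfrPerp Q j e f ∧
      ∀ v ∈ pfrPerp Q j e f,
        QuadraticMap.polar ⇑Q v (pfrProj Q e f j z) = QuadraticMap.polar ⇑Q v z := by
  intro j
  induction j with
  | zero =>
    intro _
    exact ⟨fun i hi => absurd hi (Nat.not_lt_zero i), fun v _ => rfl⟩
  | succ j ih =>
    intro h
    obtain ⟨hp, hv⟩ := ih h.mono
    obtain ⟨p, hpdef⟩ : ∃ p, p = pfrProj Q e f j z := ⟨_, rfl⟩
    have hstep : pfrProj Q e f (j + 1) z = p - QuadraticMap.polar ⇑Q (f j) p • e j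
        - QuadraticMap.polar ⇑Q (e j) p • f j := by
      rw [hpdef]
      rfl
    rw [← hpdef] at hp hv
    rw [hstep]
    have hj : j < j + 1 := Nat.lt_succ_self j
    refine ⟨fun i hi => ?_, fun v hv' => ?_⟩
    · have hij := h.2 i hi j hj
      have hji := h.2 j hj i hi
      have hfe : QuadraticMap.polar ⇑Q (f i) (e j) = if j = i then 1 else 0 := by
        rw [QuadraticMap.polar_comm]
        exact hji.2.2
      rw [QuadraticMap.polar_sub_right, QuadraticMap.polar_sub_right,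
        QuadraticMap.polar_smul_right, QuadraticMap.polar_smul_right, QuadraticMap.polar_sub_right,
        QuadraticMap.polar_sub_right, QuadraticMap.polar_smul_right,
        QuadraticMap.polar_smul_right, hij.1, hij.2.2, hij.2.1, hfe]
      rcases Nat.lt_succ_iff_lt_or_eq.mp hi with hlt | heq
      · rw [(hp i hlt).1, (hp i hlt).2, if_neg (ne_of_lt hlt), if_neg (ne_of_gt hlt)]
        simp
      · subst heq
        simp
    · have hvj := hv' j hj
      have hv1 : QuadraticMap.polar ⇑Q v (e j) = 0 := by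
        rw [QuadraticMap.polar_comm]
        exact hvj.1
      have hv2 : QuadraticMap.polar ⇑Q v (f j) = 0 := by
        rw [QuadraticMap.polar_comm]
        exact hvj.2
      rw [QuadraticMap.polar_sub_right, QuadraticMap.polar_sub_right,
        QuadraticMap.polar_smul_right, QuadraticMap.polar_smul_right, hv1, hv2, smul_zero,
        smul_zero, sub_zero, sub_zero]
      exact hv v (fun i hi => hv' i (by omega))

/-- A singular vector of the complement has a hyperbolic partner in the complement. -/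
theorem pfr_partner (hQ : Helper43.PolarNondeg Q) {j : ℕ} {e f : ℕ → V} (h : PFr Q j e f)
    {v : V} (hv : v ∈ pfrPerp Q j e f) (hv0 : v ≠ 0) (hQv : Q v = 0) :
    ∃ w ∈ pfrPerp Q j e f, Q w = 0 ∧ QuadraticMap.polar ⇑Q v w = 1 := by
  have hex : ∃ z, QuadraticMap.polar ⇑Q v z ≠ 0 := by
    by_contra hcon
    exact hv0 (hQ v fun w => by_contra fun hw => hcon ⟨w, hw⟩)
  obtain ⟨z, hz⟩ := hex
  obtain ⟨hp, hpv⟩ := pfrProj_spec Q z j h
  obtain ⟨p, hpdef⟩ : ∃ p, p = pfrProj Q e f j z := ⟨_, rfl⟩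
  rw [← hpdef] at hp hpv
  have hvp : QuadraticMap.polar ⇑Q v p ≠ 0 := by
    rw [hpv v hv]
    exact hz
  obtain ⟨w₁, hw₁def⟩ : ∃ w₁, w₁ = (QuadraticMap.polar ⇑Q v p)⁻¹ • p := ⟨_, rfl⟩
  have hw₁ : w₁ ∈ pfrPerp Q j e f := by
    rw [hw₁def]
    exact (pfrPerp Q j e f).smul_mem _ hp
  have hvw₁ : QuadraticMap.polar ⇑Q v w₁ = 1 := by
    rw [hw₁def, QuadraticMap.polar_smul_right, smul_eq_mul, inv_mul_cancel₀ hvp]
  have hvv : QuadraticMap.polar ⇑Q v v = 0 := Helper43.polar_self_of_singular Q hQv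
  refine ⟨w₁ + (-(Q w₁)) • v, (pfrPerp Q j e f).add_mem hw₁ ((pfrPerp Q j e f).smul_mem _ hv),
    ?_, ?_⟩
  · rw [QuadraticMap.map_add (⇑Q) w₁ ((-(Q w₁)) • v), QuadraticMap.map_smul, hQv,
      QuadraticMap.polar_smul_right, QuadraticMap.polar_comm, hvw₁]
    simp
  · rw [QuadraticMap.polar_add_right, QuadraticMap.polar_smul_right, hvv, hvw₁]
    simp

/-- Extending a partial frame by a hyperbolic pair of its complement. -/
theorem pfr_snoc {j : ℕ} {e f : ℕ → V} (h : PFr Q j e f) {v w : V}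
    (hv : v ∈ pfrPerp Q j e f) (hw : w ∈ pfrPerp Q j e f) (hQv : Q v = 0) (hQw : Q w = 0)
    (hvw : QuadraticMap.polar ⇑Q v w = 1) :
    PFr Q (j + 1) (Function.update e j v) (Function.update f j w) := by
  have hvv : QuadraticMap.polar ⇑Q v v = 0 := Helper43.polar_self_of_singular Q hQv
  have hww : QuadraticMap.polar ⇑Q w w = 0 := Helper43.polar_self_of_singular Q hQw
  refine ⟨fun i hi => ?_, fun i hi i' hi' => ?_⟩
  · rcases Nat.lt_succ_iff_lt_or_eq.mp hi with hlt | heq
    · rw [Function.update_of_ne (ne_of_lt hlt), Function.update_of_ne (ne_of_lt hlt)]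
      exact h.1 i hlt
    · subst heq
      rw [Function.update_self, Function.update_self]
      exact ⟨hQv, hQw⟩
  · rcases Nat.lt_succ_iff_lt_or_eq.mp hi with hlt | heq <;>
      rcases Nat.lt_succ_iff_lt_or_eq.mp hi' with hlt' | heq'
    · rw [Function.update_of_ne (ne_of_lt hlt), Function.update_of_ne (ne_of_lt hlt),
        Function.update_of_ne (ne_of_lt hlt'), Function.update_of_ne (ne_of_lt hlt')]
      exact h.2 i hlt i' hlt'
    · subst heq'
      rw [Function.update_of_ne (ne_of_lt hlt), Function.update_of_ne (ne_of_lt hlt),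
        Function.update_self, Function.update_self, if_neg (ne_of_lt hlt)]
      exact ⟨(hv i hlt).1, (hw i hlt).2, (hw i hlt).1⟩
    · subst heq
      rw [Function.update_of_ne (ne_of_lt hlt'), Function.update_of_ne (ne_of_lt hlt'),
        Function.update_self, Function.update_self, if_neg (ne_of_gt hlt'),
        QuadraticMap.polar_comm ⇑Q v (e i'), QuadraticMap.polar_comm ⇑Q w (f i'),
        QuadraticMap.polar_comm ⇑Q v (f i')]
      exact ⟨(hv i' hlt').1, (hw i' hlt').2, (hv i' hlt').2⟩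
    · subst heq
      subst heq'
      rw [Function.update_self, Function.update_self, if_pos rfl]
      exact ⟨hvv, hww, hvw⟩

theorem pfrPerp_finrank [FiniteDimensional K V] (j : ℕ) (e f : ℕ → V) :
    finrank K V ≤ finrank K (pfrPerp Q j e f) + 2 * j := by
  obtain ⟨φ, hφ⟩ : ∃ φ : V →ₗ[K] (Fin j → K) × (Fin j → K), ∀ v, φ v =
      (fun i : Fin j => QuadraticMap.polar ⇑Q (e i) v,
        fun i : Fin j => QuadraticMap.polar ⇑Q (f i) v) :=
    ⟨(LinearMap.pi fun i : Fin j => QuadraticMap.polarBilin Q (e i)).prod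
      (LinearMap.pi fun i : Fin j => QuadraticMap.polarBilin Q (f i)), fun v => rfl⟩
  have hker : LinearMap.ker φ = pfrPerp Q j e f := by
    ext v
    rw [LinearMap.mem_ker, hφ, mem_pfrPerp, Prod.mk_eq_zero]
    constructor
    · rintro ⟨h1, h2⟩ i hi
      exact ⟨congrFun h1 ⟨i, hi⟩, congrFun h2 ⟨i, hi⟩⟩
    · intro h
      exact ⟨funext fun i => (h i i.2).1, funext fun i => (h i i.2).2⟩
  have h1 := LinearMap.finrank_range_add_finrank_ker φ
  have h2 : finrank K (LinearMap.range φ) ≤ 2 * j := by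
    have := Submodule.finrank_le (LinearMap.range φ)
    rw [Module.finrank_prod, Module.finrank_fin_fun] at this
    omega
  rw [hker] at h1
  omega

/-- Over a finite field the complement of a partial frame of size at most five contains a
non-zero singular vector, in dimension at least 13. -/
theorem pfr_sing [Finite K] [FiniteDimensional K V] (hn : 13 ≤ finrank K V) {j : ℕ} (hj : j ≤ 5)
    (e f : ℕ → V) : ∃ v ∈ pfrPerp Q j e f, v ≠ 0 ∧ Q v = 0 := by
  have h1 := pfrPerp_finrank Q j e f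
  obtain ⟨v, hv0, hv⟩ := Helper43.exists_singular (Q.comp (pfrPerp Q j e f).subtype) (by omega)
  refine ⟨(v : V), v.2, ?_, hv⟩
  intro h
  apply hv0
  exact Subtype.ext h

/-- Extension of a partial frame to a frame of size six. -/
theorem pfr_extend [Finite K] [FiniteDimensional K V] (hQ : Helper43.PolarNondeg Q)
    (hn : 13 ≤ finrank K V) : ∀ (d j : ℕ) (e f : ℕ → V), j + d = 6 → PFr Q j e f →
      ∃ e' f' : ℕ → V, PFr Q 6 e' f' ∧ ∀ i < j, e' i = e i ∧ f' i = f i := by
  intro d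
  induction d with
  | zero =>
    intro j e f hj h
    have : j = 6 := by omega
    subst this
    exact ⟨e, f, h, fun i _ => ⟨rfl, rfl⟩⟩
  | succ d ih =>
    intro j e f hj h
    obtain ⟨v, hv, hv0, hQv⟩ := pfr_sing Q hn (show j ≤ 5 by omega) e f
    obtain ⟨w, hw, hQw, hvw⟩ := pfr_partner Q hQ h hv hv0 hQv
    obtain ⟨e', f', h', hagree⟩ := ih (j + 1) _ _ (by omega) (pfr_snoc Q h hv hw hQv hQw hvw)
    refine ⟨e', f', h', fun i hi => ?_⟩
    obtain ⟨h1, h2⟩ := hagree i (by omega)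
    rw [h1, h2, Function.update_of_ne (ne_of_lt hi), Function.update_of_ne (ne_of_lt hi)]
    exact ⟨rfl, rfl⟩

theorem pfr_six [Finite K] [FiniteDimensional K V] (hQ : Helper43.PolarNondeg Q)
    (hn : 13 ≤ finrank K V) : ∃ e f : ℕ → V, PFr Q 6 e f := by
  obtain ⟨e, f, h, -⟩ := pfr_extend Q hQ hn 6 0 (fun _ => 0) (fun _ => 0) rfl (pfr_zero Q _ _)
  exact ⟨e, f, h⟩

theorem pfr_six_vec [Finite K] [FiniteDimensional K V] (hQ : Helper43.PolarNondeg Q)
    (hn : 13 ≤ finrank K V) {x : V} (hx0 : x ≠ 0) (hQx : Q x = 0) :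
    ∃ e f : ℕ → V, PFr Q 6 e f ∧ e 0 = x := by
  have h0 := pfr_zero Q (fun _ : ℕ => (0 : V)) (fun _ : ℕ => (0 : V))
  have hx : x ∈ pfrPerp Q 0 (fun _ : ℕ => (0 : V)) (fun _ : ℕ => (0 : V)) :=
    fun i hi => absurd hi (Nat.not_lt_zero i)
  obtain ⟨w, hw, hQw, hxw⟩ := pfr_partner Q hQ h0 hx hx0 hQx
  obtain ⟨e, f, h, hagree⟩ := pfr_extend Q hQ hn 5 1 _ _ rfl (pfr_snoc Q h0 hx hw hQx hQw hxw)
  refine ⟨e, f, h, ?_⟩
  rw [(hagree 0 (by omega)).1, Function.update_self]

theorem pfr_six_pair [Finite K] [FiniteDimensional K V] (hQ : Helper43.PolarNondeg Q)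
    (hn : 13 ≤ finrank K V) {x y : V} (hQx : Q x = 0) (hQy : Q y = 0)
    (hxy : QuadraticMap.polar ⇑Q x y = 0) (hind : ∀ c : K, y ≠ c • x) (hx0 : x ≠ 0) :
    ∃ e f : ℕ → V, PFr Q 6 e f ∧ e 0 = x ∧ e 1 = y := by
  have h0 := pfr_zero Q (fun _ : ℕ => (0 : V)) (fun _ : ℕ => (0 : V))
  have hx : x ∈ pfrPerp Q 0 (fun _ : ℕ => (0 : V)) (fun _ : ℕ => (0 : V)) :=
    fun i hi => absurd hi (Nat.not_lt_zero i)
  have hxx : QuadraticMap.polar ⇑Q x x = 0 := Helper43.polar_self_of_singular Q hQx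
  have hyx : QuadraticMap.polar ⇑Q y x = 0 := by rw [QuadraticMap.polar_comm]; exact hxy
  obtain ⟨w₀, -, hQw₀, hxw₀⟩ := pfr_partner Q hQ h0 hx hx0 hQx
  have hw₀x : QuadraticMap.polar ⇑Q w₀ x = 1 := by rw [QuadraticMap.polar_comm]; exact hxw₀
  -- a vector orthogonal to `x` but not to `y`
  obtain ⟨y', hy'def⟩ : ∃ y', y' = y - QuadraticMap.polar ⇑Q w₀ y • x := ⟨_, rfl⟩
  have hy'0 : y' ≠ 0 := by
    intro h
    rw [hy'def, sub_eq_zero] at h
    exact hind _ h
  have hy'x : QuadraticMap.polar ⇑Q y' x = 0 := by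
    rw [hy'def, QuadraticMap.polar_sub_left, QuadraticMap.polar_smul_left, hxx, hyx, smul_zero,
      sub_zero]
  have hy'w₀ : QuadraticMap.polar ⇑Q y' w₀ = 0 := by
    rw [hy'def, QuadraticMap.polar_sub_left, QuadraticMap.polar_smul_left, hxw₀,
      QuadraticMap.polar_comm ⇑Q y w₀]
    simp
  have hex : ∃ z₀, QuadraticMap.polar ⇑Q y' z₀ ≠ 0 := by
    by_contra hcon
    exact hy'0 (hQ y' fun w => by_contra fun hw => hcon ⟨w, hw⟩)
  obtain ⟨z₀, hz₀⟩ := hex
  obtain ⟨z, hzdef⟩ : ∃ z, z = z₀ - QuadraticMap.polar ⇑Q w₀ z₀ • x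
      - QuadraticMap.polar ⇑Q x z₀ • w₀ := ⟨_, rfl⟩
  have hxz : QuadraticMap.polar ⇑Q x z = 0 := by
    rw [hzdef, QuadraticMap.polar_sub_right, QuadraticMap.polar_sub_right,
      QuadraticMap.polar_smul_right, QuadraticMap.polar_smul_right, hxx, hxw₀]
    simp
  have hy'z : QuadraticMap.polar ⇑Q y' z ≠ 0 := by
    rw [hzdef, QuadraticMap.polar_sub_right, QuadraticMap.polar_sub_right,
      QuadraticMap.polar_smul_right, QuadraticMap.polar_smul_right, hy'x, hy'w₀, smul_zero,
      smul_zero, sub_zero, sub_zero]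
    exact hz₀
  have hyz : QuadraticMap.polar ⇑Q y z ≠ 0 := by
    have h1 : y = y' + QuadraticMap.polar ⇑Q w₀ y • x := by rw [hy'def]; abel
    rw [h1, QuadraticMap.polar_add_left, QuadraticMap.polar_smul_left, hxz, smul_zero, add_zero]
    exact hy'z
  -- a partner of `x` orthogonal to `y`
  obtain ⟨w₁, hw₁def⟩ : ∃ w₁, w₁ = w₀ -
      (QuadraticMap.polar ⇑Q y w₀ / QuadraticMap.polar ⇑Q y z) • z := ⟨_, rfl⟩
  have hxw₁ : QuadraticMap.polar ⇑Q x w₁ = 1 := by
    rw [hw₁def, QuadraticMap.polar_sub_right, QuadraticMap.polar_smul_right, hxz, hxw₀, smul_zero,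
      sub_zero]
  have hyw₁ : QuadraticMap.polar ⇑Q y w₁ = 0 := by
    rw [hw₁def, QuadraticMap.polar_sub_right, QuadraticMap.polar_smul_right, smul_eq_mul,
      div_mul_cancel₀ _ hyz, sub_self]
  obtain ⟨w, hwdef⟩ : ∃ w, w = w₁ + (-(Q w₁)) • x := ⟨_, rfl⟩
  have hQw : Q w = 0 := by
    rw [hwdef, QuadraticMap.map_add (⇑Q) w₁ ((-(Q w₁)) • x), QuadraticMap.map_smul, hQx,
      QuadraticMap.polar_smul_right, QuadraticMap.polar_comm, hxw₁]
    simp
  have hxw : QuadraticMap.polar ⇑Q x w = 1 := by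
    rw [hwdef, QuadraticMap.polar_add_right, QuadraticMap.polar_smul_right, hxx, hxw₁]
    simp
  have hyw : QuadraticMap.polar ⇑Q y w = 0 := by
    rw [hwdef, QuadraticMap.polar_add_right, QuadraticMap.polar_smul_right, hyx, hyw₁]
    simp
  have hw : w ∈ pfrPerp Q 0 (fun _ : ℕ => (0 : V)) (fun _ : ℕ => (0 : V)) :=
    fun i hi => absurd hi (Nat.not_lt_zero i)
  have h1 := pfr_snoc Q h0 hx hw hQx hQw hxw
  have hy1 : y ∈ pfrPerp Q 1 (Function.update (fun _ : ℕ => (0 : V)) 0 x)
      (Function.update (fun _ : ℕ => (0 : V)) 0 w) := by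
    intro i hi
    have hi0 : i = 0 := by omega
    subst hi0
    rw [Function.update_self, Function.update_self, QuadraticMap.polar_comm ⇑Q w y]
    exact ⟨hxy, hyw⟩
  have hy0 : y ≠ 0 := by
    intro h
    apply hind 0
    rw [h, zero_smul]
  obtain ⟨w', hw', hQw', hyw'⟩ := pfr_partner Q hQ h1 hy1 hy0 hQy
  obtain ⟨e, f, h, hagree⟩ := pfr_extend Q hQ hn 4 2 _ _ rfl
    (pfr_snoc Q h1 hy1 hw' hQy hQw' hyw')
  refine ⟨e, f, h, ?_, ?_⟩
  · rw [(hagree 0 (by omega)).1, Function.update_of_ne (by omega), Function.update_self]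
  · rw [(hagree 1 (by omega)).1, Function.update_self]

end PFrame

end Cfsg.Agent.Helper94
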