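import Mathlib
import Cfsg.Prelude.Def_GeometricClasses
import Cfsg.Agent.Helper94.OSF0
import Cfsg.Agent.Helper94.ONd1
import Cfsg.Agent.Helper97.SGAvg

/-!
Rational structures for a quadratic form `Q` on `F^ι` taking values in a subfield `F₀` on the
vectors with coordinates in `F₀`: the induced quadratic form over `F₀`, rational hyperbolic frames
of size six (through a given rational singular vector or totally singular pair), the rational
projection onto the complement of a frame, and rational Eichler transformations.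
-/

set_option autoImplicit false
set_option linter.unusedSectionVars false
set_option linter.unusedVariables false

universe u

namespace Cfsg.Agent.Helper94

open Matrix Cfsg Cfsg.Geo Cfsg.Agent.Helper45

section OSF1

variable {ι : Type} [Fintype ι] [DecidableEq ι] {F : Type u} [Field F]

/-- Vectors with all coordinates in the subfield. -/
def oRat (F₀ : Subfield F) (v : ι → F) : Prop := ∀ j, v j ∈ F₀

variable {F₀ : Subfield F}

theorem oRat_add {u v : ι → F} (hu : oRat F₀ u) (hv : oRat F₀ v) : oRat F₀ (u + v) :=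
  fun j => add_mem (hu j) (hv j)

theorem oRat_sub {u v : ι → F} (hu : oRat F₀ u) (hv : oRat F₀ v) : oRat F₀ (u - v) :=
  fun j => sub_mem (hu j) (hv j)

theorem oRat_neg {u : ι → F} (hu : oRat F₀ u) : oRat F₀ (-u) := fun j => neg_mem (hu j)

theorem oRat_smul {c : F} (hc : c ∈ F₀) {u : ι → F} (hu : oRat F₀ u) : oRat F₀ (c • u) :=
  fun j => mul_mem hc (hu j)

theorem oRat_zero : oRat F₀ (0 : ι → F) := fun _ => zero_mem _

theorem oRat_single (j : ι) : oRat F₀ (Pi.single j (1 : F)) := by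
  intro k
  rw [Pi.single_apply]
  split_ifs
  · exact one_mem _
  · exact zero_mem _

theorem oRat_sum {κ : Type*} (s : Finset κ) (w : κ → ι → F) (h : ∀ k ∈ s, oRat F₀ (w k)) :
    oRat F₀ (∑ k ∈ s, w k) := by
  intro j
  rw [Finset.sum_apply]
  exact sum_mem fun k hk => h k hk j

/-- The coordinatewise inclusion of `F₀`-vectors. -/
def oUp (F₀ : Subfield F) (x : ι → F₀) : ι → F := fun i => (x i : F)

theorem oUp_rat (x : ι → F₀) : oRat F₀ (oUp F₀ x) := fun j => (x j).2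

theorem oUp_add (x y : ι → F₀) : oUp F₀ (x + y) = oUp F₀ x + oUp F₀ y := rfl

theorem oUp_smul (c : F₀) (x : ι → F₀) : oUp F₀ (c • x) = (c : F) • oUp F₀ x := rfl

theorem oUp_zero : oUp F₀ (0 : ι → F₀) = 0 := rfl

theorem oUp_injective : Function.Injective (oUp F₀ (ι := ι)) := by
  intro x y h
  funext i
  exact Subtype.ext (congrFun h i)

theorem oRat_exists_up {v : ι → F} (hv : oRat F₀ v) : ∃ x : ι → F₀, oUp F₀ x = v :=
  ⟨fun i => ⟨v i, hv i⟩, rfl⟩

variable (Q : QuadraticForm F (ι → F))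

/-- `Q` takes values in `F₀` on the rational vectors. -/
def ORatQ (F₀ : Subfield F) : Prop := ∀ u : ι → F, oRat F₀ u → Q u ∈ F₀

variable {Q}

theorem ORatQ.polar (h : ORatQ Q F₀) {u v : ι → F} (hu : oRat F₀ u) (hv : oRat F₀ v) :
    QuadraticMap.polar ⇑Q u v ∈ F₀ := by
  unfold QuadraticMap.polar
  exact sub_mem (sub_mem (h _ (oRat_add hu hv)) (h _ hu)) (h _ hv)

theorem oQ0_aux (h : ORatQ Q F₀) (x y : ι → F₀) :
    ((QuadraticMap.polar (fun x : ι → F₀ => (⟨Q (oUp F₀ x), h _ (oUp_rat x)⟩ : F₀)) x y : F₀) : F)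
      = QuadraticMap.polar ⇑Q (oUp F₀ x) (oUp F₀ y) := rfl

/-- The quadratic form over `F₀` induced by `Q`. -/
noncomputable def oQ0 (h : ORatQ Q F₀) : QuadraticForm F₀ (ι → F₀) :=
  QuadraticMap.ofPolar (fun x => (⟨Q (oUp F₀ x), h _ (oUp_rat x)⟩ : F₀))
    (fun a x => by
      apply Subtype.ext
      show Q (oUp F₀ (a • x)) = ((a * a : F₀) : F) * Q (oUp F₀ x)
      rw [oUp_smul, QuadraticMap.map_smul]
      rfl)
    (fun x x' y => by
      apply Subtype.ext
      rw [Subfield.coe_add, oQ0_aux, oQ0_aux, oQ0_aux, oUp_add, QuadraticMap.polar_add_left])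
    (fun a x y => by
      apply Subtype.ext
      show _ = ((a : F₀) : F) * _
      rw [oQ0_aux, oQ0_aux, oUp_smul, QuadraticMap.polar_smul_left]
      rfl)

theorem oQ0_apply (h : ORatQ Q F₀) (x : ι → F₀) : ((oQ0 h x : F₀) : F) = Q (oUp F₀ x) := rfl

theorem oQ0_polar (h : ORatQ Q F₀) (x y : ι → F₀) :
    ((QuadraticMap.polar ⇑(oQ0 h) x y : F₀) : F) = QuadraticMap.polar ⇑Q (oUp F₀ x) (oUp F₀ y) :=
  rfl

/-- A vector orthogonal to all rational vectors vanishes. -/
theorem oRat_sep (hQ : (QuadraticMap.polarBilin Q).Nondegenerate) (x : ι → F)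
    (hx : ∀ c, oRat F₀ c → QuadraticMap.polar ⇑Q c x = 0) : x = 0 := by
  apply hQ.2
  intro w
  have h1 : (QuadraticMap.polarBilin Q).flip x = 0 := by
    apply (Pi.basisFun F ι).ext
    intro j
    rw [Pi.basisFun_apply]
    exact hx _ (oRat_single j)
  exact LinearMap.congr_fun h1 w

theorem oQ0_nondeg (h : ORatQ Q F₀) (hQ : (QuadraticMap.polarBilin Q).Nondegenerate) :
    (QuadraticMap.polarBilin (oQ0 h)).Nondegenerate := by
  have key : ∀ x : ι → F₀, (∀ y, QuadraticMap.polar ⇑(oQ0 h) y x = 0) → x = 0 := by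
    intro x hx
    apply oUp_injective
    rw [oUp_zero]
    apply oRat_sep (F₀ := F₀) hQ
    intro c hc
    obtain ⟨c', rfl⟩ := oRat_exists_up hc
    rw [← oQ0_polar h, hx c']
    rfl
  refine ⟨fun x hx => key x fun y => ?_, fun x hx => key x fun y => hx y⟩
  rw [QuadraticMap.polar_comm]
  exact hx y

/-- A vector whose products with all rational vectors are rational is rational. -/
theorem oRat_of_forall_polar (h : ORatQ Q F₀) (hQ : (QuadraticMap.polarBilin Q).Nondegenerate)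
    (p : ι → F) (hp : ∀ c, oRat F₀ c → QuadraticMap.polar ⇑Q c p ∈ F₀) : oRat F₀ p := by
  obtain ⟨φ, hφ⟩ : ∃ φ : Module.Dual F₀ (ι → F₀), ∀ c : ι → F₀,
      ((φ c : F₀) : F) = QuadraticMap.polar ⇑Q (oUp F₀ c) p :=
    ⟨{ toFun := fun c => ⟨QuadraticMap.polar ⇑Q (oUp F₀ c) p, hp _ (oUp_rat c)⟩
       map_add' := fun c c' => by
        apply Subtype.ext
        show QuadraticMap.polar ⇑Q (oUp F₀ (c + c')) p = _
        rw [oUp_add, QuadraticMap.polar_add_left]
        rfl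
       map_smul' := fun a c => by
        apply Subtype.ext
        show QuadraticMap.polar ⇑Q (oUp F₀ (a • c)) p = _
        rw [oUp_smul, QuadraticMap.polar_smul_left]
        rfl }, fun c => rfl⟩
  obtain ⟨r, hr⟩ : ∃ r : ι → F₀, ∀ c : ι → F₀,
      QuadraticMap.polar ⇑(oQ0 h) r c = φ c :=
    ⟨(LinearMap.BilinForm.toDual (QuadraticMap.polarBilin (oQ0 h)) (oQ0_nondeg h hQ)).symm φ,
      fun c => LinearMap.BilinForm.apply_toDual_symm_apply
        (B := QuadraticMap.polarBilin (oQ0 h)) (hB := oQ0_nondeg h hQ) φ c⟩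
  have h1 : p - oUp F₀ r = 0 := by
    apply oRat_sep (F₀ := F₀) hQ
    intro c hc
    obtain ⟨c', rfl⟩ := oRat_exists_up hc
    rw [QuadraticMap.polar_sub_right, ← hφ, ← hr, QuadraticMap.polar_comm ⇑Q (oUp F₀ c') (oUp F₀ r),
      ← oQ0_polar h, sub_self]
  rw [sub_eq_zero.mp h1]
  exact oUp_rat r

/-- A rational hyperbolic frame of size six. -/
structure OFr (Q : QuadraticForm F (ι → F)) (F₀ : Subfield F) (e f : Fin 6 → ι → F) : Prop where
  re : ∀ i, oRat F₀ (e i)
  rf : ∀ i, oRat F₀ (f i)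
  Qe : ∀ i, Q (e i) = 0
  Qf : ∀ i, Q (f i) = 0
  ee : ∀ i j, QuadraticMap.polar ⇑Q (e i) (e j) = 0
  ff : ∀ i j, QuadraticMap.polar ⇑Q (f i) (f j) = 0
  ef : ∀ i j, QuadraticMap.polar ⇑Q (e i) (f j) = if i = j then 1 else 0

namespace OFr

variable {e f : Fin 6 → ι → F} (h : OFr Q F₀ e f)
include h

theorem fe (i j : Fin 6) : QuadraticMap.polar ⇑Q (f i) (e j) = if i = j then 1 else 0 := by
  rw [QuadraticMap.polar_comm, h.ef]
  by_cases hij : i = j
  · rw [if_pos hij, if_pos hij.symm]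
  · rw [if_neg hij, if_neg (Ne.symm hij)]

theorem swap : OFr Q F₀ f e :=
  ⟨h.rf, h.re, h.Qf, h.Qe, h.ff, h.ee, h.fe⟩

theorem reindex (σ : Fin 6 ≃ Fin 6) : OFr Q F₀ (e ∘ σ) (f ∘ σ) :=
  ⟨fun i => h.re _, fun i => h.rf _, fun i => h.Qe _, fun i => h.Qf _, fun i j => h.ee _ _,
    fun i j => h.ff _ _, fun i j => by
      show QuadraticMap.polar ⇑Q (e (σ i)) (f (σ j)) = _
      rw [h.ef]
      by_cases hij : i = j
      · rw [if_pos hij, if_pos (by rw [hij])]
      · rw [if_neg hij, if_neg (fun hh => hij (σ.injective hh))]⟩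

theorem e_ne_zero (i : Fin 6) : e i ≠ 0 := by
  intro h0
  have h1 := h.ef i i
  rw [h0, QuadraticMap.polar_zero_left, if_pos rfl] at h1
  exact zero_ne_one h1

theorem f_ne_zero (i : Fin 6) : f i ≠ 0 := h.swap.e_ne_zero i

end OFr

theorem oFr_of_pfr (h : ORatQ Q F₀) {e f : ℕ → ι → F₀} (hp : PFr (oQ0 h) 6 e f) :
    OFr Q F₀ (fun i : Fin 6 => oUp F₀ (e i)) (fun i : Fin 6 => oUp F₀ (f i)) := by
  have hz : ∀ a : F₀, a = 0 → (a : F) = 0 := by
    intro a ha
    rw [ha]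
    rfl
  refine ⟨fun i => oUp_rat _, fun i => oUp_rat _, fun i => ?_, fun i => ?_, fun i j => ?_,
    fun i j => ?_, fun i j => ?_⟩
  · rw [← oQ0_apply h]
    exact hz _ (hp.1 i i.2).1
  · rw [← oQ0_apply h]
    exact hz _ (hp.1 i i.2).2
  · rw [← oQ0_polar h]
    exact hz _ (hp.2 i i.2 j j.2).1
  · rw [← oQ0_polar h]
    exact hz _ (hp.2 i i.2 j j.2).2.1
  · rw [← oQ0_polar h, (hp.2 i i.2 j j.2).2.2]
    by_cases hij : i = j
    · rw [if_pos hij, if_pos (by rw [hij])]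
      rfl
    · rw [if_neg hij, if_neg (fun hh => hij (Fin.ext hh))]
      rfl

section Exists

variable [Fintype F]

theorem oQ0_finrank : Module.finrank F₀ (ι → F₀) = Fintype.card ι :=
  Module.finrank_fintype_fun_eq_card F₀

theorem exists_oFr (h : ORatQ Q F₀) (hQ : (QuadraticMap.polarBilin Q).Nondegenerate)
    (hn : 13 ≤ Fintype.card ι) : ∃ e f : Fin 6 → ι → F, OFr Q F₀ e f := by
  obtain ⟨e, f, hp⟩ := pfr_six (oQ0 h)
    (Helper43.polarNondeg_of_nondegenerate _ (oQ0_nondeg h hQ)) (by rw [oQ0_finrank]; exact hn)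
  exact ⟨_, _, oFr_of_pfr h hp⟩

theorem exists_oFr_vec (h : ORatQ Q F₀) (hQ : (QuadraticMap.polarBilin Q).Nondegenerate)
    (hn : 13 ≤ Fintype.card ι) {x : ι → F} (hx : oRat F₀ x) (hx0 : x ≠ 0) (hQx : Q x = 0) :
    ∃ e f : Fin 6 → ι → F, OFr Q F₀ e f ∧ e 0 = x := by
  obtain ⟨x', rfl⟩ := oRat_exists_up hx
  have hx'0 : x' ≠ 0 := by
    intro h0
    apply hx0
    rw [h0]
    rfl
  have hQx' : oQ0 h x' = 0 := by
    apply Subtype.ext
    rw [oQ0_apply, hQx]
    rfl
  obtain ⟨e, f, hp, he0⟩ := pfr_six_vec (oQ0 h)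
    (Helper43.polarNondeg_of_nondegenerate _ (oQ0_nondeg h hQ)) (by rw [oQ0_finrank]; exact hn)
    hx'0 hQx'
  refine ⟨_, _, oFr_of_pfr h hp, ?_⟩
  show oUp F₀ (e 0) = _
  rw [he0]

theorem exists_oFr_pair (h : ORatQ Q F₀) (hQ : (QuadraticMap.polarBilin Q).Nondegenerate)
    (hn : 13 ≤ Fintype.card ι) {x y : ι → F} (hx : oRat F₀ x) (hy : oRat F₀ y)
    (hQx : Q x = 0) (hQy : Q y = 0) (hxy : QuadraticMap.polar ⇑Q x y = 0)
    (hind : ∀ c : F, y ≠ c • x) (hx0 : x ≠ 0) :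
    ∃ e f : Fin 6 → ι → F, OFr Q F₀ e f ∧ e 0 = x ∧ e 1 = y := by
  obtain ⟨x', rfl⟩ := oRat_exists_up hx
  obtain ⟨y', rfl⟩ := oRat_exists_up hy
  have hx'0 : x' ≠ 0 := by
    intro h0
    apply hx0
    rw [h0]
    rfl
  have hQx' : oQ0 h x' = 0 := by
    apply Subtype.ext
    rw [oQ0_apply, hQx]
    rfl
  have hQy' : oQ0 h y' = 0 := by
    apply Subtype.ext
    rw [oQ0_apply, hQy]
    rfl
  have hxy' : QuadraticMap.polar ⇑(oQ0 h) x' y' = 0 := by
    apply Subtype.ext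
    rw [oQ0_polar, hxy]
    rfl
  have hind' : ∀ c : F₀, y' ≠ c • x' := by
    intro c hc
    apply hind (c : F)
    rw [hc, oUp_smul]
  obtain ⟨e, f, hp, he0, he1⟩ := pfr_six_pair (oQ0 h)
    (Helper43.polarNondeg_of_nondegenerate _ (oQ0_nondeg h hQ)) (by rw [oQ0_finrank]; exact hn)
    hQx' hQy' hxy' hind' hx'0
  refine ⟨_, _, oFr_of_pfr h hp, ?_, ?_⟩
  · show oUp F₀ (e 0) = _
    rw [he0]
  · show oUp F₀ (e 1) = _
    rw [he1]

end Exists

/-- The projection onto the orthogonal complement of a frame. -/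
def oPr (Q : QuadraticForm F (ι → F)) (e f : Fin 6 → ι → F) (x : ι → F) : ι → F :=
  x - ∑ i, QuadraticMap.polar ⇑Q (f i) x • e i - ∑ i, QuadraticMap.polar ⇑Q (e i) x • f i

theorem polar_sum_right' {κ : Type*} (s : Finset κ) (v : ι → F) (w : κ → ι → F) :
    QuadraticMap.polar ⇑Q v (∑ k ∈ s, w k) = ∑ k ∈ s, QuadraticMap.polar ⇑Q v (w k) :=
  map_sum (QuadraticMap.polarBilin Q v) w s

theorem oPr_decomp (e f : Fin 6 → ι → F) (x : ι → F) :
    x = ∑ i, QuadraticMap.polar ⇑Q (f i) x • e i + ∑ i, QuadraticMap.polar ⇑Q (e i) x • f i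
      + oPr Q e f x := by
  unfold oPr
  abel

theorem oPr_rat (h : ORatQ Q F₀) {e f : Fin 6 → ι → F} (hf : OFr Q F₀ e f) {x : ι → F}
    (hx : oRat F₀ x) : oRat F₀ (oPr Q e f x) := by
  unfold oPr
  exact oRat_sub (oRat_sub hx (oRat_sum _ _ fun i _ => oRat_smul (h.polar (hf.rf i) hx) (hf.re i)))
    (oRat_sum _ _ fun i _ => oRat_smul (h.polar (hf.re i) hx) (hf.rf i))

theorem oPr_perp_e {e f : Fin 6 → ι → F} (hf : OFr Q F₀ e f) (x : ι → F) (j : Fin 6) :
    QuadraticMap.polar ⇑Q (e j) (oPr Q e f x) = 0 := by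
  unfold oPr
  rw [QuadraticMap.polar_sub_right, QuadraticMap.polar_sub_right, polar_sum_right',
    polar_sum_right']
  simp only [QuadraticMap.polar_smul_right, hf.ee, hf.ef, Finset.sum_const_zero,
    smul_eq_mul, mul_ite, mul_one, mul_zero, Finset.sum_ite_eq, Finset.mem_univ, if_true,
    sub_zero, sub_self]

theorem oPr_perp_f {e f : Fin 6 → ι → F} (hf : OFr Q F₀ e f) (x : ι → F) (j : Fin 6) :
    QuadraticMap.polar ⇑Q (f j) (oPr Q e f x) = 0 := by
  unfold oPr
  rw [QuadraticMap.polar_sub_right, QuadraticMap.polar_sub_right, polar_sum_right',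
    polar_sum_right']
  simp only [QuadraticMap.polar_smul_right, hf.ff, hf.fe, Finset.sum_const_zero,
    smul_eq_mul, mul_ite, mul_one, mul_zero, Finset.sum_ite_eq, Finset.mem_univ, if_true,
    sub_self]

/-- The projection is linear. -/
theorem oPr_single (e f : Fin 6 → ι → F) (x : ι → F) :
    oPr Q e f x = ∑ j, x j • oPr Q e f (Pi.single j 1) := by
  obtain ⟨L, hL⟩ : ∃ L : (ι → F) →ₗ[F] (ι → F), ∀ x, L x = oPr Q e f x :=
    ⟨LinearMap.id - ∑ i, (QuadraticMap.polarBilin Q (f i)).smulRight (e i)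
      - ∑ i, (QuadraticMap.polarBilin Q (e i)).smulRight (f i), fun x => by
        simp only [LinearMap.sub_apply, LinearMap.id_apply, LinearMap.sum_apply,
          LinearMap.smulRight_apply]
        rfl⟩
  simp only [← hL]
  conv_lhs => rw [pi_eq_sum_univ' x]
  rw [map_sum]
  refine Finset.sum_congr rfl fun j _ => ?_
  rw [map_smul]

end OSF1

end Cfsg.Agent.Helper94
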