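-- helper94 library: small geometric lemmas for the odd-dimensional orthogonal structure theorem:
-- transitivity on the blocks of a decomposition, isometric blocks, the centraliser of a maximal subfield.
import Cfsg.Agent.Helper94.OA3
import Cfsg.Agent.Helper97.OPrimeDim

set_option autoImplicit false
set_option linter.unusedSectionVars false
set_option linter.unusedVariables false
open Cfsg Cfsg.Geo Matrix
open Cfsg.Agent.Helper96
open scoped Kronecker

namespace Cfsg.Agent.Helper94.OA

variable {κ : Type} [Fintype κ] [DecidableEq κ] {F : Type*} [Field F]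

/-- An irreducible group permuting a decomposition acts transitively on its members. -/
theorem decomp_trans {t m : ℕ} (H : Subgroup (GL κ F))
    (hirr : ActsIrreducibly (matrixSet H)) (D : Fin t → Submodule F (κ → F))
    (hD : IsMDecomposition m D) (hHD : H ≤ decompositionStabilizer D) (i j : Fin t) :
    ∃ g ∈ H, (D i).map (Matrix.toLin' (g : Matrix κ κ F)) = D j := by
  classical
  have hne : ∀ l, D l ≠ ⊥ := by
    intro l h0
    have := hD.finrank_eq l
    have hpos := hD.pos
    rw [h0, finrank_bot] at this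
    omega
  obtain ⟨W₀, hW₀⟩ : ∃ W₀ : Submodule F (κ → F),
      W₀ = ⨆ l : {l // ∃ g ∈ H, (D i).map (Matrix.toLin' (g : Matrix κ κ F)) = D l}, D l.1 :=
    ⟨_, rfl⟩
  have hW₀inv : ∀ s ∈ matrixSet H, W₀.map (Matrix.toLin' s) ≤ W₀ := by
    rintro _ ⟨h, hh, rfl⟩
    rw [hW₀, Submodule.map_iSup]
    refine iSup_le fun l => ?_
    obtain ⟨g, hg, hgl⟩ := l.2
    obtain ⟨π, hπ⟩ := (Helper97.Gen.mem_decompositionStabilizer_iff D h).mp (hHD hh)
    rw [hπ l.1]
    refine le_iSup (fun l : {l // ∃ g ∈ H, (D i).map (Matrix.toLin' (g : Matrix κ κ F)) = D l}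
      => D l.1) ⟨π l.1, h * g, H.mul_mem hh hg, ?_⟩
    rw [Units.val_mul, Matrix.toLin'_mul, Submodule.map_comp, hgl, hπ]
  have hi : ∃ g ∈ H, (D i).map (Matrix.toLin' (g : Matrix κ κ F)) = D i :=
    ⟨1, H.one_mem, by rw [Units.val_one, Matrix.toLin'_one, Submodule.map_id]⟩
  have hW₀top : W₀ = ⊤ := by
    rcases hirr W₀ hW₀inv with h0 | h0
    · exfalso
      have h1 : D i ≤ W₀ := by
        rw [hW₀]
        exact le_iSup (fun l : {l // ∃ g ∈ H, (D i).map (Matrix.toLin' (g : Matrix κ κ F)) = D l}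
          => D l.1) ⟨i, hi⟩
      rw [h0] at h1
      exact hne i (le_bot_iff.mp h1)
    · exact h0
  by_contra hj
  have hle : W₀ ≤ ⨆ l, ⨆ (_ : l ≠ j), D l := by
    rw [hW₀]
    refine iSup_le fun l' => ?_
    exact le_iSup₂_of_le l'.1 (fun h => hj (h ▸ l'.2)) le_rfl
  have hdis := hD.indep j
  apply hne j
  rw [eq_bot_iff]
  intro x hx
  have h1 : x ∈ ⨆ l, ⨆ (_ : l ≠ j), D l := hle (by rw [hW₀top]; exact Submodule.mem_top)
  rw [(Submodule.disjoint_def.mp hdis) x hx h1]
  exact Submodule.zero_mem _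

/-- The blocks of a decomposition permuted by an irreducible group of isometries are isometric. -/
theorem decomp_iso {Q : (κ → F) → F} {t m : ℕ} (H : Subgroup (GL κ F))
    (hirr : ActsIrreducibly (matrixSet H)) (hHO : H ≤ isometryGroup F Q)
    (D : Fin t → Submodule F (κ → F)) (hD : IsMDecomposition m D)
    (hHD : H ≤ decompositionStabilizer D) (i j : Fin t) : AreIsometricFor Q (D i) (D j) := by
  obtain ⟨g, hg, hgij⟩ := decomp_trans H hirr D hD hHD i j
  refine ⟨(Submodule.equivMapOfInjective (Matrix.toLin' (g : Matrix κ κ F))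
    (Helper97.Gen.toLin'_val_injective g) (D i)).trans (LinearEquiv.ofEq _ _ hgij), fun w => ?_⟩
  have h1 := (Helper97.Gen.mem_isometryGroup_iff Q g).mp (hHO hg) (w : κ → F)
  rw [← h1]
  congr 1

/-- A subfield of the matrix algebra of degree equal to the dimension is its own centraliser. -/
theorem mem_of_comm_field [Nonempty κ] (K : Subalgebra F (Matrix κ κ F))
    (hK : IsFieldSubalgebra (Fintype.card κ) K) (c : Matrix κ κ F)
    (hc : ∀ k ∈ K, c * k = k * c) : c ∈ K := by
  classical
  obtain ⟨i₀⟩ := (inferInstance : Nonempty κ)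
  obtain ⟨v, hv⟩ : ∃ v : κ → F, v = Pi.single i₀ 1 := ⟨_, rfl⟩
  have hv0 : v ≠ 0 := by
    intro h
    have := congrFun h i₀
    rw [hv] at this
    simp at this
  let φ : K →ₗ[F] (κ → F) :=
    { toFun := fun k => (k : Matrix κ κ F) *ᵥ v
      map_add' := fun a b => by
        show ((a + b : K) : Matrix κ κ F) *ᵥ v = _
        rw [Subalgebra.coe_add, Matrix.add_mulVec]
      map_smul' := fun r a => by
        show ((r • a : K) : Matrix κ κ F) *ᵥ v = _
        rw [Subalgebra.coe_smul, Matrix.smul_mulVec, RingHom.id_apply] }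
  have hφ : ∀ k : K, φ k = (k : Matrix κ κ F) *ᵥ v := fun k => rfl
  have hinj : Function.Injective φ := by
    rw [← LinearMap.ker_eq_bot, LinearMap.ker_eq_bot']
    intro k hk
    rw [hφ] at hk
    apply Subtype.ext
    exact Helper97.Gen.eq_zero_of_mulVec_eq_zero_of_inv K hK.inv k.2 hv0 hk
  have hfr : Module.finrank F K = Module.finrank F (κ → F) := by
    rw [hK.finrank_eq, Module.finrank_fintype_fun_eq_card]
  have hsurj : Function.Surjective φ :=
    (LinearMap.injective_iff_surjective_of_finrank_eq_finrank hfr).mp hinj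
  obtain ⟨k₀, hk₀⟩ := hsurj (c *ᵥ v)
  rw [hφ] at hk₀
  have hck : c = (k₀ : Matrix κ κ F) := by
    apply sub_eq_zero.mp
    apply Helper97.Gen.eq_zero_of_mulVec_eq_zero
    intro w
    obtain ⟨k, hk⟩ := hsurj w
    rw [hφ] at hk
    rw [Matrix.sub_mulVec, ← hk, Matrix.mulVec_mulVec, Matrix.mulVec_mulVec, hc k k.2,
      ← Matrix.mulVec_mulVec, ← hk₀, Matrix.mulVec_mulVec,
      hK.comm k k.2 k₀ k₀.2, sub_self]
  rw [hck]
  exact k₀.2

end Cfsg.Agent.Helper94.OA
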