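import Mathlib
import Cfsg.Prelude.Def_GeometricClasses
import Cfsg.Prelude.Def_ClassicalGeometry
import Cfsg.Prelude.Def_LieClassical
import Cfsg.Agent.Helper94.SpLag2

/-!
# CALL S5976, piece ISO (helper94): two unitary structures with orthonormal frames are `Sp`-conjugate
-/

set_option autoImplicit false

namespace Cfsg.Agent.Helper94

open Matrix Module

/-- Reconstruction formula for a hyperbolic family `a, b` of full size in `F^{2d}`. -/
theorem c3u_hyp_recon {F : Type*} [Field F] (d : ℕ) (a b : Fin d → (Fin d ⊕ Fin d → F))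
    (haa : ∀ i j, Cfsg.sympForm d F (a i) (a j) = 0)
    (hbb : ∀ i j, Cfsg.sympForm d F (b i) (b j) = 0)
    (hab : ∀ i j, Cfsg.sympForm d F (a i) (b j) = if i = j then 1 else 0)
    (x : Fin d ⊕ Fin d → F) :
    x = ∑ r, (Cfsg.sympForm d F x (b r) • a r - Cfsg.sympForm d F x (a r) • b r) := by
  classical
  have hba : ∀ i j, Cfsg.sympForm d F (b i) (a j) = if i = j then -1 else 0 := by
    intro i j
    rw [sf_swap, hab j i]
    by_cases hij : i = j
    · simp [hij]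
    · simp [hij, Ne.symm hij]
  obtain ⟨D, hD⟩ : ∃ D : (Fin d ⊕ Fin d → F) →ₗ[F] (Fin d ⊕ Fin d → F),
      ∀ c, D c = ∑ r, (c (Sum.inl r) • a r + c (Sum.inr r) • b r) := by
    refine ⟨∑ r, ((LinearMap.proj (Sum.inl r)).smulRight (a r) +
      (LinearMap.proj (Sum.inr r)).smulRight (b r)), fun c => ?_⟩
    simp [LinearMap.sum_apply]
  have k1 : ∀ c k, Cfsg.sympForm d F (D c) (b k) = c (Sum.inl k) := by
    intro c k
    rw [hD, sf_sum_left]
    simp [sf_add_left, sf_smul_left, hbb, hab]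
  have k2 : ∀ c k, Cfsg.sympForm d F (D c) (a k) = - c (Sum.inr k) := by
    intro c k
    rw [hD, sf_sum_left]
    simp [sf_add_left, sf_smul_left, haa, hba]
  have hDinj : Function.Injective D := by
    intro c c' hcc
    funext s
    rcases s with k | k
    · rw [← k1 c k, ← k1 c' k, hcc]
    · have := k2 c k
      rw [hcc, k2 c' k] at this
      exact (neg_injective this).symm
  have hDsurj : Function.Surjective D := LinearMap.injective_iff_surjective.mp hDinj
  obtain ⟨c, rfl⟩ := hDsurj x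
  conv_lhs => rw [hD]
  apply Finset.sum_congr rfl
  intro r _
  rw [k1, k2]
  simp [sub_eq_add_neg]

/-- PIECE ISO -/
theorem c3u_iso {F : Type*} [Field F] (d : ℕ) (n : F)
    (J J' : Matrix (Fin d ⊕ Fin d) (Fin d ⊕ Fin d) F)
    (hJ2 : J * J = n • (1 : Matrix (Fin d ⊕ Fin d) (Fin d ⊕ Fin d) F))
    (hJ'2 : J' * J' = n • (1 : Matrix (Fin d ⊕ Fin d) (Fin d ⊕ Fin d) F))
    (hJs : ∀ u v, Cfsg.sympForm d F (J *ᵥ u) v = - Cfsg.sympForm d F u (J *ᵥ v))
    (hJ's : ∀ u v, Cfsg.sympForm d F (J' *ᵥ u) v = - Cfsg.sympForm d F u (J' *ᵥ v))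
    (e e' : Fin d → (Fin d ⊕ Fin d → F))
    (he1 : ∀ i j, Cfsg.sympForm d F (e i) (J *ᵥ e j) = if i = j then 1 else 0)
    (he0 : ∀ i j, Cfsg.sympForm d F (e i) (e j) = 0)
    (he1' : ∀ i j, Cfsg.sympForm d F (e' i) (J' *ᵥ e' j) = if i = j then 1 else 0)
    (he0' : ∀ i j, Cfsg.sympForm d F (e' i) (e' j) = 0) :
    ∃ g : GL (Fin d ⊕ Fin d) F, g ∈ Cfsg.spGL d F ∧
      (g : Matrix (Fin d ⊕ Fin d) (Fin d ⊕ Fin d) F) * J =
        J' * (g : Matrix (Fin d ⊕ Fin d) (Fin d ⊕ Fin d) F) := by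
  classical
  have hJJ : ∀ v, J *ᵥ (J *ᵥ v) = n • v := by
    intro v
    rw [Matrix.mulVec_mulVec, hJ2, Matrix.smul_mulVec, Matrix.one_mulVec]
  have hJJ' : ∀ v, J' *ᵥ (J' *ᵥ v) = n • v := by
    intro v
    rw [Matrix.mulVec_mulVec, hJ'2, Matrix.smul_mulVec, Matrix.one_mulVec]
  -- Gram relations of `(e, J e)` and `(e', J' e')`
  have hbb : ∀ i j, Cfsg.sympForm d F (J *ᵥ e i) (J *ᵥ e j) = 0 := by
    intro i j
    rw [hJs, hJJ, sf_smul_right, he0, mul_zero, neg_zero]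
  have hbb' : ∀ i j, Cfsg.sympForm d F (J' *ᵥ e' i) (J' *ᵥ e' j) = 0 := by
    intro i j
    rw [hJ's, hJJ', sf_smul_right, he0', mul_zero, neg_zero]
  have hba' : ∀ i j, Cfsg.sympForm d F (J' *ᵥ e' i) (e' j) = if i = j then -1 else 0 := by
    intro i j
    rw [hJ's, he1' i j]
    by_cases hij : i = j
    · simp [hij]
    · simp [hij]
  have hR := c3u_hyp_recon d e (fun r => J *ᵥ e r) he0 hbb he1
  obtain ⟨S, hS⟩ : ∃ S : (Fin d ⊕ Fin d → F) →ₗ[F] (Fin d ⊕ Fin d → F),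
      ∀ x, S x = ∑ r, (Cfsg.sympForm d F x (J *ᵥ e r) • e' r -
        Cfsg.sympForm d F x (e r) • J' *ᵥ e' r) := by
    refine ⟨∑ r, (((Helper13.sympB d F).flip (J *ᵥ e r)).smulRight (e' r) -
      ((Helper13.sympB d F).flip (e r)).smulRight (J' *ᵥ e' r)), fun x => ?_⟩
    simp [LinearMap.sum_apply, Helper13.sympB_apply]
  have k1 : ∀ x k, Cfsg.sympForm d F (S x) (e' k) = Cfsg.sympForm d F x (e k) := by
    intro x k
    rw [hS, sf_sum_left]
    simp [sf_sub_left, sf_smul_left, he0', hba']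
  have k2 : ∀ x k, Cfsg.sympForm d F (S x) (J' *ᵥ e' k) = Cfsg.sympForm d F x (J *ᵥ e k) := by
    intro x k
    rw [hS, sf_sum_left]
    simp [sf_sub_left, sf_smul_left, hbb', he1']
  have hiso : ∀ x y, Cfsg.sympForm d F (S x) (S y) = Cfsg.sympForm d F x y := by
    intro x y
    rw [hS y, sf_sum_right]
    simp only [sf_sub_right, sf_smul_right, k1, k2]
    conv_rhs => rw [hR y]
    rw [sf_sum_right]
    apply Finset.sum_congr rfl
    intro r _
    rw [sf_sub_right, sf_smul_right, sf_smul_right]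
  have hSJ : ∀ x, S (J *ᵥ x) = J' *ᵥ S x := by
    intro x
    rw [hS, hS, Matrix.mulVec_sum]
    apply Finset.sum_congr rfl
    intro r _
    rw [Matrix.mulVec_sub, Matrix.mulVec_smul, Matrix.mulVec_smul, hJJ', hJs x (J *ᵥ e r), hJJ,
      sf_smul_right, hJs x (e r)]
    rw [smul_smul, neg_smul, neg_smul, sub_neg_eq_add, mul_comm]
    abel
  have hSinj : Function.Injective S := by
    rw [injective_iff_map_eq_zero]
    intro x hx
    apply sf_eq_zero_of_forall
    intro y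
    rw [← hiso x y, hx, sf_zero_left]
  have hunit : IsUnit (LinearMap.toMatrix' S) := by
    rw [← Matrix.mulVec_injective_iff_isUnit]
    intro x y hxy
    rw [LinearMap.toMatrix'_mulVec, LinearMap.toMatrix'_mulVec] at hxy
    exact hSinj hxy
  have hmv : ∀ x, ((hunit.unit : GL (Fin d ⊕ Fin d) F) :
      Matrix (Fin d ⊕ Fin d) (Fin d ⊕ Fin d) F) *ᵥ x = S x := by
    intro x
    rw [IsUnit.unit_spec, LinearMap.toMatrix'_mulVec]
  refine ⟨hunit.unit, ?_, ?_⟩
  · rw [mem_spGL_iff]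
    intro x y
    rw [hmv, hmv]
    exact hiso x y
  · apply Matrix.toLin'.injective
    refine LinearMap.ext fun x => ?_
    rw [Matrix.toLin'_apply, Matrix.toLin'_apply, ← Matrix.mulVec_mulVec, ← Matrix.mulVec_mulVec,
      hmv, hmv]
    exact hSJ x

end Cfsg.Agent.Helper94
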