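import Cfsg.Agent.Helper94.Quad

set_option autoImplicit false
set_option linter.unusedSectionVars false
set_option linter.unusedSimpArgs false
set_option linter.unnecessarySeqFocus false

namespace Cfsg.Agent.Helper94

open Cfsg Cfsg.Geo Matrix
open scoped commutatorElement

universe u

variable {ι : Type} [Fintype ι] [DecidableEq ι] {F : Type u} [Field F]
variable {Q : (ι → F) → F}

/-- Hyperbolic partner: if `e` is singular and `B(y,e) ≠ 0`, a combination `f = a y + b e` is singular
with `B(e,f) = 1`. -/
theorem exists_partner (hQ : IsNondegenerateQuadraticForm Q) (e y : ι → F) (he : Q e = 0)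
    (hy : polB hQ y e ≠ 0) :
    ∃ a b : F, Q (a • y + b • e) = 0 ∧ polB hQ e (a • y + b • e) = 1 := by
  refine ⟨(polB hQ y e)⁻¹, - ((polB hQ y e)⁻¹) ^ 2 * Q y, ?_, ?_⟩
  · rw [q_add hQ, q_smul hQ, q_smul hQ, he]
    simp only [map_smul, LinearMap.smul_apply, smul_eq_mul]
    field_simp
    ring
  · rw [map_add, map_smul, map_smul, polB_self hQ, he, polB_comm hQ e y, smul_eq_mul, smul_eq_mul]
    field_simp
    ring

/-- Chevalley–Warning for three vectors: some non-trivial combination is singular. -/
theorem exists_zero_three [Fintype F] (hQ : IsNondegenerateQuadraticForm Q) (z0 z1 z2 : ι → F) :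
    ∃ t : Fin 3 → F, t ≠ 0 ∧ Q (t 0 • z0 + t 1 • z1 + t 2 • z2) = 0 := by
  classical
  obtain ⟨p, hp⟩ := CharP.exists F
  have := hp
  let P : MvPolynomial (Fin 3) F :=
    MvPolynomial.C (Q z0) * MvPolynomial.X 0 * MvPolynomial.X 0 +
    MvPolynomial.C (Q z1) * MvPolynomial.X 1 * MvPolynomial.X 1 +
    MvPolynomial.C (Q z2) * MvPolynomial.X 2 * MvPolynomial.X 2 +
    MvPolynomial.C (polB hQ z0 z1) * MvPolynomial.X 0 * MvPolynomial.X 1 +
    MvPolynomial.C (polB hQ z0 z2) * MvPolynomial.X 0 * MvPolynomial.X 2 +
    MvPolynomial.C (polB hQ z1 z2) * MvPolynomial.X 1 * MvPolynomial.X 2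
  have hterm : ∀ (a : F) (i j : Fin 3),
      (MvPolynomial.C a * MvPolynomial.X i * MvPolynomial.X j : MvPolynomial (Fin 3) F).totalDegree ≤ 2 := by
    intro a i j
    refine (MvPolynomial.totalDegree_mul _ _).trans ?_
    have h1 : (MvPolynomial.C a * MvPolynomial.X i : MvPolynomial (Fin 3) F).totalDegree ≤ 1 := by
      refine (MvPolynomial.totalDegree_mul _ _).trans ?_
      rw [MvPolynomial.totalDegree_C, MvPolynomial.totalDegree_X]
    have h2 : (MvPolynomial.X j : MvPolynomial (Fin 3) F).totalDegree = 1 := MvPolynomial.totalDegree_X j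
    omega
  have hdeg : P.totalDegree < Fintype.card (Fin 3) := by
    have h2 : P.totalDegree ≤ 2 := by
      refine (MvPolynomial.totalDegree_add _ _).trans (max_le ?_ (hterm _ _ _))
      refine (MvPolynomial.totalDegree_add _ _).trans (max_le ?_ (hterm _ _ _))
      refine (MvPolynomial.totalDegree_add _ _).trans (max_le ?_ (hterm _ _ _))
      refine (MvPolynomial.totalDegree_add _ _).trans (max_le ?_ (hterm _ _ _))
      refine (MvPolynomial.totalDegree_add _ _).trans (max_le (hterm _ _ _) (hterm _ _ _))
    simp only [Fintype.card_fin]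
    omega
  have hdvd := char_dvd_card_solutions p hdeg
  have heval : ∀ t : Fin 3 → F, MvPolynomial.eval t P = Q (t 0 • z0 + t 1 • z1 + t 2 • z2) := by
    intro t
    simp only [P, map_add, map_mul, MvPolynomial.eval_C, MvPolynomial.eval_X]
    rw [q_add hQ, q_add hQ, q_smul hQ, q_smul hQ, q_smul hQ]
    simp only [map_add, map_smul, LinearMap.add_apply, LinearMap.smul_apply, smul_eq_mul]
    ring
  have h0 : MvPolynomial.eval (0 : Fin 3 → F) P = 0 := by
    rw [heval]; simp [q_zero hQ]
  have hp2 : 2 ≤ p := (CharP.char_is_prime F p).two_le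
  have hcard : 1 < Fintype.card {x : Fin 3 → F // MvPolynomial.eval x P = 0} := by
    have hpos : 0 < Fintype.card {x : Fin 3 → F // MvPolynomial.eval x P = 0} :=
      Fintype.card_pos_iff.mpr ⟨⟨0, h0⟩⟩
    have := Nat.le_of_dvd hpos hdvd
    omega
  obtain ⟨⟨t, ht⟩, hne⟩ := Fintype.exists_ne_of_one_lt_card hcard ⟨0, h0⟩
  refine ⟨t, ?_, ?_⟩
  · intro h
    exact hne (Subtype.ext h)
  · rw [← heval]; exact ht

/-- In dimension at least 5 there is a non-zero singular vector orthogonal to two given vectors. -/
theorem exists_singular [Fintype F] (hQ : IsNondegenerateQuadraticForm Q) (e f : ι → F)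
    (hι : 5 ≤ Fintype.card ι) :
    ∃ z : ι → F, z ≠ 0 ∧ Q z = 0 ∧ polB hQ z e = 0 ∧ polB hQ z f = 0 := by
  classical
  let φ : (ι → F) →ₗ[F] F × F := ((polB hQ).flip e).prod ((polB hQ).flip f)
  have hker : 3 ≤ Module.finrank F (LinearMap.ker φ) := by
    have h1 := LinearMap.finrank_range_add_finrank_ker φ
    have h2 : Module.finrank F (LinearMap.range φ) ≤ 2 := by
      calc Module.finrank F (LinearMap.range φ) ≤ Module.finrank F (F × F) := Submodule.finrank_le _
        _ = 2 := by simp
    have h3 : Module.finrank F (ι → F) = Fintype.card ι := by simp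
    omega
  obtain ⟨z, hz⟩ := exists_linearIndependent_of_le_finrank hker
  obtain ⟨t, ht0, htQ⟩ := exists_zero_three hQ (z 0 : ι → F) (z 1 : ι → F) (z 2 : ι → F)
  have hmem : (t 0 • (z 0 : ι → F) + t 1 • (z 1 : ι → F) + t 2 • (z 2 : ι → F)) ∈ LinearMap.ker φ :=
    Submodule.add_mem _ (Submodule.add_mem _ (Submodule.smul_mem _ _ (z 0).2)
      (Submodule.smul_mem _ _ (z 1).2)) (Submodule.smul_mem _ _ (z 2).2)
  refine ⟨t 0 • (z 0 : ι → F) + t 1 • (z 1 : ι → F) + t 2 • (z 2 : ι → F), ?_, htQ, ?_, ?_⟩
  · intro h
    apply ht0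
    have h' : ∑ i, t i • z i = 0 := by
      apply Subtype.ext
      rw [Fin.sum_univ_three]
      simpa using h
    have := Fintype.linearIndependent_iff.mp hz t h'
    funext i
    exact this i
  · have := LinearMap.mem_ker.mp hmem
    exact congrArg Prod.fst this
  · have := LinearMap.mem_ker.mp hmem
    exact congrArg Prod.snd this


/-- The configuration lemma: `W` is the hyperbolic plane spanned by `e, f`, and `e', f'` is a hyperbolic
pair orthogonal to `W`; the field has at most three elements (`a * a = 1` for `a ≠ 0`). Then the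
stabiliser of `W` in `Ω` lies strictly inside the stabiliser of the line spanned by `e + f`. -/
theorem not_max_of_config (hQ : IsNondegenerateQuadraticForm Q)
    (hF : ∀ a : F, a ≠ 0 → a * a = 1)
    (W : Submodule F (ι → F)) (e f e' f' : ι → F)
    (hW : W = Submodule.span F {e, f})
    (he : Q e = 0) (hf : Q f = 0) (he' : Q e' = 0) (hf' : Q f' = 0)
    (hef : polB hQ e f = 1) (he'f' : polB hQ e' f' = 1)
    (h1 : polB hQ e' e = 0) (h2 : polB hQ e' f = 0) (h3 : polB hQ f' e = 0) (h4 : polB hQ f' f = 0) :
    ∃ K : Subgroup (GL ι F), subspaceStabilizer W ⊓ omegaGL Q < K ∧ K < omegaGL Q := by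
  have bee : polB hQ e e = 0 := by rw [polB_self, he, mul_zero]
  have bff : polB hQ f f = 0 := by rw [polB_self, hf, mul_zero]
  have be'e' : polB hQ e' e' = 0 := by rw [polB_self, he', mul_zero]
  have bf'f' : polB hQ f' f' = 0 := by rw [polB_self, hf', mul_zero]
  have bfe : polB hQ f e = 1 := by rw [polB_comm]; exact hef
  have bf'e' : polB hQ f' e' = 1 := by rw [polB_comm]; exact he'f'
  have bee' : polB hQ e e' = 0 := by rw [polB_comm]; exact h1
  have bfe' : polB hQ f e' = 0 := by rw [polB_comm]; exact h2
  have bef' : polB hQ e f' = 0 := by rw [polB_comm]; exact h3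
  have bff' : polB hQ f f' = 0 := by rw [polB_comm]; exact h4
  have hx : Q (e + f) = 1 := by rw [q_add hQ, he, hf, hef]; ring
  have hx0 : Q (e + f) ≠ 0 := by rw [hx]; exact one_ne_zero
  have heW : e ∈ W := by rw [hW]; exact Submodule.subset_span (by simp)
  have hfW : f ∈ W := by rw [hW]; exact Submodule.subset_span (by simp)
  have hxW : e + f ∈ W := W.add_mem heW hfW
  have hWe' : ∀ w ∈ W, polB hQ w e' = 0 := by
    intro w hw
    rw [hW] at hw
    obtain ⟨a, b, rfl⟩ := Submodule.mem_span_pair.mp hw
    simp only [map_add, map_smul, LinearMap.add_apply, LinearMap.smul_apply, smul_eq_mul, bee', bfe']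
    ring
  have hkey : ∀ w ∈ W, Q w = 1 → w ∈ Submodule.span F {e + f} := by
    intro w hw hw1
    rw [hW] at hw
    obtain ⟨a, b, rfl⟩ := Submodule.mem_span_pair.mp hw
    rw [q_add hQ, q_smul hQ, q_smul hQ, he, hf] at hw1
    simp only [map_smul, LinearMap.smul_apply, smul_eq_mul, hef] at hw1
    have hab : a * b = 1 := by linear_combination hw1
    have ha : a ≠ 0 := by rintro rfl; simp at hab
    have hba : b = a := by
      have := hF a ha
      calc b = (a * a) * b := by rw [this, one_mul]
        _ = a * (a * b) := by ring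
        _ = a := by rw [hab, mul_one]
    rw [hba, ← smul_add]
    exact Submodule.smul_mem _ _ (Submodule.mem_span_singleton_self _)
  refine ⟨subspaceStabilizer (Submodule.span F {e + f}) ⊓ omegaGL Q, ?_, ?_⟩
  · rw [SetLike.lt_iff_le_and_exists]
    constructor
    · have hmap : ∀ g : GL ι F, g ∈ subspaceStabilizer W ⊓ omegaGL Q →
          (g : Matrix ι ι F) *ᵥ (e + f) ∈ Submodule.span F {e + f} := by
        intro g hg
        apply hkey
        · exact ((mem_subspaceStabilizer_iff W g).mp hg.1 (e + f)).mp hxW
        · rw [isom_apply (omega_le_isom hg.2), hx]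
      intro g hg
      refine ⟨(mem_subspaceStabilizer_iff _ g).mpr ?_, hg.2⟩
      intro v
      constructor
      · intro hv
        obtain ⟨c, rfl⟩ := Submodule.mem_span_singleton.mp hv
        rw [mulVec_smul]
        exact Submodule.smul_mem _ _ (hmap g hg)
      · intro hv
        obtain ⟨c, hc⟩ := Submodule.mem_span_singleton.mp hv
        have hg' := hmap g⁻¹ (inv_mem hg)
        have h3 : ((g⁻¹ : GL ι F) : Matrix ι ι F) *ᵥ ((g : Matrix ι ι F) *ᵥ v) = v := by
          rw [mulVec_mulVec, ← Units.val_mul, inv_mul_cancel, Units.val_one, one_mulVec]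
        rw [← h3, ← hc, mulVec_smul]
        exact Submodule.smul_mem _ _ hg'
    · have hu : Q (e - f + e') = -1 := by
        rw [q_add hQ, q_sub hQ, he, hf, he']
        simp only [map_sub, LinearMap.sub_apply, hef, bee', bfe']
        ring
      have hu0 : Q (e - f + e') ≠ 0 := by rw [hu]; simp
      have hv : Q (e' + f') = 1 := by rw [q_add hQ, he', hf', he'f']; ring
      have hv0 : Q (e' + f') ≠ 0 := by rw [hv]; exact one_ne_zero
      refine ⟨⁅reflGL hQ (e - f + e') hu0, reflGL hQ (e' + f') hv0⁆, ⟨?_, ?_⟩, ?_⟩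
      · apply stab_span_of_fix
        rw [comm_refl_mulVec]
        have r1 : reflLin hQ (e' + f') (e + f) = e + f := by
          rw [reflLin_apply]
          simp only [map_add, LinearMap.add_apply, bee', bef', bfe', bff']
          simp
        have r2 : reflLin hQ (e - f + e') (e + f) = e + f := by
          rw [reflLin_apply]
          simp only [map_add, map_sub, LinearMap.add_apply, LinearMap.sub_apply, bee, bff, hef, bfe,
            bee', bfe']
          simp
        rw [r1, r2, r1, r2]
      · exact comm_mem_omega (reflGL_mem hQ _ hu0) (reflGL_mem hQ _ hv0)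
      · intro hmem
        have hstab := (mem_subspaceStabilizer_iff W _).mp hmem.1 e
        have hin := hstab.mp heW
        rw [comm_refl_mulVec] at hin
        have r1 : reflLin hQ (e' + f') e = e := by
          rw [reflLin_apply]
          simp only [map_add, LinearMap.add_apply, bee', bef']
          simp
        have r2 : reflLin hQ (e - f + e') e = e - (e - f + e') := by
          rw [reflLin_apply, hu]
          simp only [map_add, map_sub, LinearMap.add_apply, LinearMap.sub_apply, bee, hef, bee']
          norm_num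
        have r3 : reflLin hQ (e' + f') (e - (e - f + e')) = e - (e - f + e') + (e' + f') := by
          rw [reflLin_apply, hv]
          simp only [map_add, map_sub, LinearMap.add_apply, LinearMap.sub_apply, bee', bef', bfe',
            bff', be'e', he'f']
          norm_num <;> module
        have r4 : reflLin hQ (e - f + e') (e - (e - f + e') + (e' + f')) =
            e + (e - f + e') + (e' + f') := by
          rw [reflLin_apply, hu]
          simp only [map_add, map_sub, LinearMap.add_apply, LinearMap.sub_apply, bee, bff, hef, bfe,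
            bee', bfe', be'e', h1, h2, bf'e', h3, h4]
          norm_num <;> module
        rw [r1, r2, r3, r4] at hin
        have := hWe' _ hin
        simp only [map_add, map_sub, LinearMap.add_apply, LinearMap.sub_apply, bee', bfe', be'e',
          bf'e'] at this
        simp at this
  · rw [SetLike.lt_iff_le_and_exists]
    refine ⟨inf_le_right, ?_⟩
    have hu : Q (e + e' + f') = 1 := by
      rw [q_add hQ, q_add hQ, he, he', hf']
      simp only [map_add, LinearMap.add_apply, bee', bef', he'f']
      ring
    have hu0 : Q (e + e' + f') ≠ 0 := by rw [hu]; exact one_ne_zero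
    refine ⟨⁅reflGL hQ (e + e' + f') hu0, reflGL hQ (e + f) hx0⁆,
      comm_mem_omega (reflGL_mem hQ _ hu0) (reflGL_mem hQ _ hx0), ?_⟩
    intro hmem
    have hstab := (mem_subspaceStabilizer_iff _ _).mp hmem.1 (e + f)
    have hin := hstab.mp (Submodule.mem_span_singleton_self _)
    rw [comm_refl_mulVec] at hin
    have r1 : reflLin hQ (e + f) (e + f) = -(e + f) := by
      rw [reflLin_apply, hx]
      simp only [map_add, LinearMap.add_apply, bee, bff, hef, bfe]
      norm_num <;> module
    have r2 : reflLin hQ (e + e' + f') (-(e + f)) = (e + e' + f') - (e + f) := by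
      rw [reflLin_apply, hu]
      simp only [map_add, map_neg, LinearMap.add_apply, LinearMap.neg_apply, bee, bfe, bee', bef',
        bfe', bff']
      norm_num <;> module
    have r3 : reflLin hQ (e + f) ((e + e' + f') - (e + f)) = e + e' + f' := by
      rw [reflLin_apply, hx]
      simp only [map_add, map_sub, LinearMap.add_apply, LinearMap.sub_apply, bee, bff, hef, bfe,
        h1, h2, h3, h4]
      norm_num <;> module
    have r4 : reflLin hQ (e + e' + f') (e + e' + f') = -(e + e' + f') := by
      rw [reflLin_apply, hu]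
      simp only [map_add, LinearMap.add_apply, bee, bee', bef', h1, be'e', he'f', h3, bf'e', bf'f']
      norm_num <;> module
    rw [r1, r2, r3, r4] at hin
    obtain ⟨c, hc⟩ := Submodule.mem_span_singleton.mp hin
    have := congrArg (fun w => polB hQ w e') hc
    simp only [map_add, map_neg, map_smul, LinearMap.add_apply, LinearMap.neg_apply,
      LinearMap.smul_apply, bee', bfe', be'e', bf'e', smul_eq_mul] at this
    simp at this


theorem card_le_three_sq [Fintype F] (hq : Fintype.card F ≤ 3) (a : F) (ha : a ≠ 0) : a * a = 1 := by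
  have h1 := FiniteField.pow_card_sub_one_eq_one a ha
  have h2 : 1 < Fintype.card F := Fintype.one_lt_card
  have h3 : Fintype.card F = 2 ∨ Fintype.card F = 3 := by omega
  rcases h3 with h | h
  · rw [h] at h1
    have : a = 1 := by simpa using h1
    rw [this, mul_one]
  · rw [h] at h1
    rw [← pow_two]
    simpa using h1

/-- Over a field with at most three elements, the stabiliser in `Ω` of a non-degenerate plus-type plane is not
maximal (dimension at least 5). -/
theorem plus_plane_not_maximal [Fintype F] (Q : (ι → F) → F) (hQ : IsNondegenerateQuadraticForm Q)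
    (hq : Fintype.card F ≤ 3) (hι : 5 ≤ Fintype.card ι) (W : Submodule F (ι → F))
    (hdim : Module.finrank F W = 2) (hW : IsNondegenerateOn (QuadraticMap.polar Q) W)
    (hWp : IsPlusTypeOn Q W) :
    ∃ K : Subgroup (GL ι F), subspaceStabilizer W ⊓ omegaGL Q < K ∧ K < omegaGL Q := by
  obtain ⟨U, hUW, hUts, hUdim⟩ := hWp
  have hU1 : Module.finrank F U = 1 := by omega
  obtain ⟨e₀, he₀, -⟩ := finrank_eq_one_iff'.mp hU1
  obtain ⟨e, heW, he0, he⟩ : ∃ e : ι → F, e ∈ W ∧ e ≠ 0 ∧ Q e = 0 :=
    ⟨e₀, hUW e₀.2, fun h => he₀ (Subtype.ext h), hUts _ e₀.2⟩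
  obtain ⟨⟨y, hyW, hy⟩, -⟩ := hW _ heW he0
  obtain ⟨f, hfW, hf, hef⟩ : ∃ f : ι → F, f ∈ W ∧ Q f = 0 ∧ polB hQ e f = 1 := by
    obtain ⟨a, b, hf, hef⟩ := exists_partner hQ e y he hy
    exact ⟨_, W.add_mem (W.smul_mem _ hyW) (W.smul_mem _ heW), hf, hef⟩
  have bee : polB hQ e e = 0 := by rw [polB_self, he, mul_zero]
  have bff : polB hQ f f = 0 := by rw [polB_self, hf, mul_zero]
  have bfe : polB hQ f e = 1 := by rw [polB_comm]; exact hef
  have hli : LinearIndependent F ![e, f] := by
    rw [LinearIndependent.pair_iff]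
    intro s t hst
    have h1 := congrArg (fun v => polB hQ e v) hst
    simp only [map_add, map_smul, map_zero, smul_eq_mul, bee, hef] at h1
    have ht : t = 0 := by simpa using h1
    subst ht
    simp only [zero_smul, add_zero, smul_eq_zero] at hst
    exact ⟨hst.resolve_right he0, rfl⟩
  have hspan : W = Submodule.span F {e, f} := by
    symm
    apply Submodule.eq_of_le_of_finrank_eq
    · rw [Submodule.span_le]
      intro v hv
      rcases hv with rfl | rfl
      exacts [heW, hfW]
    · rw [hdim]
      have := finrank_span_eq_card hli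
      rw [Matrix.range_cons_cons_empty] at this
      simpa using this
  obtain ⟨e', he'0, he', h1, h2⟩ := exists_singular hQ e f hι
  have bee' : polB hQ e e' = 0 := by rw [polB_comm]; exact h1
  have bfe' : polB hQ f e' = 0 := by rw [polB_comm]; exact h2
  obtain ⟨⟨y', hy'⟩, -⟩ := hQ.nondegenerate e' he'0
  obtain ⟨y'', hy''e', hy''e, hy''f⟩ : ∃ y'' : ι → F, polB hQ y'' e' ≠ 0 ∧ polB hQ y'' e = 0 ∧
      polB hQ y'' f = 0 := by
    refine ⟨y' - polB hQ y' f • e - polB hQ y' e • f, ?_, ?_, ?_⟩
    · have hy'2 : polB hQ y' e' ≠ 0 := hy'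
      simp only [map_sub, map_smul, LinearMap.sub_apply, LinearMap.smul_apply, smul_eq_mul, bee', bfe']
      simpa using hy'2
    · simp only [map_sub, map_smul, LinearMap.sub_apply, LinearMap.smul_apply, smul_eq_mul, bee, bfe]
      ring
    · simp only [map_sub, map_smul, LinearMap.sub_apply, LinearMap.smul_apply, smul_eq_mul, bff, hef]
      ring
  obtain ⟨f', hf', he'f', h3, h4⟩ : ∃ f' : ι → F, Q f' = 0 ∧ polB hQ e' f' = 1 ∧ polB hQ f' e = 0 ∧
      polB hQ f' f = 0 := by
    obtain ⟨a', b', hf', he'f'⟩ := exists_partner hQ e' y'' he' hy''e'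
    refine ⟨_, hf', he'f', ?_, ?_⟩
    · simp only [map_add, map_smul, LinearMap.add_apply, LinearMap.smul_apply, smul_eq_mul, hy''e, h1]
      ring
    · simp only [map_add, map_smul, LinearMap.add_apply, LinearMap.smul_apply, smul_eq_mul, hy''f, h2]
      ring
  exact not_max_of_config hQ (card_le_three_sq hq) W e f e' f' hspan he hf he' hf' hef he'f' h1 h2 h3 h4

end Cfsg.Agent.Helper94
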