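import Cfsg.Agent.Helper94.Frame
import Cfsg.Agent.Helper94.PlusPlane

set_option autoImplicit false
set_option linter.unusedSectionVars false
set_option linter.unusedSimpArgs false
set_option linter.unnecessarySeqFocus false

namespace Cfsg.Agent.Helper94

open Cfsg Cfsg.Geo Matrix

universe u

variable {ι : Type} [Fintype ι] [DecidableEq ι] {F : Type u} [Field F]
variable {Q : (ι → F) → F}

/-- A non-zero subspace on which the polar form is non-degenerate contains a non-singular vector. -/
theorem exists_nonsing (hQ : IsNondegenerateQuadraticForm Q) (W : Submodule F (ι → F))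
    (hW : IsNondegenerateOn (QuadraticMap.polar Q) W) (hne : W ≠ ⊥) : ∃ x ∈ W, Q x ≠ 0 := by
  obtain ⟨u, huW, hu0⟩ := Submodule.exists_mem_ne_zero_of_ne_bot hne
  obtain ⟨⟨u', hu'W, hu'⟩, -⟩ := hW u huW hu0
  by_cases h1 : Q u = 0
  · by_cases h2 : Q u' = 0
    · refine ⟨u' + u, W.add_mem hu'W huW, ?_⟩
      rw [q_add hQ, h1, h2, zero_add, zero_add]
      exact hu'
    · exact ⟨u', hu'W, h2⟩
  · exact ⟨u, huW, h1⟩

/-- Orthogonal projection away from a non-singular vector. -/
theorem proj_orth (hQ : IsNondegenerateQuadraticForm Q) (h2 : (2 : F) ≠ 0) (x : ι → F) (hx : Q x ≠ 0)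
    (w : ι → F) : polB hQ (w - ((polB hQ x x)⁻¹ * polB hQ w x) • x) x = 0 := by
  have hxx : polB hQ x x ≠ 0 := by rw [polB_self]; exact mul_ne_zero h2 hx
  rw [map_sub, LinearMap.sub_apply, map_smul, LinearMap.smul_apply, smul_eq_mul]
  field_simp
  ring

/-- A non-degenerate plane has an orthogonal basis of non-singular vectors (characteristic not two). -/
theorem exists_orth_pair (hQ : IsNondegenerateQuadraticForm Q) (h2 : (2 : F) ≠ 0)
    (W : Submodule F (ι → F)) (hdim : Module.finrank F W = 2)
    (hW : IsNondegenerateOn (QuadraticMap.polar Q) W) :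
    ∃ u v : ι → F, u ∈ W ∧ v ∈ W ∧ Q u ≠ 0 ∧ Q v ≠ 0 ∧ polB hQ u v = 0 ∧
      W = Submodule.span F {u, v} := by
  have hWne : W ≠ ⊥ := by
    intro hbot
    rw [hbot] at hdim
    simp at hdim
  obtain ⟨u, huW, hu⟩ := exists_nonsing hQ W hW hWne
  have hu0 : u ≠ 0 := by
    rintro rfl
    exact hu (q_zero hQ)
  have huu : polB hQ u u ≠ 0 := by rw [polB_self]; exact mul_ne_zero h2 hu
  have hnotle : ¬ W ≤ Submodule.span F {u} := by
    intro hle
    have h1 := Submodule.finrank_mono hle
    have h5 : Module.finrank F (Submodule.span F {u}) = 1 := finrank_span_singleton hu0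
    omega
  obtain ⟨w, hwW, hw⟩ := SetLike.not_le_iff_exists.mp hnotle
  obtain ⟨v, hvW, hvu, hv0⟩ : ∃ v : ι → F, v ∈ W ∧ polB hQ v u = 0 ∧ v ≠ 0 := by
    refine ⟨w - ((polB hQ u u)⁻¹ * polB hQ w u) • u, W.sub_mem hwW (W.smul_mem _ huW),
      proj_orth hQ h2 u hu w, ?_⟩
    intro h
    apply hw
    rw [sub_eq_zero] at h
    rw [h]
    exact Submodule.smul_mem _ _ (Submodule.mem_span_singleton_self u)
  have huv : polB hQ u v = 0 := by rw [polB_comm]; exact hvu
  have hli : LinearIndependent F ![u, v] := by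
    rw [LinearIndependent.pair_iff]
    intro s t hst
    have h1 := congrArg (fun z => polB hQ z u) hst
    simp only [map_add, map_smul, LinearMap.add_apply, LinearMap.smul_apply, smul_eq_mul, hvu,
      LinearMap.zero_apply, map_zero, mul_zero, add_zero] at h1
    have hs : s = 0 := (mul_eq_zero.mp h1).resolve_right huu
    subst hs
    simp only [zero_smul, zero_add, smul_eq_zero] at hst
    exact ⟨rfl, hst.resolve_right hv0⟩
  have hspan : W = Submodule.span F {u, v} := by
    symm
    apply Submodule.eq_of_le_of_finrank_eq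
    · rw [Submodule.span_le]
      intro z hz
      rcases hz with rfl | rfl
      exacts [huW, hvW]
    · rw [hdim]
      have := finrank_span_eq_card hli
      rw [Matrix.range_cons_cons_empty] at this
      simpa using this
  refine ⟨u, v, huW, hvW, hu, ?_, huv, hspan⟩
  intro hv
  obtain ⟨⟨s, hsW, hs⟩, -⟩ := hW v hvW hv0
  rw [hspan] at hsW
  obtain ⟨α, β, rfl⟩ := Submodule.mem_span_pair.mp hsW
  apply hs
  change polB hQ (α • u + β • v) v = 0
  rw [map_add, LinearMap.add_apply, map_smul, map_smul, LinearMap.smul_apply, LinearMap.smul_apply, huv,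
    polB_self, hv]
  simp

/-- Goodness from an orthogonal basis of a plane, when every non-zero scalar has square one. -/
theorem good_of_pair (hQ : IsNondegenerateQuadraticForm Q) (hsq : ∀ a : F, a ≠ 0 → a * a = 1)
    (W : Submodule F (ι → F)) (x y : ι → F) (η : F) (hW : W = Submodule.span F {x, y})
    (hx : Q x = η) (hy : Q y ≠ 0) (hxy : polB hQ x y = 0) :
    ∀ s ∈ W, Q s = η → (∃ c : F, s = c • x) ∨ polB hQ s x = 0 := by
  intro s hs hsη
  rw [hW] at hs
  obtain ⟨α, β, rfl⟩ := Submodule.mem_span_pair.mp hs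
  have hyx : polB hQ y x = 0 := by rw [polB_comm]; exact hxy
  by_cases hα : α = 0
  · right
    rw [hα, zero_smul, zero_add, map_smul, LinearMap.smul_apply, hyx, smul_zero]
  · left
    refine ⟨α, ?_⟩
    rw [q_add hQ, q_smul hQ, q_smul hQ] at hsη
    simp only [map_smul, LinearMap.smul_apply, smul_eq_mul, hxy, hx, mul_zero, add_zero] at hsη
    have hα2 : α ^ 2 = 1 := by rw [pow_two]; exact hsq α hα
    rw [hα2] at hsη
    have hβ : β ^ 2 * Q y = 0 := by linear_combination hsη
    have hβ0 : β = 0 := by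
      rcases mul_eq_zero.mp hβ with h | h
      · exact pow_eq_zero_iff (two_ne_zero) |>.mp h
      · exact absurd h hy
    rw [hβ0, zero_smul, add_zero]


/-- A non-degenerate three-dimensional subspace has an orthogonal basis of non-singular vectors. -/
theorem exists_orth_triple (hQ : IsNondegenerateQuadraticForm Q) (h2 : (2 : F) ≠ 0)
    (W : Submodule F (ι → F)) (hdim : Module.finrank F W = 3)
    (hW : IsNondegenerateOn (QuadraticMap.polar Q) W) :
    ∃ x y z : ι → F, x ∈ W ∧ y ∈ W ∧ z ∈ W ∧ Q x ≠ 0 ∧ Q y ≠ 0 ∧ Q z ≠ 0 ∧ polB hQ x y = 0 ∧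
      polB hQ x z = 0 ∧ polB hQ y z = 0 ∧ W = Submodule.span F {x, y, z} := by
  have hWne : W ≠ ⊥ := by
    intro hbot
    rw [hbot] at hdim
    simp at hdim
  obtain ⟨x, hxW, hx⟩ := exists_nonsing hQ W hW hWne
  have hx0 : x ≠ 0 := by
    rintro rfl
    exact hx (q_zero hQ)
  have hxx : polB hQ x x ≠ 0 := by rw [polB_self]; exact mul_ne_zero h2 hx
  have hnotle : ¬ W ≤ Submodule.span F {x} := by
    intro hle
    have h1 := Submodule.finrank_mono hle
    have h5 : Module.finrank F (Submodule.span F {x}) = 1 := finrank_span_singleton hx0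
    omega
  obtain ⟨w, hwW, hw⟩ := SetLike.not_le_iff_exists.mp hnotle
  obtain ⟨v, hvW, hvx, hv0⟩ : ∃ v : ι → F, v ∈ W ∧ polB hQ v x = 0 ∧ v ≠ 0 := by
    refine ⟨w - ((polB hQ x x)⁻¹ * polB hQ w x) • x, W.sub_mem hwW (W.smul_mem _ hxW),
      proj_orth hQ h2 x hx w, ?_⟩
    intro h
    apply hw
    rw [sub_eq_zero] at h
    rw [h]
    exact Submodule.smul_mem _ _ (Submodule.mem_span_singleton_self x)
  -- a non-singular vector of W orthogonal to x
  obtain ⟨y, hyW, hyx, hy⟩ : ∃ y : ι → F, y ∈ W ∧ polB hQ y x = 0 ∧ Q y ≠ 0 := by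
    obtain ⟨⟨s, hsW, hs⟩, -⟩ := hW v hvW hv0
    obtain ⟨s', hs'W, hs'x, hs'v⟩ : ∃ s' : ι → F, s' ∈ W ∧ polB hQ s' x = 0 ∧ polB hQ s' v ≠ 0 := by
      refine ⟨s - ((polB hQ x x)⁻¹ * polB hQ s x) • x, W.sub_mem hsW (W.smul_mem _ hxW),
        proj_orth hQ h2 x hx s, ?_⟩
      rw [map_sub, LinearMap.sub_apply, map_smul, LinearMap.smul_apply, polB_comm hQ x v, hvx, smul_zero,
        sub_zero]
      exact hs
    by_cases h1 : Q v = 0
    · by_cases h2' : Q s' = 0
      · refine ⟨s' + v, W.add_mem hs'W hvW, ?_, ?_⟩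
        · rw [map_add, LinearMap.add_apply, hs'x, hvx, add_zero]
        · rw [q_add hQ, h1, h2', zero_add, zero_add]
          exact hs'v
      · exact ⟨s', hs'W, hs'x, h2'⟩
    · exact ⟨v, hvW, hvx, h1⟩
  have hxy : polB hQ x y = 0 := by rw [polB_comm]; exact hyx
  have hyy : polB hQ y y ≠ 0 := by rw [polB_self]; exact mul_ne_zero h2 hy
  have hli2 : LinearIndependent F ![x, y] := by
    rw [LinearIndependent.pair_iff]
    intro s t hst
    have h1 := congrArg (fun z => polB hQ z x) hst
    simp only [map_add, map_smul, LinearMap.add_apply, LinearMap.smul_apply, smul_eq_mul, hyx,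
      LinearMap.zero_apply, map_zero, mul_zero, add_zero] at h1
    have hs : s = 0 := (mul_eq_zero.mp h1).resolve_right hxx
    have h1' := congrArg (fun z => polB hQ z y) hst
    simp only [map_add, map_smul, LinearMap.add_apply, LinearMap.smul_apply, smul_eq_mul, hxy,
      LinearMap.zero_apply, map_zero, mul_zero, zero_add] at h1'
    have ht : t = 0 := (mul_eq_zero.mp h1').resolve_right hyy
    exact ⟨hs, ht⟩
  have hnotle2 : ¬ W ≤ Submodule.span F {x, y} := by
    intro hle
    have h1 := Submodule.finrank_mono hle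
    have h5 := finrank_span_eq_card hli2
    rw [Matrix.range_cons_cons_empty] at h5
    simp only [Fintype.card_fin] at h5
    omega
  obtain ⟨w₂, hw₂W, hw₂⟩ := SetLike.not_le_iff_exists.mp hnotle2
  obtain ⟨z, hzW, hzx, hzy, hz0⟩ : ∃ z : ι → F, z ∈ W ∧ polB hQ z x = 0 ∧ polB hQ z y = 0 ∧ z ≠ 0 := by
    refine ⟨w₂ - ((polB hQ x x)⁻¹ * polB hQ w₂ x) • x - ((polB hQ y y)⁻¹ * polB hQ w₂ y) • y,
      W.sub_mem (W.sub_mem hw₂W (W.smul_mem _ hxW)) (W.smul_mem _ hyW), ?_, ?_, ?_⟩
    · rw [map_sub, LinearMap.sub_apply, proj_orth hQ h2 x hx w₂, map_smul, LinearMap.smul_apply, hyx,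
        smul_zero, sub_zero]
    · have := proj_orth hQ h2 y hy w₂
      rw [map_sub, LinearMap.sub_apply, map_sub, LinearMap.sub_apply, map_smul, LinearMap.smul_apply, hxy,
        smul_zero, sub_zero]
      rw [map_sub, LinearMap.sub_apply] at this
      exact this
    · intro h
      apply hw₂
      have : w₂ = ((polB hQ x x)⁻¹ * polB hQ w₂ x) • x + ((polB hQ y y)⁻¹ * polB hQ w₂ y) • y := by
        rw [sub_sub, sub_eq_zero] at h
        exact h
      rw [this]
      exact Submodule.mem_span_pair.mpr ⟨_, _, rfl⟩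
  have hxz : polB hQ x z = 0 := by rw [polB_comm]; exact hzx
  have hyz : polB hQ y z = 0 := by rw [polB_comm]; exact hzy
  have hli3 : LinearIndependent F ![x, y, z] := by
    rw [Fintype.linearIndependent_iff]
    intro g hg
    rw [Fin.sum_univ_three] at hg
    simp only [Matrix.cons_val_zero, Matrix.cons_val_one, Matrix.cons_val_two, Matrix.head_cons,
      Matrix.tail_cons] at hg
    have h1 := congrArg (fun w => polB hQ w x) hg
    simp only [map_add, map_smul, LinearMap.add_apply, LinearMap.smul_apply, smul_eq_mul, hyx, hzx,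
      LinearMap.zero_apply, map_zero, mul_zero, add_zero] at h1
    have hg0 : g 0 = 0 := (mul_eq_zero.mp h1).resolve_right hxx
    have h1' := congrArg (fun w => polB hQ w y) hg
    simp only [map_add, map_smul, LinearMap.add_apply, LinearMap.smul_apply, smul_eq_mul, hxy, hzy,
      LinearMap.zero_apply, map_zero, mul_zero, add_zero, zero_add] at h1'
    have hg1 : g 1 = 0 := (mul_eq_zero.mp h1').resolve_right hyy
    rw [hg0, hg1, zero_smul, zero_smul, zero_add, zero_add, smul_eq_zero] at hg
    have hg2 : g 2 = 0 := hg.resolve_right hz0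
    intro i
    fin_cases i
    · exact hg0
    · exact hg1
    · exact hg2
  have hspan : W = Submodule.span F {x, y, z} := by
    symm
    apply Submodule.eq_of_le_of_finrank_eq
    · rw [Submodule.span_le]
      intro w hw
      rcases hw with rfl | rfl | rfl
      exacts [hxW, hyW, hzW]
    · rw [hdim]
      have := finrank_span_eq_card hli3
      rw [Matrix.range_cons, Matrix.range_cons_cons_empty, Set.singleton_union] at this
      simpa using this
  refine ⟨x, y, z, hxW, hyW, hzW, hx, hy, ?_, hxy, hxz, hyz, hspan⟩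
  intro hz
  obtain ⟨⟨s, hsW, hs⟩, -⟩ := hW z hzW hz0
  rw [hspan] at hsW
  obtain ⟨α, β, γ, rfl⟩ := Submodule.mem_span_triple.mp hsW
  apply hs
  change polB hQ (α • x + β • y + γ • z) z = 0
  simp only [map_add, map_smul, LinearMap.add_apply, LinearMap.smul_apply, smul_eq_mul, hxz, hyz,
    polB_self, hz]
  ring

/-- Goodness from an orthogonal basis `x, y, z` with `Q y = Q z`, when every non-zero scalar has square one. -/
theorem good_of_triple (hQ : IsNondegenerateQuadraticForm Q) (hsq : ∀ a : F, a ≠ 0 → a * a = 1)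
    (h2 : (2 : F) ≠ 0) (W : Submodule F (ι → F)) (x y z : ι → F) (η : F)
    (hW : W = Submodule.span F {x, y, z}) (hx : Q x = η) (hy : Q y ≠ 0) (hyz : Q y = Q z)
    (hxy : polB hQ x y = 0) (hxz : polB hQ x z = 0) (hyz' : polB hQ y z = 0) :
    ∀ s ∈ W, Q s = η → (∃ c : F, s = c • x) ∨ polB hQ s x = 0 := by
  intro s hs hsη
  rw [hW] at hs
  obtain ⟨α, β, γ, rfl⟩ := Submodule.mem_span_triple.mp hs
  have hyx : polB hQ y x = 0 := by rw [polB_comm]; exact hxy
  have hzx : polB hQ z x = 0 := by rw [polB_comm]; exact hxz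
  by_cases hα : α = 0
  · right
    simp only [hα, zero_smul, zero_add, map_add, map_smul, LinearMap.add_apply, LinearMap.smul_apply, hyx,
      hzx, smul_zero, add_zero]
  · left
    refine ⟨α, ?_⟩
    rw [q_add hQ, q_add hQ, q_smul hQ, q_smul hQ, q_smul hQ] at hsη
    simp only [map_add, map_smul, LinearMap.add_apply, LinearMap.smul_apply, smul_eq_mul, hxy, hxz, hyz',
      hx, mul_zero, add_zero, ← hyz] at hsη
    have hα2 : α ^ 2 = 1 := by rw [pow_two]; exact hsq α hα
    rw [hα2] at hsη
    have hβγ : (β ^ 2 + γ ^ 2) * Q y = 0 := by linear_combination hsη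
    have hsum : β ^ 2 + γ ^ 2 = 0 := (mul_eq_zero.mp hβγ).resolve_right hy
    have hβ0 : β = 0 := by
      by_contra hβ
      have hβ2 : β ^ 2 = 1 := by rw [pow_two]; exact hsq β hβ
      by_cases hγ : γ = 0
      · rw [hβ2, hγ] at hsum
        simp at hsum
      · have hγ2 : γ ^ 2 = 1 := by rw [pow_two]; exact hsq γ hγ
        rw [hβ2, hγ2] at hsum
        apply h2
        linear_combination hsum
    have hγ0 : γ = 0 := by
      rw [hβ0] at hsum
      simpa using hsum
    rw [hβ0, hγ0, zero_smul, zero_smul, add_zero, add_zero]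


/-- `W` contains a good vector of value `η` together with a non-singular vector orthogonal to it. -/
def GoodIn (hQ : IsNondegenerateQuadraticForm Q) (W : Submodule F (ι → F)) (η : F) : Prop :=
  ∃ x y, x ∈ W ∧ Q x = η ∧ (∀ s ∈ W, Q s = η → (∃ c : F, s = c • x) ∨ polB hQ s x = 0) ∧
    y ∈ W ∧ polB hQ y x = 0 ∧ Q y ≠ 0

/-- Goodness is transported along isometries. -/
theorem transport_good (hQ : IsNondegenerateQuadraticForm Q) (W W' : Submodule F (ι → F)) (η : F)
    (hiso : AreIsometricFor Q W W') (hg : GoodIn hQ W η) : GoodIn hQ W' η := by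
  obtain ⟨e, he⟩ := hiso
  obtain ⟨x, y, hxW, hx, hgood, hyW, hyx, hy⟩ := hg
  have hpol : ∀ a b : W, polB hQ ((e a : W') : ι → F) ((e b : W') : ι → F) = polB hQ (a : ι → F) (b : ι → F) := by
    intro a b
    rw [polB_apply, polB_apply]
    unfold QuadraticMap.polar
    have h1 : ((e a : W') : ι → F) + ((e b : W') : ι → F) = ((e (a + b) : W') : ι → F) := by
      rw [map_add]; rfl
    have h2 : (a : ι → F) + (b : ι → F) = ((a + b : W) : ι → F) := rfl
    rw [h1, he, he, he, h2]
  refine ⟨(e ⟨x, hxW⟩ : W'), (e ⟨y, hyW⟩ : W'), (e ⟨x, hxW⟩).2, ?_, ?_, (e ⟨y, hyW⟩).2, ?_, ?_⟩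
  · rw [he]; exact hx
  · intro s hs hsη
    have hs' : s = ((e (e.symm ⟨s, hs⟩) : W') : ι → F) := by simp
    have hq : Q ((e.symm ⟨s, hs⟩ : W) : ι → F) = η := by
      rw [← he, ← hs']; exact hsη
    rcases hgood _ (e.symm ⟨s, hs⟩).2 hq with ⟨c, hc⟩ | h
    · left
      refine ⟨c, ?_⟩
      have hc' : e.symm ⟨s, hs⟩ = c • (⟨x, hxW⟩ : W) := Subtype.ext hc
      rw [hs', hc', map_smul]
      rfl
    · right
      rw [hs', hpol]
      exact h
  · rw [hpol]; exact hyx
  · rw [he]; exact hy

theorem two_ne_zero_of_card_three [Fintype F] (hq : Fintype.card F = 3) : (2 : F) ≠ 0 := by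
  intro h
  have h3 : ((3 : ℕ) : F) = 0 := by rw [← hq]; exact Nat.cast_card_eq_zero F
  have h1 : (1 : F) = 0 := by
    have : ((3 : ℕ) : F) = 2 + 1 := by norm_num
    rw [this, h, zero_add] at h3
    exact h3
  exact one_ne_zero h1

theorem three_eq_zero_of_card_three [Fintype F] (hq : Fintype.card F = 3) : (3 : F) = 0 := by
  have h3 : ((3 : ℕ) : F) = 0 := by rw [← hq]; exact Nat.cast_card_eq_zero F
  exact_mod_cast h3

theorem eq_one_or_neg_one_of_card_three [Fintype F] (hq : Fintype.card F = 3) (a : F) (ha : a ≠ 0) :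
    a = 1 ∨ a = -1 := by
  have h := card_le_three_sq (le_of_eq hq) a ha
  have h' : (a - 1) * (a + 1) = 0 := by linear_combination h
  rcases mul_eq_zero.mp h' with h1 | h1
  · left; linear_combination h1
  · right; linear_combination h1

/-- Over the field with three elements, a non-degenerate three-dimensional subspace is good. -/
theorem good3 [Fintype F] (hQ : IsNondegenerateQuadraticForm Q) (hq : Fintype.card F = 3)
    (W : Submodule F (ι → F)) (hdim : Module.finrank F W = 3)
    (hW : IsNondegenerateOn (QuadraticMap.polar Q) W) : ∃ η : F, η ≠ 0 ∧ GoodIn hQ W η := by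
  have h2 := two_ne_zero_of_card_three hq
  have hsq := card_le_three_sq (le_of_eq hq)
  obtain ⟨x, y, z, hxW, hyW, hzW, hx, hy, hz, hxy, hxz, hyz, hspan⟩ := exists_orth_triple hQ h2 W hdim hW
  have hyx : polB hQ y x = 0 := by rw [polB_comm]; exact hxy
  have hzx : polB hQ z x = 0 := by rw [polB_comm]; exact hxz
  have hzy : polB hQ z y = 0 := by rw [polB_comm]; exact hyz
  by_cases h1 : Q y = Q z
  · exact ⟨Q x, hx, x, y, hxW, rfl,
      good_of_triple hQ hsq h2 W x y z (Q x) hspan rfl hy h1 hxy hxz hyz, hyW, hyx, hy⟩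
  · by_cases h3 : Q x = Q z
    · have hspan' : W = Submodule.span F {y, x, z} := by rw [hspan, Set.insert_comm]
      exact ⟨Q y, hy, y, x, hyW, rfl,
        good_of_triple hQ hsq h2 W y x z (Q y) hspan' rfl hx h3 hyx hyz hxz, hxW, hxy, hx⟩
    · have h4 : Q x = Q y := by
        rcases eq_one_or_neg_one_of_card_three hq _ hx with a | a <;>
        rcases eq_one_or_neg_one_of_card_three hq _ hy with b | b <;>
        rcases eq_one_or_neg_one_of_card_three hq _ hz with c | c <;>
        simp_all
      have hspan' : W = Submodule.span F {z, x, y} := by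
        rw [hspan, Set.insert_comm z x, Set.pair_comm z y]
      exact ⟨Q z, hz, z, x, hzW, rfl,
        good_of_triple hQ hsq h2 W z x y (Q z) hspan' rfl hx h4 hzx hzy hxy, hxW, hxz, hx⟩

/-- Over the field with three elements, a non-degenerate plane is good with value one. -/
theorem good2 [Fintype F] (hQ : IsNondegenerateQuadraticForm Q) (hq : Fintype.card F = 3)
    (W : Submodule F (ι → F)) (hdim : Module.finrank F W = 2)
    (hW : IsNondegenerateOn (QuadraticMap.polar Q) W) : GoodIn hQ W 1 := by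
  have h2 := two_ne_zero_of_card_three hq
  have h3 := three_eq_zero_of_card_three hq
  have hsq := card_le_three_sq (le_of_eq hq)
  obtain ⟨u, v, huW, hvW, hu, hv, huv, hspan⟩ := exists_orth_pair hQ h2 W hdim hW
  have hvu : polB hQ v u = 0 := by rw [polB_comm]; exact huv
  by_cases h1 : Q u = 1
  · exact ⟨u, v, huW, h1, good_of_pair hQ hsq W u v 1 hspan h1 hv huv, hvW, hvu, hv⟩
  · by_cases h1' : Q v = 1
    · have hspan' : W = Submodule.span F {v, u} := by rw [hspan, Set.pair_comm]
      exact ⟨v, u, hvW, h1', good_of_pair hQ hsq W v u 1 hspan' h1' hu hvu, huW, huv, hu⟩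
    · have hQu : Q u = -1 := (eq_one_or_neg_one_of_card_three hq _ hu).resolve_left h1
      have hQv : Q v = -1 := (eq_one_or_neg_one_of_card_three hq _ hv).resolve_left h1'
      have hx : Q (u + v) = 1 := by
        rw [q_add hQ, hQu, hQv, huv]; linear_combination -h3
      have hy : Q (u - v) = 1 := by
        rw [q_sub hQ, hQu, hQv, huv]; linear_combination -h3
      have hxy : polB hQ (u + v) (u - v) = 0 := by
        simp only [map_add, map_sub, LinearMap.add_apply, LinearMap.sub_apply, polB_self, hQu, hQv, huv,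
          hvu]
        ring
      have hyx : polB hQ (u - v) (u + v) = 0 := by rw [polB_comm]; exact hxy
      have hspan' : W = Submodule.span F {u + v, u - v} := by
        rw [hspan]
        apply le_antisymm
        · rw [Submodule.span_le]
          intro w hw
          rcases hw with rfl | rfl
          · refine Submodule.mem_span_pair.mpr ⟨2⁻¹, 2⁻¹, ?_⟩
            rw [← smul_add, add_add_sub_cancel, ← two_smul F w, smul_smul, inv_mul_cancel₀ h2, one_smul]
          · refine Submodule.mem_span_pair.mpr ⟨2⁻¹, -2⁻¹, ?_⟩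
            have : w = (2 : F)⁻¹ • ((2 : F) • w) := by
              rw [smul_smul, inv_mul_cancel₀ h2, one_smul]
            rw [neg_smul, ← sub_eq_add_neg, ← smul_sub, add_sub_sub_cancel, ← two_smul F w, ← this]
        · rw [Submodule.span_le]
          intro w hw
          rcases hw with rfl | rfl
          · exact Submodule.add_mem _ (Submodule.subset_span (by simp)) (Submodule.subset_span (by simp))
          · exact Submodule.sub_mem _ (Submodule.subset_span (by simp)) (Submodule.subset_span (by simp))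
      have hy0 : Q (u - v) ≠ 0 := by rw [hy]; exact one_ne_zero
      exact ⟨u + v, u - v, W.add_mem huW hvW, hx,
        good_of_pair hQ hsq W (u + v) (u - v) 1 hspan' hx hy0 hxy, W.sub_mem huW hvW, hyx, hy0⟩

/-- The frame lemma in terms of `GoodIn`, for an orthogonal decomposition into at least four members. -/
theorem frame_of_good (hQ : IsNondegenerateQuadraticForm Q) (h2 : (2 : F) ≠ 0) {t k : ℕ}
    (D : Fin t → Submodule F (ι → F)) (hD : IsOrthogonalMDecomposition Q k D) (ht : 4 ≤ t)
    (η : F) (hη : η ≠ 0) (hgood : ∀ i, GoodIn hQ (D i) η) :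
    ∃ K : Subgroup (GL ι F), decompositionStabilizer D ⊓ omegaGL Q < K ∧ K < omegaGL Q :=
  frame_not_maximal hQ h2 D ht (fun i j hij u hu v hv => hD.decomp.orthogonal i j hij u hu v hv) η hη hgood

/-- The frame lemma when a single member is known to be good: the others are isometric to it. -/
theorem frame_of_good_one (hQ : IsNondegenerateQuadraticForm Q) (h2 : (2 : F) ≠ 0) {t k : ℕ}
    (D : Fin t → Submodule F (ι → F)) (hD : IsOrthogonalMDecomposition Q k D) (ht : 4 ≤ t)
    (η : F) (hη : η ≠ 0) (i₀ : Fin t) (hgood : GoodIn hQ (D i₀) η) :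
    ∃ K : Subgroup (GL ι F), decompositionStabilizer D ⊓ omegaGL Q < K ∧ K < omegaGL Q :=
  frame_of_good hQ h2 D hD ht η hη (fun i => transport_good hQ (D i₀) (D i) η (hD.isometric i₀ i) hgood)

end Cfsg.Agent.Helper94
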