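import Mathlib
import Cfsg.Prelude.Def_GeometricClasses
import Cfsg.Agent.Helper94.ONd1

/-!
Orthogonal groups: irreducibility of the group generated by the reflections and the Eichler
transformations of a non-degenerate subspace `Wo` on `Wo` (outside the hyperbolic plane over
the fields with at most three elements).
-/

set_option autoImplicit false
set_option linter.unusedSectionVars false
set_option linter.unusedVariables false

universe u

namespace Cfsg.Agent.Helper94

open Matrix Cfsg Cfsg.Geo Cfsg.Agent.Helper45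

section ONd2

variable {ι : Type} [Fintype ι] [DecidableEq ι] {F : Type u} [Field F] [Fintype F]
  (Q : QuadraticForm F (ι → F))

/-- The orthogonal complement of `X` inside `Wo`. -/
def operpIn (Wo X : Submodule F (ι → F)) : Submodule F (ι → F) where
  carrier := {y | y ∈ Wo ∧ ∀ x ∈ X, QuadraticMap.polar ⇑Q y x = 0}
  add_mem' := by
    rintro a b ⟨ha, ha'⟩ ⟨hb, hb'⟩
    exact ⟨Wo.add_mem ha hb, fun x hx => by
      rw [QuadraticMap.polar_add_left, ha' x hx, hb' x hx, add_zero]⟩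
  zero_mem' := ⟨Wo.zero_mem, fun x hx => by simp⟩
  smul_mem' := by
    rintro c a ⟨ha, ha'⟩
    exact ⟨Wo.smul_mem c ha, fun x hx => by
      rw [QuadraticMap.polar_smul_left, ha' x hx, smul_zero]⟩

theorem ond_not_cover (Wo Z₁ Z₂ : Submodule F (ι → F)) (x₁ x₂ : ι → F) (h1 : x₁ ∈ Wo)
    (h2 : x₂ ∈ Wo) (hx₁ : x₁ ∉ Z₁) (hx₂ : x₂ ∉ Z₂) : ∃ y ∈ Wo, y ∉ Z₁ ∧ y ∉ Z₂ := by
  by_cases h3 : x₁ ∈ Z₂
  swap
  · exact ⟨x₁, h1, hx₁, h3⟩
  by_cases h4 : x₂ ∈ Z₁
  swap
  · exact ⟨x₂, h2, h4, hx₂⟩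
  refine ⟨x₁ + x₂, Wo.add_mem h1 h2, fun h => hx₁ ?_, fun h => hx₂ ?_⟩
  · have := Z₁.sub_mem h h4
    rwa [add_sub_cancel_right] at this
  · have := Z₂.sub_mem h h3
    rwa [add_sub_cancel_left] at this

theorem ond_irr_aux4 (hF : 4 ≤ Fintype.card F) (Z₁ Z₂ : Submodule F (ι → F)) (a y : ι → F)
    (ha : Q a ≠ 0) (haZ : a ∈ Z₁) (hy1 : y ∉ Z₁) (hy2 : y ∉ Z₂)
    (hsing : ∀ l : F, y + l • a ∉ Z₁ → y + l • a ∉ Z₂ → Q (y + l • a) = 0) : False := by
  classical
  have hyQ : Q y = 0 := by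
    have := hsing 0 (by rwa [zero_smul, add_zero]) (by rwa [zero_smul, add_zero])
    rwa [zero_smul, add_zero] at this
  have hZ1 : ∀ l : F, y + l • a ∉ Z₁ := by
    intro l h
    apply hy1
    have := Z₁.sub_mem h (Z₁.smul_mem l haZ)
    rwa [add_sub_cancel_right] at this
  obtain ⟨l₀, hl₀⟩ : ∃ l₀ : F, ∀ l, l ≠ l₀ → y + l • a ∉ Z₂ := by
    by_cases h : ∃ l₁ : F, y + l₁ • a ∈ Z₂
    · obtain ⟨l₁, hl₁⟩ := h
      refine ⟨l₁, fun l hl h2 => hy2 ?_⟩
      have h3 : (l - l₁) • a ∈ Z₂ := by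
        have := Z₂.sub_mem h2 hl₁
        have e : y + l • a - (y + l₁ • a) = (l - l₁) • a := by module
        rwa [e] at this
      have h4 : a ∈ Z₂ := by
        have := Z₂.smul_mem (l - l₁)⁻¹ h3
        rwa [smul_smul, inv_mul_cancel₀ (sub_ne_zero.mpr hl), one_smul] at this
      have := Z₂.sub_mem hl₁ (Z₂.smul_mem l₁ h4)
      rwa [add_sub_cancel_right] at this
    · push Not at h
      exact ⟨0, fun l _ => h l⟩
  have hroot : ∀ l : F, l ≠ l₀ → l = 0 ∨ l = -(QuadraticMap.polar ⇑Q y a) / Q a := by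
    intro l hl
    have h1 := hsing l (hZ1 l) (hl₀ l hl)
    rw [Helper13.Q_add', hyQ, QuadraticMap.map_smul, QuadraticMap.polar_smul_right,
      zero_add] at h1
    simp only [smul_eq_mul] at h1
    by_cases hl0 : l = 0
    · exact Or.inl hl0
    right
    rw [eq_div_iff ha]
    have h2 : l * (l * Q a + QuadraticMap.polar ⇑Q y a) = 0 := by linear_combination h1
    rcases mul_eq_zero.mp h2 with h3 | h3
    · exact absurd h3 hl0
    · linear_combination h3
  obtain ⟨l, hl⟩ : ∃ l : F, l ∉ ({l₀, 0, -(QuadraticMap.polar ⇑Q y a) / Q a} : Finset F) := by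
    by_contra hall
    push Not at hall
    have h1 : (Finset.univ : Finset F) ⊆ {l₀, 0, -(QuadraticMap.polar ⇑Q y a) / Q a} :=
      fun x _ => hall x
    have h2 := Finset.card_le_card h1
    rw [Finset.card_univ] at h2
    have h3 := Finset.card_le_three (a := l₀) (b := (0 : F))
      (c := -(QuadraticMap.polar ⇑Q y a) / Q a)
    omega
  simp only [Finset.mem_insert, Finset.mem_singleton, not_or] at hl
  rcases hroot l hl.1 with h | h
  · exact hl.2.1 h
  · exact hl.2.2 h

/-- **Irreducibility**: a non-zero subspace of the non-degenerate subspace `Wo` invariant under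
the reflections and the Eichler transformations of `Wo` is `Wo`, unless `Wo` is a hyperbolic
plane over a field with at most three elements. -/
theorem ond_irr (Wo X : Submodule F (ι → F))
    (hnd : ∀ w ∈ Wo, w ≠ 0 → ∃ y ∈ Wo, QuadraticMap.polar ⇑Q y w ≠ 0)
    (hXW : X ≤ Wo) (hX0 : X ≠ ⊥)
    (hR : ∀ a ∈ Wo, ∀ ha : Q a ≠ 0, ∀ x ∈ X, mv ⇑Q (reflO Q a ha) x ∈ X)
    (hE : ∀ s ∈ Wo, ∀ b ∈ Wo, Q s = 0 → QuadraticMap.polar ⇑Q s b = 0 →
      ∀ x ∈ X, mv ⇑Q (oE Q s b) x ∈ X)
    (hyp : ¬ (Fintype.card F ≤ 3 ∧ Module.finrank F Wo = 2 ∧ ∃ s ∈ Wo, s ≠ 0 ∧ Q s = 0)) :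
    Wo ≤ X := by
  by_contra hne
  obtain ⟨x₁, hx₁W, hx₁X⟩ := SetLike.not_le_iff_exists.mp hne
  obtain ⟨x₀, hx₀X, hx₀0⟩ := (Submodule.ne_bot_iff X).mp hX0
  have hx₀W := hXW hx₀X
  obtain ⟨Xp, hXp⟩ : ∃ Xp, Xp = operpIn Q Wo X := ⟨_, rfl⟩
  have hmemXp : ∀ y, y ∈ Xp ↔ y ∈ Wo ∧ ∀ x ∈ X, QuadraticMap.polar ⇑Q y x = 0 := by
    intro y
    rw [hXp]
    exact Iff.rfl
  have hP1 : ∀ a ∈ Wo, Q a ≠ 0 → a ∈ X ∨ a ∈ Xp := by
    intro a haW ha
    by_contra hcon
    push Not at hcon
    obtain ⟨haX, haXp⟩ := hcon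
    have : ∃ x ∈ X, QuadraticMap.polar ⇑Q a x ≠ 0 := by
      by_contra h
      push Not at h
      exact haXp ((hmemXp a).mpr ⟨haW, h⟩)
    obtain ⟨x, hx, hax⟩ := this
    have h1 := hR a haW ha x hx
    rw [mv_reflO] at h1
    have h2 : ((Q a)⁻¹ * QuadraticMap.polar ⇑Q a x) • a ∈ X := by
      have := X.sub_mem hx h1
      rwa [sub_sub_cancel] at this
    have hc : (Q a)⁻¹ * QuadraticMap.polar ⇑Q a x ≠ 0 := mul_ne_zero (inv_ne_zero ha) hax
    have h3 := X.smul_mem ((Q a)⁻¹ * QuadraticMap.polar ⇑Q a x)⁻¹ h2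
    rw [smul_smul, inv_mul_cancel₀ hc, one_smul] at h3
    exact haX h3
  obtain ⟨x₂, hx₂W, hx₂⟩ : ∃ x₂ ∈ Wo, x₂ ∉ Xp := by
    obtain ⟨y, hy, hyx⟩ := hnd x₀ hx₀W hx₀0
    exact ⟨y, hy, fun h => hyx (((hmemXp y).mp h).2 x₀ hx₀X)⟩
  have hP2 : ∀ y ∈ Wo, y ∉ X → y ∉ Xp → Q y = 0 := by
    intro y hy h1 h2
    by_contra h
    rcases hP1 y hy h with h3 | h3
    · exact h1 h3
    · exact h2 h3
  obtain ⟨a₀, ha₀W, ha₀⟩ : ∃ a₀ ∈ Wo, Q a₀ ≠ 0 := by
    by_contra hcon
    push Not at hcon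
    obtain ⟨y, hy, hyx⟩ := hnd x₀ hx₀W hx₀0
    exact hyx (ts_polar Q Wo hcon y hy x₀ hx₀W)
  have ha₀0 : a₀ ≠ 0 := by
    rintro rfl
    exact ha₀ (map_zero _)
  obtain ⟨y₀, hy₀W, hy₀X, hy₀Xp⟩ := ond_not_cover Wo X Xp x₁ x₂ hx₁W hx₂W hx₁X hx₂
  by_cases hF : 4 ≤ Fintype.card F
  · rcases hP1 a₀ ha₀W ha₀ with h | h
    · exact ond_irr_aux4 Q hF X Xp a₀ y₀ ha₀ h hy₀X hy₀Xp
        (fun l h1 h2 => hP2 _ (Wo.add_mem hy₀W (Wo.smul_mem l ha₀W)) h1 h2)
    · exact ond_irr_aux4 Q hF Xp X a₀ y₀ ha₀ h hy₀Xp hy₀X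
        (fun l h1 h2 => hP2 _ (Wo.add_mem hy₀W (Wo.smul_mem l ha₀W)) h2 h1)
  have hF3 : Fintype.card F ≤ 3 := by omega
  have hdisj : (∀ y ∈ Wo, y ∈ X ⊔ Xp) → ∀ z ∈ X, z ∈ Xp → z = 0 := by
    intro hS z hz hz'
    by_contra h0
    obtain ⟨y, hy, hyz⟩ := hnd z (hXW hz) h0
    obtain ⟨x, hx, x', hx', rfl⟩ := Submodule.mem_sup.mp (hS y hy)
    apply hyz
    rw [QuadraticMap.polar_add_left, QuadraticMap.polar_comm ⇑Q x z,
      ((hmemXp z).mp hz').2 x hx, ((hmemXp x').mp hx').2 z hz, add_zero]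
  have hsum : (∀ y ∈ Wo, y ∈ X ⊔ Xp) → ∀ x ∈ X, ∀ x' ∈ Xp, x ≠ 0 → x' ≠ 0 →
      Q x + Q x' = 0 := by
    intro hS x hx x' hx' hx0 hx'0
    have h1 : x + x' ∉ X := by
      intro h
      have h2 : x' ∈ X := by
        have := X.sub_mem h hx
        rwa [add_sub_cancel_left] at this
      exact hx'0 (hdisj hS x' h2 hx')
    have h2 : x + x' ∉ Xp := by
      intro h
      have h3 : x ∈ Xp := by
        have := Xp.sub_mem h hx'
        rwa [add_sub_cancel_right] at this
      exact hx0 (hdisj hS x hx h3)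
    have h3 := hP2 _ (Wo.add_mem (hXW hx) ((hmemXp x').mp hx').1) h1 h2
    rw [Helper13.Q_add', QuadraticMap.polar_comm ⇑Q x x', ((hmemXp x').mp hx').2 x hx,
      add_zero] at h3
    exact h3
  have hXp0 : (∀ y ∈ Wo, y ∈ X ⊔ Xp) → ∃ x' ∈ Xp, x' ≠ 0 := by
    intro hS
    obtain ⟨x, hx, x', hx', hxx⟩ := Submodule.mem_sup.mp (hS x₁ hx₁W)
    refine ⟨x', hx', fun h => hx₁X ?_⟩
    rw [← hxx, h, add_zero]
    exact hx
  by_cases h2 : (2 : F) = 0
  swap
  · -- odd characteristic
    have hS : ∀ y ∈ Wo, y ∈ X ⊔ Xp := by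
      intro y hy
      by_cases hyX : y ∈ X
      · exact Submodule.mem_sup_left hyX
      by_cases hyXp : y ∈ Xp
      · exact Submodule.mem_sup_right hyXp
      have hyQ := hP2 y hy hyX hyXp
      have key : ∀ Z₁ Z₂ : Submodule F (ι → F), a₀ ∈ Z₁ → y ∉ Z₁ →
          (∀ v ∈ Wo, v ∉ Z₁ → v ∉ Z₂ → Q v = 0) → y ∈ Z₁ ⊔ Z₂ := by
        intro Z₁ Z₂ haZ hyZ hs
        by_cases hp : y + a₀ ∈ Z₂
        · have e : y = (-a₀) + (y + a₀) := by abel
          rw [e]
          exact Submodule.add_mem_sup (Z₁.neg_mem haZ) hp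
        by_cases hm : y - a₀ ∈ Z₂
        · have e : y = a₀ + (y - a₀) := by abel
          rw [e]
          exact Submodule.add_mem_sup haZ hm
        exfalso
        have hp1 : y + a₀ ∉ Z₁ := fun h => hyZ (by
          have := Z₁.sub_mem h haZ
          rwa [add_sub_cancel_right] at this)
        have hm1 : y - a₀ ∉ Z₁ := fun h => hyZ (by
          have := Z₁.add_mem h haZ
          rwa [sub_add_cancel] at this)
        have e1 := hs _ (Wo.add_mem hy ha₀W) hp1 hp
        have e2 := hs _ (Wo.sub_mem hy ha₀W) hm1 hm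
        rw [Helper13.Q_add', hyQ] at e1
        rw [q_sub, hyQ] at e2
        apply ha₀
        have h3 : (2 : F) * Q a₀ = 0 := by linear_combination e1 + e2
        rcases mul_eq_zero.mp h3 with h4 | h4
        · exact absurd h4 h2
        · exact h4
      rcases hP1 a₀ ha₀W ha₀ with h | h
      · exact key X Xp h hyX (fun v hv h1 h2 => hP2 v hv h1 h2)
      · have := key Xp X h hyXp (fun v hv h1 h2 => hP2 v hv h2 h1)
        rwa [sup_comm] at this
    obtain ⟨x'₀, hx'₀, hx'₀0⟩ := hXp0 hS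
    have hx'₀W : x'₀ ∈ Wo := ((hmemXp x'₀).mp hx'₀).1
    have e0 := hsum hS x₀ hx₀X x'₀ hx'₀ hx₀0 hx'₀0
    have hα : Q x₀ ≠ 0 := by
      intro h0
      have hXs : ∀ x ∈ X, Q x = 0 := by
        intro x hx
        by_cases hx0 : x = 0
        · rw [hx0, map_zero]
        have e1 := hsum hS x hx x'₀ hx'₀ hx0 hx'₀0
        rw [h0, zero_add] at e0
        rw [e0, add_zero] at e1
        exact e1
      obtain ⟨y, hy, hyx⟩ := hnd x₀ hx₀W hx₀0
      obtain ⟨x, hx, x', hx', rfl⟩ := Submodule.mem_sup.mp (hS y hy)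
      apply hyx
      rw [QuadraticMap.polar_add_left, ts_polar Q X hXs x hx x₀ hx₀X,
        ((hmemXp x').mp hx').2 x₀ hx₀X, add_zero]
    have hα' : Q x'₀ ≠ 0 := by
      intro h0
      rw [h0, add_zero] at e0
      exact hα e0
    have hXsmall : ∀ x ∈ X, x = 0 ∨ x = x₀ ∨ x = -x₀ := by
      intro x hx
      by_contra hcon
      push Not at hcon
      obtain ⟨h0, h1, h2'⟩ := hcon
      have e1 := hsum hS x hx x'₀ hx'₀ h0 hx'₀0
      have e2 := hsum hS (x + x₀) (X.add_mem hx hx₀X) x'₀ hx'₀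
        (fun h => h2' (eq_neg_of_add_eq_zero_left h)) hx'₀0
      have e3 := hsum hS (x - x₀) (X.sub_mem hx hx₀X) x'₀ hx'₀ (sub_ne_zero.mpr h1) hx'₀0
      rw [Helper13.Q_add'] at e2
      rw [q_sub] at e3
      apply hα
      have h3 : (2 : F) * Q x₀ = 0 := by linear_combination e2 + e3 - 2 * e1
      rcases mul_eq_zero.mp h3 with h4 | h4
      · exact absurd h4 h2
      · exact h4
    have hXpsmall : ∀ x' ∈ Xp, x' = 0 ∨ x' = x'₀ ∨ x' = -x'₀ := by
      intro x' hx'
      by_contra hcon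
      push Not at hcon
      obtain ⟨h0, h1, h2'⟩ := hcon
      have e1 := hsum hS x₀ hx₀X x' hx' hx₀0 h0
      have e2 := hsum hS x₀ hx₀X (x' + x'₀) (Xp.add_mem hx' hx'₀) hx₀0
        (fun h => h2' (eq_neg_of_add_eq_zero_left h))
      have e3 := hsum hS x₀ hx₀X (x' - x'₀) (Xp.sub_mem hx' hx'₀) hx₀0 (sub_ne_zero.mpr h1)
      rw [Helper13.Q_add'] at e2
      rw [q_sub] at e3
      apply hα'
      have h3 : (2 : F) * Q x'₀ = 0 := by linear_combination e2 + e3 - 2 * e1
      rcases mul_eq_zero.mp h3 with h4 | h4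
      · exact absurd h4 h2
      · exact h4
    have hspan : Wo = Submodule.span F {x₀} ⊔ Submodule.span F {x'₀} := by
      apply le_antisymm
      · intro y hy
        obtain ⟨x, hx, x', hx', rfl⟩ := Submodule.mem_sup.mp (hS y hy)
        apply Submodule.add_mem_sup
        · rcases hXsmall x hx with h | h | h
          · rw [h]
            exact Submodule.zero_mem _
          · rw [h]
            exact Submodule.mem_span_singleton_self _
          · rw [h]
            exact Submodule.neg_mem _ (Submodule.mem_span_singleton_self _)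
        · rcases hXpsmall x' hx' with h | h | h
          · rw [h]
            exact Submodule.zero_mem _
          · rw [h]
            exact Submodule.mem_span_singleton_self _
          · rw [h]
            exact Submodule.neg_mem _ (Submodule.mem_span_singleton_self _)
      · rw [sup_le_iff]
        exact ⟨(Submodule.span_singleton_le_iff_mem _ _).mpr hx₀W,
          (Submodule.span_singleton_le_iff_mem _ _).mpr hx'₀W⟩
    have hfr : Module.finrank F Wo = 2 := by
      rw [hspan]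
      have h1 := Submodule.finrank_sup_add_finrank_inf_eq (Submodule.span F {x₀})
        (Submodule.span F {x'₀})
      have hinf : Submodule.span F {x₀} ⊓ Submodule.span F {x'₀} = ⊥ := by
        rw [eq_bot_iff]
        rintro v ⟨hv1, hv2⟩
        rw [Submodule.mem_bot]
        have hvX : v ∈ X := (Submodule.span_singleton_le_iff_mem _ _).mpr hx₀X hv1
        have hvXp : v ∈ Xp := (Submodule.span_singleton_le_iff_mem _ _).mpr hx'₀ hv2
        exact hdisj hS v hvX hvXp
      rw [hinf, finrank_bot, finrank_span_singleton hx₀0, finrank_span_singleton hx'₀0] at h1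
      omega
    apply hyp
    refine ⟨hF3, hfr, x₀ + x'₀, Wo.add_mem hx₀W hx'₀W, ?_, ?_⟩
    · intro h
      have h5 : x'₀ ∈ X := by
        rw [eq_neg_of_add_eq_zero_right h]
        exact X.neg_mem hx₀X
      exact hx'₀0 (hdisj hS x'₀ h5 hx'₀)
    · rw [Helper13.Q_add', QuadraticMap.polar_comm ⇑Q x₀ x'₀, ((hmemXp x'₀).mp hx'₀).2 x₀ hx₀X,
        add_zero]
      exact e0
  · -- characteristic two, two elements
    have hneg : ∀ c : F, -c = c := by
      intro c
      have h : c + c = 0 := by rw [← two_mul, h2, zero_mul]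
      exact neg_eq_of_add_eq_zero_left h
    have hcard2 : Fintype.card F = 2 := by
      haveI : CharP F 2 := CharTwo.of_one_ne_zero_of_two_eq_zero one_ne_zero h2
      obtain ⟨n, -, hn⟩ := FiniteField.card F 2
      have hn1 : (n : ℕ) < 2 := by
        by_contra hcon
        push Not at hcon
        have := Nat.pow_le_pow_right (show 0 < 2 by norm_num) hcon
        omega
      have hn0 := n.pos
      have hn' : (n : ℕ) = 1 := by omega
      rw [hn, hn', pow_one]
    have hF2 : ∀ l : F, l = 0 ∨ l = 1 := by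
      intro l
      have h := FiniteField.pow_card l
      rw [hcard2] at h
      have h3 : l * (l - 1) = 0 := by linear_combination h
      rcases mul_eq_zero.mp h3 with h4 | h4
      · exact Or.inl h4
      · exact Or.inr (sub_eq_zero.mp h4)
    by_cases hS : ∀ y ∈ Wo, y ∈ X ⊔ Xp
    · obtain ⟨x'₀, hx'₀, hx'₀0⟩ := hXp0 hS
      have hx'₀W : x'₀ ∈ Wo := ((hmemXp x'₀).mp hx'₀).1
      obtain ⟨t, ht, htx⟩ := hnd x₀ hx₀W hx₀0
      obtain ⟨y, hy, y'', hy'', rfl⟩ := Submodule.mem_sup.mp (hS t ht)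
      have hyx : QuadraticMap.polar ⇑Q y x₀ ≠ 0 := by
        rw [QuadraticMap.polar_add_left, ((hmemXp y'').mp hy'').2 x₀ hx₀X, add_zero] at htx
        exact htx
      obtain ⟨t', ht', ht'x⟩ := hnd x'₀ hx'₀W hx'₀0
      obtain ⟨z, hz, y', hy', rfl⟩ := Submodule.mem_sup.mp (hS t' ht')
      have hy'x : QuadraticMap.polar ⇑Q y' x'₀ ≠ 0 := by
        rw [QuadraticMap.polar_add_left, QuadraticMap.polar_comm ⇑Q z x'₀,
          ((hmemXp x'₀).mp hx'₀).2 z hz, zero_add] at ht'x
        exact ht'x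
      have hx'y' : QuadraticMap.polar ⇑Q x'₀ y' ≠ 0 := by
        rw [QuadraticMap.polar_comm]
        exact hy'x
      have hy'W : y' ∈ Wo := ((hmemXp y').mp hy').1
      obtain ⟨c, hc⟩ : ∃ c : F, c = -(QuadraticMap.polar ⇑Q x₀ y) / QuadraticMap.polar ⇑Q x'₀ y' :=
        ⟨_, rfl⟩
      have hsW : x₀ + x'₀ ∈ Wo := Wo.add_mem hx₀W hx'₀W
      have hbW : y + c • y' ∈ Wo := Wo.add_mem (hXW hy) (Wo.smul_mem c hy'W)
      have hsQ : Q (x₀ + x'₀) = 0 := by
        rw [Helper13.Q_add', QuadraticMap.polar_comm ⇑Q x₀ x'₀, ((hmemXp x'₀).mp hx'₀).2 x₀ hx₀X,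
          add_zero]
        exact hsum hS x₀ hx₀X x'₀ hx'₀ hx₀0 hx'₀0
      have hsb : QuadraticMap.polar ⇑Q (x₀ + x'₀) (y + c • y') = 0 := by
        rw [QuadraticMap.polar_add_left, QuadraticMap.polar_add_right,
          QuadraticMap.polar_add_right, QuadraticMap.polar_smul_right,
          QuadraticMap.polar_smul_right, QuadraticMap.polar_comm ⇑Q x₀ y',
          ((hmemXp y').mp hy').2 x₀ hx₀X, ((hmemXp x'₀).mp hx'₀).2 y hy, hc]
        simp only [smul_eq_mul, mul_zero, add_zero, zero_add]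
        rw [div_mul_cancel₀ _ hx'y']
        ring
      have h1 := hE _ hsW _ hbW hsQ hsb x₀ hx₀X
      rw [mv_oE Q _ _ hsQ hsb] at h1
      have hsx : QuadraticMap.polar ⇑Q (x₀ + x'₀) x₀ = 0 := by
        rw [QuadraticMap.polar_add_left, Helper44.polar_self_eq, h2, zero_mul,
          ((hmemXp x'₀).mp hx'₀).2 x₀ hx₀X, add_zero]
      have hbx : QuadraticMap.polar ⇑Q (y + c • y') x₀ = QuadraticMap.polar ⇑Q y x₀ := by
        rw [QuadraticMap.polar_add_left, QuadraticMap.polar_smul_left,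
          ((hmemXp y').mp hy').2 x₀ hx₀X, smul_zero, add_zero]
      rw [hsx, hbx, mul_zero, sub_zero, zero_smul, sub_zero] at h1
      have h3 : (QuadraticMap.polar ⇑Q y x₀) • (x₀ + x'₀) ∈ X := by
        have := X.sub_mem h1 hx₀X
        rwa [add_sub_cancel_left] at this
      have h4 : x₀ + x'₀ ∈ X := by
        have := X.smul_mem (QuadraticMap.polar ⇑Q y x₀)⁻¹ h3
        rwa [smul_smul, inv_mul_cancel₀ hyx, one_smul] at this
      have h5 : x'₀ ∈ X := by
        have := X.sub_mem h4 hx₀X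
        rwa [add_sub_cancel_left] at this
      exact hx'₀0 (hdisj hS x'₀ h5 hx'₀)
    · push Not at hS
      obtain ⟨y₁, hy₁W, hy₁S⟩ := hS
      have hN : ∀ a ∈ Wo, Q a ≠ 0 → a ∈ X ⊔ Xp := fun a ha hq =>
        (hP1 a ha hq).elim (fun h => Submodule.mem_sup_left h) (fun h => Submodule.mem_sup_right h)
      have hpol : ∀ y ∈ Wo, y ∉ X ⊔ Xp → ∀ a ∈ Wo, Q a ≠ 0 → QuadraticMap.polar ⇑Q y a = 1 := by
        intro y hy hyS a ha hq
        have hyQ : Q y = 0 := hP2 y hy (fun h => hyS (Submodule.mem_sup_left h))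
          (fun h => hyS (Submodule.mem_sup_right h))
        have hyaS : y + a ∉ X ⊔ Xp := by
          intro h
          apply hyS
          have := Submodule.sub_mem _ h (hN a ha hq)
          rwa [add_sub_cancel_right] at this
        have hyaQ : Q (y + a) = 0 := hP2 _ (Wo.add_mem hy ha)
          (fun h => hyaS (Submodule.mem_sup_left h)) (fun h => hyaS (Submodule.mem_sup_right h))
        rw [Helper13.Q_add', hyQ, zero_add] at hyaQ
        have hq1 : Q a = 1 := (hF2 (Q a)).resolve_left hq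
        rw [hq1] at hyaQ
        have h5 : QuadraticMap.polar ⇑Q y a = -1 := by linear_combination hyaQ
        rw [h5, hneg]
      have huniq : ∀ a ∈ Wo, Q a ≠ 0 → a = a₀ := by
        intro a ha hq
        by_contra hne'
        have hd0 : a - a₀ ≠ 0 := sub_ne_zero.mpr hne'
        obtain ⟨v, hv, hvd⟩ := hnd (a - a₀) (Wo.sub_mem ha ha₀W) hd0
        apply hvd
        have hout : ∀ y ∈ Wo, y ∉ X ⊔ Xp → QuadraticMap.polar ⇑Q y (a - a₀) = 0 := by
          intro y hy hyS
          rw [QuadraticMap.polar_sub_right, hpol y hy hyS a ha hq, hpol y hy hyS a₀ ha₀W ha₀,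
            sub_self]
        by_cases hvS : v ∈ X ⊔ Xp
        · have h1 : y₁ + v ∉ X ⊔ Xp := by
            intro h
            apply hy₁S
            have := Submodule.sub_mem _ h hvS
            rwa [add_sub_cancel_right] at this
          have h3 := hout _ (Wo.add_mem hy₁W hv) h1
          rw [QuadraticMap.polar_add_left, hout y₁ hy₁W hy₁S, zero_add] at h3
          exact h3
        · exact hout v hv hvS
      obtain ⟨t₀, ht₀W, ht₀a⟩ := hnd a₀ ha₀W ha₀0
      have ht₀ne : t₀ ≠ a₀ := by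
        rintro rfl
        apply ht₀a
        rw [Helper44.polar_self_eq, h2, zero_mul]
      have ht₀Q : Q t₀ = 0 := by
        by_contra h
        exact ht₀ne (huniq t₀ ht₀W h)
      have ht₀0 : t₀ ≠ 0 := by
        rintro rfl
        apply ht₀a
        simp
      have hspan : Wo = Submodule.span F {a₀} ⊔ Submodule.span F {t₀} := by
        apply le_antisymm
        · intro w hw
          obtain ⟨c, hc⟩ : ∃ c : F, c = QuadraticMap.polar ⇑Q w a₀ / QuadraticMap.polar ⇑Q t₀ a₀ :=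
            ⟨_, rfl⟩
          have hw₁ : QuadraticMap.polar ⇑Q (w - c • t₀) a₀ = 0 := by
            rw [QuadraticMap.polar_sub_left, QuadraticMap.polar_smul_left, smul_eq_mul, hc,
              div_mul_cancel₀ _ ht₀a, sub_self]
          have hw₁W : w - c • t₀ ∈ Wo := Wo.sub_mem hw (Wo.smul_mem _ ht₀W)
          by_cases hq : Q (w - c • t₀) = 0
          · have h1 : Q (w - c • t₀ + a₀) ≠ 0 := by
              rw [Helper13.Q_add', hq, hw₁, zero_add, add_zero]
              exact ha₀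
            have h3 := huniq _ (Wo.add_mem hw₁W ha₀W) h1
            have h4 : w - c • t₀ = 0 := by
              have h5 : w - c • t₀ + a₀ - a₀ = a₀ - a₀ := by rw [h3]
              rwa [add_sub_cancel_right, sub_self] at h5
            have e : w = 0 + c • t₀ := by
              rw [zero_add]
              exact sub_eq_zero.mp h4
            rw [e]
            exact Submodule.add_mem_sup (Submodule.zero_mem _)
              (Submodule.smul_mem _ _ (Submodule.mem_span_singleton_self _))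
          · have h3 := huniq _ hw₁W hq
            have e : w = a₀ + c • t₀ := by
              rw [← h3]
              abel
            rw [e]
            exact Submodule.add_mem_sup (Submodule.mem_span_singleton_self _)
              (Submodule.smul_mem _ _ (Submodule.mem_span_singleton_self _))
        · rw [sup_le_iff]
          exact ⟨(Submodule.span_singleton_le_iff_mem _ _).mpr ha₀W,
            (Submodule.span_singleton_le_iff_mem _ _).mpr ht₀W⟩
      have hfr : Module.finrank F Wo = 2 := by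
        rw [hspan]
        have h1 := Submodule.finrank_sup_add_finrank_inf_eq (Submodule.span F {a₀})
          (Submodule.span F {t₀})
        have hinf : Submodule.span F {a₀} ⊓ Submodule.span F {t₀} = ⊥ := by
          rw [eq_bot_iff]
          rintro v ⟨hv1, hv2⟩
          rw [Submodule.mem_bot]
          obtain ⟨c, rfl⟩ := Submodule.mem_span_singleton.mp hv1
          obtain ⟨d, hd⟩ := Submodule.mem_span_singleton.mp hv2
          by_contra hne'
          have hc0 : c ≠ 0 := by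
            rintro rfl
            exact hne' (zero_smul _ _)
          apply ht₀a
          have h5 : a₀ = (c⁻¹ * d) • t₀ := by
            rw [← smul_smul, hd, smul_smul, inv_mul_cancel₀ hc0, one_smul]
          rw [h5, QuadraticMap.polar_smul_right, polar_self_zero Q t₀ ht₀Q, smul_zero]
        rw [hinf, finrank_bot, finrank_span_singleton ha₀0, finrank_span_singleton ht₀0] at h1
        omega
      exact hyp ⟨hF3, hfr, t₀, ht₀W, ht₀0, ht₀Q⟩

end ONd2

end Cfsg.Agent.Helper94
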