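import Mathlib
import Cfsg.Prelude.Def_GeometricClasses
import Cfsg.Agent.Helper94.ONd2

/-!
Orthogonal groups: maximality in `Ω(Q)` of the stabiliser of a non-degenerate subspace.
-/

set_option autoImplicit false
set_option linter.unusedSectionVars false
set_option linter.unusedVariables false

universe u

namespace Cfsg.Agent.Helper94

open Matrix Cfsg Cfsg.Geo Cfsg.Agent.Helper45

section ONd3

variable {ι : Type} [Fintype ι] [DecidableEq ι] {F : Type u} [Field F] [Fintype F]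
  {Q : QuadraticForm F (ι → F)}

/-- A "mixed" Eichler transformation in `M` (singular vector in `A`, second vector outside `A`)
forces `Ω ≤ M`. -/
theorem ond_step2 (hQ : (QuadraticMap.polarBilin Q).Nondegenerate) (hn : 5 ≤ Fintype.card ι)
    {A Wo : Submodule F (ι → F)} (P : OPair Q A Wo) (hA : 5 ≤ Module.finrank F A)
    (hyp : ¬ (Fintype.card F ≤ 3 ∧ Module.finrank F Wo = 2 ∧ ∃ s ∈ Wo, s ≠ 0 ∧ Q s = 0))
    (M : Subgroup ↥(isometryGroup F ⇑Q)) (hH : HStab Q A Wo M) (u₀ b₀ : ι → F) (hu₀ : u₀ ∈ A)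
    (hu₀0 : u₀ ≠ 0) (hu₀Q : Q u₀ = 0) (hub : QuadraticMap.polar ⇑Q u₀ b₀ = 0) (hb₀ : b₀ ∉ A)
    (hE : oE Q u₀ b₀ ∈ M) : Omega F ⇑Q ≤ M := by
  obtain ⟨a, ha, w, hw, rfl⟩ := P.dec b₀
  have hw0 : w ≠ 0 := by
    rintro rfl
    apply hb₀
    rw [add_zero]
    exact ha
  have hu₀w : QuadraticMap.polar ⇑Q u₀ w = 0 := P.perp u₀ hu₀ w hw
  have hu₀a : QuadraticMap.polar ⇑Q u₀ a = 0 := by
    rw [QuadraticMap.polar_add_right, hu₀w, add_zero] at hub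
    exact hub
  have hu₀na : QuadraticMap.polar ⇑Q u₀ (-a) = 0 := by
    rw [QuadraticMap.polar_neg_right, hu₀a, neg_zero]
  have hEw : oE Q u₀ w ∈ M := by
    have h1 := ond_E_in hQ hn P M hH u₀ (-a) hu₀ (A.neg_mem ha) hu₀Q hu₀na
    have h2 := M.mul_mem h1 hE
    rw [oE_mul Q u₀ (-a) (a + w) hu₀Q hu₀na hub, neg_add_cancel_left] at h2
    exact h2
  let X : Submodule F (ι → F) :=
    { carrier := {x | x ∈ Wo ∧ ∀ u ∈ A, u ≠ 0 → Q u = 0 → oE Q u x ∈ M}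
      add_mem' := by
        rintro x y ⟨hx, hx'⟩ ⟨hy, hy'⟩
        refine ⟨Wo.add_mem hx hy, fun u hu hu0 huQ => ?_⟩
        rw [← oE_mul Q u x y huQ (P.perp u hu x hx) (P.perp u hu y hy)]
        exact M.mul_mem (hx' u hu hu0 huQ) (hy' u hu hu0 huQ)
      zero_mem' := ⟨Wo.zero_mem, fun u hu hu0 huQ => by
        rw [oE_zero Q u huQ]
        exact M.one_mem⟩
      smul_mem' := by
        rintro c x ⟨hx, hx'⟩
        refine ⟨Wo.smul_mem c hx, fun u hu hu0 huQ => ?_⟩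
        by_cases hc : c = 0
        · rw [hc, zero_smul, oE_zero Q u huQ]
          exact M.one_mem
        · rw [← oE_smul Q c u x huQ (P.perp u hu x hx)]
          exact hx' (c • u) (A.smul_mem c hu) (smul_ne_zero hc hu0)
            (by rw [QuadraticMap.map_smul, huQ, smul_zero]) }
  have hmemX : ∀ x, x ∈ X ↔ x ∈ Wo ∧ ∀ u ∈ A, u ≠ 0 → Q u = 0 → oE Q u x ∈ M :=
    fun x => Iff.rfl
  have hwX : w ∈ X := by
    refine (hmemX w).mpr ⟨hw, fun u hu hu0 huQ => ?_⟩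
    obtain ⟨h, hh, hhu, hhw⟩ := ond_trans hQ hn P hA M hH u₀ u hu₀ hu hu₀0 hu0 hu₀Q huQ
    have h1 := oE_conj Q h u₀ w hu₀Q hu₀w
    rw [hhu, hhw w hw] at h1
    rw [← h1]
    exact M.mul_mem (M.mul_mem hh hEw) (M.inv_mem hh)
  have hX0 : X ≠ ⊥ := by
    intro h
    have h1 := hwX
    rw [h, Submodule.mem_bot] at h1
    exact hw0 h1
  have hXW : X ≤ Wo := fun x hx => ((hmemX x).mp hx).1
  have hWX : Wo ≤ X := by
    apply ond_irr Q Wo X (fun w hw hw0 => P.symm.nd hQ w hw hw0) hXW hX0 ?_ ?_ hyp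
    · intro a haW haQ x hx
      obtain ⟨b, hb, hbQ⟩ := P.exists_val hQ (by omega) (Q a)
      have hbQ' : Q b ≠ 0 := by
        rw [hbQ]
        exact haQ
      have hh := ond_RR_in hQ hn P M hH a b haQ hbQ' hbQ.symm (Or.inr haW) (Or.inl hb)
      have hra := ond_R_maps P.symm a haQ haW
      have hrb := ond_R_maps P b hbQ' hb
      have hxW := ((hmemX x).mp hx).1
      refine (hmemX _).mpr ⟨hra.1 x hxW, fun u hu hu0 huQ => ?_⟩
      have hu₁A := hrb.1 u hu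
      have hu₁0 := mv_ne_zero Q (reflO Q b hbQ') u hu0
      have hu₁Q : Q (mv ⇑Q (reflO Q b hbQ') u) = 0 := by
        rw [mv_quad ⇑Q (reflO Q b hbQ')]
        exact huQ
      have h1 := ((hmemX x).mp hx).2 _ hu₁A hu₁0 hu₁Q
      have h2 := oE_conj Q (reflO Q a haQ * reflO Q b hbQ') _ x hu₁Q (P.perp _ hu₁A x hxW)
      have e1 : mv ⇑Q (reflO Q a haQ * reflO Q b hbQ') (mv ⇑Q (reflO Q b hbQ') u) = u := by
        rw [mv_mul, ← mv_mul ⇑Q (reflO Q b hbQ') (reflO Q b hbQ') u, reflO_mul_self, mv_one,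
          hra.2 u hu]
      have e2 : mv ⇑Q (reflO Q a haQ * reflO Q b hbQ') x = mv ⇑Q (reflO Q a haQ) x := by
        rw [mv_mul, hrb.2 x hxW]
      rw [e1, e2] at h2
      rw [← h2]
      exact M.mul_mem (M.mul_mem hh h1) (M.inv_mem hh)
    · intro s hs b hb hsQ hsb x hx
      have hh := ond_E_in hQ hn P.symm M hH.symm s b hs hb hsQ hsb
      have hxW := ((hmemX x).mp hx).1
      refine (hmemX _).mpr ⟨?_, fun u hu hu0 huQ => ?_⟩
      · rw [mv_oE Q s b hsQ hsb]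
        exact Wo.sub_mem (Wo.add_mem hxW (Wo.smul_mem _ hs)) (Wo.smul_mem _ hb)
      · have h2 := oE_conj Q (oE Q s b) u x huQ (P.perp u hu x hxW)
        rw [ond_E_fix P.symm s b hs hb hsQ hsb u hu] at h2
        rw [← h2]
        exact M.mul_mem (M.mul_mem hh (((hmemX x).mp hx).2 u hu hu0 huQ)) (M.inv_mem hh)
  have hC : ∀ u ∈ A, u ≠ 0 → Q u = 0 → u ∈ Helper98.op_C Q M := by
    intro u hu hu0 huQ
    refine ⟨huQ, fun b hub => ?_⟩
    obtain ⟨a, ha, w, hw, rfl⟩ := P.dec b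
    have huw := P.perp u hu w hw
    have hua : QuadraticMap.polar ⇑Q u a = 0 := by
      rw [QuadraticMap.polar_add_right, huw, add_zero] at hub
      exact hub
    rw [← oE_eq Q u (a + w) huQ hub, ← oE_mul Q u a w huQ hua huw]
    exact M.mul_mem (ond_E_in hQ hn P M hH u a hu ha huQ hua)
      (((hmemX w).mp (hWX hw)).2 u hu hu0 huQ)
  obtain ⟨s, hs, hs0, hsQ⟩ := exists_sing_in Q A (by omega)
  obtain ⟨t, ht, htQ, hst⟩ := P.exists_partner hQ s hs hs0 hsQ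
  have ht0 : t ≠ 0 := by
    rintro rfl
    apply hst
    simp
  exact Helper98.op_omega_le Q hQ hn M s t (hC s hs hs0 hsQ) (hC t ht ht0 htQ) hst

/-- Under the hypothesis that no mixed Eichler transformation lies in `M`: an element of `M`
mapping one non-zero singular vector of `A` into `A` maps `A` into `A`. -/
theorem ond_spade (hQ : (QuadraticMap.polarBilin Q).Nondegenerate) (hn : 5 ≤ Fintype.card ι)
    {A Wo : Submodule F (ι → F)} (P : OPair Q A Wo) (hA : 5 ≤ Module.finrank F A)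
    (M : Subgroup ↥(isometryGroup F ⇑Q)) (hH : HStab Q A Wo M)
    (hsp : ∀ u ∈ A, u ≠ 0 → Q u = 0 → ∀ b, QuadraticMap.polar ⇑Q u b = 0 → oE Q u b ∈ M → b ∈ A)
    (g : ↥(isometryGroup F ⇑Q)) (hg : g ∈ M) (u₀ : ι → F) (hu₀ : u₀ ∈ A) (hu₀0 : u₀ ≠ 0)
    (hu₀Q : Q u₀ = 0) (hgu : mv ⇑Q g u₀ ∈ A) : ∀ x ∈ A, mv ⇑Q g x ∈ A := by
  have key : ∀ u ∈ A, u ≠ 0 → Q u = 0 → mv ⇑Q g u ∈ A → ∀ b ∈ A,
      QuadraticMap.polar ⇑Q u b = 0 → mv ⇑Q g b ∈ A := by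
    intro u hu hu0 huQ hgu b hb hub
    have h1 := ond_E_in hQ hn P M hH u b hu hb huQ hub
    have h2 := oE_conj Q g u b huQ hub
    have h3 : oE Q (mv ⇑Q g u) (mv ⇑Q g b) ∈ M := by
      rw [← h2]
      exact M.mul_mem (M.mul_mem hg h1) (M.inv_mem hg)
    exact hsp _ hgu (mv_ne_zero Q g u hu0) (by rw [mv_quad ⇑Q g]; exact huQ) _
      (by rw [mv_polar]; exact hub) h3
  obtain ⟨t₀, ht₀, ht₀u⟩ := P.nd hQ u₀ hu₀ hu₀0
  obtain ⟨u₁, hu₁, hu₁0, hu₁Q, hu₀u₁, ht₀u₁⟩ := ond_exists_sing2 Q hA u₀ t₀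
  have hgu₁ := key u₀ hu₀ hu₀0 hu₀Q hgu u₁ hu₁ hu₀u₁
  have hind : ∀ t : F, u₀ ≠ t • u₁ := by
    intro t h
    apply ht₀u
    rw [h, QuadraticMap.polar_smul_right, ht₀u₁, smul_zero]
  obtain ⟨d, hd, hu₁d, hu₀d⟩ := P.exists_pnp hQ u₁ u₀ hu₁ hu₀ hind
  have hgd := key u₁ hu₁ hu₁0 hu₁Q hgu₁ d hd hu₁d
  intro x hx
  have h1 := key u₀ hu₀ hu₀0 hu₀Q hgu
    (x - (QuadraticMap.polar ⇑Q u₀ x / QuadraticMap.polar ⇑Q u₀ d) • d)
    (A.sub_mem hx (A.smul_mem _ hd))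
    (by rw [QuadraticMap.polar_sub_right, QuadraticMap.polar_smul_right, smul_eq_mul,
      div_mul_cancel₀ _ hu₀d, sub_self])
  rw [mv_sub, mv_smul] at h1
  have h2 := A.add_mem h1
    (A.smul_mem (QuadraticMap.polar ⇑Q u₀ x / QuadraticMap.polar ⇑Q u₀ d) hgd)
  rwa [sub_add_cancel] at h2

theorem ond_nice (hQ : (QuadraticMap.polarBilin Q).Nondegenerate) (hn : 5 ≤ Fintype.card ι)
    {A Wo : Submodule F (ι → F)} (P : OPair Q A Wo) (hA : 5 ≤ Module.finrank F A)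
    (M : Subgroup ↥(isometryGroup F ⇑Q)) (hH : HStab Q A Wo M)
    (hsp : ∀ u ∈ A, u ≠ 0 → Q u = 0 → ∀ b, QuadraticMap.polar ⇑Q u b = 0 → oE Q u b ∈ M → b ∈ A)
    (g h : ↥(isometryGroup F ⇑Q)) (hg : g ∈ M) (hh : h ∈ M) (p q : ι → F)
    (hfix : ∀ x, QuadraticMap.polar ⇑Q p x = 0 → QuadraticMap.polar ⇑Q q x = 0 →
      mv ⇑Q h x = x) : ∀ x ∈ A, mv ⇑Q (g⁻¹ * h * g) x ∈ A := by
  obtain ⟨u₀, hu₀, hu₀0, hu₀Q, hp, hq⟩ := ond_exists_sing2 Q hA (mv ⇑Q g⁻¹ p) (mv ⇑Q g⁻¹ q)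
  have hp' : QuadraticMap.polar ⇑Q p (mv ⇑Q g u₀) = 0 := by
    have h1 := mv_polar Q g (mv ⇑Q g⁻¹ p) u₀
    rw [mv_inv_cancel] at h1
    rw [h1]
    exact hp
  have hq' : QuadraticMap.polar ⇑Q q (mv ⇑Q g u₀) = 0 := by
    have h1 := mv_polar Q g (mv ⇑Q g⁻¹ q) u₀
    rw [mv_inv_cancel] at h1
    rw [h1]
    exact hq
  apply ond_spade hQ hn P hA M hH hsp (g⁻¹ * h * g)
    (M.mul_mem (M.mul_mem (M.inv_mem hg) hh) hg) u₀ hu₀ hu₀0 hu₀Q
  rw [mv_mul, mv_mul, hfix _ hp' hq', mv_inv_cancel']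
  exact hu₀

/-- The core of the maximality proof. -/
theorem ond_core (hQ : (QuadraticMap.polarBilin Q).Nondegenerate) (hn : 5 ≤ Fintype.card ι)
    {A Wo : Submodule F (ι → F)} (P : OPair Q A Wo) (hA : 5 ≤ Module.finrank F A)
    (hyp : ¬ (Fintype.card F ≤ 3 ∧ Module.finrank F Wo = 2 ∧ ∃ s ∈ Wo, s ≠ 0 ∧ Q s = 0))
    (hsw : ¬ ∃ g : ↥(isometryGroup F ⇑Q), ∀ x ∈ A, mv ⇑Q g x ∈ Wo)
    (M : Subgroup ↥(isometryGroup F ⇑Q)) (hH : HStab Q A Wo M) (g : ↥(isometryGroup F ⇑Q))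
    (hg : g ∈ M) (x₀ : ι → F) (hx₀ : x₀ ∈ A) (hgx : mv ⇑Q g x₀ ∉ A) : Omega F ⇑Q ≤ M := by
  by_cases hsp : ∀ u ∈ A, u ≠ 0 → Q u = 0 → ∀ b, QuadraticMap.polar ⇑Q u b = 0 →
      oE Q u b ∈ M → b ∈ A
  swap
  · push Not at hsp
    obtain ⟨u, hu, hu0, huQ, b, hub, hE, hb⟩ := hsp
    exact ond_step2 hQ hn P hA hyp M hH u b hu hu0 huQ hub hb hE
  exfalso
  have hU : ∀ h ∈ M, ∀ p q : ι → F, (∀ x, QuadraticMap.polar ⇑Q p x = 0 →
      QuadraticMap.polar ⇑Q q x = 0 → mv ⇑Q h x = x) →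
      ∀ y, mv ⇑Q g⁻¹ y ∈ A → mv ⇑Q g⁻¹ (mv ⇑Q h y) ∈ A := by
    intro h hh p q hfix y hy
    have h1 := ond_nice hQ hn P hA M hH hsp g h hg hh p q hfix _ hy
    rw [mv_mul, mv_mul, mv_inv_cancel] at h1
    exact h1
  by_cases hc : ∀ x ∈ A, mv ⇑Q g x ∈ Wo
  · exact hsw ⟨g, hc⟩
  push Not at hc
  obtain ⟨x₁, hx₁, hgx₁⟩ := hc
  obtain ⟨a, ha, w, hw, hy⟩ := P.dec (mv ⇑Q g x₁)
  have ha0 : a ≠ 0 := by
    rintro rfl
    apply hgx₁
    rw [hy, zero_add]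
    exact hw
  obtain ⟨t₀, ht₀, ht₀a⟩ := P.nd hQ a ha ha0
  obtain ⟨s, hs, hs0, hsQ, has, ht₀s⟩ := ond_exists_sing2 Q hA a t₀
  have hind : ∀ t : F, a ≠ t • s := by
    intro t h
    apply ht₀a
    rw [h, QuadraticMap.polar_smul_right, ht₀s, smul_zero]
  obtain ⟨b, hb, hsb, hab⟩ := P.exists_pnp hQ s a hs ha hind
  have hEM := ond_E_in hQ hn P M hH s b hs hb hsQ hsb
  have hfix : ∀ x, QuadraticMap.polar ⇑Q s x = 0 → QuadraticMap.polar ⇑Q b x = 0 →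
      mv ⇑Q (oE Q s b) x = x := by
    intro x h1 h2
    rw [mv_oE Q s b hsQ hsb, h1, h2]
    simp
  have hyU : mv ⇑Q g⁻¹ (mv ⇑Q g x₁) ∈ A := by
    rw [mv_inv_cancel']
    exact hx₁
  have h1 := hU _ hEM s b hfix _ hyU
  have e1 : mv ⇑Q (oE Q s b) (mv ⇑Q g x₁) =
      mv ⇑Q g x₁ + (QuadraticMap.polar ⇑Q b a) • s := by
    rw [mv_oE Q s b hsQ hsb, hy, QuadraticMap.polar_add_right, QuadraticMap.polar_add_right,
      P.perp s hs w hw, P.perp b hb w hw, QuadraticMap.polar_comm ⇑Q s a, has]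
    simp
  rw [e1, mv_add, mv_smul, mv_inv_cancel'] at h1
  have hsU : mv ⇑Q g⁻¹ s ∈ A := by
    have h2 := A.sub_mem h1 hx₁
    rw [add_sub_cancel_left] at h2
    have hba : QuadraticMap.polar ⇑Q b a ≠ 0 := by
      rw [QuadraticMap.polar_comm]
      exact hab
    have h3 := A.smul_mem (QuadraticMap.polar ⇑Q b a)⁻¹ h2
    rwa [smul_smul, inv_mul_cancel₀ hba, one_smul] at h3
  have hAX : A ≤ imgSub Q g A ⊓ A := by
    apply ond_eirr hQ P hA (imgSub Q g A ⊓ A) inf_le_right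
    · intro h
      have h4 : s ∈ imgSub Q g A ⊓ A := ⟨(mem_imgSub Q g A s).mpr hsU, hs⟩
      rw [h, Submodule.mem_bot] at h4
      exact hs0 h4
    · intro s' hs' b' hb' hs'Q hs'b' x hx
      refine ⟨?_, ?_⟩
      · rw [SetLike.mem_coe, mem_imgSub]
        exact hU _ (ond_E_in hQ hn P M hH s' b' hs' hb' hs'Q hs'b') s' b'
          (fun x h1 h2 => by rw [mv_oE Q s' b' hs'Q hs'b', h1, h2]; simp) x
          ((mem_imgSub Q g A x).mp hx.1)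
      · rw [SetLike.mem_coe, mv_oE Q s' b' hs'Q hs'b']
        exact A.sub_mem (A.add_mem hx.2 (A.smul_mem _ hs')) (A.smul_mem _ hb')
  have hinv : ∀ v ∈ A, mv ⇑Q g⁻¹ v ∈ A := fun v hv => (mem_imgSub Q g A v).mp (hAX hv).1
  have h5 := Helper98.op_inv_maps Q g⁻¹ A hinv x₀ hx₀
  rw [inv_inv] at h5
  exact hgx h5

theorem ond_max_aux (hQ : (QuadraticMap.polarBilin Q).Nondegenerate) (hn : 5 ≤ Fintype.card ι)
    {A Wo : Submodule F (ι → F)} (P : OPair Q A Wo) (hA : 5 ≤ Module.finrank F A)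
    (hWo : Wo ≠ ⊥)
    (hyp : ¬ (Fintype.card F ≤ 3 ∧ Module.finrank F Wo = 2 ∧ ∃ s ∈ Wo, s ≠ 0 ∧ Q s = 0))
    (hsw : ¬ ∃ g : ↥(isometryGroup F ⇑Q), ∀ x ∈ A, mv ⇑Q g x ∈ Wo)
    (W : Submodule F (ι → F))
    (hWA : ∀ g : ↥(isometryGroup F ⇑Q), (∀ v ∈ W, mv ⇑Q g v ∈ W) ↔ (∀ v ∈ A, mv ⇑Q g v ∈ A))
    (hWW : ∀ g : ↥(isometryGroup F ⇑Q), (∀ v ∈ W, mv ⇑Q g v ∈ W) ↔
      (∀ v ∈ Wo, mv ⇑Q g v ∈ Wo)) :
    IsMaximalIn (omegaGL ⇑Q) (subspaceStabilizer W ⊓ omegaGL ⇑Q) := by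
  have hstab : ∀ g : ↥(isometryGroup F ⇑Q), (∀ v ∈ W, mv ⇑Q g v ∈ W) →
      (g : GL ι F) ∈ subspaceStabilizer W := by
    intro g hg v
    constructor
    · intro hv
      exact hg v hv
    · intro hv
      have hv' : mv ⇑Q g v ∈ W := hv
      have h1 := Helper98.op_inv_maps Q g W hg _ hv'
      rwa [mv_inv_cancel'] at h1
  constructor
  · rw [SetLike.lt_iff_le_and_exists]
    refine ⟨inf_le_right, ?_⟩
    obtain ⟨w, hw, hw0⟩ := (Submodule.ne_bot_iff Wo).mp hWo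
    obtain ⟨u, hu, hu0, huQ⟩ := exists_sing_in Q A (by omega)
    obtain ⟨t, ht, htQ, hut⟩ := P.exists_partner hQ u hu hu0 huQ
    have huw := P.perp u hu w hw
    refine ⟨((oE Q u w : ↥(isometryGroup F ⇑Q)) : GL ι F),
      Subgroup.mem_map_of_mem _ (oE_mem_omega Q hQ hn u w), fun hmem => ?_⟩
    have h1 : ∀ v ∈ W, mv ⇑Q (oE Q u w) v ∈ W := fun v hv => (hmem.1 v).mp hv
    have h2 := (hWA _).mp h1 t ht
    rw [mv_oE Q u w huQ huw] at h2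
    have h3 : (QuadraticMap.polar ⇑Q u t) • w ∈ A := by
      have h4 := A.sub_mem (A.add_mem ht (A.smul_mem
        (QuadraticMap.polar ⇑Q w t - Q w * QuadraticMap.polar ⇑Q u t) hu)) h2
      rwa [sub_sub_cancel] at h4
    have h5 := A.smul_mem (QuadraticMap.polar ⇑Q u t)⁻¹ h3
    rw [smul_smul, inv_mul_cancel₀ hut, one_smul] at h5
    exact hw0 (P.disj hQ w h5 hw)
  · intro M hHM hMG
    by_cases hMH : M = subspaceStabilizer W ⊓ omegaGL ⇑Q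
    · exact Or.inl hMH
    right
    apply le_antisymm hMG
    obtain ⟨M', hM'⟩ : ∃ M' : Subgroup ↥(isometryGroup F ⇑Q),
        M' = M.comap (isometryGroup F ⇑Q).subtype := ⟨_, rfl⟩
    have hmemM' : ∀ g : ↥(isometryGroup F ⇑Q), g ∈ M' ↔ (g : GL ι F) ∈ M := by
      intro g
      rw [hM']
      exact Subgroup.mem_comap
    suffices hΩ : Omega F ⇑Q ≤ M' by
      unfold omegaGL
      rw [Subgroup.map_le_iff_le_comap, ← hM']
      exact hΩ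
    have hH : HStab Q A Wo M' := by
      intro g hg hgA hgW
      rw [hmemM']
      exact hHM ⟨hstab g ((hWA g).mpr hgA), Subgroup.mem_map_of_mem _ hg⟩
    obtain ⟨y, hyM, hyH⟩ := SetLike.exists_of_lt (lt_of_le_of_ne hHM (Ne.symm hMH))
    obtain ⟨y', hy'Ω, rfl⟩ := Subgroup.mem_map.mp (hMG hyM)
    have hy'M : y' ∈ M' := (hmemM' y').mpr hyM
    obtain ⟨x₀, hx₀, hx₀g⟩ : ∃ x₀ ∈ A, mv ⇑Q y' x₀ ∉ A := by
      by_contra hcon
      push Not at hcon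
      exact hyH ⟨hstab y' ((hWA y').mpr hcon), hMG hyM⟩
    exact ond_core hQ hn P hA hyp hsw M' hH y' hy'M x₀ hx₀ hx₀g

/-- **Maximality of the stabiliser of a non-degenerate subspace** `W` in `Ω(Q)`, for an
orthogonal decomposition `V = W' ⊥ W` of a space of dimension at least nine. -/
theorem ond_max (hQ : (QuadraticMap.polarBilin Q).Nondegenerate) (hn : 9 ≤ Fintype.card ι)
    (W W' : Submodule F (ι → F)) (P : OPair Q W' W) (hW0 : W ≠ ⊥) (hW'0 : W' ≠ ⊥)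
    (hyp : ¬ (Fintype.card F ≤ 3 ∧ Module.finrank F W = 2 ∧ ∃ s ∈ W, s ≠ 0 ∧ Q s = 0))
    (hyp' : ¬ (Fintype.card F ≤ 3 ∧ Module.finrank F W' = 2 ∧ ∃ s ∈ W', s ≠ 0 ∧ Q s = 0))
    (hsw : Module.finrank F W = Module.finrank F W' →
      ¬ ∃ g : ↥(isometryGroup F ⇑Q), ∀ x ∈ W', mv ⇑Q g x ∈ W) :
    IsMaximalIn (omegaGL ⇑Q) (subspaceStabilizer W ⊓ omegaGL ⇑Q) := by
  have hn5 : 5 ≤ Fintype.card ι := by omega
  have hsum := P.finrank_add hQ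
  have hperp : ∀ (A Wo : Submodule F (ι → F)), OPair Q A Wo → ∀ g : ↥(isometryGroup F ⇑Q),
      (∀ v ∈ Wo, mv ⇑Q g v ∈ Wo) → ∀ v ∈ A, mv ⇑Q g v ∈ A := by
    intro A Wo P' g hg v hv
    apply P'.mem_left hQ
    intro w hw
    have h1 := Helper98.op_inv_maps Q g Wo hg w hw
    have h2 := mv_polar Q g v (mv ⇑Q g⁻¹ w)
    rw [mv_inv_cancel] at h2
    rw [h2]
    exact P'.perp v hv _ h1
  have hinj : ∀ (A Wo : Submodule F (ι → F)) (g : ↥(isometryGroup F ⇑Q)),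
      (∀ x ∈ A, mv ⇑Q g x ∈ Wo) → Module.finrank F A ≤ Module.finrank F Wo := by
    intro A Wo g hg
    rw [← finrank_imgSub Q g A]
    apply Submodule.finrank_mono
    intro x hx
    rw [mem_imgSub] at hx
    have h1 := hg _ hx
    rwa [mv_inv_cancel] at h1
  rcases le_or_gt (Module.finrank F W) (Module.finrank F W') with hle | hlt
  · -- the big side is `W'`
    apply ond_max_aux hQ hn5 P (by omega) hW0 hyp ?_ W
      (fun g => ⟨hperp W' W P g, hperp W W' P.symm g⟩) (fun g => Iff.rfl)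
    rintro ⟨g, hg⟩
    have h1 := hinj W' W g hg
    exact hsw (by omega) ⟨g, hg⟩
  · -- the big side is `W`
    apply ond_max_aux hQ hn5 P.symm (by omega) hW'0 hyp' ?_ W (fun g => Iff.rfl)
      (fun g => ⟨hperp W' W P g, hperp W W' P.symm g⟩)
    rintro ⟨g, hg⟩
    have h1 := hinj W W' g hg
    omega

end ONd3

end Cfsg.Agent.Helper94
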