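import Mathlib
import Cfsg.Prelude.Def_GeometricClasses
import Cfsg.Agent.Helper94.ONd3

/-!
Orthogonal groups: maximality in `Ω(Q)` of the stabiliser of a non-degenerate subspace, for a
quadratic form given as a function; the stabiliser of a decomposition into two non-isometric
non-degenerate halves.
-/

set_option autoImplicit false
set_option linter.unusedSectionVars false
set_option linter.unusedVariables false

universe u

namespace Cfsg.Agent.Helper94

open Matrix Cfsg Cfsg.Geo Cfsg.Agent.Helper45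

section ONd4

variable {ι : Type} [Fintype ι] [DecidableEq ι] {F : Type u} [Field F] [Fintype F]

/-- **Maximality of the stabiliser of a non-degenerate subspace** in `Ω(Q)`. -/
theorem ond_max_fun (Q : (ι → F) → F) (hQ : IsNondegenerateQuadraticForm Q)
    (hn : 9 ≤ Fintype.card ι) (W : Submodule F (ι → F)) (hW0 : W ≠ ⊥) (hW1 : W ≠ ⊤)
    (hW : IsNondegenerateOn (QuadraticMap.polar Q) W)
    (hex : ¬ (Fintype.card F ≤ 3 ∧ ∃ U : Submodule F (ι → F), Module.finrank F U = 2 ∧
      IsNondegenerateOn (QuadraticMap.polar Q) U ∧ IsPlusTypeOn Q U ∧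
      (U = W ∨ (AreOrthogonalFor (QuadraticMap.polar Q) U W ∧
        Module.finrank F U + Module.finrank F W = Fintype.card ι))))
    (hsw : 2 * Module.finrank F W = Fintype.card ι → ¬ ∃ g : ↥(isometryGroup F Q),
      ∀ x : ι → F, (∀ w ∈ W, QuadraticMap.polar Q x w = 0) →
        ((g : GL ι F) : Matrix ι ι F) *ᵥ x ∈ W) :
    IsMaximalIn (omegaGL Q) (subspaceStabilizer W ⊓ omegaGL Q) := by
  obtain ⟨Qb, hQb⟩ : ∃ Qb : QuadraticForm F (ι → F), Qb = Helper98.op_qf Q hQ := ⟨_, rfl⟩
  have hcoe : ⇑Qb = Q := by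
    rw [hQb]
    rfl
  have hnd : (QuadraticMap.polarBilin Qb).Nondegenerate := by
    rw [hQb]
    exact Helper98.op_qf_nondeg Q hQ
  have hWnd : ∀ w ∈ W, w ≠ 0 → ∃ x ∈ W, QuadraticMap.polar ⇑Qb x w ≠ 0 := by
    intro w hw hw0
    rw [hcoe]
    exact (hW w hw hw0).1
  have P := OPair.of_nondeg hnd W hWnd
  obtain ⟨W', hW'⟩ : ∃ W' : Submodule F (ι → F),
      W' = LinearMap.BilinForm.orthogonal (QuadraticMap.polarBilin Qb) W := ⟨_, rfl⟩
  rw [← hW'] at P
  have hsum := P.finrank_add hnd
  have hW'0 : W' ≠ ⊥ := by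
    intro h
    rw [h, finrank_bot, zero_add] at hsum
    apply hW1
    apply Submodule.eq_top_of_finrank_eq
    rw [hsum, Module.finrank_fintype_fun_eq_card]
  have hplus : ∀ U : Submodule F (ι → F), Module.finrank F U = 2 →
      (∃ s ∈ U, s ≠ 0 ∧ Qb s = 0) → IsPlusTypeOn Q U := by
    rintro U hU ⟨s, hs, hs0, hsQ⟩
    refine ⟨Submodule.span F {s}, (Submodule.span_singleton_le_iff_mem _ _).mpr hs, ?_, ?_⟩
    · intro w hw
      obtain ⟨c, rfl⟩ := Submodule.mem_span_singleton.mp hw
      have h1 : Q s = 0 := by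
        rw [← hcoe]
        exact hsQ
      rw [hQ.smul, h1, mul_zero]
    · rw [finrank_span_singleton hs0, hU]
  have hyp : ¬ (Fintype.card F ≤ 3 ∧ Module.finrank F W = 2 ∧ ∃ s ∈ W, s ≠ 0 ∧ Qb s = 0) := by
    rintro ⟨h3, h2, hs⟩
    exact hex ⟨h3, W, h2, hW, hplus W h2 hs, Or.inl rfl⟩
  have hyp' : ¬ (Fintype.card F ≤ 3 ∧ Module.finrank F W' = 2 ∧
      ∃ s ∈ W', s ≠ 0 ∧ Qb s = 0) := by
    rintro ⟨h3, h2, hs⟩
    refine hex ⟨h3, W', h2, ?_, hplus W' h2 hs, Or.inr ⟨?_, hsum⟩⟩
    · intro w hw hw0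
      obtain ⟨y, hy, hyw⟩ := P.nd hnd w hw hw0
      rw [hcoe] at hyw
      exact ⟨⟨y, hy, hyw⟩, ⟨y, hy, by rw [QuadraticMap.polar_comm]; exact hyw⟩⟩
    · intro u hu v hv
      have h1 := P.perp u hu v hv
      rw [hcoe] at h1
      exact h1
  have hsw' : Module.finrank F W = Module.finrank F W' →
      ¬ ∃ g : ↥(isometryGroup F ⇑Qb), ∀ x ∈ W', mv ⇑Qb g x ∈ W := by
    intro heq
    subst hcoe
    rintro ⟨g, hg⟩
    exact hsw (by omega) ⟨g, fun x hx => hg x (P.mem_left hnd x hx)⟩
  have key := ond_max hnd hn W W' P hW0 hW'0 hyp hyp' hsw'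
  rw [hcoe] at key
  exact key

/-- An isometry mapping `U` into `U'` of the same dimension makes them isometric. -/
theorem ond_isometric (Q : (ι → F) → F) (U U' : Submodule F (ι → F))
    (g : ↥(isometryGroup F Q)) (hg : ∀ x ∈ U, ((g : GL ι F) : Matrix ι ι F) *ᵥ x ∈ U')
    (hdim : Module.finrank F U = Module.finrank F U') : AreIsometricFor Q U U' := by
  have hgl : ∀ x ∈ U, Matrix.toLin' ((g : GL ι F) : Matrix ι ι F) x ∈ U' := by
    intro x hx
    rw [Matrix.toLin'_apply]
    exact hg x hx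
  have hinj : Function.Injective ((Matrix.toLin' ((g : GL ι F) : Matrix ι ι F)).restrict hgl) := by
    intro x y hxy
    have h1 : ((g : GL ι F) : Matrix ι ι F) *ᵥ (x : ι → F) =
        ((g : GL ι F) : Matrix ι ι F) *ᵥ (y : ι → F) := by
      have h2 := congrArg (fun z : U' => (z : ι → F)) hxy
      simpa [LinearMap.restrict_apply] using h2
    have h3 : mv Q g⁻¹ (mv Q g (x : ι → F)) = mv Q g⁻¹ (mv Q g (y : ι → F)) := congrArg _ h1
    rw [← mv_mul, ← mv_mul, inv_mul_cancel, mv_one, mv_one] at h3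
    exact Subtype.ext h3
  refine ⟨LinearMap.linearEquivOfInjective _ hinj hdim, fun w => ?_⟩
  rw [LinearMap.linearEquivOfInjective_apply]
  have h1 : (((Matrix.toLin' ((g : GL ι F) : Matrix ι ι F)).restrict hgl w : U') : ι → F) =
      mv Q g (w : ι → F) := by
    simp [LinearMap.restrict_apply]
  rw [h1]
  exact mv_quad Q g _

theorem ond_isometric_symm (Q : (ι → F) → F) (U U' : Submodule F (ι → F))
    (h : AreIsometricFor Q U U') : AreIsometricFor Q U' U := by
  obtain ⟨e, he⟩ := h
  refine ⟨e.symm, fun w => ?_⟩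
  have h1 := he (e.symm w)
  rw [LinearEquiv.apply_symm_apply] at h1
  exact h1.symm

/-- **Maximality of the stabiliser of a decomposition into two non-isometric non-degenerate
orthogonal halves** in `Ω(Q)`. -/
theorem ond_max_pair (Q : (ι → F) → F) (hQ : IsNondegenerateQuadraticForm Q)
    (hn : 9 ≤ Fintype.card ι) (D : Fin 2 → Submodule F (ι → F)) (k : ℕ) (hk : 3 ≤ k)
    (hD : IsNondegenerateMDecomposition (QuadraticMap.polar Q) k D)
    (hni : ¬ AreIsometricFor Q (D 0) (D 1)) :
    IsMaximalIn (omegaGL Q) (decompositionStabilizer D ⊓ omegaGL Q) := by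
  have hfr := hD.decomp.finrank_eq
  have h01 : ∀ i : Fin 2, i = 0 ∨ i = 1 := by decide
  have htop : D 0 ⊔ D 1 = ⊤ := by
    apply le_antisymm le_top
    rw [← hD.decomp.iSup_eq_top]
    apply iSup_le
    intro i
    rcases h01 i with h | h
    · rw [h]
      exact le_sup_left
    · rw [h]
      exact le_sup_right
  have hdec : ∀ v : ι → F, ∃ a ∈ D 1, ∃ w ∈ D 0, v = a + w := by
    intro v
    have hv : v ∈ D 0 ⊔ D 1 := by
      rw [htop]
      exact Submodule.mem_top
    obtain ⟨w, hw, a, ha, rfl⟩ := Submodule.mem_sup.mp hv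
    exact ⟨a, ha, w, hw, add_comm w a⟩
  have hperp10 : ∀ a ∈ D 1, ∀ w ∈ D 0, QuadraticMap.polar Q a w = 0 :=
    hD.orthogonal 1 0 (by decide)
  -- the orthogonal complement of `D 0` is `D 1`
  have hD1 : ∀ x : ι → F, (∀ w ∈ D 0, QuadraticMap.polar Q x w = 0) → x ∈ D 1 := by
    intro x hx
    obtain ⟨a, ha, w, hw, rfl⟩ := hdec x
    have hw0 : w = 0 := by
      by_contra h0
      obtain ⟨⟨y, hy, hyw⟩, _⟩ := hD.nondegenerate 0 w hw h0
      apply hyw
      have h1 := hx y hy
      rw [hQ.polar_bilinear.add_left, hperp10 a ha y hy, zero_add] at h1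
      rw [QuadraticMap.polar_comm]
      exact h1
    rw [hw0, add_zero]
    exact ha
  have hD0 : ∀ x : ι → F, (∀ a ∈ D 1, QuadraticMap.polar Q x a = 0) → x ∈ D 0 := by
    intro x hx
    obtain ⟨a, ha, w, hw, rfl⟩ := hdec x
    have ha0 : a = 0 := by
      by_contra h0
      obtain ⟨⟨y, hy, hya⟩, _⟩ := hD.nondegenerate 1 a ha h0
      apply hya
      have h1 := hx y hy
      rw [hQ.polar_bilinear.add_left, QuadraticMap.polar_comm Q w y, hperp10 y hy w hw,
        add_zero] at h1
      rw [QuadraticMap.polar_comm]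
      exact h1
    rw [ha0, zero_add]
    exact hw
  have hcard : Fintype.card ι = k + k := by
    have hinf : D 0 ⊓ D 1 = ⊥ := by
      rw [eq_bot_iff]
      rintro x ⟨hx0, hx1⟩
      rw [Submodule.mem_bot]
      by_contra h0
      obtain ⟨⟨y, hy, hyx⟩, _⟩ := hD.nondegenerate 1 x hx1 h0
      exact hyx (hperp10 y hy x hx0)
    have h1 := Submodule.finrank_sup_add_finrank_inf_eq (D 0) (D 1)
    rw [htop, hinf, finrank_top, finrank_bot, Module.finrank_fintype_fun_eq_card, hfr 0,
      hfr 1] at h1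
    omega
  have hmax := ond_max_fun Q hQ hn (D 0)
    (by
      intro h
      have h1 := hfr 0
      rw [h, finrank_bot] at h1
      omega)
    (by
      intro h
      have h1 := hfr 1
      have h2 : D 1 = ⊥ := by
        rw [eq_bot_iff]
        intro x hx
        rw [Submodule.mem_bot]
        by_contra h0
        obtain ⟨⟨y, hy, hyx⟩, _⟩ := hD.nondegenerate 1 x hx h0
        have hx0 : x ∈ D 0 := by
          rw [h]
          exact Submodule.mem_top
        exact hyx (hperp10 y hy x hx0)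
      rw [h2, finrank_bot] at h1
      omega)
    (hD.nondegenerate 0)
    (by
      rintro ⟨_, U, hU, _, _, h | ⟨hUo, hUd⟩⟩
      · rw [h, hfr 0] at hU
        omega
      · have hle : U ≤ D 1 := by
          intro x hx
          exact hD1 x (fun w hw => hUo x hx w hw)
        rw [hU, hfr 0] at hUd
        omega)
    (by
      rintro _ ⟨g, hg⟩
      apply hni
      apply ond_isometric_symm
      apply ond_isometric Q (D 1) (D 0) g
      · intro x hx
        exact hg x (fun w hw => hperp10 x hx w hw)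
      · rw [hfr 0, hfr 1])
  have heq : decompositionStabilizer D ⊓ omegaGL Q = subspaceStabilizer (D 0) ⊓ omegaGL Q := by
    ext g
    constructor
    · rintro ⟨⟨σ, hσ⟩, hgΩ⟩
      refine ⟨?_, hgΩ⟩
      obtain ⟨g', hg'Ω, rfl⟩ := Subgroup.mem_map.mp hgΩ
      rcases h01 (σ 0) with h | h
      · have h0 := hσ 0
        rw [h] at h0
        intro v
        constructor
        · intro hv
          have h1 : Matrix.toLin' (((isometryGroup F Q).subtype g' : GL ι F) : Matrix ι ι F) v ∈
              Submodule.map (Matrix.toLin' (((isometryGroup F Q).subtype g' : GL ι F) :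
                Matrix ι ι F)) (D 0) := Submodule.mem_map_of_mem hv
          rw [h0, Matrix.toLin'_apply] at h1
          exact h1
        · intro hv
          have hv' : ((((isometryGroup F Q).subtype g' : GL ι F)) : Matrix ι ι F) *ᵥ v ∈ D 0 := hv
          rw [← h0] at hv'
          obtain ⟨y, hy, hyv⟩ := Submodule.mem_map.mp hv'
          rw [Matrix.toLin'_apply] at hyv
          have h3 : mv Q g'⁻¹ (mv Q g' y) = mv Q g'⁻¹ (mv Q g' v) := congrArg _ hyv
          rw [← mv_mul, ← mv_mul, inv_mul_cancel, mv_one, mv_one] at h3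
          rw [← h3]
          exact hy
      · exfalso
        have h0 := hσ 0
        rw [h] at h0
        apply hni
        apply ond_isometric Q (D 0) (D 1) g'
        · intro x hx
          have h1 : Matrix.toLin' (((isometryGroup F Q).subtype g' : GL ι F) : Matrix ι ι F) x ∈
              Submodule.map (Matrix.toLin' (((isometryGroup F Q).subtype g' : GL ι F) :
                Matrix ι ι F)) (D 0) := Submodule.mem_map_of_mem hx
          rw [h0, Matrix.toLin'_apply] at h1
          exact h1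
        · rw [hfr 0, hfr 1]
    · rintro ⟨hg0, hgΩ⟩
      refine ⟨?_, hgΩ⟩
      obtain ⟨g', hg'Ω, rfl⟩ := Subgroup.mem_map.mp hgΩ
      have hmaps0 : ∀ v ∈ D 0, mv Q g' v ∈ D 0 := fun v hv => (hg0 v).mp hv
      have hinv0 : ∀ v ∈ D 0, mv Q g'⁻¹ v ∈ D 0 := by
        intro v hv
        have h1 := (hg0 (mv Q g'⁻¹ v)).mpr (by
          show mv Q g' (mv Q g'⁻¹ v) ∈ D 0
          rw [← mv_mul, mul_inv_cancel, mv_one]
          exact hv)
        exact h1
      have hpol : ∀ (k : ↥(isometryGroup F Q)) (x y : ι → F),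
          QuadraticMap.polar Q (mv Q k x) (mv Q k y) = QuadraticMap.polar Q x y := by
        intro k x y
        unfold QuadraticMap.polar
        rw [← Matrix.mulVec_add, mv_quad Q k, mv_quad Q k, mv_quad Q k]
      have hmaps1 : ∀ (k : ↥(isometryGroup F Q)), (∀ v ∈ D 0, mv Q k⁻¹ v ∈ D 0) →
          ∀ v ∈ D 1, mv Q k v ∈ D 1 := by
        intro k hk v hv
        apply hD1
        intro w hw
        have h1 := hpol k v (mv Q k⁻¹ w)
        rw [← mv_mul Q k k⁻¹ w, mul_inv_cancel, mv_one] at h1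
        rw [h1]
        exact hperp10 v hv _ (hk w hw)
      have hm1 := hmaps1 g' hinv0
      have hm1' := hmaps1 g'⁻¹ (by rw [inv_inv]; exact hmaps0)
      refine ⟨1, fun i => ?_⟩
      have hgen : ∀ U : Submodule F (ι → F), (∀ v ∈ U, mv Q g' v ∈ U) →
          (∀ v ∈ U, mv Q g'⁻¹ v ∈ U) →
          Submodule.map (Matrix.toLin' (((isometryGroup F Q).subtype g' : GL ι F) :
            Matrix ι ι F)) U = U := by
        intro U h1 h2
        apply le_antisymm
        · rintro _ ⟨y, hy, rfl⟩
          rw [Matrix.toLin'_apply]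
          exact h1 y hy
        · intro v hv
          refine ⟨mv Q g'⁻¹ v, h2 v hv, ?_⟩
          rw [Matrix.toLin'_apply]
          show mv Q g' (mv Q g'⁻¹ v) = v
          rw [← mv_mul, mul_inv_cancel, mv_one]
      rcases h01 i with h | h
      · rw [h]
        exact hgen (D 0) hmaps0 hinv0
      · rw [h]
        exact hgen (D 1) hm1 hm1'
  rw [heq]
  exact hmax

end ONd4

end Cfsg.Agent.Helper94
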