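import Mathlib
import Cfsg.Agent.Helper90.HTDefs
import Cfsg.Agent.Helper90.BGChain
import Cfsg.Agent.Helper46.BGLIRR
import Cfsg.Agent.Helper41.TITYPES
import Cfsg.Agent.Helper3.TIMULTFREE

/-!
# CALL S5953 (helper90), piece BC, core (helper94)

The multiplicity-free element of `SU_n(q)`: blocks `g₀ ^ s j` (pairwise non-conjugate powers of an
element of order `r` of `SU_b(q)`, `b = ord_r(q²)` odd) and the identity on `F^e`.  Every invariant
totally isotropic subspace lies in `F^e`.  The pieces CAUCHY, FPF, BLK, HTIB enter as hypotheses.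
-/

set_option autoImplicit false

namespace Cfsg.Agent.Helper94.HT5953

open Module Polynomial Cfsg.Agent.Helper90.HT

section core

variable {F : Type*} [Field F] [Fintype F]

/-- `(r : F) ≠ 0` when `r` is a prime not dividing `|F|`. -/
theorem bc_r_ne_zero (r : ℕ) (hr : r.Prime) (h : ¬ r ∣ Fintype.card F) : (r : F) ≠ 0 := by
  intro h0
  have hcop : IsCoprime (r : ℤ) ((Fintype.card F : ℕ) : ℤ) :=
    Nat.isCoprime_iff_coprime.mpr ((Nat.Prime.coprime_iff_not_dvd hr).mpr h)
  obtain ⟨a, c, hac⟩ := hcop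
  have := congrArg (Int.cast : ℤ → F) hac
  push_cast at this
  rw [h0, Nat.cast_card_eq_zero] at this
  simp at this

/-- An endomorphism of order `r` of `F^b` without fixed vectors is irreducible
(`b = ord_r |F|`). -/
theorem bc_irr (r b : ℕ) [Fact r.Prime] (hrF : (r : F) ≠ 0)
    (hb : b = orderOf ((Fintype.card F : ℕ) : ZMod r))
    (S : Module.End F (Fin b → F)) (hSr : S ^ r = 1) (hS1 : LinearMap.ker (S - 1) = ⊥)
    (A : Submodule F (Fin b → F)) (hA : A.map S ≤ A) : A = ⊥ ∨ A = ⊤ := by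
  have hd : ∀ g : F[X], Irreducible g → g ∣ ∑ j ∈ Finset.range r, (X : F[X]) ^ j →
      g.natDegree = b := fun g hg hdvd =>
    hb.symm ▸ Cfsg.Agent.Helper46.bgl_irr_factor_degree r hrF g hg hdvd
  have h1 := Cfsg.Agent.Helper90.BG.cyc_dvd S r b hrF hSr hd A hA
  rw [hS1, inf_bot_eq, finrank_bot, Nat.sub_zero] at h1
  have h2 : finrank F A ≤ b := by
    have := Submodule.finrank_le A
    rwa [Module.finrank_fin_fun] at this
  obtain ⟨k, hk⟩ := h1
  rcases Nat.eq_zero_or_pos k with rfl | hkpos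
  · left
    rw [mul_zero] at hk
    exact Submodule.finrank_eq_zero.mp hk
  · right
    apply Submodule.eq_top_of_finrank_eq
    rw [Module.finrank_fin_fun]
    have : b ≤ b * k := Nat.le_mul_of_pos_right b hkpos
    omega

omit [Fintype F] in
/-- Transfer of a polynomial identity from `AdjoinRoot m₀` to an endomorphism killed by `m₀`. -/
theorem bc_transfer {V : Type*} [AddCommGroup V] [Module F V] (m₀ : F[X]) (T₀ : Module.End F V)
    (hm₀T : aeval T₀ m₀ = 0) (P : F[X]) (s : ℕ) (c : F)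
    (h : aeval ((AdjoinRoot.root m₀) ^ s) P = algebraMap F (AdjoinRoot m₀) c) :
    aeval (T₀ ^ s) P = algebraMap F (Module.End F V) c := by
  have e1 : aeval ((AdjoinRoot.root m₀) ^ s) P = AdjoinRoot.mk m₀ (P.comp (X ^ s)) := by
    rw [← AdjoinRoot.aeval_eq, aeval_comp, map_pow, aeval_X]
  have e2 : algebraMap F (AdjoinRoot m₀) c = AdjoinRoot.mk m₀ (C c) := by
    rw [AdjoinRoot.mk_C]; rfl
  rw [e1, e2, ← sub_eq_zero, ← map_sub, AdjoinRoot.mk_eq_zero] at h
  obtain ⟨k, hk⟩ := h
  have h3 := congrArg (aeval T₀) hk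
  rw [map_mul, hm₀T, zero_mul, map_sub, aeval_comp, map_pow, aeval_X, aeval_C, sub_eq_zero] at h3
  exact h3

/-- BC, core: the dependencies CAUCHY, FPF, BLK, HTIB are hypotheses. -/
theorem bad_c_core (q : ℕ) (hq : Fintype.card F = q ^ 2)
    (r : ℕ) [Fact r.Prime] (hrq : ¬ r ∣ q) (b : ℕ)
    (hb : b = orderOf ((Fintype.card F : ℕ) : ZMod r)) (hb3 : 3 ≤ b)
    (n u e : ℕ) (hu : 1 ≤ u) (hus : u ≤ (r - 1) / b)
    (hCauchy : ∃ g : Matrix.SpecialLinearGroup (Fin b) F, g ∈ Cfsg.SU b F q ∧ g ^ r = 1 ∧ g ≠ 1)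
    (hFPF : ∀ g : Matrix.SpecialLinearGroup (Fin b) F, g ∈ Cfsg.SU b F q → g ^ r = 1 → g ≠ 1 →
      LinearMap.ker (Matrix.toLin' (g : Matrix (Fin b) (Fin b) F) - 1) = ⊥)
    (hBLK : ∀ g : Fin u → Matrix (Fin b) (Fin b) F, ∃ (M : Matrix (Fin n) (Fin n) F)
      (Φ : (Fin n → F) ≃ₗ[F] ((Fin u → (Fin b → F)) × (Fin e → F))),
      (∀ a c, Cfsg.hermForm n F q a c =
        ∑ j, Cfsg.hermForm b F q ((Φ a).1 j) ((Φ c).1 j) +
          Cfsg.hermForm e F q (Φ a).2 (Φ c).2) ∧
      (∀ a, Φ (M.mulVec a) = (fun j => (g j).mulVec ((Φ a).1 j), (Φ a).2)) ∧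
      M.det = ∏ j, (g j).det)
    (hTIB : ∀ W : Submodule F (Fin e → F),
      (∀ a ∈ W, ∀ c ∈ W, Cfsg.hermForm e F q a c = 0) → 2 * finrank F W ≤ e) :
    ∃ x : Matrix.SpecialLinearGroup (Fin n) F, x ∈ Cfsg.SU n F q ∧ x ^ r = 1 ∧
      (∀ z : F, (x : Matrix (Fin n) (Fin n) F) ≠ z • 1) ∧
      ∀ W : Submodule F (Fin n → F), (∀ u ∈ W, ∀ v ∈ W, Cfsg.hermForm n F q u v = 0) →
        W.map (Matrix.toLin' (x : Matrix (Fin n) (Fin n) F)) ≤ W → 2 * finrank F W ≤ e := by
  classical
  have hrp : r.Prime := Fact.out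
  have hrF : (r : F) ≠ 0 := bc_r_ne_zero r hrp (by
    rw [hq]; intro h; exact hrq (hrp.dvd_of_dvd_pow h))
  obtain ⟨g₀, hg₀, hg₀r, hg₀1⟩ := hCauchy
  obtain ⟨T₀, hT₀⟩ : ∃ T₀ : Module.End F (Fin b → F),
      T₀ = Matrix.toLin' (g₀ : Matrix (Fin b) (Fin b) F) := ⟨_, rfl⟩
  have hpowT : ∀ k : ℕ, Matrix.toLin' ((g₀ ^ k : Matrix.SpecialLinearGroup (Fin b) F) :
      Matrix (Fin b) (Fin b) F) = T₀ ^ k := by
    intro k
    rw [Matrix.SpecialLinearGroup.coe_pow, Matrix.toLin'_pow, hT₀]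
  have hT₀r : T₀ ^ r = 1 := by
    rw [← hpowT, hg₀r]
    exact Matrix.toLin'_one
  have hT₀1 : LinearMap.ker (T₀ - 1) = ⊥ := by rw [hT₀]; exact hFPF g₀ hg₀ hg₀r hg₀1
  obtain ⟨v₀, hv₀⟩ : ∃ v₀ : Fin b → F, v₀ ≠ 0 := ⟨Pi.single ⟨0, by omega⟩ 1, by
    intro h
    have := congrFun h ⟨0, by omega⟩
    simp at this⟩
  haveI : Nontrivial (Module.End F (Fin b → F)) := ⟨⟨0, 1, fun h => hv₀ (by
    have := LinearMap.congr_fun h v₀
    simpa using this.symm)⟩⟩
  have hirr : ∀ S : Module.End F (Fin b → F), S ^ r = 1 → LinearMap.ker (S - 1) = ⊥ →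
      ∀ A : Submodule F (Fin b → F), A.map S ≤ A → A = ⊥ ∨ A = ⊤ :=
    fun S hSr hS1 A hA => bc_irr r b hrF hb S hSr hS1 A hA
  -- an irreducible polynomial killing `T₀`
  have hint : IsIntegral F T₀ := Algebra.IsIntegral.isIntegral T₀
  obtain ⟨m₀, hm₀, hm₀P⟩ := WfDvdMonoid.exists_irreducible_factor (minpoly.not_isUnit F T₀)
    (minpoly.ne_zero hint)
  have hcomm : aeval T₀ m₀ * T₀ = T₀ * aeval T₀ m₀ := by
    have h1 : aeval T₀ (m₀ * X) = aeval T₀ (X * m₀) := by rw [mul_comm]
    rwa [map_mul, map_mul, aeval_X] at h1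
  have hm₀T : aeval T₀ m₀ = 0 := by
    have hinv : (LinearMap.ker (aeval T₀ m₀)).map T₀ ≤ LinearMap.ker (aeval T₀ m₀) := by
      rintro _ ⟨v, hv, rfl⟩
      rw [SetLike.mem_coe, LinearMap.mem_ker] at hv
      rw [LinearMap.mem_ker]
      have := LinearMap.congr_fun hcomm v
      rw [Module.End.mul_apply, Module.End.mul_apply, hv, map_zero] at this
      exact this
    rcases hirr T₀ hT₀r hT₀1 _ hinv with hbot | htop
    · exfalso
      obtain ⟨k, hk⟩ := hm₀P
      have hk0 : aeval T₀ k = 0 := by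
        apply LinearMap.ext
        intro v
        have h1 : aeval T₀ (minpoly F T₀) v = 0 := by rw [minpoly.aeval]; rfl
        rw [hk, map_mul, Module.End.mul_apply] at h1
        have h2 : aeval T₀ k v ∈ LinearMap.ker (aeval T₀ m₀) := LinearMap.mem_ker.mpr h1
        rw [hbot] at h2
        exact (Submodule.mem_bot F).mp h2
      have hdvd := minpoly.dvd F T₀ hk0
      have hkne : k ≠ 0 := by
        rintro rfl
        rw [mul_zero] at hk
        exact minpoly.ne_zero hint hk
      rw [hk] at hdvd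
      have h3 : m₀ * k ∣ 1 * k := by rwa [one_mul]
      exact hm₀.not_isUnit (isUnit_of_dvd_one ((mul_dvd_mul_iff_right hkne).mp h3))
    · exact LinearMap.ker_eq_top.mp htop
  -- the field `K = F[X]/(m₀)`
  haveI : Fact (Irreducible m₀) := ⟨hm₀⟩
  haveI : Module.Finite F (AdjoinRoot m₀) := (AdjoinRoot.powerBasis hm₀.ne_zero).finite
  have hroot : ∀ p : F[X], aeval T₀ p = 0 → aeval (AdjoinRoot.root m₀) p = 0 := by
    intro p hp
    rw [AdjoinRoot.aeval_eq, AdjoinRoot.mk_eq_zero]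
    exact dvd_trans hm₀P (minpoly.dvd F T₀ hp)
  have hωpow : ∀ k : ℕ, T₀ ^ k = 1 → (AdjoinRoot.root m₀) ^ k = 1 := by
    intro k hk
    have := hroot (X ^ k - 1) (by rw [map_sub, map_pow, aeval_X, map_one, hk, sub_self])
    rw [map_sub, map_pow, aeval_X, map_one, sub_eq_zero] at this
    exact this
  have hωr : (AdjoinRoot.root m₀) ^ r = 1 := hωpow r hT₀r
  have hT₀ne : T₀ ≠ 1 := by
    intro h
    have h1 : v₀ ∈ LinearMap.ker (T₀ - 1) := by
      rw [LinearMap.mem_ker, h, sub_self]; rfl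
    rw [hT₀1] at h1
    exact hv₀ ((Submodule.mem_bot F).mp h1)
  have hω1 : AdjoinRoot.root m₀ ≠ 1 := by
    intro h
    apply hT₀ne
    have := bc_transfer m₀ T₀ hm₀T X 1 1 (by rw [aeval_X, pow_one, h, map_one])
    rwa [aeval_X, pow_one, map_one] at this
  obtain ⟨s, hs1, -, hsne⟩ := Cfsg.Agent.Helper41.TI5955.ti_types (F := F) r hrF
    (AdjoinRoot.root m₀) hωr hω1 u (by rw [← hb]; exact hus)
  choose G hG1 hG0 hGe using fun j =>
    Cfsg.Agent.Helper3.TI5955.ti_mf_proj (F := F) (fun j => (AdjoinRoot.root m₀) ^ s j) hs1 hsne j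
  obtain ⟨S, hS⟩ : ∃ S : Fin u → Module.End F (Fin b → F), ∀ l, S l = T₀ ^ s l :=
    ⟨fun l => T₀ ^ s l, fun _ => rfl⟩
  have hGS1 : ∀ j, aeval (S j) (G j) = 1 := by
    intro j
    have := bc_transfer m₀ T₀ hm₀T (G j) (s j) 1 (by rw [map_one]; exact hG1 j)
    rwa [map_one, ← hS] at this
  have hGS0 : ∀ j l, l ≠ j → aeval (S l) (G j) = 0 := by
    intro j l hl
    have := bc_transfer m₀ T₀ hm₀T (G j) (s l) 0 (by rw [map_zero]; exact hG0 j l hl)
    rwa [map_zero, ← hS] at this
  have hSr : ∀ l, S l ^ r = 1 := by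
    intro l
    rw [hS, ← pow_mul, mul_comm, pow_mul, hT₀r, one_pow]
  have hgpow_ne : ∀ l, g₀ ^ s l ≠ 1 := by
    intro l h
    apply hs1 l
    apply hωpow
    rw [← hpowT, h]
    exact Matrix.toLin'_one
  have hS1 : ∀ l, LinearMap.ker (S l - 1) = ⊥ := by
    intro l
    rw [hS, ← hpowT]
    exact hFPF (g₀ ^ s l) (pow_mem hg₀ _)
      (by rw [← pow_mul, mul_comm, pow_mul, hg₀r, one_pow]) (hgpow_ne l)
  -- the block matrix
  obtain ⟨M, Φ, hform, hΦM, hdet⟩ := hBLK (fun j =>
    ((g₀ ^ s j : Matrix.SpecialLinearGroup (Fin b) F) : Matrix (Fin b) (Fin b) F))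
  have hdet1 : M.det = 1 := by
    rw [hdet]
    exact Finset.prod_eq_one (fun j _ => (g₀ ^ s j).2)
  have hpres : ∀ a c, Cfsg.hermForm n F q (M.mulVec a) (M.mulVec c) =
      Cfsg.hermForm n F q a c := by
    intro a c
    rw [hform, hform a c, hΦM, hΦM]
    congr 1
    apply Finset.sum_congr rfl
    intro j _
    exact (mem_SU_iff b (g₀ ^ s j)).mp (pow_mem hg₀ _) _ _
  obtain ⟨x, hxSU, hxM⟩ := exists_SU_of_matrix (q := q) n M hdet1 hpres
  obtain ⟨TM, hTM⟩ : ∃ TM : Module.End F (Fin n → F), TM = Matrix.toLin' M := ⟨_, rfl⟩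
  have hΦT : ∀ a, Φ (TM a) = (fun l => S l ((Φ a).1 l), (Φ a).2) := by
    intro a
    rw [hTM, Matrix.toLin'_apply, hΦM]
    refine Prod.ext ?_ rfl
    funext l
    show ((g₀ ^ s l : Matrix.SpecialLinearGroup (Fin b) F) :
      Matrix (Fin b) (Fin b) F).mulVec ((Φ a).1 l) = S l ((Φ a).1 l)
    rw [hS, ← hpowT, Matrix.toLin'_apply]
  have hpow : ∀ (k : ℕ) (a : Fin n → F),
      Φ ((TM ^ k) a) = (fun l => (S l ^ k) ((Φ a).1 l), (Φ a).2) := by
    intro k
    induction k with
    | zero => intro a; simp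
    | succ k ih =>
      intro a
      rw [pow_succ, Module.End.mul_apply, ih, hΦT]
      refine Prod.ext ?_ rfl
      funext l
      show (S l ^ k) (S l ((Φ a).1 l)) = (S l ^ (k + 1)) ((Φ a).1 l)
      rw [pow_succ, Module.End.mul_apply]
  have haev : ∀ (P : F[X]) (a : Fin n → F),
      Φ (aeval TM P a) = (fun l => aeval (S l) P ((Φ a).1 l), P.eval 1 • (Φ a).2) := by
    intro P a
    induction P using Polynomial.induction_on' with
    | add p₁ p₂ hp₁ hp₂ =>
      rw [map_add, LinearMap.add_apply, map_add, hp₁, hp₂]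
      refine Prod.ext ?_ ?_
      · funext l
        show aeval (S l) p₁ ((Φ a).1 l) + aeval (S l) p₂ ((Φ a).1 l) =
          aeval (S l) (p₁ + p₂) ((Φ a).1 l)
        rw [map_add, LinearMap.add_apply]
      · show p₁.eval 1 • (Φ a).2 + p₂.eval 1 • (Φ a).2 = (p₁ + p₂).eval 1 • (Φ a).2
        rw [eval_add, add_smul]
    | monomial k c =>
      rw [aeval_monomial, Module.End.mul_apply, Module.algebraMap_end_apply, map_smul, hpow]
      refine Prod.ext ?_ ?_
      · funext l
        show c • ((S l ^ k) ((Φ a).1 l)) = aeval (S l) (monomial k c) ((Φ a).1 l)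
        rw [aeval_monomial, Module.End.mul_apply, Module.algebraMap_end_apply]
      · show c • (Φ a).2 = (monomial k c).eval 1 • (Φ a).2
        rw [eval_monomial, one_pow, mul_one]
  have hTMr : TM ^ r = 1 := by
    apply LinearMap.ext
    intro a
    apply Φ.injective
    rw [hpow]
    refine Prod.ext ?_ rfl
    funext l
    show (S l ^ r) ((Φ a).1 l) = (Φ a).1 l
    rw [hSr]; rfl
  have hMr : M ^ r = 1 := by
    apply Matrix.toLin'.injective
    rw [Matrix.toLin'_pow, ← hTM, hTMr, Matrix.toLin'_one]; rfl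
  refine ⟨x, hxSU, ?_, ?_, ?_⟩
  · apply Subtype.ext
    rw [Matrix.SpecialLinearGroup.coe_pow, hxM, hMr]; rfl
  · intro z hz
    rw [hxM] at hz
    obtain ⟨j₀⟩ : Nonempty (Fin u) := ⟨⟨0, hu⟩⟩
    have hz' : ∀ v : Fin b → F, S j₀ v = z • v := by
      intro v
      have h1 := hΦT (Φ.symm (Pi.single j₀ v, 0))
      rw [hTM, hz, Matrix.toLin'_apply, Matrix.smul_mulVec, Matrix.one_mulVec, map_smul,
        Φ.apply_symm_apply] at h1
      have h2 := congrFun (congrArg Prod.fst h1) j₀
      simp only [Prod.smul_fst, Pi.smul_apply, Pi.single_eq_same] at h2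
      exact h2.symm
    have hAinv : (Submodule.span F {v₀}).map (S j₀) ≤ Submodule.span F {v₀} := by
      rintro _ ⟨v, hv, rfl⟩
      rw [hz']
      exact Submodule.smul_mem _ _ hv
    rcases hirr (S j₀) (hSr j₀) (hS1 j₀) _ hAinv with hbot | htop
    · exact hv₀ ((Submodule.span_singleton_eq_bot).mp hbot)
    · have h1 := finrank_span_singleton (K := F) hv₀
      rw [htop, finrank_top, Module.finrank_fin_fun] at h1
      omega
  · intro W hTI hW
    rw [hxM, ← hTM] at hW
    have hcomp : ∀ (j : Fin u) (w : Fin n → F), w ∈ W →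
        Φ.symm (Pi.single j ((Φ w).1 j), 0) ∈ W := by
      intro j w hw
      have h1 := Cfsg.Agent.Helper90.BG.aeval_mem TM W hW (G j) hw
      have h2 : aeval TM (G j) w = Φ.symm (Pi.single j ((Φ w).1 j), 0) := by
        apply Φ.injective
        rw [haev, Φ.apply_symm_apply, hGe j, zero_smul]
        refine Prod.ext ?_ rfl
        funext l
        by_cases hl : l = j
        · subst hl
          show aeval (S l) (G l) ((Φ w).1 l) =
            (Pi.single l ((Φ w).1 l) : Fin u → Fin b → F) l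
          rw [hGS1, Pi.single_eq_same]; rfl
        · show aeval (S l) (G j) ((Φ w).1 l) =
            (Pi.single j ((Φ w).1 j) : Fin u → Fin b → F) l
          rw [hGS0 j l hl, Pi.single_eq_of_ne hl]; rfl
      rw [h2] at h1
      exact h1
    have hzero : ∀ (j : Fin u) (w : Fin n → F), w ∈ W → (Φ w).1 j = 0 := by
      intro j
      obtain ⟨ι, hι⟩ : ∃ ι : (Fin b → F) →ₗ[F] (Fin n → F),
          ∀ v, ι v = Φ.symm (Pi.single j v, 0) :=
        ⟨Φ.symm.toLinearMap ∘ₗ LinearMap.inl F (Fin u → Fin b → F) (Fin e → F) ∘ₗ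
          LinearMap.single F (fun _ : Fin u => Fin b → F) j, fun v => rfl⟩
      have hAinv : (W.comap ι).map (S j) ≤ W.comap ι := by
        rintro _ ⟨v, hv, rfl⟩
        rw [SetLike.mem_coe, Submodule.mem_comap] at hv
        rw [Submodule.mem_comap]
        have h1 : TM (ι v) ∈ W := hW (Submodule.mem_map_of_mem hv)
        have h2 : TM (ι v) = ι (S j v) := by
          apply Φ.injective
          rw [hΦT, hι, hι, Φ.apply_symm_apply, Φ.apply_symm_apply]
          refine Prod.ext ?_ rfl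
          funext l
          by_cases hl : l = j
          · subst hl
            show S l ((Pi.single l v : Fin u → Fin b → F) l) =
              (Pi.single l (S l v) : Fin u → Fin b → F) l
            rw [Pi.single_eq_same, Pi.single_eq_same]
          · show S l ((Pi.single j v : Fin u → Fin b → F) l) =
              (Pi.single j (S j v) : Fin u → Fin b → F) l
            rw [Pi.single_eq_of_ne hl, Pi.single_eq_of_ne hl, map_zero]
        rw [← h2]; exact h1
      rcases hirr (S j) (hSr j) (hS1 j) _ hAinv with hbot | htop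
      · intro w hw
        have h1 : (Φ w).1 j ∈ W.comap ι := by
          rw [Submodule.mem_comap, hι]; exact hcomp j w hw
        rw [hbot] at h1
        exact (Submodule.mem_bot F).mp h1
      · exfalso
        apply hv₀
        apply hermForm_nondeg hq b v₀
        intro w'
        have h1 : ι v₀ ∈ W := by
          have : v₀ ∈ W.comap ι := by rw [htop]; trivial
          exact this
        have h2 : ι w' ∈ W := by
          have : w' ∈ W.comap ι := by rw [htop]; trivial
          exact this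
        have h3 := hTI _ h1 _ h2
        rw [hform, hι, hι, Φ.apply_symm_apply, Φ.apply_symm_apply, Finset.sum_eq_single j] at h3
        · have h0 : Cfsg.hermForm e F q 0 0 = 0 := by simp [Cfsg.hermForm]
          simp only [Pi.single_eq_same] at h3
          rw [h0, add_zero] at h3
          exact h3
        · intro l _ hl
          show Cfsg.hermForm b F q ((Pi.single j v₀ : Fin u → Fin b → F) l)
            ((Pi.single j w' : Fin u → Fin b → F) l) = 0
          rw [Pi.single_eq_of_ne hl, Pi.single_eq_of_ne hl]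
          simp [Cfsg.hermForm]
        · intro h; exact absurd (Finset.mem_univ j) h
    obtain ⟨L, hL⟩ : ∃ L : ↥W →ₗ[F] (Fin e → F), ∀ w : ↥W, L w = (Φ (w : Fin n → F)).2 :=
      ⟨(LinearMap.snd F _ _ ∘ₗ Φ.toLinearMap).domRestrict W, fun w => rfl⟩
    have hLinj : Function.Injective L := by
      rw [injective_iff_map_eq_zero]
      intro w hw
      rw [hL] at hw
      apply Subtype.ext
      apply Φ.injective
      rw [Submodule.coe_zero, map_zero]
      refine Prod.ext ?_ hw
      funext j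
      exact hzero j w w.2
    have hfr : finrank F (LinearMap.range L) = finrank F W :=
      LinearMap.finrank_range_of_inj hLinj
    have hTI2 : ∀ a ∈ LinearMap.range L, ∀ c ∈ LinearMap.range L,
        Cfsg.hermForm e F q a c = 0 := by
      rintro _ ⟨w, rfl⟩ _ ⟨w', rfl⟩
      have h1 := hTI _ w.2 _ w'.2
      rw [hform, Finset.sum_eq_zero, zero_add] at h1
      · rw [hL, hL]; exact h1
      · intro j _
        rw [hzero j w w.2]
        simp [Cfsg.hermForm]
    have h4 := hTIB _ hTI2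
    rw [hfr] at h4
    exact h4

end core

end Cfsg.Agent.Helper94.HT5953
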