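import Mathlib
import Cfsg.Agent.Helper90.HTDefs
import Cfsg.Agent.Helper94.HTBCCore
import Cfsg.Agent.Helper5.HTBLK
import Cfsg.Agent.Helper5.HTCAUCHY
import Cfsg.Agent.Helper5.HTFPF
import Cfsg.Agent.Helper47.HTHTIB
import Cfsg.Agent.Helper37.HTORDC
import Cfsg.Agent.Helper19.HTDIAGOBS

/-!
# CALL S5953 (helper90), piece BC (helper94): the multiplicity-free bad element `bad_c_u`
-/

set_option autoImplicit false

namespace Cfsg.Agent.Helper94.HT5953

open Module Polynomial Cfsg.Agent.Helper90.HT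

section models

variable {F : Type*} [Field F] [Fintype F] (q : ℕ) (hq : Fintype.card F = q ^ 2)

include hq

/-- BC (uses CAUCHY, FPF, BLK, Helper41 ti_types, CRT idempotents, HTIB): multiplicity-free. -/
theorem bad_c_u (r : ℕ) [Fact r.Prime] (hr2 : 2 < r) (hrq : ¬ r ∣ q) (b : ℕ)
    (hb : b = orderOf ((Fintype.card F : ℕ) : ZMod r)) (hb3 : 3 ≤ b)
    (hi : orderOf ((q : ℕ) : ZMod r) % 4 = 2) (n u e : ℕ) (hu : 1 ≤ u)
    (hus : u ≤ (r - 1) / b) (hdim : n = b * u + e) :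
    ∃ x : Matrix.SpecialLinearGroup (Fin n) F, x ∈ Cfsg.SU n F q ∧ x ^ r = 1 ∧
      (∀ z : F, (x : Matrix (Fin n) (Fin n) F) ≠ z • 1) ∧
      ∀ W : Submodule F (Fin n → F), (∀ u ∈ W, ∀ v ∈ W, Cfsg.hermForm n F q u v = 0) →
        W.map (Matrix.toLin' (x : Matrix (Fin n) (Fin n) F)) ≤ W → 2 * finrank F W ≤ e := by
  obtain ⟨-, -, -, hbord, -, h42, -, -, hdiv⟩ :=
    Cfsg.Agent.Helper37.HT5953.ht_ordc r q hr2 hrq (orderOf ((q : ℕ) : ZMod r))
      (if Even (orderOf ((q : ℕ) : ZMod r)) then orderOf ((q : ℕ) : ZMod r) / 2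
        else orderOf ((q : ℕ) : ZMod r))
      (if orderOf ((q : ℕ) : ZMod r) % 4 = 0 then orderOf ((q : ℕ) : ZMod r)
        else if orderOf ((q : ℕ) : ZMod r) % 4 = 2 then orderOf ((q : ℕ) : ZMod r) / 2
        else 2 * orderOf ((q : ℕ) : ZMod r)) rfl rfl rfl
  obtain ⟨hcb, -⟩ := h42 hi
  have hbb : b = (if Even (orderOf ((q : ℕ) : ZMod r)) then orderOf ((q : ℕ) : ZMod r) / 2
      else orderOf ((q : ℕ) : ZMod r)) := by
    rw [hb, hq, hbord]
  rw [hcb, ← hbb] at hdiv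
  have hcr : r ∣ (if Even b then q ^ b - 1 else q ^ b + 1) := (hdiv b (by omega)).mpr dvd_rfl
  have hcmin : ∀ j, 1 ≤ j → j < b → ¬ r ∣ (if Even j then q ^ j - 1 else q ^ j + 1) :=
    fun j h1 h2 h => Nat.not_dvd_of_pos_of_lt (by omega) h2 ((hdiv j h1).mp h)
  have h1 : ¬ r ∣ q + 1 := by
    have := hcmin 1 le_rfl (by omega)
    simpa using this
  obtain ⟨σ, hσ⟩ := Cfsg.Agent.Helper19.HT5953.dg_exists_frob (F := F) q hq
  exact bad_c_core q hq r hrq b hb hb3 n u e hu hus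
    (Cfsg.Agent.Helper5.HT5953.ht_cauchy q hq b (by omega) r hr2 hrq hcr h1)
    (fun g hg hgr hg1 => Cfsg.Agent.Helper5.HT5953.ht_fpf q hq b (by omega) r hr2 hrq hcmin g hg
      hgr hg1)
    (fun g => Cfsg.Agent.Helper5.HT5953.ht_block q b u e n hdim g)
    (fun W hW => by
      have := Cfsg.Agent.Helper47.HT5953.ht_bound σ (Cfsg.hermForm e F q)
        (isHerm_hermForm hq σ hσ e) ⊤ W
        (fun v _ hv => hermForm_nondeg hq e v (fun w => hv w trivial)) le_top hW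
      rwa [finrank_top, Module.finrank_fin_fun] at this)

end models

end Cfsg.Agent.Helper94.HT5953
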