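import Cfsg.Agent.Helper94.Quad
import Cfsg.Agent.Helper94.Symp

set_option autoImplicit false
set_option linter.unusedSectionVars false
set_option linter.unusedSimpArgs false
set_option linter.unnecessarySeqFocus false

namespace Cfsg.Agent.Helper94

open Cfsg Cfsg.Geo Matrix
open scoped commutatorElement

universe u

variable {ι : Type} [Fintype ι] [DecidableEq ι] {F : Type u} [Field F]
variable {Q : (ι → F) → F}

/-- The reflection in `x - x'` for orthogonal `x, x'` with the same non-zero value of `Q` swaps them. -/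
theorem swap_props (hQ : IsNondegenerateQuadraticForm Q) (h2 : (2 : F) ≠ 0) (x x' : ι → F) (η : F)
    (hη : η ≠ 0) (hx : Q x = η) (hx' : Q x' = η) (hxx' : polB hQ x x' = 0) :
    Q (x - x') = 2 * η ∧ reflLin hQ (x - x') x = x' ∧ reflLin hQ (x - x') x' = x ∧
      ∀ s, polB hQ s x = 0 → polB hQ s x' = 0 → reflLin hQ (x - x') s = s := by
  have hq : Q (x - x') = 2 * η := by
    rw [q_sub hQ, hx, hx', hxx']; ring
  have hx'x : polB hQ x' x = 0 := by rw [polB_comm]; exact hxx'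
  have h2η : (2 * η) ≠ 0 := mul_ne_zero h2 hη
  refine ⟨hq, ?_, ?_, ?_⟩
  · rw [reflLin_apply, hq, map_sub, polB_self hQ, hx, hxx', sub_zero, inv_mul_cancel₀ h2η, one_smul]
    abel
  · rw [reflLin_apply, hq, map_sub, polB_self hQ, hx', hx'x, zero_sub, mul_neg, inv_mul_cancel₀ h2η,
      neg_smul, one_smul]
    abel
  · intro s hs hs'
    rw [reflLin_apply, map_sub, hs, hs', sub_zero, mul_zero, zero_smul, sub_zero]

/-- The vectors of value `η` lying in a member of the family `D`. -/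
def frameSet (Q : (ι → F) → F) {t : ℕ} (D : Fin t → Submodule F (ι → F)) (η : F) : Set (ι → F) :=
  {v | ∃ i, v ∈ D i ∧ Q v = η}

/-- An involution in `GL` mapping a set into itself stabilises it. -/
theorem mem_stabilizing_of_invol (S : Set (ι → F)) (g : GL ι F) (hg : g⁻¹ = g)
    (h : ∀ v ∈ S, (g : Matrix ι ι F) *ᵥ v ∈ S) : g ∈ Cfsg.stabilizing (Cfsg.glToMat ι F) S := by
  rw [mem_stabilizing_iff]
  intro v
  refine ⟨h v, fun hv => ?_⟩
  have h1 := h _ hv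
  have h2 : ((g⁻¹ : GL ι F) : Matrix ι ι F) *ᵥ ((g : Matrix ι ι F) *ᵥ v) = v := by
    rw [mulVec_mulVec, ← Units.val_mul, inv_mul_cancel, Units.val_one, one_mulVec]
  rw [hg] at h2
  rwa [h2] at h1

/-- The swap reflection of two good vectors in different members preserves the frame set. -/
theorem swap_mem_stab (hQ : IsNondegenerateQuadraticForm Q) (h2 : (2 : F) ≠ 0) {t : ℕ}
    (D : Fin t → Submodule F (ι → F))
    (horth : ∀ i j, i ≠ j → ∀ u ∈ D i, ∀ v ∈ D j, polB hQ u v = 0)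
    (η : F) (hη : η ≠ 0) (i j : Fin t) (hij : i ≠ j) (x x' : ι → F) (hxD : x ∈ D i) (hx'D : x' ∈ D j)
    (hx : Q x = η) (hx' : Q x' = η)
    (hg : ∀ s ∈ D i, Q s = η → (∃ c : F, s = c • x) ∨ polB hQ s x = 0)
    (hg' : ∀ s ∈ D j, Q s = η → (∃ c : F, s = c • x') ∨ polB hQ s x' = 0)
    (hu : Q (x - x') ≠ 0) :
    reflGL hQ (x - x') hu ∈ Cfsg.stabilizing (Cfsg.glToMat ι F) (frameSet Q D η) := by
  obtain ⟨-, e1, e2, e3⟩ := swap_props hQ h2 x x' η hη hx hx' (horth i j hij x hxD x' hx'D)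
  apply mem_stabilizing_of_invol _ _ (reflGL_inv hQ _ hu)
  rintro s ⟨l, hsl, hs⟩
  have hiso : Q (((reflGL hQ (x - x') hu : GL ι F) : Matrix ι ι F) *ᵥ s) = Q s :=
    isom_apply (reflGL_mem hQ _ hu) s
  have hmem : ∃ l', ((reflGL hQ (x - x') hu : GL ι F) : Matrix ι ι F) *ᵥ s ∈ D l' := by
    rw [reflGL_mulVec]
    by_cases hli : l = i
    · rw [hli] at hsl
      rcases hg s hsl hs with ⟨c, rfl⟩ | h0
      · exact ⟨j, by rw [map_smul, e1]; exact (D j).smul_mem _ hx'D⟩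
      · exact ⟨i, by rw [e3 s h0 (horth i j hij s hsl x' hx'D)]; exact hsl⟩
    · by_cases hlj : l = j
      · rw [hlj] at hsl
        rcases hg' s hsl hs with ⟨c, rfl⟩ | h0
        · exact ⟨i, by rw [map_smul, e2]; exact (D i).smul_mem _ hxD⟩
        · exact ⟨j, by rw [e3 s (horth j i hij.symm s hsl x hxD) h0]; exact hsl⟩
      · exact ⟨l, by rw [e3 s (horth l i hli s hsl x hxD) (horth l j hlj s hsl x' hx'D)]; exact hsl⟩
  obtain ⟨l', hl'⟩ := hmem
  exact ⟨l', hl', by rw [hiso]; exact hs⟩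

/-- The frame lemma: a family of at least four pairwise orthogonal subspaces, each containing a "good" vector of
value `η` (every vector of value `η` in the member is a multiple of it or orthogonal to it) and a non-singular
vector orthogonal to it. Then the stabiliser of the family in `Ω` is strictly contained in the stabiliser in `Ω`
of the set of vectors of value `η` in the members, which is a proper subgroup of `Ω`. -/
theorem frame_not_maximal (hQ : IsNondegenerateQuadraticForm Q) (h2 : (2 : F) ≠ 0) {t : ℕ}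
    (D : Fin t → Submodule F (ι → F)) (ht : 4 ≤ t)
    (horth : ∀ i j, i ≠ j → ∀ u ∈ D i, ∀ v ∈ D j, polB hQ u v = 0)
    (η : F) (hη : η ≠ 0)
    (hgood : ∀ i, ∃ x y, x ∈ D i ∧ Q x = η ∧
      (∀ s ∈ D i, Q s = η → (∃ c : F, s = c • x) ∨ polB hQ s x = 0) ∧
      y ∈ D i ∧ polB hQ y x = 0 ∧ Q y ≠ 0) :
    ∃ K : Subgroup (GL ι F), decompositionStabilizer D ⊓ omegaGL Q < K ∧ K < omegaGL Q := by
  classical
  have h2η : (2 * η) ≠ 0 := mul_ne_zero h2 hη
  obtain ⟨i₀, i₁, i₂, i₃, n01, n02, n03, n12, n13, n23⟩ : ∃ i₀ i₁ i₂ i₃ : Fin t,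
      i₀ ≠ i₁ ∧ i₀ ≠ i₂ ∧ i₀ ≠ i₃ ∧ i₁ ≠ i₂ ∧ i₁ ≠ i₃ ∧ i₂ ≠ i₃ :=
    ⟨⟨0, by omega⟩, ⟨1, by omega⟩, ⟨2, by omega⟩, ⟨3, by omega⟩, by simp [Fin.ext_iff],
      by simp [Fin.ext_iff], by simp [Fin.ext_iff], by simp [Fin.ext_iff], by simp [Fin.ext_iff],
      by simp [Fin.ext_iff]⟩
  obtain ⟨x₀, y₀, hx₀D, hx₀, hg₀, hy₀D, hy₀x₀, hy₀⟩ := hgood i₀
  obtain ⟨x₁, y₁, hx₁D, hx₁, hg₁, -, -, -⟩ := hgood i₁
  obtain ⟨x₂, y₂, hx₂D, hx₂, hg₂, -, -, -⟩ := hgood i₂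
  obtain ⟨x₃, y₃, hx₃D, hx₃, hg₃, -, -, -⟩ := hgood i₃
  have o01 := horth i₀ i₁ n01 x₀ hx₀D x₁ hx₁D
  have o02 := horth i₀ i₂ n02 x₀ hx₀D x₂ hx₂D
  have o03 := horth i₀ i₃ n03 x₀ hx₀D x₃ hx₃D
  have o12 := horth i₁ i₂ n12 x₁ hx₁D x₂ hx₂D
  have o13 := horth i₁ i₃ n13 x₁ hx₁D x₃ hx₃D
  have o23 := horth i₂ i₃ n23 x₂ hx₂D x₃ hx₃D
  have o10 := horth i₁ i₀ n01.symm x₁ hx₁D x₀ hx₀D
  have o20 := horth i₂ i₀ n02.symm x₂ hx₂D x₀ hx₀D
  have o30 := horth i₃ i₀ n03.symm x₃ hx₃D x₀ hx₀D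
  have o21 := horth i₂ i₁ n12.symm x₂ hx₂D x₁ hx₁D
  have o31 := horth i₃ i₁ n13.symm x₃ hx₃D x₁ hx₁D
  have o32 := horth i₃ i₂ n23.symm x₃ hx₃D x₂ hx₂D
  have s0 : polB hQ x₀ x₀ = 2 * η := by rw [polB_self, hx₀]
  have s1 : polB hQ x₁ x₁ = 2 * η := by rw [polB_self, hx₁]
  have s2 : polB hQ x₂ x₂ = 2 * η := by rw [polB_self, hx₂]
  have s3 : polB hQ x₃ x₃ = 2 * η := by rw [polB_self, hx₃]
  refine ⟨Cfsg.stabilizing (Cfsg.glToMat ι F) (frameSet Q D η) ⊓ omegaGL Q, ?_, ?_⟩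
  · rw [SetLike.lt_iff_le_and_exists]
    constructor
    · have fwd : ∀ g : GL ι F, g ∈ decompositionStabilizer D ⊓ omegaGL Q →
          ∀ v ∈ frameSet Q D η, (g : Matrix ι ι F) *ᵥ v ∈ frameSet Q D η := by
        rintro g ⟨⟨σ, hσ⟩, hgΩ⟩ v ⟨i, hvi, hv⟩
        refine ⟨σ i, ?_, ?_⟩
        · rw [← hσ i]
          exact ⟨v, hvi, Matrix.toLin'_apply _ _⟩
        · rw [isom_apply (omega_le_isom hgΩ), hv]
      intro g hg
      refine ⟨(mem_stabilizing_iff _ g).mpr ?_, hg.2⟩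
      intro v
      refine ⟨fwd g hg v, fun hv => ?_⟩
      have := fwd g⁻¹ (inv_mem hg) _ hv
      rwa [mulVec_mulVec, ← Units.val_mul, inv_mul_cancel, Units.val_one, one_mulVec] at this
    · obtain ⟨hq01, e01a, e01b, e01c⟩ := swap_props hQ h2 x₀ x₁ η hη hx₀ hx₁ o01
      obtain ⟨hq12, e12a, e12b, e12c⟩ := swap_props hQ h2 x₁ x₂ η hη hx₁ hx₂ o12
      have hu01 : Q (x₀ - x₁) ≠ 0 := by rw [hq01]; exact h2η
      have hu12 : Q (x₁ - x₂) ≠ 0 := by rw [hq12]; exact h2η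
      have hm01 := swap_mem_stab hQ h2 D horth η hη i₀ i₁ n01 x₀ x₁ hx₀D hx₁D hx₀ hx₁ hg₀ hg₁ hu01
      have hm12 := swap_mem_stab hQ h2 D horth η hη i₁ i₂ n12 x₁ x₂ hx₁D hx₂D hx₁ hx₂ hg₁ hg₂ hu12
      refine ⟨⁅reflGL hQ (x₀ - x₁) hu01, reflGL hQ (x₁ - x₂) hu12⁆, ⟨?_, ?_⟩, ?_⟩
      · rw [commutatorElement_def]
        exact Subgroup.mul_mem _ (Subgroup.mul_mem _ (Subgroup.mul_mem _ hm01 hm12)
          (Subgroup.inv_mem _ hm01)) (Subgroup.inv_mem _ hm12)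
      · exact comm_mem_omega (reflGL_mem hQ _ hu01) (reflGL_mem hQ _ hu12)
      · rintro ⟨⟨σ, hσ⟩, -⟩
        have c1 : ((⁅reflGL hQ (x₀ - x₁) hu01, reflGL hQ (x₁ - x₂) hu12⁆ : GL ι F) : Matrix ι ι F) *ᵥ x₀
            = x₂ := by
          rw [comm_refl_mulVec, e12c x₀ o01 o02, e01a, e12a, e01c x₂ o20 o21]
        have c2 : ((⁅reflGL hQ (x₀ - x₁) hu01, reflGL hQ (x₁ - x₂) hu12⁆ : GL ι F) : Matrix ι ι F) *ᵥ y₀
            = y₀ := by
          have a1 := horth i₀ i₁ n01 y₀ hy₀D x₁ hx₁D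
          have a2 := horth i₀ i₂ n02 y₀ hy₀D x₂ hx₂D
          rw [comm_refl_mulVec, e12c y₀ a1 a2, e01c y₀ hy₀x₀ a1, e12c y₀ a1 a2, e01c y₀ hy₀x₀ a1]
        have m1 : x₂ ∈ D (σ i₀) := by
          rw [← hσ i₀]
          exact ⟨x₀, hx₀D, by rw [Matrix.toLin'_apply, c1]⟩
        have m2 : y₀ ∈ D (σ i₀) := by
          rw [← hσ i₀]
          exact ⟨y₀, hy₀D, by rw [Matrix.toLin'_apply, c2]⟩
        have hσ2 : σ i₀ = i₂ := by
          by_contra hne
          have := horth (σ i₀) i₂ hne x₂ m1 x₂ hx₂D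
          rw [s2] at this
          exact h2η this
        rw [hσ2] at m2
        have := horth i₂ i₀ n02.symm y₀ m2 y₀ hy₀D
        rw [polB_self] at this
        exact (mul_ne_zero h2 hy₀) this
  · rw [SetLike.lt_iff_le_and_exists]
    refine ⟨inf_le_right, ?_⟩
    have h4 : (4 : F) ≠ 0 := by
      have : (4 : F) = 2 * 2 := by norm_num
      rw [this]
      exact mul_ne_zero h2 h2
    have ha : Q (x₀ + x₁ + x₂ + x₃) = 4 * η := by
      rw [q_add hQ, q_add hQ, q_add hQ, hx₀, hx₁, hx₂, hx₃]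
      simp only [map_add, LinearMap.add_apply, o01, o02, o03, o12, o13, o23]
      ring
    have ha0 : Q (x₀ + x₁ + x₂ + x₃) ≠ 0 := by rw [ha]; exact mul_ne_zero h4 hη
    have hx₁0 : Q x₁ ≠ 0 := by rw [hx₁]; exact hη
    refine ⟨⁅reflGL hQ (x₀ + x₁ + x₂ + x₃) ha0, reflGL hQ x₁ hx₁0⁆,
      comm_mem_omega (reflGL_mem hQ _ ha0) (reflGL_mem hQ _ hx₁0), ?_⟩
    rintro ⟨hst, -⟩
    have hin := ((mem_stabilizing_iff _ _).mp hst x₀).mp ⟨i₀, hx₀D, hx₀⟩
    rw [comm_refl_mulVec] at hin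
    have r1 : reflLin hQ x₁ x₀ = x₀ := by
      rw [reflLin_apply, o01, mul_zero, zero_smul, sub_zero]
    have r2 : reflLin hQ (x₀ + x₁ + x₂ + x₃) x₀ = x₀ - (2 : F)⁻¹ • (x₀ + x₁ + x₂ + x₃) := by
      rw [reflLin_apply, ha]
      simp only [map_add, s0, o01, o02, o03, add_zero]
      congr 2
      field_simp
      ring
    have r3 : reflLin hQ x₁ (x₀ - (2 : F)⁻¹ • (x₀ + x₁ + x₂ + x₃)) =
        x₀ - (2 : F)⁻¹ • (x₀ + x₁ + x₂ + x₃) + x₁ := by
      rw [reflLin_apply, hx₁]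
      simp only [map_add, map_sub, map_smul, LinearMap.add_apply, LinearMap.sub_apply, LinearMap.smul_apply,
        smul_eq_mul, s1, o01, o21, o31, add_zero, zero_add, zero_sub]
      have : η⁻¹ * -((2 : F)⁻¹ * (2 * η)) = -1 := by
        field_simp
      rw [this]
      module
    have r4 : reflLin hQ (x₀ + x₁ + x₂ + x₃) (x₀ - (2 : F)⁻¹ • (x₀ + x₁ + x₂ + x₃) + x₁) =
        x₀ - (2 : F)⁻¹ • (x₀ + x₁ + x₂ + x₃) + x₁ := by
      rw [reflLin_apply, ha]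
      simp only [map_add, map_sub, map_smul, LinearMap.add_apply, LinearMap.sub_apply, LinearMap.smul_apply,
        smul_eq_mul, s0, s1, s2, s3, o01, o02, o03, o12, o13, o23, o10, o20, o30, o21, o31, o32, add_zero,
        zero_add]
      rw [sub_eq_self, smul_eq_zero]
      left
      field_simp
      ring
    rw [r1, r2, r3, r4] at hin
    obtain ⟨j, hj, -⟩ := hin
    have c2 : polB hQ (x₀ - (2 : F)⁻¹ • (x₀ + x₁ + x₂ + x₃) + x₁) x₂ = -η := by
      simp only [map_add, map_sub, map_smul, LinearMap.add_apply, LinearMap.sub_apply, LinearMap.smul_apply,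
        smul_eq_mul, s2, o02, o12, o32, add_zero, zero_add, zero_sub]
      field_simp
    have c3 : polB hQ (x₀ - (2 : F)⁻¹ • (x₀ + x₁ + x₂ + x₃) + x₁) x₃ = -η := by
      simp only [map_add, map_sub, map_smul, LinearMap.add_apply, LinearMap.sub_apply, LinearMap.smul_apply,
        smul_eq_mul, s3, o03, o13, o23, add_zero, zero_add, zero_sub]
      field_simp
    have hj2 : j = i₂ := by
      by_contra hne
      have := horth j i₂ hne _ hj x₂ hx₂D
      rw [c2] at this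
      exact hη (neg_eq_zero.mp this)
    have hj3 : j = i₃ := by
      by_contra hne
      have := horth j i₃ hne _ hj x₃ hx₃D
      rw [c3] at this
      exact hη (neg_eq_zero.mp this)
    exact n23 (hj2.symm.trans hj3)

end Cfsg.Agent.Helper94
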