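-- helper94 library: the central-product case for groups of isometries of a symmetric form in odd
-- dimension and odd characteristic: the form is a tensor power of a symmetric form.
import Cfsg.Agent.Helper94.OA5
import Cfsg.Agent.Helper96.SpY3

set_option autoImplicit false
set_option linter.unusedSectionVars false
set_option linter.unusedVariables false
open Cfsg Cfsg.Geo Matrix
open Cfsg.Agent.Helper96
open scoped Kronecker

namespace Cfsg.Agent.Helper94.OA

variable {F : Type*} [Field F] {n : ℕ} {f : (Fin n → F) → (Fin n → F) → F}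

/-- The tensor-power form structure attached to a Gram matrix in tensor-power coordinates
(symmetric forms). -/
theorem power_form_structure (hf : IsSymmetricForm f) {d t : ℕ}
    (e : Fin n ≃ (Fin t → Fin d)) (P : GL (Fin n) F) (A : Matrix (Fin d) (Fin d) F) (c : F)
    (hc : c ≠ 0) (hG : Helper97.Gen.gram f = formOf e P (c • ptM (fun _ => A))) :
    IsTensorPowerFormStructure id f (bf A) e P := by
  refine ⟨c, hc, fun x y => ?_⟩
  rw [Sy.gramMatrix_bf]
  have h1 := (Helper97.Gen.isSesq_of_bilinear hf.bilinear).apply_mulVec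
    (P : Matrix (Fin n) (Fin n) F) (x ∘ e) (y ∘ e)
  rw [h1, Sy.map_refl', hG, formOf_conj]
  simp only [dotProduct, Matrix.mulVec, Matrix.coe_reindexAlgEquiv, Matrix.reindex_apply,
    Matrix.submatrix_apply, Equiv.symm_symm, Function.comp_apply, RingEquiv.refl_apply, id,
    Matrix.smul_apply, ptM_apply, smul_eq_mul]
  rw [Finset.mul_sum, ← Equiv.sum_comp e]
  apply Finset.sum_congr rfl
  intro i _
  rw [Finset.mul_sum, Finset.mul_sum, ← Equiv.sum_comp e]
  apply Finset.sum_congr rfl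
  intro j _
  ring

/-- The central-product case in odd dimension and odd characteristic: the form is a tensor power of
a symmetric form, and the group lies in the corresponding tensor-wreath group. -/
theorem cp_wreath_form [Fintype F] [NeZero n] (h2 : (2 : F) ≠ 0) (hodd : Odd n)
    (hf : IsSymmetricForm f) (H N S : Subgroup (GL (Fin n) F)) (hH : H ≤ Sy.isoSub f) {d k : ℕ}
    (e : Fin n ≃ Fin d × Fin k) (Pm : GL (Fin n) F)
    (ρ : Matrix (Fin n) (Fin n) F → Matrix (Fin d) (Fin d) F) (hCP : CPData H N S d k e Pm ρ) :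
    ∃ (t : ℕ) (e' : Fin n ≃ (Fin t → Fin d)) (P' : GL (Fin n) F)
      (f₁ : (Fin d → F) → (Fin d → F) → F), 2 ≤ t ∧ IsSymmetricForm f₁ ∧
      IsTensorPowerFormStructure id f f₁ e' P' ∧ H ≤ tensorWreathSubgroup d t e' P' := by
  classical
  obtain ⟨t, e', P', ht, hle, hact⟩ := cp_wreath_le2 H N S e Pm ρ hCP
  have hNiso : N ≤ Sy.isoSub f := hCP.le.trans hH
  obtain ⟨R, hR⟩ : ∃ R : Set (Matrix (Fin d) (Fin d) F), R = ρ '' matrixSet S := ⟨_, rfl⟩
  have habsR : ActsAbsolutelyIrreducibly R := by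
    rw [hR]
    refine ⟨fun W hW => hCP.tensor.irr W (fun s hs w hw => ?_),
      fun M hM => hCP.tensor.cent M (fun s hs => hM (ρ s) ⟨s, hs, rfl⟩)⟩
    have := hW (ρ s) ⟨s, hs, rfl⟩ ⟨w, hw, rfl⟩
    rwa [Matrix.toLin'_apply] at this
  obtain ⟨ψ, -, hψ⟩ := Sy.rhoHom_exists hCP.tensor
  have hinvR : ∀ x ∈ R, ∃ y ∈ R, x * y = 1 ∧ y * x = 1 := by
    rw [hR]
    rintro _ ⟨_, ⟨s, hs, rfl⟩, rfl⟩
    have h1 := hψ ⟨s, hs⟩
    have h1' := hψ ⟨s⁻¹, S.inv_mem hs⟩
    have h3 : (⟨s, hs⟩ : S) * ⟨s⁻¹, S.inv_mem hs⟩ = 1 := by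
      apply Subtype.ext
      exact mul_inv_cancel s
    have h4 : (⟨s⁻¹, S.inv_mem hs⟩ : S) * ⟨s, hs⟩ = 1 := by
      apply Subtype.ext
      exact inv_mul_cancel s
    refine ⟨ρ ((s⁻¹ : GL (Fin n) F) : Matrix (Fin n) (Fin n) F),
      ⟨_, ⟨s⁻¹, S.inv_mem hs, rfl⟩, rfl⟩, ?_, ?_⟩
    · rw [← h1, ← h1', ← Units.val_mul, ← map_mul, h3, map_one, Units.val_one]
    · rw [← h1, ← h1', ← Units.val_mul, ← map_mul, h4, map_one, Units.val_one]
  -- the Gram matrix in tensor-power coordinates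
  obtain ⟨G, hG⟩ : ∃ G, G = Helper97.Gen.gram f := ⟨_, rfl⟩
  obtain ⟨Mt, hMt⟩ : ∃ Mt : Matrix (Fin t → Fin d) (Fin t → Fin d) F,
      Mt = Matrix.reindexAlgEquiv F F e'
        ((P' : Matrix (Fin n) (Fin n) F)ᵀ * G * (P' : Matrix (Fin n) (Fin n) F)) := ⟨_, rfl⟩
  have hGM : G = formOf e' P' Mt := by
    rw [hMt]
    exact (Sy.formOf_reindex e' P' G).symm
  have hMt0 : Mt ≠ 0 := by
    intro h0
    have h1 : G = 0 := by
      rw [hGM, h0, formOf, map_zero, mul_zero, zero_mul]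
    apply det_gram_ne_zero hf
    rw [← hG, h1]
    have : Nonempty (Fin n) := ⟨⟨0, Nat.pos_of_ne_zero (NeZero.ne n)⟩⟩
    exact Matrix.det_zero
  have hfix : ∀ (j : Fin t), ∀ m ∈ R, (facM j m)ᵀ * Mt * facM j m = Mt := by
    rw [hR]
    rintro j _ ⟨_, ⟨s, hs, rfl⟩, rfl⟩
    obtain ⟨x, hx, hxval⟩ := hact j s hs
    have h1 := gram_iso hf (hNiso hx)
    rw [← hG, hxval, hGM, Sy.formOf_mul] at h1
    exact Sy.formOf_inj e' P' h1
  obtain ⟨B, c, hc, hdet, hsymm, hMtB⟩ :=
    Sy.power_form_of_inv R habsR hinvR Mt hMt0 (by omega) hfix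
  have hdo : Odd d := by
    obtain ⟨t₀, ht₀, hnt⟩ := hCP.pow
    rw [hnt] at hodd
    exact (Nat.odd_pow_iff (by omega)).mp hodd
  have hBsym : Bᵀ = B := by
    rcases hsymm with h | h
    · exact h
    · exact absurd (det_antisymm_odd h2 hdo B h) hdet
  exact ⟨t, e', P', bf B, ht, Sy.bf_symmetric B hdet hBsym,
    power_form_structure hf e' P' B c hc (by rw [← hG, hGM, hMtB]), hle⟩

end Cfsg.Agent.Helper94.OA
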