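-- helper94 library: the tensor square case (normal form of the two symmetric factors) and the
-- exclusion of three-dimensional tensor factors over the field with three elements.
import Cfsg.Agent.Helper94.OA4
import Cfsg.Agent.Helper61.SymSim
import Cfsg.Agent.Helper61.Orth3

set_option autoImplicit false
set_option linter.unusedSectionVars false
set_option linter.unusedVariables false
open Cfsg Cfsg.Geo Matrix
open Cfsg.Agent.Helper96
open scoped Kronecker

namespace Cfsg.Agent.Helper94.OA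

variable {F : Type*} [Field F] {n : ℕ} {f : (Fin n → F) → (Fin n → F) → F}

/-- Changing the basis by an element of the standard tensor-wreath group does not change the
tensor-wreath subgroup. -/
theorem wreath_basis_change {m t : ℕ} (e' : Fin n ≃ (Fin t → Fin m)) (P : GL (Fin n) F)
    (v : GL (Fin t → Fin m) F) (hv : v ∈ tensorWreathStandard m t F) :
    tensorWreathSubgroup m t e' P ≤
      tensorWreathSubgroup m t e' (P * (glReindex e'.symm).toMonoidHom v) := by
  intro g hg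
  obtain ⟨y, hy, rfl⟩ := Subgroup.mem_map.mp hg
  obtain ⟨x, hx, rfl⟩ := Subgroup.mem_map.mp hy
  refine Subgroup.mem_map.mpr ⟨(glReindex e'.symm).toMonoidHom (v⁻¹ * x * v),
    Subgroup.mem_map_of_mem _ (mul_mem (mul_mem (inv_mem hv) hx) hv), ?_⟩
  change (P * (glReindex e'.symm) v) * (glReindex e'.symm) (v⁻¹ * x * v) *
    (P * (glReindex e'.symm) v)⁻¹ = P * (glReindex e'.symm) x * P⁻¹
  rw [map_mul, map_mul, map_inv]
  group

/-- The Gram matrix in the coordinates of a changed basis. -/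
theorem formOf_basis {κ : Type} [Fintype κ] [DecidableEq κ] (e : Fin n ≃ κ) (P : GL (Fin n) F)
    (v : GL κ F) (X₀ : Matrix κ κ F) :
    formOf e (P * (glReindex e.symm).toMonoidHom v)
      ((v : Matrix κ κ F)ᵀ * X₀ * (v : Matrix κ κ F)) = formOf e P X₀ := by
  have hUi : ((((glReindex e.symm).toMonoidHom v)⁻¹ : GL (Fin n) F) : Matrix (Fin n) (Fin n) F) =
      Matrix.reindexAlgEquiv F F e.symm ((v⁻¹ : GL κ F) : Matrix κ κ F) := by
    rw [← map_inv]
    rfl
  have h1 : ((v⁻¹ : GL κ F) : Matrix κ κ F)ᵀ * (v : Matrix κ κ F)ᵀ = 1 := by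
    rw [← Matrix.transpose_mul, ← Units.val_mul, mul_inv_cancel, Units.val_one,
      Matrix.transpose_one]
  have h2 : (v : Matrix κ κ F) * ((v⁻¹ : GL κ F) : Matrix κ κ F) = 1 := by
    rw [← Units.val_mul, mul_inv_cancel, Units.val_one]
  rw [formOf, formOf, _root_.mul_inv_rev, Units.val_mul, Matrix.transpose_mul, hUi, reindex_transpose]
  have h3 : Matrix.reindexAlgEquiv F F e.symm (((v⁻¹ : GL κ F) : Matrix κ κ F)ᵀ) *
      Matrix.reindexAlgEquiv F F e.symm ((v : Matrix κ κ F)ᵀ * X₀ * (v : Matrix κ κ F)) *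
      Matrix.reindexAlgEquiv F F e.symm ((v⁻¹ : GL κ F) : Matrix κ κ F) =
      Matrix.reindexAlgEquiv F F e.symm X₀ := by
    rw [← map_mul, ← map_mul]
    congr 1
    calc ((v⁻¹ : GL κ F) : Matrix κ κ F)ᵀ * ((v : Matrix κ κ F)ᵀ * X₀ * (v : Matrix κ κ F)) *
        ((v⁻¹ : GL κ F) : Matrix κ κ F)
        = (((v⁻¹ : GL κ F) : Matrix κ κ F)ᵀ * (v : Matrix κ κ F)ᵀ) * X₀ *
          ((v : Matrix κ κ F) * ((v⁻¹ : GL κ F) : Matrix κ κ F)) := by
          simp only [mul_assoc]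
      _ = X₀ := by rw [h1, h2, one_mul, mul_one]
  calc ((P⁻¹ : GL (Fin n) F) : Matrix (Fin n) (Fin n) F)ᵀ *
        Matrix.reindexAlgEquiv F F e.symm (((v⁻¹ : GL κ F) : Matrix κ κ F)ᵀ) *
        Matrix.reindexAlgEquiv F F e.symm ((v : Matrix κ κ F)ᵀ * X₀ * (v : Matrix κ κ F)) *
        (Matrix.reindexAlgEquiv F F e.symm ((v⁻¹ : GL κ F) : Matrix κ κ F) *
          ((P⁻¹ : GL (Fin n) F) : Matrix (Fin n) (Fin n) F))
      = ((P⁻¹ : GL (Fin n) F) : Matrix (Fin n) (Fin n) F)ᵀ *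
        (Matrix.reindexAlgEquiv F F e.symm (((v⁻¹ : GL κ F) : Matrix κ κ F)ᵀ) *
        Matrix.reindexAlgEquiv F F e.symm ((v : Matrix κ κ F)ᵀ * X₀ * (v : Matrix κ κ F)) *
        Matrix.reindexAlgEquiv F F e.symm ((v⁻¹ : GL κ F) : Matrix κ κ F)) *
          ((P⁻¹ : GL (Fin n) F) : Matrix (Fin n) (Fin n) F) := by
        simp only [mul_assoc]
    _ = _ := by rw [h3]

theorem formOf_trans {κ κ' : Type} [Fintype κ] [DecidableEq κ] [Fintype κ'] [DecidableEq κ']
    (e : Fin n ≃ κ) (ε : κ ≃ κ') (P : GL (Fin n) F) (X : Matrix κ κ F) :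
    formOf (e.trans ε) P (Matrix.reindexAlgEquiv F F ε X) = formOf e P X := by
  rw [formOf, formOf]
  congr 2
  ext i j
  simp [Matrix.coe_reindexAlgEquiv, Matrix.reindex_apply]

theorem ptM_transpose {t d : ℕ} (a : Fin t → Matrix (Fin d) (Fin d) F) :
    (ptM a)ᵀ = ptM (fun i => (a i)ᵀ) := by
  ext x y
  rw [Matrix.transpose_apply, ptM_apply, ptM_apply]
  rfl

/-- The pure tensor of a family of invertible matrices, as an element of the standard tensor-wreath
group. -/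
theorem exists_pure_unit {t d : ℕ} (gs : Fin t → GL (Fin d) F) :
    ∃ v : GL (Fin t → Fin d) F, (v : Matrix (Fin t → Fin d) (Fin t → Fin d) F) =
      ptM (fun i => (gs i : Matrix (Fin d) (Fin d) F)) ∧ v ∈ tensorWreathStandard d t F := by
  refine ⟨⟨ptM (fun i => (gs i : Matrix (Fin d) (Fin d) F)),
    ptM (fun i => (((gs i)⁻¹ : GL (Fin d) F) : Matrix (Fin d) (Fin d) F)), ?_, ?_⟩, rfl, ?_⟩
  · rw [ptM_mul]
    simp only [← Units.val_mul, mul_inv_cancel, Units.val_one]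
    exact ptM_one
  · rw [ptM_mul]
    simp only [← Units.val_mul, inv_mul_cancel, Units.val_one]
    exact ptM_one
  · apply Subgroup.subset_closure
    left
    exact ⟨gs, fun x y => rfl⟩

/-- The tensor square case: after normalising the two symmetric factors, the form is a tensor square
and the group lies in the tensor-wreath subgroup. -/
theorem tensor_square [Fintype F] (h2 : (2 : F) ≠ 0) (hf : IsSymmetricForm f) {d : ℕ} (hd : Odd d)
    (e : Fin n ≃ Fin d × Fin d) (P : GL (Fin n) F) (B₁ C : Matrix (Fin d) (Fin d) F)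
    (hB : B₁ᵀ = B₁) (hC : Cᵀ = C) (hBd : B₁.det ≠ 0) (hCd : C.det ≠ 0)
    (hG : Helper97.Gen.gram f = formOf e P (B₁ ⊗ₖ C)) (H : Subgroup (GL (Fin n) F))
    (hle : H ≤ tensorProductSubgroup d d e P) :
    ∃ (e' : Fin n ≃ (Fin 2 → Fin d)) (P' : GL (Fin n) F) (f₁ : (Fin d → F) → (Fin d → F) → F),
      IsSymmetricForm f₁ ∧ IsTensorPowerFormStructure id f f₁ e' P' ∧
      H ≤ tensorWreathSubgroup d 2 e' P' := by
  classical
  obtain ⟨A₁, μ₁, hA₁d, hμ₁, hA₁⟩ := Helper61.sym_similar_one h2 hd B₁ hB hBd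
  obtain ⟨A₂, μ₂, hA₂d, hμ₂, hA₂⟩ := Helper61.sym_similar_one h2 hd C hC hCd
  obtain ⟨g₁, hg₁⟩ : ∃ g₁ : GL (Fin d) F, (g₁ : Matrix (Fin d) (Fin d) F) = A₁ :=
    ⟨Matrix.GeneralLinearGroup.mkOfDetNeZero A₁ hA₁d, rfl⟩
  obtain ⟨g₂, hg₂⟩ : ∃ g₂ : GL (Fin d) F, (g₂ : Matrix (Fin d) (Fin d) F) = A₂ :=
    ⟨Matrix.GeneralLinearGroup.mkOfDetNeZero A₂ hA₂d, rfl⟩
  obtain ⟨v, hv, hvstd⟩ := exists_pure_unit (t := 2) ![g₁, g₂]
  have hG' : Helper97.Gen.gram f = formOf (e.trans (eps d)) P (ptM ![B₁, C]) := by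
    rw [hG, ← formOf_trans e (eps d) P]
    congr 1
    ext x y
    rw [ptM_apply, Fin.prod_univ_two]
    simp [Matrix.coe_reindexAlgEquiv, Matrix.reindex_apply, eps_symm_apply]
  have hform : (v : Matrix (Fin 2 → Fin d) (Fin 2 → Fin d) F)ᵀ * ptM ![B₁, C] *
      (v : Matrix (Fin 2 → Fin d) (Fin 2 → Fin d) F) =
      (μ₁ * μ₂) • ptM (fun _ : Fin 2 => (1 : Matrix (Fin d) (Fin d) F)) := by
    rw [hv, ptM_transpose, ptM_mul, ptM_mul]
    ext x y
    rw [ptM_apply, Fin.prod_univ_two, Matrix.smul_apply, ptM_apply, Fin.prod_univ_two]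
    simp only [Matrix.cons_val_zero, Matrix.cons_val_one]
    rw [hg₁, hg₂, hA₁, hA₂, Matrix.smul_apply, Matrix.smul_apply, smul_eq_mul, smul_eq_mul,
      smul_eq_mul]
    ring
  refine ⟨e.trans (eps d), P * (glReindex (e.trans (eps d)).symm).toMonoidHom v,
    bf (1 : Matrix (Fin d) (Fin d) F),
    Sy.bf_symmetric 1 (by rw [Matrix.det_one]; exact one_ne_zero) Matrix.transpose_one,
    power_form_structure hf _ _ 1 (μ₁ * μ₂) (mul_ne_zero hμ₁ hμ₂) ?_,
    (hle.trans (tensor_le_wreath e P)).trans (wreath_basis_change _ P v hvstd)⟩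
  rw [← hform, formOf_basis, hG']

/-! ### Three-dimensional tensor factors over the field with three elements -/

theorem hom_trivial_of_perfect {G B : Type*} [Group G] [Group B] (h : _root_.commutator G = ⊤)
    (φ : G →* B) (hc : ∀ x y, φ x * φ y = φ y * φ x) (x : G) : φ x = 1 := by
  have hx : x ∈ _root_.commutator G := by rw [h]; trivial
  rw [commutator_eq_closure] at hx
  induction hx using Subgroup.closure_induction with
  | mem g hg =>
    obtain ⟨a, b, rfl⟩ := hg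
    rw [commutatorElement_def, map_mul, map_mul, map_mul, map_inv, map_inv, hc a b]
    group
  | one => exact map_one φ
  | mul a b _ _ ha hb => rw [map_mul, ha, hb, one_mul]
  | inv a _ ha => rw [map_inv, ha, inv_one]

theorem mono_mul {ι : Type*} [Fintype ι] [DecidableEq ι] {g h : Matrix ι ι F}
    {π σ : Equiv.Perm ι} (hg : ∀ i j, g i j ≠ 0 ↔ i = π j) (hh : ∀ i j, h i j ≠ 0 ↔ i = σ j) :
    ∀ i j, (g * h) i j ≠ 0 ↔ i = (π * σ) j := by
  intro i j
  have h1 : (g * h) i j = g i (σ j) * h (σ j) j := by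
    rw [Matrix.mul_apply]
    apply Finset.sum_eq_single (σ j)
    · intro l _ hl
      have : h l j = 0 := by
        by_contra hne
        exact hl ((hh l j).mp hne)
      rw [this, mul_zero]
    · intro hne
      exact absurd (Finset.mem_univ _) hne
  rw [h1, Equiv.Perm.mul_apply, ← hg i (σ j)]
  constructor
  · intro hne
    exact left_ne_zero_of_mul hne
  · intro hne
    exact mul_ne_zero hne ((hh (σ j) j).mpr rfl)

theorem mono_unique {ι : Type*} {g : Matrix ι ι F}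
    {π σ : Equiv.Perm ι} (hg : ∀ i j, g i j ≠ 0 ↔ i = π j) (hg' : ∀ i j, g i j ≠ 0 ↔ i = σ j) :
    π = σ := by
  ext j
  exact (hg' (π j) j).mp ((hg (π j) j).mpr rfl)

theorem mono_comm {ι : Type*} [Fintype ι] [DecidableEq ι] {g h : Matrix ι ι F}
    (hg : ∀ i j, g i j ≠ 0 ↔ i = j) (hh : ∀ i j, h i j ≠ 0 ↔ i = j) : g * h = h * g := by
  have hg0 : ∀ i j, i ≠ j → g i j = 0 := by
    intro i j hij
    by_contra hne
    exact hij ((hg i j).mp hne)
  have hh0 : ∀ i j, i ≠ j → h i j = 0 := by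
    intro i j hij
    by_contra hne
    exact hij ((hh i j).mp hne)
  ext i j
  have h1 : (g * h) i j = g i i * h i j := by
    rw [Matrix.mul_apply]
    apply Finset.sum_eq_single i
    · intro l _ hl
      rw [hg0 i l (Ne.symm hl), zero_mul]
    · intro hne
      exact absurd (Finset.mem_univ _) hne
  have h2 : (h * g) i j = h i j * g j j := by
    rw [Matrix.mul_apply]
    apply Finset.sum_eq_single j
    · intro l _ hl
      rw [hg0 l j hl, mul_zero]
    · intro hne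
      exact absurd (Finset.mem_univ _) hne
  rw [h1, h2]
  by_cases hij : i = j
  · subst hij
    exact mul_comm _ _
  · rw [hh0 i j hij, mul_zero, zero_mul]

theorem even3_comm : ∀ π σ : Equiv.Perm (Fin 3), Equiv.Perm.sign π = 1 → Equiv.Perm.sign σ = 1 →
    π * σ = σ * π := by
  decide

/-- A perfect group of isometries of a symmetric form with a three-dimensional tensor factor over
the field with three elements is trivial. -/
theorem no33 [Fintype F] (hF : Fintype.card F = 3) (hf : IsSymmetricForm f)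
    (S : Subgroup (GL (Fin n) F)) (hS : S ≤ Sy.isoSub f) {k : ℕ} {e : Fin n ≃ Fin 3 × Fin k}
    {P : GL (Fin n) F} {ρ : Matrix (Fin n) (Fin n) F → Matrix (Fin 3) (Fin 3) F}
    (D : TensorData S 3 k e P ρ) (hperf : ⁅S, S⁆ = S) : S ≤ scalars (Fin n) F := by
  classical
  have h2 : (2 : F) ≠ 0 := Helper61.orth3_two_ne_zero hF
  have hodd3 : Odd 3 := by decide
  obtain ⟨B₁, C, -, hB₁det, -, hsym, hfix⟩ := tensor_gram hf D hS
  have hB₁sym : B₁ᵀ = B₁ := by
    rcases hsym with h | h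
    · exact h.1
    · exact absurd (det_antisymm_odd h2 hodd3 B₁ h.1) hB₁det
  obtain ⟨A, μ, hAd, hμ, hA⟩ := Helper61.sym_similar_one h2 hodd3 B₁ hB₁sym hB₁det
  obtain ⟨a, ha⟩ : ∃ a : GL (Fin 3) F, (a : Matrix (Fin 3) (Fin 3) F) = A :=
    ⟨Matrix.GeneralLinearGroup.mkOfDetNeZero A hAd, rfl⟩
  obtain ⟨ψ, hψinj, hψ⟩ := Sy.rhoHom_exists D
  obtain ⟨ψ', hψ'⟩ : ∃ ψ' : S →* GL (Fin 3) F, ∀ s, ψ' s = a⁻¹ * ψ s * a :=
    ⟨MonoidHom.mk' (fun s => a⁻¹ * ψ s * a) (fun s t => by rw [map_mul]; group), fun s => rfl⟩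
  have hψ'inj : Function.Injective ψ' := by
    intro s t hst
    rw [hψ', hψ'] at hst
    apply hψinj
    have h1 : a * (a⁻¹ * ψ s * a) * a⁻¹ = a * (a⁻¹ * ψ t * a) * a⁻¹ := by rw [hst]
    simpa [mul_assoc] using h1
  have horth : ∀ s : S, ((ψ' s : GL (Fin 3) F) : Matrix (Fin 3) (Fin 3) F)ᵀ *
      ((ψ' s : GL (Fin 3) F) : Matrix (Fin 3) (Fin 3) F) = (1 : F) • (1 : Matrix (Fin 3) (Fin 3) F) := by
    intro s
    have h1 : (a : Matrix (Fin 3) (Fin 3) F) * ((ψ' s : GL (Fin 3) F) : Matrix (Fin 3) (Fin 3) F) =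
        ρ ((s : GL (Fin n) F) : Matrix (Fin n) (Fin n) F) * A := by
      rw [hψ', ← Units.val_mul, ← hψ, ← ha, ← Units.val_mul]
      congr 1
      group
    have h3 := hfix ((s : GL (Fin n) F) : Matrix (Fin n) (Fin n) F)
      (Helper97.coe_mem_matrixSet s.2)
    have h4 : ((ψ' s : GL (Fin 3) F) : Matrix (Fin 3) (Fin 3) F)ᵀ * (Aᵀ * B₁ * A) *
        ((ψ' s : GL (Fin 3) F) : Matrix (Fin 3) (Fin 3) F) = Aᵀ * B₁ * A := by
      calc ((ψ' s : GL (Fin 3) F) : Matrix (Fin 3) (Fin 3) F)ᵀ * (Aᵀ * B₁ * A) *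
          ((ψ' s : GL (Fin 3) F) : Matrix (Fin 3) (Fin 3) F)
          = (A * ((ψ' s : GL (Fin 3) F) : Matrix (Fin 3) (Fin 3) F))ᵀ * B₁ *
            (A * ((ψ' s : GL (Fin 3) F) : Matrix (Fin 3) (Fin 3) F)) := by
            rw [Matrix.transpose_mul]
            simp only [mul_assoc]
        _ = Aᵀ * ((ρ ((s : GL (Fin n) F) : Matrix (Fin n) (Fin n) F))ᵀ * B₁ *
            ρ ((s : GL (Fin n) F) : Matrix (Fin n) (Fin n) F)) * A := by
            rw [← ha, h1, Matrix.transpose_mul, ha]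
            simp only [mul_assoc]
        _ = Aᵀ * B₁ * A := by rw [h3]
    rw [hA, Matrix.mul_smul, Matrix.smul_mul, mul_one] at h4
    rw [one_smul]
    exact smul_right_injective _ hμ h4
  have hmono : ∀ s : S, ∃ π : Equiv.Perm (Fin 3), ∀ i j,
      ((ψ' s : GL (Fin 3) F) : Matrix (Fin 3) (Fin 3) F) i j ≠ 0 ↔ i = π j :=
    fun s => (Helper61.orth3_monomial hF _ 1 one_ne_zero (horth s)).2
  choose φ₀ hφ₀ using hmono
  obtain ⟨φ, hφ⟩ : ∃ φ : S →* Equiv.Perm (Fin 3), ∀ s, φ s = φ₀ s :=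
    ⟨MonoidHom.mk' φ₀ (fun s t => by
      apply mono_unique (hφ₀ (s * t))
      rw [map_mul, Units.val_mul]
      exact mono_mul (hφ₀ s) (hφ₀ t)), fun s => rfl⟩
  have htop : _root_.commutator S = ⊤ := by
    have h1 : (_root_.commutator S).map S.subtype = ⁅S, S⁆ := Subgroup.map_subtype_commutator S
    apply Subgroup.map_injective S.subtype_injective
    rw [h1, hperf, ← MonoidHom.range_eq_map, Subgroup.range_subtype]
  have hsign : ∀ s : S, Equiv.Perm.sign (φ s) = 1 := fun s =>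
    hom_trivial_of_perfect htop (Equiv.Perm.sign.comp φ) (fun x y => mul_comm _ _) s
  have hφ1 : ∀ s : S, φ s = 1 := fun s =>
    hom_trivial_of_perfect htop φ (fun x y => even3_comm _ _ (hsign x) (hsign y)) s
  have hdiag : ∀ s : S, ∀ i j,
      ((ψ' s : GL (Fin 3) F) : Matrix (Fin 3) (Fin 3) F) i j ≠ 0 ↔ i = j := by
    intro s i j
    have := hφ₀ s i j
    rw [← hφ, hφ1] at this
    exact this
  have hψ'1 : ∀ s : S, ψ' s = 1 := fun s =>
    hom_trivial_of_perfect htop ψ' (fun x y => Units.ext (by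
      rw [Units.val_mul, Units.val_mul]
      exact mono_comm (hdiag x) (hdiag y))) s
  intro s hs
  have h1 : (⟨s, hs⟩ : S) = 1 := hψ'inj (by rw [hψ'1, map_one])
  have h2' : s = 1 := congrArg Subtype.val h1
  rw [h2']
  exact Subgroup.one_mem _

end Cfsg.Agent.Helper94.OA
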