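-- helper94 library: the structure theorem for subgroups of an odd-dimensional orthogonal group in odd
-- characteristic (Aschbacher's theorem, "H ≤ M" form), on the index type `Fin n`.
import Cfsg.Agent.Helper94.OA6
import Cfsg.Agent.Helper96.TensorPower2

set_option autoImplicit false
set_option linter.unusedSectionVars false
set_option linter.unusedVariables false
open Cfsg Cfsg.Geo Matrix
open Cfsg.Agent.Helper96
open scoped Kronecker

namespace Cfsg.Agent.Helper94.OA

variable {F : Type*} [Field F] {n : ℕ}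

/-- The geometric structures stabilised by a group of isometries of a quadratic form on `F^n`, `n` odd
(the list of `InOrthogonalOddClass`, with `H ≤ stabiliser`). -/
def OClass [Fintype F] (Q : (Fin n → F) → F) (H : Subgroup (GL (Fin n) F)) : Prop :=
  (∃ W : Submodule F (Fin n → F), W ≠ ⊥ ∧ IsTotallySingularQuad Q W ∧ H ≤ subspaceStabilizer W) ∨
  (∃ W : Submodule F (Fin n → F), W ≠ ⊥ ∧ W ≠ ⊤ ∧ IsNondegenerateOn (QuadraticMap.polar Q) W ∧
    H ≤ subspaceStabilizer W) ∨
  (∃ (t k : ℕ) (D : Fin t → Submodule F (Fin n → F)), 1 < k ∧ IsOrthogonalMDecomposition Q k D ∧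
    H ≤ decompositionStabilizer D) ∨
  (∃ (t : ℕ) (D : Fin t → Submodule F (Fin n → F)), (Fintype.card F).Prime ∧
    IsOrthogonalMDecomposition Q 1 D ∧ H ≤ decompositionStabilizer D) ∨
  (∃ (r : ℕ) (K : Subalgebra F (Matrix (Fin n) (Fin n) F)), r.Prime ∧ n ≠ r ∧
    IsFieldSubalgebra r K ∧ IsSelfAdjointFor (QuadraticMap.polar Q) K ∧
    H ≤ subalgebraNormalizer K) ∨
  (∃ (n₁ n₂ : ℕ) (e : Fin n ≃ Fin n₁ × Fin n₂) (P : GL (Fin n) F)
    (f₁ : (Fin n₁ → F) → (Fin n₁ → F) → F) (f₂ : (Fin n₂ → F) → (Fin n₂ → F) → F),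
    3 ≤ n₁ ∧ n₁ < n₂ ∧ IsSymmetricForm f₁ ∧ IsSymmetricForm f₂ ∧
    IsTensorFormStructure id (QuadraticMap.polar Q) f₁ f₂ e P ∧
    H ≤ tensorProductSubgroup n₁ n₂ e P) ∨
  (∃ (F₀ : Subfield F) (r : ℕ) (P : GL (Fin n) F), r.Prime ∧
    Fintype.card F = Nat.card F₀ ^ r ∧ IsQuadFormRationalStructure Q F₀ P ∧
    H ≤ subfieldSubgroup F₀ P) ∨
  (∃ (k t : ℕ) (e : Fin n ≃ (Fin t → Fin k)) (P : GL (Fin n) F)
    (f₁ : (Fin k → F) → (Fin k → F) → F), 3 ≤ k ∧ 2 ≤ t ∧ ¬ (Fintype.card F = 3 ∧ k = 3) ∧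
    IsSymmetricForm f₁ ∧ IsTensorPowerFormStructure id (QuadraticMap.polar Q) f₁ e P ∧
    H ≤ tensorWreathSubgroup k t e P)

/-- Every group of isometries of a non-degenerate isotropic quadratic form in odd dimension and odd
characteristic stabilises one of the listed structures or is in the residual class. -/
theorem o_structure [Fintype F] (hodd : Odd n) {Q : (Fin n → F) → F} (hQ : Helper97.Gen.IsOQ Q)
    (hG : ∀ (F₁ : Subfield F) (i j : Fin n), Helper97.Gen.gram (QuadraticMap.polar Q) i j ∈ F₁)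
    (H : Subgroup (GL (Fin n) F)) (hHO : H ≤ isometryGroup F Q) :
    OClass Q H ∨ InOrthogonalResidualClass H := by
  classical
  have h2 := hQ.two_ne
  have hn3 : 3 ≤ n := by
    have := hQ.three_le
    rwa [Fintype.card_fin] at this
  have hne : NeZero n := ⟨by omega⟩
  have hcardκ : Fintype.card (Fin n) = n := Fintype.card_fin n
  have hfact : Fact (Fintype.card (Fin n) = n) := ⟨hcardκ⟩
  have hoddκ : Odd (Fintype.card (Fin n)) := by rw [hcardκ]; exact hodd
  obtain ⟨f, hfdef⟩ : ∃ f, f = QuadraticMap.polar Q := ⟨_, rfl⟩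
  have hf : IsSymmetricForm f := hfdef ▸ ⟨hQ.bil, hQ.symm, hQ.quad.nondegenerate⟩
  have hH : H ≤ Sy.isoSub f := by
    intro g hg
    rw [Sy.mem_isoSub, hfdef]
    exact Helper97.Gen.polar_isometry (hHO hg)
  have hZc : ∀ z ∈ scalars (Fin n) F, ∀ g : GL (Fin n) F, z * g = g * z :=
    fun z hz g => Helper97.scalars_comm hz g
  by_cases hirr : ActsIrreducibly (matrixSet H)
  swap
  · rcases hQ.reducible_cases hoddκ H hHO hirr with
      ⟨W, hW0, hW1, hts, hle⟩ | ⟨W, hW0, hW1, hnd, heven, hle⟩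
    · exact Or.inl (Or.inl ⟨W, hW0, hts, hle⟩)
    · exact Or.inl (Or.inr (Or.inl ⟨W, hW0, hW1, hnd, hle⟩))
  have hHZ : ¬ H ≤ scalars (Fin n) F := Helper97.not_le_scalars_of_irreducible (by omega) H hirr
  obtain ⟨N, hNH, hNn, hNZ, hNmin⟩ := Helper97.exists_minimal_normal (scalars (Fin n) F) H hHZ
  have hNO : N ≤ isometryGroup F Q := hNH.trans hHO
  have hNiso : N ≤ Sy.isoSub f := hNH.trans hH
  have hCN : ⁅N, N⁆ ≤ N := by
    rw [Subgroup.commutator_le]
    intro a ha b hb
    rw [commutatorElement_def]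
    exact N.mul_mem (N.mul_mem (N.mul_mem ha hb) (N.inv_mem ha)) (N.inv_mem hb)
  rcases z_analysis h2 hodd hf H N hH hirr hNH hNn with
    ⟨t, k, D, hD, hHD⟩ | ⟨r, K, hr, hK, hsa, hKZ, hHK⟩ | hsc
  · -- a non-degenerate decomposition
    have hiso : ∀ i j, AreIsometricFor Q (D i) (D j) :=
      fun i j => decomp_iso H hirr hHO D hD.decomp hHD i j
    have hDorth : IsOrthogonalMDecomposition Q k D := ⟨hfdef ▸ hD, hiso⟩
    have hkpos := hD.decomp.pos
    by_cases hk1 : k = 1
    · subst hk1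
      have htn : t = n := by
        have := Helper97.Gen.isMDecomposition_card (n := n) D hD.decomp
        omega
      subst htn
      by_cases hprime : (Fintype.card F).Prime
      · exact Or.inl (Or.inr (Or.inr (Or.inr (Or.inl ⟨t, D, hprime, hDorth, hHD⟩))))
      · obtain ⟨p, hchar⟩ := CharP.exists F
        have hp : p.Prime :=
          (CharP.char_is_prime_or_zero F p).resolve_right (CharP.char_ne_zero_of_finite F p)
        have hpf : Fact p.Prime := ⟨hp⟩
        have hbot : (⊥ : Subfield F) ≠ ⊤ := by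
          intro hbt
          apply hprime
          have h1 : Nat.card (⊥ : Subfield F) = p := Subfield.card_bot F p
          rw [hbt] at h1
          have h2' : Nat.card (⊤ : Subfield F) = Nat.card F :=
            Nat.card_congr (Subfield.topEquiv (K := F)).toEquiv
          rw [h2', Nat.card_eq_fintype_card] at h1
          rw [h1]
          exact hp
        obtain ⟨F₁, r, -, hr, hcardr⟩ := Helper97.Gen.exists_prime_index_subfield (⊥ : Subfield F) hbot
        obtain ⟨P', hrat, hle⟩ := hQ.decomp_subfield hcardκ hodd F₁ (hG F₁) D hDorth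
        exact Or.inl (Or.inr (Or.inr (Or.inr (Or.inr (Or.inr (Or.inr (Or.inl
          ⟨F₁, r, P', hr, hcardr, hrat, (le_inf hHD hHO).trans hle⟩)))))))
    · exact Or.inl (Or.inr (Or.inr (Or.inl ⟨t, k, D, by omega, hDorth, hHD⟩)))
  · -- a self-adjoint field of prime degree
    by_cases hrn : n = r
    · exfalso
      subst hrn
      have hNK : ∀ g ∈ N, (g : Matrix (Fin n) (Fin n) F) ∈ K := by
        intro g hg
        have : Nonempty (Fin n) := ⟨⟨0, by omega⟩⟩
        apply mem_of_comm_field K (by rw [hcardκ]; exact hK)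
        intro k hk
        exact ((hKZ k hk).1 _ (Helper97.coe_mem_matrixSet hg)).symm
      exact hNZ (hQ.field_contra hoddκ N hNO K hK.inv hNK)
    · exact Or.inl (Or.inr (Or.inr (Or.inr (Or.inr (Or.inl
        ⟨r, K, hr, hrn, hK, hfdef ▸ hsa, hHK⟩)))))
  -- the centre of the centraliser of `N` consists of scalars
  obtain ⟨d, k, e, P, ρ, hTD⟩ := tensorData_of_zcent_scalar (by omega) H N hirr hNn hsc
  by_cases hd1 : d = 1
  · exact absurd (hTD.le_scalars_of_one hd1) hNZ
  have hd2 : 2 ≤ d := by have := hTD.hd; omega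
  -- `N` is perfect
  have hperfN : ⁅N, N⁆ = N := by
    rcases hNmin ⁅N, N⁆ hCN (Helper97.commutator_normalized H N hNn) with hC | hC
    · exfalso
      have hab : ∀ a ∈ N, ∀ b ∈ N, a * b = b * a := by
        intro a ha b hb
        apply hQ.comm_of_scalar_comm hoddκ a b (hNO ha) (hNO hb)
        have := Subgroup.commutator_mem_commutator ha hb
        rw [commutatorElement_def] at this
        exact hC this
      apply hNZ
      intro g hg
      obtain ⟨c, hc⟩ := hsc (g : Matrix (Fin n) (Fin n) F) ⟨by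
        rintro _ ⟨s, hs, rfl⟩
        rw [← Units.val_mul, ← Units.val_mul, hab g hg s hs], fun c hc =>
          (hc _ (Helper97.coe_mem_matrixSet hg)).symm⟩
      exact (Helper97.scalar_mem_scalars_iff g).mpr ⟨c, hc⟩
    · exact hC
  by_cases hk1 : k = 1
  swap
  · -- a tensor decomposition
    have hk2 : 2 ≤ k := by have := hTD.hk; omega
    obtain ⟨hdo, hko, B₁, C, hB, hC, hBd, hCd, hG', hle⟩ :=
      tensor_cases h2 hodd hf H N hH hNH hNn hTD
    have hd3 : 3 ≤ d := by
      obtain ⟨j, hj⟩ := hdo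
      omega
    have hk3 : 3 ≤ k := by
      obtain ⟨j, hj⟩ := hko
      omega
    rcases lt_trichotomy d k with hlt | heq | hgt
    · exact Or.inl (Or.inr (Or.inr (Or.inr (Or.inr (Or.inr (Or.inl
        ⟨d, k, e, P, bf B₁, bf C, hd3, hlt, Sy.bf_symmetric B₁ hBd hB, Sy.bf_symmetric C hCd hC,
          hfdef ▸ tensor_form_structure hf e P B₁ C hG', hle⟩))))))
    · subst heq
      by_cases h33 : Fintype.card F = 3 ∧ d = 3
      · exfalso
        obtain ⟨hF3, rfl⟩ := h33
        exact hNZ (no33 hF3 hf N hNiso hTD hperfN)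
      · obtain ⟨e', P', f₁, hf₁, hstr, hle'⟩ :=
          tensor_square h2 hf hdo e P B₁ C hB hC hBd hCd hG' H hle
        exact Or.inl (Or.inr (Or.inr (Or.inr (Or.inr (Or.inr (Or.inr (Or.inr
          ⟨d, 2, e', P', f₁, hd3, le_refl 2, h33, hf₁, hfdef ▸ hstr, hle'⟩)))))))
    · exact Or.inl (Or.inr (Or.inr (Or.inr (Or.inr (Or.inr (Or.inl
        ⟨k, d, e.trans (Equiv.prodComm (Fin d) (Fin k)), P, bf C, bf B₁, hk3, hgt,
          Sy.bf_symmetric C hCd hC, Sy.bf_symmetric B₁ hBd hB,
          hfdef ▸ tensor_form_structure hf _ P C B₁ (by rw [Sy.formOf_swap]; exact hG'),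
          hle.trans (tensor_swap_le e P)⟩))))))
  -- `N` is absolutely irreducible
  have habs : ActsAbsolutelyIrreducibly (matrixSet N) := hTD.absIrred_of_one hk1
  have hirrN : ActsIrreducibly (matrixSet N) := habs.1
  have hcentN : ∀ c : GL (Fin n) F, (∀ s ∈ N, c * s = s * c) → c ∈ scalars (Fin n) F := by
    intro c hc
    obtain ⟨a, ha⟩ := habs.2 (c : Matrix (Fin n) (Fin n) F) (by
      rintro _ ⟨s, hs, rfl⟩
      rw [← Units.val_mul, ← Units.val_mul, hc s hs])
    exact (Helper97.scalar_mem_scalars_iff c).mpr ⟨a, ha⟩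
  rcases perfect_structure (scalars (Fin n) F) H N hZc hNn hNZ hNmin hperfN with
    hsimple | ⟨S, hSN, hSn, hSZ, hSperf, hne', hcomm, hgen⟩
  swap
  · -- central product of conjugates
    have hsc' : ∀ M, ZCent (matrixSet S) M → ∃ c : F, M = c • (1 : Matrix (Fin n) (Fin n) F) := by
      intro M hM
      apply habs.2
      have hyc : ∀ h ∈ H, ∀ y ∈ Helper97.cj h S,
          M * (y : Matrix (Fin n) (Fin n) F) = (y : Matrix (Fin n) (Fin n) F) * M := by
        intro h hh y hy'
        rcases hcomm h hh with h1 | h1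
        · rw [h1] at hy'
          exact hM.1 _ (Helper97.coe_mem_matrixSet hy')
        · apply hM.2
          rintro _ ⟨s', hs', rfl⟩
          rw [← Units.val_mul, ← Units.val_mul, h1 s' hs' y hy']
      have hgenT : ∀ y ∈ {x : GL (Fin n) F | ∃ h ∈ H, x ∈ Helper97.cj h S},
          y⁻¹ ∈ {x : GL (Fin n) F | ∃ h ∈ H, x ∈ Helper97.cj h S} := by
        rintro y ⟨h, hh, hy⟩
        exact ⟨h, hh, Subgroup.inv_mem _ hy⟩
      rintro _ ⟨x, hx, rfl⟩
      exact comm_closure _ hgenT M (fun y hy => by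
        obtain ⟨h, hh, hy'⟩ := hy
        exact hyc h hh y hy') x (by rw [hgen]; exact hx)
    obtain ⟨d', k', e', P', ρ', hTD'⟩ := tensorData_of_zcent_scalar (by omega) N S hirrN hSn hsc'
    have hd'2 : 2 ≤ d' := by
      have h1 := hTD'.hd
      have h2' : d' ≠ 1 := fun h => hSZ (hTD'.le_scalars_of_one h)
      omega
    obtain ⟨t, ht, hnt⟩ := eq_pow_of_central_product H N S hTD' habs hne' hcomm hgen
    have hCP : CPData H N S d' k' e' P' ρ' :=
      { le := hNH
        normal := hNn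
        perfect := hperfN
        absIrred := habs
        sub := hSN
        subNormal := hSn
        subPerfect := hSperf
        notScalar := hSZ
        moved := hne'
        comm := hcomm
        gen := hgen
        tensor := hTD'
        two_le := hd'2
        pow := ⟨t, ht, hnt⟩ }
    obtain ⟨t', e'', P'', f₁, ht', hf₁, hstr, hle⟩ := cp_wreath_form h2 hodd hf H N S hH e' P' ρ' hCP
    have hd'o : Odd d' := by
      rw [hnt] at hodd
      exact (Nat.odd_pow_iff (by omega)).mp hodd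
    have hd'3 : 3 ≤ d' := by
      obtain ⟨j, hj⟩ := hd'o
      omega
    have h33 : ¬ (Fintype.card F = 3 ∧ d' = 3) := by
      rintro ⟨hF3, rfl⟩
      exact hSZ (no33 hF3 hf S (hSN.trans hNiso) hTD' hSperf)
    exact Or.inl (Or.inr (Or.inr (Or.inr (Or.inr (Or.inr (Or.inr (Or.inr
      ⟨d', t', e'', P'', f₁, hd'3, ht', h33, hf₁, hfdef ▸ hstr, hle⟩)))))))
  -- simple modulo scalars
  by_cases hsub : ∃ F₀ : Subfield F, F₀ ≠ ⊤ ∧ RealisableOver F₀ (matrixSet N)
  · obtain ⟨F₀, hF₀, hreal⟩ := hsub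
    obtain ⟨F₁, r, hle, hr, hcardr⟩ := Helper97.Gen.exists_prime_index_subfield F₀ hF₀
    obtain ⟨B, hB⟩ := hreal
    obtain ⟨P', hnorm, hrat⟩ := hQ.orth_subfield_structure hoddκ F₁ (hG F₁) N hNO habs B
      (fun s hs i j => hle (hB s hs i j))
    exact Or.inl (Or.inr (Or.inr (Or.inr (Or.inr (Or.inr (Or.inr (Or.inl
      ⟨F₁, r, P', hr, hcardr, hrat, fun g hg => hnorm g (hNn g hg)⟩)))))))
  have hcore : IsResidualCore H N :=
    { le := hNH
      normal := hNn
      perfect := hperfN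
      simple := Helper97.isSimpleGroup_quot (scalars (Fin n) F) N hNZ hsimple
      nonabelian := Helper97.not_commutative_quot (scalars (Fin n) F) N hNZ hperfN
      centralizer_scalar := fun h _ hh =>
        Helper97.mem_of_centralizes_mod (scalars (Fin n) F) N hZc hperfN hcentN h hh
      absIrred := habs
      no_subfield := fun F₀ hF₀ hreal => hsub ⟨F₀, hF₀, hreal⟩ }
  right
  refine ⟨N, hcore, ?_⟩
  rintro ⟨σ, f', hf', hfix⟩
  exact hsub (hQ.realisable_of_fixes_unitary N hNO habs σ f' hf' hfix)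

end Cfsg.Agent.Helper94.OA
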