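-- helper94 library: transport of the odd-dimensional orthogonal structure theorem to an arbitrary
-- index type.
import Cfsg.Agent.Helper94.OA7
import Cfsg.Agent.Helper96.SpTr4
import Cfsg.Agent.Helper97.OStd

set_option autoImplicit false
set_option linter.unusedSectionVars false
set_option linter.unusedVariables false
open Cfsg Cfsg.Geo Matrix
open Cfsg.Agent.Helper96
open scoped Kronecker

namespace Cfsg.Agent.Helper94.OA

variable {κ ι : Type} [Fintype κ] [DecidableEq κ] [Fintype ι] [DecidableEq ι] {F : Type*} [Field F]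

/-- The geometric structures stabilised by a group of isometries of a quadratic form, general index
type (the list of `InOrthogonalOddClass`, with `H ≤ stabiliser`). -/
def OClassG [Fintype F] (Q : (ι → F) → F) (H : Subgroup (GL ι F)) : Prop :=
  (∃ W : Submodule F (ι → F), W ≠ ⊥ ∧ IsTotallySingularQuad Q W ∧ H ≤ subspaceStabilizer W) ∨
  (∃ W : Submodule F (ι → F), W ≠ ⊥ ∧ W ≠ ⊤ ∧ IsNondegenerateOn (QuadraticMap.polar Q) W ∧
    H ≤ subspaceStabilizer W) ∨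
  (∃ (t k : ℕ) (D : Fin t → Submodule F (ι → F)), 1 < k ∧ IsOrthogonalMDecomposition Q k D ∧
    H ≤ decompositionStabilizer D) ∨
  (∃ (t : ℕ) (D : Fin t → Submodule F (ι → F)), (Fintype.card F).Prime ∧
    IsOrthogonalMDecomposition Q 1 D ∧ H ≤ decompositionStabilizer D) ∨
  (∃ (r : ℕ) (K : Subalgebra F (Matrix ι ι F)), r.Prime ∧ Fintype.card ι ≠ r ∧
    IsFieldSubalgebra r K ∧ IsSelfAdjointFor (QuadraticMap.polar Q) K ∧
    H ≤ subalgebraNormalizer K) ∨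
  (∃ (n₁ n₂ : ℕ) (e : ι ≃ Fin n₁ × Fin n₂) (P : GL ι F)
    (f₁ : (Fin n₁ → F) → (Fin n₁ → F) → F) (f₂ : (Fin n₂ → F) → (Fin n₂ → F) → F),
    3 ≤ n₁ ∧ n₁ < n₂ ∧ IsSymmetricForm f₁ ∧ IsSymmetricForm f₂ ∧
    IsTensorFormStructure id (QuadraticMap.polar Q) f₁ f₂ e P ∧
    H ≤ tensorProductSubgroup n₁ n₂ e P) ∨
  (∃ (F₀ : Subfield F) (r : ℕ) (P : GL ι F), r.Prime ∧
    Fintype.card F = Nat.card F₀ ^ r ∧ IsQuadFormRationalStructure Q F₀ P ∧
    H ≤ subfieldSubgroup F₀ P) ∨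
  (∃ (k t : ℕ) (e : ι ≃ (Fin t → Fin k)) (P : GL ι F)
    (f₁ : (Fin k → F) → (Fin k → F) → F), 3 ≤ k ∧ 2 ≤ t ∧ ¬ (Fintype.card F = 3 ∧ k = 3) ∧
    IsSymmetricForm f₁ ∧ IsTensorPowerFormStructure id (QuadraticMap.polar Q) f₁ e P ∧
    H ≤ tensorWreathSubgroup k t e P)

theorem ps_tsq (e : κ ≃ ι) {Q : (ι → F) → F} {W : Submodule F (ι → F)}
    (h : IsTotallySingularQuad Q W) : IsTotallySingularQuad (Sy.pq e Q) (Sy.ps e W) := by
  intro u hu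
  obtain ⟨x, rfl⟩ := Sy.exists_comp e u
  rw [Sy.pq_comp]
  exact h x ((Sy.comp_mem_ps e W x).mp hu)

theorem ps_isometric (e : κ ≃ ι) {Q : (ι → F) → F} {W W' : Submodule F (ι → F)}
    (h : AreIsometricFor Q W W') : AreIsometricFor (Sy.pq e Q) (Sy.ps e W) (Sy.ps e W') := by
  obtain ⟨φ, hφ⟩ := h
  have E : ∀ U : Submodule F (ι → F), ∃ ψ : U ≃ₗ[F] Sy.ps e U,
      ∀ u : U, ((ψ u : Sy.ps e U) : κ → F) = (u : ι → F) ∘ e :=
    fun U => ⟨(Sy.pv (F := F) e).submoduleMap U, fun u => rfl⟩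
  obtain ⟨ψ, hψ⟩ := E W
  obtain ⟨ψ', hψ'⟩ := E W'
  refine ⟨ψ.symm.trans (φ.trans ψ'), fun w => ?_⟩
  have h1 : ((w : Sy.ps e W) : κ → F) = ((ψ.symm w : W) : ι → F) ∘ e := by
    rw [← hψ, LinearEquiv.apply_symm_apply]
  have h3 : (((ψ.symm.trans (φ.trans ψ')) w : Sy.ps e W') : κ → F) =
      ((φ (ψ.symm w) : W') : ι → F) ∘ e := by
    rw [← hψ']
    rfl
  rw [h3, h1, Sy.pq_comp, Sy.pq_comp]
  exact hφ (ψ.symm w)

theorem ps_odecomp (e : κ ≃ ι) {Q : (ι → F) → F} {t k : ℕ} {D : Fin t → Submodule F (ι → F)}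
    (h : IsOrthogonalMDecomposition Q k D) :
    IsOrthogonalMDecomposition (Sy.pq e Q) k (fun i => Sy.ps e (D i)) :=
  ⟨Sy.ps_ndecomp e h.decomp, fun i j => ps_isometric e (h.isometric i j)⟩

theorem pq_rational (e : κ ≃ ι) {Q : (ι → F) → F} {F₀ : Subfield F} {P : GL ι F}
    (h : IsQuadFormRationalStructure Q F₀ P) :
    IsQuadFormRationalStructure (Sy.pq e Q) F₀ (Sy.pg e P) := by
  intro u hu
  obtain ⟨x, rfl⟩ := Sy.exists_comp e u
  rw [Sy.pg_mulVec, Sy.pq_comp]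
  refine h x (fun i => ?_)
  have := hu (e.symm i)
  simpa using this

theorem pg_isometry (e : κ ≃ ι) (Q : (ι → F) → F) {g : GL ι F} (hg : g ∈ isometryGroup F Q) :
    Sy.pg e g ∈ isometryGroup F (Sy.pq e Q) := by
  rw [Helper97.Gen.mem_isometryGroup_iff] at hg ⊢
  intro u
  obtain ⟨x, rfl⟩ := Sy.exists_comp e u
  rw [Sy.pg_mulVec, Sy.pq_comp, Sy.pq_comp]
  exact hg x

theorem pr_oresidual (e : κ ≃ ι) {H : Subgroup (GL ι F)} (h : InOrthogonalResidualClass H) :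
    InOrthogonalResidualClass (H.map (Sy.pg e).toMonoidHom) := by
  obtain ⟨P, hcore, hu⟩ := h
  refine ⟨P.map (Sy.pg e).toMonoidHom, Sy.pr_core e hcore, ?_⟩
  rintro ⟨σ, f, hf, hfix⟩
  apply hu
  refine ⟨σ, Sy.pf e.symm f, Sy.pf_unitary e.symm hf, fun s hs u v => ?_⟩
  show f ((s *ᵥ u) ∘ e) ((s *ᵥ v) ∘ e) = f (u ∘ e) (v ∘ e)
  rw [← Sy.pm_mulVec, ← Sy.pm_mulVec]
  exact hfix (Sy.pm e s) ((Sy.mem_matrixSet_map e P _).mpr ⟨s, hs, rfl⟩) (u ∘ e) (v ∘ e)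

theorem pq_symm_pq (e : κ ≃ ι) (Q : (ι → F) → F) : Sy.pq e.symm (Sy.pq e Q) = Q := by
  funext u
  show Q ((u ∘ e.symm.symm) ∘ e.symm) = Q u
  rw [Equiv.symm_symm, Sy.comp_symm_comp]

theorem isOQ_pq (e : κ ≃ ι) {Q : (ι → F) → F} (hQ : Helper97.Gen.IsOQ Q) :
    Helper97.Gen.IsOQ (Sy.pq e Q) where
  two_ne := hQ.two_ne
  quad := Sy.pq_nondeg e hQ.quad
  three_le := by rw [Fintype.card_congr e]; exact hQ.three_le
  isotropic := by
    obtain ⟨u, hu0, hQu⟩ := hQ.isotropic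
    exact ⟨u ∘ e, fun h => hu0 ((Sy.comp_eq_zero e).mp h), by rw [Sy.pq_comp]; exact hQu⟩

theorem gram_pq (e : κ ≃ ι) (Q : (ι → F) → F) (i j : κ) :
    Helper97.Gen.gram (QuadraticMap.polar (Sy.pq e Q)) i j =
      Helper97.Gen.gram (QuadraticMap.polar Q) (e i) (e j) := by
  have hs : ∀ a : κ, (Pi.single a (1 : F) : κ → F) ∘ e.symm = Pi.single (e a) 1 := by
    intro a
    funext b
    simp only [Function.comp_apply, Pi.single_apply]
    by_cases hb : b = e a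
    · rw [if_pos hb, if_pos (by rw [hb, Equiv.symm_apply_apply])]
    · rw [if_neg hb, if_neg (fun h => hb (by rw [← h, Equiv.apply_symm_apply]))]
  rw [Helper97.Gen.gram_apply, Helper97.Gen.gram_apply, Sy.polar_pq]
  show QuadraticMap.polar Q ((Pi.single i (1 : F) : κ → F) ∘ e.symm)
    ((Pi.single j (1 : F) : κ → F) ∘ e.symm) = _
  rw [hs, hs]

/-- Transport of the list of structures. -/
theorem o_transport [Fintype F] {n : ℕ} (e : κ ≃ Fin n) {Q : (Fin n → F) → F}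
    {H : Subgroup (GL (Fin n) F)} (h : OClass Q H) :
    OClassG (Sy.pq e Q) (H.map (Sy.pg e).toMonoidHom) := by
  unfold OClass at h
  unfold OClassG
  rcases h with ⟨W, hW0, hts, hle⟩ | ⟨W, hW0, hW1, hnd, hle⟩ | ⟨t, k, D, hk, hD, hle⟩ |
    ⟨t, D, hp, hD, hle⟩ | ⟨r, K, hr, hnr, hK, hsa, hle⟩ |
    ⟨n₁, n₂, e₁, P, f₁, f₂, h3, hlt, hf₁, hf₂, hT, hle⟩ | ⟨F₀, r, P, hr, hcard, hR, hle⟩ |
    ⟨k, t, e₁, P, f₁, hk, ht, hex, hf₁, hT, hle⟩
  · exact Or.inl ⟨Sy.ps e W, Sy.ps_ne_bot e hW0, ps_tsq e hts,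
      Sy.map_le_of e (fun g hg => Sy.pg_stab e W hg) hle⟩
  · refine Or.inr (Or.inl ⟨Sy.ps e W, Sy.ps_ne_bot e hW0, ?_, Sy.ps_nondeg e hnd,
      Sy.map_le_of e (fun g hg => Sy.pg_stab e W hg) hle⟩)
    intro htop
    apply hW1
    rw [eq_top_iff]
    intro x _
    have h1 : x ∘ e ∈ Sy.ps e W := by rw [htop]; trivial
    exact (Sy.comp_mem_ps e W x).mp h1
  · exact Or.inr (Or.inr (Or.inl ⟨t, k, fun i => Sy.ps e (D i), hk, ps_odecomp e hD,
      Sy.map_le_of e (fun g hg => Sy.pg_dstab e D hg) hle⟩))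
  · exact Or.inr (Or.inr (Or.inr (Or.inl ⟨t, fun i => Sy.ps e (D i), hp, ps_odecomp e hD,
      Sy.map_le_of e (fun g hg => Sy.pg_dstab e D hg) hle⟩)))
  · exact Or.inr (Or.inr (Or.inr (Or.inr (Or.inl ⟨r, Sy.pk e K, hr,
      by rw [Fintype.card_congr e, Fintype.card_fin]; exact hnr, Sy.pk_field e hK,
      Sy.pk_selfadj e hsa, Sy.map_le_of e (fun g hg => Sy.pg_norm e K hg) hle⟩))))
  · exact Or.inr (Or.inr (Or.inr (Or.inr (Or.inr (Or.inl ⟨n₁, n₂, e.trans e₁, Sy.pg e P, f₁, f₂,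
      h3, hlt, hf₁, hf₂, Sy.pf_tensor e hT,
      Sy.map_le_of e (fun g hg => Sy.pg_tensor e e₁ P hg) hle⟩)))))
  · exact Or.inr (Or.inr (Or.inr (Or.inr (Or.inr (Or.inr (Or.inl ⟨F₀, r, Sy.pg e P, hr, hcard,
      pq_rational e hR, Sy.map_le_of e (fun g hg => Sy.pg_subfield e F₀ P hg) hle⟩))))))
  · exact Or.inr (Or.inr (Or.inr (Or.inr (Or.inr (Or.inr (Or.inr ⟨k, t, e.trans e₁, Sy.pg e P, f₁,
      hk, ht, hex, hf₁, Sy.pf_tensorPower e hT,
      Sy.map_le_of e (fun g hg => Sy.pg_wreath e e₁ P hg) hle⟩))))))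

/-- The structure theorem for groups of isometries of a non-degenerate isotropic quadratic form in
odd dimension and odd characteristic, general index type. -/
theorem o_structure_gen [Fintype F] (hodd : Odd (Fintype.card κ)) {Q : (κ → F) → F}
    (hQ : Helper97.Gen.IsOQ Q)
    (hG : ∀ (F₁ : Subfield F) (i j : κ), Helper97.Gen.gram (QuadraticMap.polar Q) i j ∈ F₁)
    (H : Subgroup (GL κ F)) (hHO : H ≤ isometryGroup F Q) :
    OClassG Q H ∨ InOrthogonalResidualClass H := by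
  classical
  obtain ⟨n, hn⟩ : ∃ n, n = Fintype.card κ := ⟨_, rfl⟩
  obtain ⟨e₀⟩ : Nonempty (Fin n ≃ κ) := ⟨(Fintype.equivFinOfCardEq hn.symm).symm⟩
  have hQ' : Helper97.Gen.IsOQ (Sy.pq e₀ Q) := isOQ_pq e₀ hQ
  have hG' : ∀ (F₁ : Subfield F) (i j : Fin n),
      Helper97.Gen.gram (QuadraticMap.polar (Sy.pq e₀ Q)) i j ∈ F₁ := by
    intro F₁ i j
    rw [gram_pq]
    exact hG F₁ _ _
  have hH' : H.map (Sy.pg e₀).toMonoidHom ≤ isometryGroup F (Sy.pq e₀ Q) :=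
    Sy.map_le_of e₀ (fun g hg => pg_isometry e₀ Q hg) hHO
  have hback : (H.map (Sy.pg e₀).toMonoidHom).map (Sy.pg e₀.symm).toMonoidHom = H :=
    Sy.map_pg_map_pg e₀ H
  rcases o_structure (hn ▸ hodd) hQ' hG' _ hH' with h | h
  · left
    have h1 := o_transport e₀.symm h
    rw [pq_symm_pq, hback] at h1
    exact h1
  · right
    have h1 := pr_oresidual e₀.symm h
    rw [hback] at h1
    exact h1

theorem card_odd_index (m : ℕ) : Fintype.card (Unit ⊕ (Fin m ⊕ Fin m)) = 2 * m + 1 := by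
  simp only [Fintype.card_sum, Fintype.card_unit, Fintype.card_fin]
  omega

/-- The structure theorem for groups of isometries of the standard quadratic form in odd dimension
`2m + 1` over a finite field of odd order. -/
theorem o_odd_structure [Fintype F] (hodd : Odd (Fintype.card F)) (m : ℕ) (hm : 1 ≤ m)
    (H : Subgroup (GL (Unit ⊕ (Fin m ⊕ Fin m)) F))
    (hH : H ≤ isometryGroup F (quadFormOdd m F)) :
    (∃ M : Subgroup (GL (Unit ⊕ (Fin m ⊕ Fin m)) F), InOrthogonalOddClass m F M ∧ H ≤ M) ∨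
      InOrthogonalResidualClass H := by
  have h2 : (2 : F) ≠ 0 := Helper97.Gen.two_ne_zero_of_odd_card hodd
  have hQ := Helper97.Gen.isOQ_quadFormOdd (m := m) h2 hm
  have hcard := card_odd_index m
  rcases o_structure_gen (by rw [hcard]; exact ⟨m, rfl⟩) hQ
    (fun F₁ i j => Helper97.Gen.gram_quadFormOdd_mem F₁ i j) H hH with h | h
  · left
    unfold OClassG at h
    rcases h with ⟨W, hW0, hts, hle⟩ | ⟨W, hW0, hW1, hnd, hle⟩ | ⟨t, k, D, hk, hD, hle⟩ |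
      ⟨t, D, hp, hD, hle⟩ | ⟨r, K, hr, hnr, hK, hsa, hle⟩ |
      ⟨n₁, n₂, e₁, P, f₁, f₂, h3, hlt, hf₁, hf₂, hT, hle⟩ | ⟨F₀, r, P, hr, hcard', hR, hle⟩ |
      ⟨k, t, e₁, P, f₁, hk, ht, hex, hf₁, hT, hle⟩
    · exact ⟨_, Or.inl ⟨W, hW0, hts, rfl⟩, le_inf hle hH⟩
    · exact ⟨_, Or.inr (Or.inl ⟨W, hW0, hW1, hnd, rfl⟩), le_inf hle hH⟩
    · exact ⟨_, Or.inr (Or.inr (Or.inl ⟨t, k, D, hk, hD, rfl⟩)), le_inf hle hH⟩
    · exact ⟨_, Or.inr (Or.inr (Or.inr (Or.inl ⟨t, D, hp, hD, rfl⟩))), le_inf hle hH⟩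
    · exact ⟨_, Or.inr (Or.inr (Or.inr (Or.inr (Or.inl
        ⟨r, K, hr, by rw [← hcard]; exact hnr, hK, hsa, rfl⟩)))), le_inf hle hH⟩
    · exact ⟨_, Or.inr (Or.inr (Or.inr (Or.inr (Or.inr (Or.inl
        ⟨n₁, n₂, e₁, P, f₁, f₂, h3, hlt, hf₁, hf₂, hT, rfl⟩))))), le_inf hle hH⟩
    · exact ⟨_, Or.inr (Or.inr (Or.inr (Or.inr (Or.inr (Or.inr (Or.inl
        ⟨F₀, r, P, hr, hcard', hR, rfl⟩)))))), le_inf hle hH⟩
    · exact ⟨_, Or.inr (Or.inr (Or.inr (Or.inr (Or.inr (Or.inr (Or.inr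
        ⟨k, t, e₁, P, f₁, hk, ht, hex, hf₁, hT, rfl⟩)))))), le_inf hle hH⟩
  · right
    exact h

end Cfsg.Agent.Helper94.OA
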