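-- helper94 library: `Ω` of an odd-characteristic quadratic form is not contained in the stabiliser
-- of a decomposition into blocks of dimension at least three, nor in the normaliser of a field
-- subalgebra of degree at least three (via Siegel transformations).
import Cfsg.Agent.Helper94.OA8
import Cfsg.Agent.Helper96.SpField

set_option autoImplicit false
set_option linter.unusedSectionVars false
set_option linter.unusedVariables false
open Cfsg Cfsg.Geo Matrix
open Cfsg.Agent.Helper97.Gen

namespace Cfsg.Agent.Helper94.OB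

variable {κ : Type} [Fintype κ] [DecidableEq κ] {F : Type*} [Field F] {Q : (κ → F) → F}

theorem sg_sub_mem (u v x : κ → F) :
    sg Q u v x - x ∈ Submodule.span F ({u, v} : Set (κ → F)) := by
  have hu : u ∈ Submodule.span F ({u, v} : Set (κ → F)) := Submodule.subset_span (by simp)
  have hv : v ∈ Submodule.span F ({u, v} : Set (κ → F)) := Submodule.subset_span (by simp)
  have e : sg Q u v x - x = (QuadraticMap.polar Q x v - Q v * QuadraticMap.polar Q x u) • u
      - QuadraticMap.polar Q x u • v := by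
    unfold sg
    module
  rw [e]
  exact Submodule.sub_mem _ (Submodule.smul_mem _ _ hu) (Submodule.smul_mem _ _ hv)

theorem finrank_span_pair_le (u v : κ → F) :
    Module.finrank F (Submodule.span F ({u, v} : Set (κ → F))) ≤ 2 := by
  classical
  have h1 := finrank_span_finset_le_card (R := F) ({u, v} : Finset (κ → F))
  have h2 : (({u, v} : Finset (κ → F)) : Set (κ → F)) = {u, v} := by
    push_cast
    rfl
  rw [h2] at h1
  exact h1.trans Finset.card_le_two

/-- A non-zero subspace stable under all Siegel transformations is everything. -/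
theorem top_of_siegel_stable (hQ : IsOQ Q) (W : Submodule F (κ → F)) (hW0 : W ≠ ⊥)
    (hE : ∀ u v, Q u = 0 → QuadraticMap.polar Q u v = 0 → ∀ w ∈ W, sg Q u v w ∈ W) : W = ⊤ := by
  apply hQ.span_singular W
  obtain ⟨w, hwW, hw0⟩ := (Submodule.ne_bot_iff W).mp hW0
  intro u hu
  by_cases hu0 : u = 0
  · rw [hu0]
    exact W.zero_mem
  by_cases hwu : QuadraticMap.polar Q w u = 0
  · by_cases hmul : ∃ c : F, w = c • u
    · obtain ⟨c, rfl⟩ := hmul
      have hc : c ≠ 0 := by
        rintro rfl
        exact hw0 (zero_smul _ _)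
      have := W.smul_mem c⁻¹ hwW
      rwa [smul_smul, inv_mul_cancel₀ hc, one_smul] at this
    · obtain ⟨x, hx1, hx2⟩ := hQ.exists_perp_not_perp u w hmul
      have h1 := hE u x hu hx1 w hwW
      have e : sg Q u x w = w + QuadraticMap.polar Q w x • u := by
        simp only [sg, hwu]
        module
      rw [e] at h1
      have h2 := W.sub_mem h1 hwW
      rw [add_sub_cancel_left] at h2
      have := W.smul_mem (QuadraticMap.polar Q w x)⁻¹ h2
      rwa [smul_smul, inv_mul_cancel₀ hx2, one_smul] at this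
  · obtain ⟨v, huv, hv⟩ := hQ.exists_nonsing_perp u hu0
    have h1 := hE u v hu huv w hwW
    have h2 := hE u (-v) hu (by rw [hQ.pl_neg_right, huv, neg_zero]) w hwW
    have h4 := W.sub_mem (W.add_mem h1 h2) (W.smul_mem (2 : F) hwW)
    have e : sg Q u v w + sg Q u (-v) w - (2 : F) • w
        = (-(2 * Q v * QuadraticMap.polar Q w u)) • u := by
      simp only [sg, hQ.pl_neg_right, hQ.neg]
      module
    rw [e] at h4
    have hne : -(2 * Q v * QuadraticMap.polar Q w u) ≠ 0 :=
      neg_ne_zero.mpr (mul_ne_zero (mul_ne_zero hQ.two_ne hv) hwu)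
    have := W.smul_mem (-(2 * Q v * QuadraticMap.polar Q w u))⁻¹ h4
    rwa [smul_smul, inv_mul_cancel₀ hne, one_smul] at this

/-- A Siegel transformation with singular `u ≠ 0` and non-singular `v` is not the identity. -/
theorem siegel_ne_id (hQ : IsOQ Q) (u v : κ → F) (hu0 : u ≠ 0) (hu : Q u = 0) (hv : Q v ≠ 0) :
    ∃ y, sg Q u v y ≠ y := by
  obtain ⟨y, hy⟩ := hQ.nondeg hu0
  refine ⟨y, fun h => ?_⟩
  have hyu : QuadraticMap.polar Q y u ≠ 0 := by rwa [hQ.symm]
  have h1 : QuadraticMap.polar Q y u • v =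
      (QuadraticMap.polar Q y v - Q v * QuadraticMap.polar Q y u) • u := by
    have e : QuadraticMap.polar Q y u • v -
        (QuadraticMap.polar Q y v - Q v * QuadraticMap.polar Q y u) • u = -(sg Q u v y - y) := by
      unfold sg
      module
    rw [h, sub_self, neg_zero] at e
    exact sub_eq_zero.mp e
  have h3 : v = ((QuadraticMap.polar Q y u)⁻¹ *
      (QuadraticMap.polar Q y v - Q v * QuadraticMap.polar Q y u)) • u := by
    rw [mul_smul, ← h1, smul_smul, inv_mul_cancel₀ hyu, one_smul]
  apply hv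
  rw [h3, hQ.smul, hu, mul_zero]

/-- `Ω` does not stabilise a decomposition into blocks of dimension at least three. -/
theorem notOmega_decomp_big (hQ : IsOQ Q) {t k : ℕ} (hk : 3 ≤ k)
    (D : Fin t → Submodule F (κ → F)) (hD : IsMDecomposition k D) :
    ¬ omegaGL Q ≤ decompositionStabilizer D := by
  classical
  intro hle
  have ht := hD.two_le
  have hfix : ∀ u v, Q u = 0 → QuadraticMap.polar Q u v = 0 → ∀ i, ∀ w ∈ D i,
      sg Q u v w ∈ D i := by
    intro u v hu huv i w hw
    obtain ⟨E, hEΩ, hEx⟩ := hQ.exists_siegel u v hu huv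
    obtain ⟨σ, hσ⟩ := (mem_decompositionStabilizer_iff D E).mp (hle hEΩ)
    have hmap : ∀ x ∈ D i, (E : Matrix κ κ F) *ᵥ x ∈ D (σ i) := by
      intro x hx
      rw [← hσ i]
      exact ⟨x, hx, by rw [Matrix.toLin'_apply]⟩
    by_cases hσi : σ i = i
    · have := hmap w hw
      rwa [hσi, hEx] at this
    · exfalso
      have hdisj : Disjoint (D i) (D (σ i)) := hD.indep.pairwiseDisjoint (Ne.symm hσi)
      obtain ⟨L, hL⟩ : ∃ L : D i →ₗ[F] (κ → F), L =
          (Matrix.toLin' (E : Matrix κ κ F) - LinearMap.id).comp (D i).subtype := ⟨_, rfl⟩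
      have hLx : ∀ x : D i, L x = sg Q u v (x : κ → F) - (x : κ → F) := by
        intro x
        rw [hL, LinearMap.comp_apply, LinearMap.sub_apply, Matrix.toLin'_apply, hEx]
        rfl
      have hinj : Function.Injective L := by
        rw [← LinearMap.ker_eq_bot, LinearMap.ker_eq_bot']
        intro x hx
        rw [hLx, sub_eq_zero] at hx
        have h1 : (x : κ → F) ∈ D (σ i) := by
          have := hmap x x.2
          rwa [hEx, hx] at this
        have h2 : (x : κ → F) ∈ D i ⊓ D (σ i) := ⟨x.2, h1⟩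
        rw [hdisj.eq_bot, Submodule.mem_bot] at h2
        exact Subtype.ext h2
      have hrange : LinearMap.range L ≤ Submodule.span F ({u, v} : Set (κ → F)) := by
        rintro _ ⟨x, rfl⟩
        rw [hLx]
        exact sg_sub_mem u v _
      have h3 := LinearMap.finrank_range_of_inj hinj
      have h4 := Submodule.finrank_mono hrange
      have h5 := finrank_span_pair_le (F := F) u v
      have h6 := hD.finrank_eq i
      omega
  have h0 : D ⟨0, by omega⟩ = ⊤ :=
    top_of_siegel_stable hQ _ (by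
      intro h
      have := hD.finrank_eq ⟨0, by omega⟩
      rw [h, finrank_bot] at this
      omega) (fun u v hu huv w hw => hfix u v hu huv _ w hw)
  have hdisj : Disjoint (D ⟨1, by omega⟩) (D ⟨0, by omega⟩) :=
    hD.indep.pairwiseDisjoint (by
      intro h
      have := congrArg Fin.val h
      simp at this)
  rw [h0, disjoint_top] at hdisj
  have := hD.finrank_eq ⟨1, by omega⟩
  rw [hdisj, finrank_bot] at this
  omega

/-- `Ω` does not normalise a field subalgebra of degree at least three (dimension at least five). -/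
theorem notOmega_field [Finite F] (hQ : IsOQ Q) (hcard : 5 ≤ Fintype.card κ) {r : ℕ} (hr : 3 ≤ r)
    (K : Subalgebra F (Matrix κ κ F)) (hK : IsFieldSubalgebra r K) :
    ¬ omegaGL Q ≤ subalgebraNormalizer K := by
  classical
  intro hle
  obtain ⟨u, hu0, hu⟩ := hQ.isotropic
  obtain ⟨v, huv, hv⟩ := hQ.exists_nonsing_perp u hu0
  obtain ⟨E, hEΩ, hEx⟩ := hQ.exists_siegel u v hu huv
  have hEN := (mem_subalgebraNormalizer_iff K E).mp (hle hEΩ)
  obtain ⟨U, hUdef⟩ : ∃ U : Submodule F (κ → F), U = Submodule.span F ({u, v} : Set (κ → F)) :=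
    ⟨_, rfl⟩
  have hU2 : Module.finrank F U ≤ 2 := hUdef ▸ finrank_span_pair_le u v
  have hEU : ∀ x, (E : Matrix κ κ F) *ᵥ x - x ∈ U := by
    intro x
    rw [hEx, hUdef]
    exact sg_sub_mem u v x
  have hE1 : ∃ x, (E : Matrix κ κ F) *ᵥ x ≠ x := by
    obtain ⟨y, hy⟩ := siegel_ne_id hQ u v hu0 hu hv
    exact ⟨y, by rw [hEx]; exact hy⟩
  have hEinv : (E : Matrix κ κ F) * ((E⁻¹ : GL κ F) : Matrix κ κ F) = 1 := by
    rw [← Units.val_mul, mul_inv_cancel, Units.val_one]
  have hEinv' : ((E⁻¹ : GL κ F) : Matrix κ κ F) * (E : Matrix κ κ F) = 1 := by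
    rw [← Units.val_mul, inv_mul_cancel, Units.val_one]
  by_cases hcomm : ∀ k ∈ K, (E : Matrix κ κ F) * k * ((E⁻¹ : GL κ F) : Matrix κ κ F) = k
  · -- `E` centralises `K`
    have hEk : ∀ k ∈ K, (E : Matrix κ κ F) * k = k * (E : Matrix κ κ F) := by
      intro k hk
      have h1 := hcomm k hk
      calc (E : Matrix κ κ F) * k
          = (E : Matrix κ κ F) * k * (((E⁻¹ : GL κ F) : Matrix κ κ F) * (E : Matrix κ κ F)) := by
            rw [hEinv', mul_one]
        _ = ((E : Matrix κ κ F) * k * ((E⁻¹ : GL κ F) : Matrix κ κ F)) * (E : Matrix κ κ F) := by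
            simp only [mul_assoc]
        _ = k * (E : Matrix κ κ F) := by rw [h1]
    obtain ⟨R, hR⟩ : ∃ R : Submodule F (κ → F),
        R = LinearMap.range (Matrix.toLin' (E : Matrix κ κ F) - LinearMap.id) := ⟨_, rfl⟩
    have hRinv : ∀ k ∈ K, ∀ w ∈ R, k *ᵥ w ∈ R := by
      intro k hk w hw
      rw [hR] at hw ⊢
      obtain ⟨x, rfl⟩ := hw
      refine ⟨k *ᵥ x, ?_⟩
      rw [LinearMap.sub_apply, LinearMap.sub_apply, Matrix.toLin'_apply, Matrix.toLin'_apply,
        LinearMap.id_apply, LinearMap.id_apply, Matrix.mulVec_sub, Matrix.mulVec_mulVec,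
        Matrix.mulVec_mulVec, hEk k hk]
    have hdvd := Cfsg.Agent.Helper96.Sy.dvd_finrank_of_inv K hK.inv R hRinv
    rw [hK.finrank_eq] at hdvd
    have hRU : R ≤ U := by
      rw [hR]
      rintro _ ⟨x, rfl⟩
      rw [LinearMap.sub_apply, Matrix.toLin'_apply, LinearMap.id_apply]
      exact hEU x
    have h1 := Submodule.finrank_mono hRU
    have h0 : Module.finrank F R = 0 := by
      rcases Nat.eq_zero_or_pos (Module.finrank F R) with h | h
      · exact h
      · have := Nat.le_of_dvd h hdvd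
        omega
    have hRbot : R = ⊥ := Submodule.finrank_eq_zero.mp h0
    obtain ⟨x, hx⟩ := hE1
    apply hx
    have h2 : (Matrix.toLin' (E : Matrix κ κ F) - (LinearMap.id : (κ → F) →ₗ[F] (κ → F))) x ∈ R := by
      rw [hR]
      exact ⟨x, rfl⟩
    rw [hRbot, Submodule.mem_bot, LinearMap.sub_apply, Matrix.toLin'_apply, LinearMap.id_apply,
      sub_eq_zero] at h2
    exact h2
  · push Not at hcomm
    obtain ⟨k, hk, hne⟩ := hcomm
    obtain ⟨k', hk'⟩ : ∃ k', k' = (E : Matrix κ κ F) * k * ((E⁻¹ : GL κ F) : Matrix κ κ F) :=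
      ⟨_, rfl⟩
    have hk'K : k' ∈ K := hk' ▸ (hEN k).mp hk
    have hk'E : k' * (E : Matrix κ κ F) = (E : Matrix κ κ F) * k := by
      rw [hk', mul_assoc, hEinv', mul_one]
    obtain ⟨c, hc⟩ : ∃ c, c = k' - k := ⟨_, rfl⟩
    have hcK : c ∈ K := hc ▸ K.sub_mem hk'K hk
    have hc0 : c ≠ 0 := by
      intro h0
      apply hne
      rw [← hk']
      rw [hc, sub_eq_zero] at h0
      exact h0
    obtain ⟨c', hc'K, hcc'⟩ := hK.inv c hcK hc0
    obtain ⟨U', hU'⟩ : ∃ U' : Submodule F (κ → F), U' = U ⊔ U.map (Matrix.toLin' k) := ⟨_, rfl⟩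
    have hU'4 : Module.finrank F U' ≤ 4 := by
      rw [hU']
      have h1 := Submodule.finrank_add_le_finrank_add_finrank U (U.map (Matrix.toLin' k))
      have h2 := Submodule.finrank_map_le (Matrix.toLin' k) U
      omega
    have hcE : ∀ y, c *ᵥ ((E : Matrix κ κ F) *ᵥ y) ∈ U' := by
      intro y
      have e : c *ᵥ ((E : Matrix κ κ F) *ᵥ y) =
          ((E : Matrix κ κ F) *ᵥ (k *ᵥ y) - k *ᵥ y) -
            k *ᵥ ((E : Matrix κ κ F) *ᵥ y - y) := by
        rw [hc, Matrix.sub_mulVec, Matrix.mulVec_mulVec, hk'E, Matrix.mulVec_sub,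
          Matrix.mulVec_mulVec, Matrix.mulVec_mulVec]
        abel
      rw [e, hU']
      apply Submodule.sub_mem
      · exact Submodule.mem_sup_left (hEU _)
      · exact Submodule.mem_sup_right ⟨_, hEU y, by rw [Matrix.toLin'_apply]⟩
    have htop : (⊤ : Submodule F (κ → F)) ≤ U' := by
      intro x _
      have h1 := hcE (((E⁻¹ : GL κ F) : Matrix κ κ F) *ᵥ (c' *ᵥ x))
      rw [mulVec_cancel_inv, Matrix.mulVec_mulVec, hcc', Matrix.one_mulVec] at h1
      exact h1
    have h1 := Submodule.finrank_mono htop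
    rw [finrank_top, Module.finrank_fintype_fun_eq_card] at h1
    omega

end Cfsg.Agent.Helper94.OB
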