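-- helper94 library: `Ω` is not contained in a tensor-wreath subgroup with two factors.
import Cfsg.Agent.Helper94.OB1
import Cfsg.Agent.Helper33.TW2Scalar

set_option autoImplicit false
set_option linter.unusedSectionVars false
set_option linter.unusedVariables false
open Cfsg Cfsg.Geo Matrix
open Cfsg.Agent.Helper96
open Cfsg.Agent.Helper97.Gen

namespace Cfsg.Agent.Helper94.OB

variable {κ : Type} [Fintype κ] [DecidableEq κ] {F : Type*} [Field F] {Q : (κ → F) → F}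

/-- `Ω` is not contained in a tensor-wreath subgroup with two factors of dimension at least 3. -/
theorem notOmega_wreath (hQ : IsOQ Q) {m : ℕ} (hm : 3 ≤ m) (e : κ ≃ (Fin 2 → Fin m))
    (P : GL κ F) : ¬ omegaGL Q ≤ tensorWreathSubgroup m 2 e P := by
  classical
  intro hle
  obtain ⟨u, hu0, hu⟩ := hQ.isotropic
  obtain ⟨v, huv, hv⟩ := hQ.exists_nonsing_perp u hu0
  obtain ⟨E, hEΩ, hEx⟩ := hQ.exists_siegel u v hu huv
  obtain ⟨_, ⟨w, hw, rfl⟩, hEy⟩ := hle hEΩ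
  have hEval : E = P * Sy.pg e w * P⁻¹ := hEy.symm
  obtain ⟨S, hS⟩ : ∃ S : (κ → F) →ₗ[F] ((Fin 2 → Fin m) → F), ∀ x,
      S x = (((P⁻¹ : GL κ F) : Matrix κ κ F) *ᵥ x) ∘ e.symm :=
    ⟨((Sy.pv (F := F) e.symm : (κ → F) ≃ₗ[F] ((Fin 2 → Fin m) → F)) :
      (κ → F) →ₗ[F] ((Fin 2 → Fin m) → F)).comp
      (Matrix.toLin' ((P⁻¹ : GL κ F) : Matrix κ κ F)), fun x => rfl⟩
  obtain ⟨U, hUdef⟩ : ∃ U : Submodule F (κ → F), U = Submodule.span F ({u, v} : Set (κ → F)) :=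
    ⟨_, rfl⟩
  have hU2 : Module.finrank F (U.map S) ≤ 2 :=
    (Submodule.finrank_map_le S U).trans (hUdef ▸ finrank_span_pair_le u v)
  have hEP : ∀ z : (Fin 2 → Fin m) → F, (E : Matrix κ κ F) *ᵥ ((P : Matrix κ κ F) *ᵥ (z ∘ e)) =
      (P : Matrix κ κ F) *ᵥ (((w : Matrix (Fin 2 → Fin m) (Fin 2 → Fin m) F) *ᵥ z) ∘ e) := by
    intro z
    rw [hEval, Units.val_mul, Units.val_mul, ← Matrix.mulVec_mulVec, ← Matrix.mulVec_mulVec,
      mulVec_inv_cancel, Sy.pg_mulVec]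
  have hwU : ∀ z, (w : Matrix (Fin 2 → Fin m) (Fin 2 → Fin m) F) *ᵥ z - z ∈ U.map S := by
    intro z
    refine ⟨(E : Matrix κ κ F) *ᵥ ((P : Matrix κ κ F) *ᵥ (z ∘ e)) - (P : Matrix κ κ F) *ᵥ (z ∘ e),
      ?_, ?_⟩
    · rw [hEx, hUdef]
      exact sg_sub_mem u v _
    · rw [hEP, ← Matrix.mulVec_sub, hS, mulVec_inv_cancel]
      funext a
      simp
  obtain ⟨c, hc⟩ := Cfsg.Agent.Helper33.std_two_sq_scalar hm w hw (U.map S) hU2 hwU
  have hEE : ∀ x, (E : Matrix κ κ F) *ᵥ ((E : Matrix κ κ F) *ᵥ x) = c • x := by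
    intro x
    obtain ⟨z, hz⟩ : ∃ z : (Fin 2 → Fin m) → F, x = (P : Matrix κ κ F) *ᵥ (z ∘ e) :=
      ⟨(((P⁻¹ : GL κ F) : Matrix κ κ F) *ᵥ x) ∘ e.symm, by
        rw [Sy.comp_comp_symm, mulVec_cancel_inv]⟩
    rw [hz, hEP, hEP, Matrix.mulVec_mulVec, ← Units.val_mul, hc, Matrix.smul_mulVec,
      Matrix.one_mulVec]
    have h1 : (c • z) ∘ e = c • (z ∘ e) := rfl
    rw [h1, Matrix.mulVec_smul]
  have hsu : sg Q u v u = u := by
    have huu : QuadraticMap.polar Q u u = 0 := by rw [hQ.self, hu, mul_zero]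
    unfold sg
    rw [huv, huu]
    module
  have hc1 : c = 1 := by
    have h1 := hEE u
    rw [hEx u, hsu, hEx u, hsu] at h1
    by_contra hne
    apply hu0
    have h2 : (1 - c) • u = 0 := by rw [sub_smul, one_smul, ← h1, sub_self]
    rcases smul_eq_zero.mp h2 with h | h
    · exact absurd (sub_eq_zero.mp h).symm hne
    · exact h
  have h4 : Q (v + v) ≠ 0 := by
    rw [hQ.add, hQ.self]
    intro h
    have h5 : (2 : F) * 2 * Q v = 0 := by linear_combination h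
    rcases mul_eq_zero.mp h5 with h6 | h6
    · rcases mul_eq_zero.mp h6 with h7 | h7 <;> exact hQ.two_ne h7
    · exact hv h6
  obtain ⟨y, hy⟩ := siegel_ne_id hQ u (v + v) hu0 hu h4
  apply hy
  rw [← hQ.sg_comp u v v y hu huv huv, ← hEx, ← hEx, hEE, hc1, one_smul]

end Cfsg.Agent.Helper94.OB
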