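-- helper94 library: the maximal subgroups of `Ω_9(q)`, `q` odd.
import Cfsg.Agent.Helper94.OB2
import Cfsg.Agent.Helper33.FrameRefine

set_option autoImplicit false
set_option linter.unusedSectionVars false
set_option linter.unusedVariables false
open Cfsg Cfsg.Geo Matrix
open Cfsg.Agent.Helper96
open Cfsg.Agent.Helper97.Gen

namespace Cfsg.Agent.Helper94.OB

theorem o9_max {F : Type*} [Field F] [Fintype F] (hodd : Odd (Fintype.card F)) (H : Subgroup (Matrix.GeneralLinearGroup (Unit ⊕ (Fin 4 ⊕ Fin 4)) F)) (hH : Cfsg.Geo.IsMaximalIn (Cfsg.Geo.omegaGL (Cfsg.quadFormOdd 4 F)) H) :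
    (∃ W : Submodule F (Unit ⊕ (Fin 4 ⊕ Fin 4) → F), W ≠ ⊥ ∧ Cfsg.Geo.IsTotallySingularQuad (Cfsg.quadFormOdd 4 F) W ∧ H = Cfsg.Geo.subspaceStabilizer W ⊓ Cfsg.Geo.omegaGL (Cfsg.quadFormOdd 4 F)) ∨
    (∃ W : Submodule F (Unit ⊕ (Fin 4 ⊕ Fin 4) → F), W ≠ ⊥ ∧ Even (Module.finrank F W) ∧ Cfsg.Geo.IsNondegenerateOn (QuadraticMap.polar (Cfsg.quadFormOdd 4 F)) W ∧ ¬ (Fintype.card F = 3 ∧ Module.finrank F W = 2 ∧ Cfsg.Geo.IsPlusTypeOn (Cfsg.quadFormOdd 4 F) W) ∧ H = Cfsg.Geo.subspaceStabilizer W ⊓ Cfsg.Geo.omegaGL (Cfsg.quadFormOdd 4 F)) ∨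
    ((Fintype.card F).Prime ∧ ∃ D : Fin 9 → Submodule F (Unit ⊕ (Fin 4 ⊕ Fin 4) → F), Cfsg.Geo.IsOrthogonalMDecomposition (Cfsg.quadFormOdd 4 F) 1 D ∧ H = Cfsg.Geo.decompositionStabilizer D ⊓ Cfsg.Geo.omegaGL (Cfsg.quadFormOdd 4 F)) ∨
    (5 ≤ Fintype.card F ∧ ∃ D : Fin 3 → Submodule F (Unit ⊕ (Fin 4 ⊕ Fin 4) → F), Cfsg.Geo.IsOrthogonalMDecomposition (Cfsg.quadFormOdd 4 F) 3 D ∧ H = Cfsg.Geo.decompositionStabilizer D ⊓ Cfsg.Geo.omegaGL (Cfsg.quadFormOdd 4 F)) ∨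
    (∃ K : Subalgebra F (Matrix (Unit ⊕ (Fin 4 ⊕ Fin 4)) (Unit ⊕ (Fin 4 ⊕ Fin 4)) F), Cfsg.Geo.IsFieldSubalgebra 3 K ∧ Cfsg.Geo.IsSelfAdjointFor (QuadraticMap.polar (Cfsg.quadFormOdd 4 F)) K ∧ H = Cfsg.Geo.subalgebraNormalizer K ⊓ Cfsg.Geo.omegaGL (Cfsg.quadFormOdd 4 F)) ∨
    (∃ (F₀ : Subfield F) (r : ℕ) (P : Matrix.GeneralLinearGroup (Unit ⊕ (Fin 4 ⊕ Fin 4)) F), r.Prime ∧ Fintype.card F = Nat.card F₀ ^ r ∧ Cfsg.Geo.IsQuadFormRationalStructure (Cfsg.quadFormOdd 4 F) F₀ P ∧ H = Cfsg.Geo.subfieldSubgroup F₀ P ⊓ Cfsg.Geo.omegaGL (Cfsg.quadFormOdd 4 F)) ∨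
    (5 ≤ Fintype.card F ∧ ∃ (e : (Unit ⊕ (Fin 4 ⊕ Fin 4)) ≃ (Fin 2 → Fin 3)) (P : Matrix.GeneralLinearGroup (Unit ⊕ (Fin 4 ⊕ Fin 4)) F) (f₁ : (Fin 3 → F) → (Fin 3 → F) → F), Cfsg.Geo.IsSymmetricForm f₁ ∧ Cfsg.Geo.IsTensorPowerFormStructure id (QuadraticMap.polar (Cfsg.quadFormOdd 4 F)) f₁ e P ∧ H = Cfsg.Geo.tensorWreathSubgroup 3 2 e P ⊓ Cfsg.Geo.omegaGL (Cfsg.quadFormOdd 4 F)) ∨
    Cfsg.Geo.InOrthogonalResidualClass H := by
  classical
  have h2 : (2 : F) ≠ 0 := two_ne_zero_of_odd_card hodd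
  have hQ := isOQ_quadFormOdd (F := F) (m := 4) h2 (by norm_num)
  have hcard : Fintype.card (Unit ⊕ (Fin 4 ⊕ Fin 4)) = 9 := OA.card_odd_index 4
  have hfact : Fact (Fintype.card (Unit ⊕ (Fin 4 ⊕ Fin 4)) = 9) := ⟨hcard⟩
  have hoddκ : Odd (Fintype.card (Unit ⊕ (Fin 4 ⊕ Fin 4))) := by rw [hcard]; decide
  have hHΩ : H ≤ omegaGL (quadFormOdd 4 F) := hH.1.le
  have hHO : H ≤ isometryGroup F (quadFormOdd 4 F) := hHΩ.trans (omegaGL_le _)
  have hq3 : 3 ≤ Fintype.card F := by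
    have h1 := Fintype.one_lt_card (α := F)
    obtain ⟨j, hj⟩ := hodd
    omega
  by_cases hirr : ActsIrreducibly (matrixSet H)
  swap
  · -- reducible: classes 1 and 2
    rcases hQ.reducible_cases hoddκ H hHO hirr with
      ⟨W, hW0, hW1, hts, hle⟩ | ⟨W, hW0, hW1, hnd, heven, hle⟩
    · left
      exact ⟨W, hW0, hts, eq_inf_of_maxIn hH hle (hQ.notOmega_subspace W hW0 hW1)⟩
    · right; left
      by_cases hbad : Fintype.card F = 3 ∧ Module.finrank F W = 2 ∧ IsPlusTypeOn (quadFormOdd 4 F) W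
      · obtain ⟨W', hdim', hnd', hle'⟩ :=
          hQ.plus_plane_three hbad.1 H hHO W hle hnd hbad.2.1 hbad.2.2
        rw [hcard] at hdim'
        have hW'0 : W' ≠ ⊥ := by
          rintro rfl
          rw [finrank_bot] at hdim'
          omega
        have hW'1 : W' ≠ ⊤ := by
          rintro rfl
          rw [finrank_top, Module.finrank_fintype_fun_eq_card, hcard] at hdim'
          omega
        have heven' : Even (Module.finrank F W') := ⟨4, by omega⟩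
        exact ⟨W', hW'0, heven', hnd', fun h => by omega,
          eq_inf_of_maxIn hH hle' (hQ.notOmega_subspace W' hW'0 hW'1)⟩
      · exact ⟨W, hW0, heven, hnd, hbad,
          eq_inf_of_maxIn hH hle (hQ.notOmega_subspace W hW0 hW1)⟩
  rcases OA.o_structure_gen hoddκ hQ (fun F₁ i j => gram_quadFormOdd_mem F₁ i j) H hHO with h | h
  swap
  · exact Or.inr (Or.inr (Or.inr (Or.inr (Or.inr (Or.inr (Or.inr h))))))
  unfold OA.OClassG at h
  rcases h with ⟨W, hW0, hts, hle⟩ | ⟨W, hW0, hW1, hnd, hle⟩ | ⟨t, k, D, hk, hD, hle⟩ |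
    ⟨t, D, hp, hD, hle⟩ | ⟨r, K, hr, hnr, hK, hsa, hle⟩ |
    ⟨n₁, n₂, e₁, P, f₁, f₂, h3, hlt, hf₁, hf₂, hT, hle⟩ | ⟨F₀, r, P, hr, hcard', hR, hle⟩ |
    ⟨k, t, e₁, P, f₁, hk, ht, hex, hf₁, hT, hle⟩
  · -- totally singular subspace
    have hW1 : W ≠ ⊤ := by
      rintro rfl
      obtain ⟨v, hv⟩ := hQ.exists_nonsing
      exact hv (hts v trivial)
    exact Or.inl ⟨W, hW0, hts, eq_inf_of_maxIn hH hle (hQ.notOmega_subspace W hW0 hW1)⟩
  · -- non-degenerate subspace: contradicts irreducibility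
    exfalso
    have hinv : ∀ s ∈ matrixSet H, W.map (Matrix.toLin' s) ≤ W := by
      rintro _ ⟨g, hg, rfl⟩ _ ⟨w, hw, rfl⟩
      rw [Matrix.toLin'_apply]
      exact ((mem_subspaceStabilizer_iff W g).mp (hle hg) w).mp hw
    rcases hirr W hinv with h | h
    · exact hW0 h
    · exact hW1 h
  · -- decomposition into blocks of dimension k > 1
    have htk : t * k = 9 := isMDecomposition_card (n := 9) D hD.decomp.decomp
    have ht2 := hD.decomp.decomp.two_le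
    have hk3 : k = 3 ∧ t = 3 := by
      have hdvd : t ∣ 9 := Dvd.intro _ htk
      have ht9 : t ≤ 9 := Nat.le_of_dvd (by norm_num) hdvd
      interval_cases t <;> omega
    obtain ⟨rfl, rfl⟩ := hk3
    by_cases hF3 : Fintype.card F = 3
    · obtain ⟨D', hD', hstab⟩ := Cfsg.Agent.Helper33.frame_refine hF3 _ hQ D hD
      exact Or.inr (Or.inr (Or.inl ⟨by rw [hF3]; exact Nat.prime_three, D', hD',
        eq_inf_of_maxIn hH ((le_inf hle hHO).trans hstab)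
          (hQ.notOmega_decomp (by norm_num) D' hD'.decomp)⟩))
    · have hq5 : 5 ≤ Fintype.card F := by
        obtain ⟨j, hj⟩ := hodd
        omega
      exact Or.inr (Or.inr (Or.inr (Or.inl ⟨hq5, D, hD,
        eq_inf_of_maxIn hH hle (notOmega_decomp_big hQ (le_refl 3) D hD.decomp.decomp)⟩)))
  · -- decomposition into lines, q prime
    have htk : t * 1 = 9 := isMDecomposition_card (n := 9) D hD.decomp.decomp
    have ht9 : t = 9 := by omega
    subst ht9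
    exact Or.inr (Or.inr (Or.inl ⟨hp, D, hD,
      eq_inf_of_maxIn hH hle (hQ.notOmega_decomp (by norm_num) D hD.decomp)⟩))
  · -- field of prime degree
    have hdvd := Sy.dvd_finrank_of_inv K hK.inv ⊤ (fun k _ u _ => Submodule.mem_top)
    rw [hK.finrank_eq, finrank_top, Module.finrank_fintype_fun_eq_card, hcard] at hdvd
    rw [hcard] at hnr
    have hr3 : r = 3 := by
      have h9 : r ≤ 9 := Nat.le_of_dvd (by norm_num) hdvd
      have hr2 := hr.two_le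
      interval_cases r <;> first | rfl | omega
    subst hr3
    exact Or.inr (Or.inr (Or.inr (Or.inr (Or.inl ⟨K, hK, hsa,
      eq_inf_of_maxIn hH hle (notOmega_field hQ (by rw [hcard]; norm_num) (le_refl 3) K hK)⟩))))
  · -- tensor product with distinct dimensions: impossible
    exfalso
    have h1 := Fintype.card_congr e₁
    rw [hcard, Fintype.card_prod, Fintype.card_fin, Fintype.card_fin] at h1
    nlinarith
  · -- subfield
    exact Or.inr (Or.inr (Or.inr (Or.inr (Or.inr (Or.inl ⟨F₀, r, P, hr, hcard', hR,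
      eq_inf_of_maxIn hH hle
        (hQ.notOmega_subfield F₀ (subfield_ne_top_of_card F₀ r hr hcard') P)⟩)))))
  · -- tensor power
    have h1 := Fintype.card_congr e₁
    rw [hcard, Fintype.card_fun, Fintype.card_fin, Fintype.card_fin] at h1
    have hkt : k = 3 ∧ t = 2 := by
      have h4 : k ^ 2 ≤ k ^ t := Nat.pow_le_pow_right (by omega) ht
      have hk3' : k = 3 := by nlinarith
      subst hk3'
      refine ⟨rfl, ?_⟩
      have h5 : 3 ^ t = 3 ^ 2 := by rw [← h1]; norm_num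
      exact Nat.pow_right_injective (a := 3) (by norm_num) h5
    obtain ⟨rfl, rfl⟩ := hkt
    have hq5 : 5 ≤ Fintype.card F := by
      have hne : Fintype.card F ≠ 3 := fun h => hex ⟨h, rfl⟩
      obtain ⟨j, hj⟩ := hodd
      omega
    exact Or.inr (Or.inr (Or.inr (Or.inr (Or.inr (Or.inr (Or.inl ⟨hq5, e₁, P, f₁, hf₁, hT,
      eq_inf_of_maxIn hH hle (notOmega_wreath hQ (le_refl 3) e₁ P)⟩))))))

end Cfsg.Agent.Helper94.OB
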