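import Mathlib
import Cfsg.Prelude.Def_GeometricClasses
import Cfsg.Agent.Helper94.ONd4

/-!
Orthogonal groups: a non-degenerate subspace of even dimension is isometric to itself with the
form negated; hence, if an isometry swaps the two halves `W`, `W^⊥` of even dimension `n/2`, the
form has a totally singular subspace of dimension `n/2` (it is of plus type).
-/

set_option autoImplicit false
set_option linter.unusedSectionVars false
set_option linter.unusedVariables false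

universe u

namespace Cfsg.Agent.Helper94

open Matrix Cfsg Cfsg.Geo Cfsg.Agent.Helper45

section ONd5

variable {ι : Type} [Fintype ι] [DecidableEq ι] {F : Type u} [Field F] [Fintype F]
  (Q : QuadraticForm F (ι → F))

/-- A non-zero subspace on which the polar form is non-degenerate has a non-singular vector. -/
theorem ond5_exists_nonsing (X : Submodule F (ι → F)) (hX0 : X ≠ ⊥)
    (hnd : ∀ x ∈ X, x ≠ 0 → ∃ y ∈ X, QuadraticMap.polar ⇑Q y x ≠ 0) :
    ∃ e ∈ X, Q e ≠ 0 := by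
  obtain ⟨x, hx, hx0⟩ := Submodule.exists_mem_ne_zero_of_ne_bot hX0
  obtain ⟨y, hy, hyx⟩ := hnd x hx hx0
  by_cases h1 : Q x = 0
  · by_cases h2 : Q y = 0
    · refine ⟨y + x, X.add_mem hy hx, ?_⟩
      have h3 : Q (y + x) = Q y + Q x + QuadraticMap.polar ⇑Q y x := by
        unfold QuadraticMap.polar
        ring
      rw [h3, h1, h2, zero_add, zero_add]
      exact hyx
    · exact ⟨y, hy, h2⟩
  · exact ⟨x, hx, h1⟩

/-- Splitting off a non-singular vector from a non-degenerate subspace (odd characteristic). -/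
theorem ond5_split (h2 : (2 : F) ≠ 0) (X : Submodule F (ι → F)) (e : ι → F) (he : e ∈ X)
    (hQe : Q e ≠ 0)
    (hnd : ∀ x ∈ X, x ≠ 0 → ∃ y ∈ X, QuadraticMap.polar ⇑Q y x ≠ 0) :
    Module.finrank F ↥(X ⊓ perpSub Q e) + 1 = Module.finrank F X ∧
    (∀ x ∈ X ⊓ perpSub Q e, x ≠ 0 →
      ∃ y ∈ X ⊓ perpSub Q e, QuadraticMap.polar ⇑Q y x ≠ 0) := by
  have hee : QuadraticMap.polar ⇑Q e e ≠ 0 := by
    rw [QuadraticMap.polar_self, two_smul, ← two_mul]
    exact mul_ne_zero h2 hQe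
  constructor
  · exact finrank_inf_perp Q X e e he hee
  · intro x hx hx0
    obtain ⟨y, hy, hyx⟩ := hnd x hx.1 hx0
    refine ⟨y - (QuadraticMap.polar ⇑Q e y / QuadraticMap.polar ⇑Q e e) • e,
      ⟨X.sub_mem hy (X.smul_mem _ he), ?_⟩, ?_⟩
    · show y - _ ∈ perpSub Q e
      rw [mem_perpSub, QuadraticMap.polar_sub_right, QuadraticMap.polar_smul_right, smul_eq_mul,
        div_mul_cancel₀ _ hee, sub_self]
    · rw [QuadraticMap.polar_sub_left, QuadraticMap.polar_smul_left, smul_eq_mul,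
        (mem_perpSub Q e x).mp hx.2, mul_zero, sub_zero]
      exact hyx

/-- The value of the form on `s e₁ + t e₂ + y` for pairwise orthogonal `e₁`, `e₂`, `y`. -/
theorem ond5_Q3 (e₁ e₂ y : ι → F) (s t : F) (h12 : QuadraticMap.polar ⇑Q e₁ e₂ = 0)
    (h1 : QuadraticMap.polar ⇑Q e₁ y = 0) (h2 : QuadraticMap.polar ⇑Q e₂ y = 0) :
    Q (s • e₁ + t • e₂ + y) = s ^ 2 * Q e₁ + t ^ 2 * Q e₂ + Q y := by
  rw [QuadraticMap.map_add ⇑Q, QuadraticMap.map_add ⇑Q, QuadraticMap.map_smul, QuadraticMap.map_smul,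
    QuadraticMap.polar_add_left, QuadraticMap.polar_smul_left, QuadraticMap.polar_smul_left,
    QuadraticMap.polar_smul_left, QuadraticMap.polar_smul_right, h12, h1, h2]
  simp only [smul_eq_mul, mul_zero, add_zero]
  ring

/-- A non-degenerate subspace of even dimension has an anti-isometry (odd characteristic). -/
theorem ond5_antiisom (h2 : (2 : F) ≠ 0) :
    ∀ (m : ℕ) (X : Submodule F (ι → F)), Module.finrank F X = 2 * m →
      (∀ x ∈ X, x ≠ 0 → ∃ y ∈ X, QuadraticMap.polar ⇑Q y x ≠ 0) →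
      ∃ τ : (ι → F) →ₗ[F] (ι → F), ∀ x ∈ X, τ x ∈ X ∧ Q (τ x) = - Q x := by
  intro m
  induction m with
  | zero =>
    intro X hX _
    refine ⟨0, fun x hx => ?_⟩
    have hbot : X = ⊥ := Submodule.finrank_eq_zero.mp (by simpa using hX)
    rw [hbot, Submodule.mem_bot] at hx
    subst hx
    simp
  | succ m ih =>
    intro X hX hnd
    have hX0 : X ≠ ⊥ := by
      rintro rfl
      rw [finrank_bot] at hX
      omega
    obtain ⟨e₁, he₁, hQ₁⟩ := ond5_exists_nonsing Q X hX0 hnd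
    obtain ⟨hf₁, hnd₁⟩ := ond5_split Q h2 X e₁ he₁ hQ₁ hnd
    have hX₁0 : X ⊓ perpSub Q e₁ ≠ ⊥ := by
      intro h
      rw [h, finrank_bot] at hf₁
      omega
    obtain ⟨e₂, he₂, hQ₂⟩ := ond5_exists_nonsing Q _ hX₁0 hnd₁
    obtain ⟨hf₂, hnd₂⟩ := ond5_split Q h2 _ e₂ he₂ hQ₂ hnd₁
    obtain ⟨τ₂, hτ₂⟩ := ih (X ⊓ perpSub Q e₁ ⊓ perpSub Q e₂) (by omega) hnd₂
    have h12 : QuadraticMap.polar ⇑Q e₁ e₂ = 0 := (mem_perpSub Q e₁ e₂).mp he₂.2
    have h21 : QuadraticMap.polar ⇑Q e₂ e₁ = 0 := by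
      rw [QuadraticMap.polar_comm]
      exact h12
    have hp₁ : QuadraticMap.polar ⇑Q e₁ e₁ ≠ 0 := by
      rw [QuadraticMap.polar_self, two_smul, ← two_mul]
      exact mul_ne_zero h2 hQ₁
    have hp₂ : QuadraticMap.polar ⇑Q e₂ e₂ ≠ 0 := by
      rw [QuadraticMap.polar_self, two_smul, ← two_mul]
      exact mul_ne_zero h2 hQ₂
    obtain ⟨α, β, hαβ⟩ : ∃ α β : F, Q e₁ * α ^ 2 + Q e₁ + Q e₂ * β ^ 2 = 0 := by
      have hcard : Fintype.card F % 2 = 1 := by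
        apply FiniteField.odd_card_of_char_ne_two
        intro hc
        apply h2
        have : CharP F 2 := ringChar.of_eq hc
        exact CharTwo.two_eq_zero
      obtain ⟨a, b, hab⟩ := FiniteField.exists_root_sum_quadratic
        (f := Polynomial.C (Q e₁) * Polynomial.X ^ 2 + Polynomial.C 0 * Polynomial.X +
          Polynomial.C (Q e₁))
        (g := Polynomial.C (Q e₂) * Polynomial.X ^ 2 + Polynomial.C 0 * Polynomial.X +
          Polynomial.C 0)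
        (Polynomial.degree_quadratic hQ₁) (Polynomial.degree_quadratic hQ₂) hcard
      refine ⟨a, b, ?_⟩
      simp only [Polynomial.eval_add, Polynomial.eval_mul, Polynomial.eval_C, Polynomial.eval_pow,
        Polynomial.eval_X, zero_mul, add_zero] at hab
      linear_combination hab
    obtain ⟨γ, hγ⟩ : ∃ γ : F, Q e₁ * γ + Q e₂ * β = 0 :=
      ⟨-(Q e₂ * β) / Q e₁, by field_simp; ring⟩
    have h3 : γ ^ 2 * Q e₁ + α ^ 2 * Q e₂ + Q e₂ = 0 := by
      have h4 : Q e₁ * (γ ^ 2 * Q e₁ + α ^ 2 * Q e₂ + Q e₂) = 0 := by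
        linear_combination (Q e₁ * γ - Q e₂ * β) * hγ + Q e₂ * hαβ
      exact (mul_eq_zero.mp h4).resolve_left hQ₁
    obtain ⟨c₁, hc₁⟩ : ∃ c₁ : (ι → F) →ₗ[F] F,
        ∀ x, c₁ x = (QuadraticMap.polar ⇑Q e₁ e₁)⁻¹ * QuadraticMap.polar ⇑Q e₁ x :=
      ⟨(QuadraticMap.polar ⇑Q e₁ e₁)⁻¹ • QuadraticMap.polarBilin Q e₁, fun x => rfl⟩
    obtain ⟨c₂, hc₂⟩ : ∃ c₂ : (ι → F) →ₗ[F] F,
        ∀ x, c₂ x = (QuadraticMap.polar ⇑Q e₂ e₂)⁻¹ * QuadraticMap.polar ⇑Q e₂ x :=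
      ⟨(QuadraticMap.polar ⇑Q e₂ e₂)⁻¹ • QuadraticMap.polarBilin Q e₂, fun x => rfl⟩
    refine ⟨c₁.smulRight (α • e₁ + β • e₂) + c₂.smulRight (γ • e₁ + α • e₂) +
      τ₂ ∘ₗ (LinearMap.id - c₁.smulRight e₁ - c₂.smulRight e₂), ?_⟩
    intro x hx
    obtain ⟨x₂, hx₂⟩ : ∃ x₂ : ι → F, x₂ = x - c₁ x • e₁ - c₂ x • e₂ := ⟨_, rfl⟩
    have hval : (c₁.smulRight (α • e₁ + β • e₂) + c₂.smulRight (γ • e₁ + α • e₂) +
        τ₂ ∘ₗ (LinearMap.id - c₁.smulRight e₁ - c₂.smulRight e₂) : (ι → F) →ₗ[F] (ι → F)) x =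
        (c₁ x * α + c₂ x * γ) • e₁ + (c₁ x * β + c₂ x * α) • e₂ + τ₂ x₂ := by
      simp only [LinearMap.add_apply, LinearMap.smulRight_apply, LinearMap.comp_apply,
        LinearMap.sub_apply, LinearMap.id_apply]
      rw [← hx₂]
      module
    have hx₂X : x₂ ∈ X ⊓ perpSub Q e₁ ⊓ perpSub Q e₂ := by
      refine ⟨⟨?_, ?_⟩, ?_⟩
      · rw [hx₂]
        exact X.sub_mem (X.sub_mem hx (X.smul_mem _ he₁)) (X.smul_mem _ he₂.1)
      · show x₂ ∈ perpSub Q e₁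
        rw [mem_perpSub, hx₂, QuadraticMap.polar_sub_right, QuadraticMap.polar_sub_right,
          QuadraticMap.polar_smul_right, QuadraticMap.polar_smul_right, h12, hc₁, smul_eq_mul,
          smul_eq_mul, mul_zero, sub_zero, mul_comm, ← mul_assoc, mul_inv_cancel₀ hp₁, one_mul,
          sub_self]
      · show x₂ ∈ perpSub Q e₂
        rw [mem_perpSub, hx₂, QuadraticMap.polar_sub_right, QuadraticMap.polar_sub_right,
          QuadraticMap.polar_smul_right, QuadraticMap.polar_smul_right, h21, hc₂, smul_eq_mul,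
          smul_eq_mul, mul_zero, sub_zero, mul_comm _ (QuadraticMap.polar ⇑Q e₂ e₂),
          ← mul_assoc, mul_inv_cancel₀ hp₂, one_mul, sub_self]
    obtain ⟨hy, hQy⟩ := hτ₂ x₂ hx₂X
    have hx₂1 : QuadraticMap.polar ⇑Q e₁ x₂ = 0 := (mem_perpSub Q e₁ x₂).mp hx₂X.1.2
    have hx₂2 : QuadraticMap.polar ⇑Q e₂ x₂ = 0 := (mem_perpSub Q e₂ x₂).mp hx₂X.2
    have hy1 : QuadraticMap.polar ⇑Q e₁ (τ₂ x₂) = 0 := (mem_perpSub Q e₁ _).mp hy.1.2
    have hy2 : QuadraticMap.polar ⇑Q e₂ (τ₂ x₂) = 0 := (mem_perpSub Q e₂ _).mp hy.2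
    have hxeq : x = c₁ x • e₁ + c₂ x • e₂ + x₂ := by
      rw [hx₂]
      abel
    rw [hval]
    constructor
    · exact X.add_mem (X.add_mem (X.smul_mem _ he₁) (X.smul_mem _ he₂.1)) hy.1.1
    · rw [ond5_Q3 Q e₁ e₂ (τ₂ x₂) _ _ h12 hy1 hy2, hQy]
      have hQx : Q x = c₁ x ^ 2 * Q e₁ + c₂ x ^ 2 * Q e₂ + Q x₂ := by
        conv_lhs => rw [hxeq]
        exact ond5_Q3 Q e₁ e₂ x₂ _ _ h12 hx₂1 hx₂2
      rw [hQx]
      linear_combination c₁ x ^ 2 * hαβ + 2 * c₁ x * c₂ x * α * hγ + c₂ x ^ 2 * h3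

/-- A non-degenerate subspace of even dimension has an anti-isometry. -/
theorem ond5_antiisom' (m : ℕ) (X : Submodule F (ι → F)) (hX : Module.finrank F X = 2 * m)
    (hnd : ∀ x ∈ X, x ≠ 0 → ∃ y ∈ X, QuadraticMap.polar ⇑Q y x ≠ 0) :
    ∃ τ : (ι → F) →ₗ[F] (ι → F), ∀ x ∈ X, τ x ∈ X ∧ Q (τ x) = - Q x := by
  by_cases h2 : (2 : F) = 0
  · have : CharP F 2 := CharTwo.of_one_ne_zero_of_two_eq_zero one_ne_zero h2
    exact ⟨LinearMap.id, fun x hx => ⟨hx, by rw [LinearMap.id_apply, CharTwo.neg_eq]⟩⟩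
  · exact ond5_antiisom Q h2 m X hX hnd

/-- If an isometry maps one half `W'` of an orthogonal decomposition `V = W' ⊥ W` into the other
and `dim W'` is even, there is a totally singular subspace of dimension `dim W'`. -/
theorem ond5_ts_of_swap (hQ : (QuadraticMap.polarBilin Q).Nondegenerate)
    (W' W : Submodule F (ι → F)) (P : OPair Q W' W) (m : ℕ)
    (hm : Module.finrank F W' = 2 * m) (g : ↥(isometryGroup F ⇑Q))
    (hg : ∀ x ∈ W', mv ⇑Q g x ∈ W) :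
    ∃ U : Submodule F (ι → F), (∀ u ∈ U, Q u = 0) ∧
      Module.finrank F U = Module.finrank F W' := by
  obtain ⟨τ, hτ⟩ := ond5_antiisom' Q m W' hm (fun x hx hx0 => P.nd hQ x hx hx0)
  obtain ⟨φ, hφ⟩ : ∃ φ : (ι → F) →ₗ[F] (ι → F), ∀ x, φ x = x + mv ⇑Q g (τ x) :=
    ⟨LinearMap.id + (Matrix.mulVecLin ((g : GL ι F) : Matrix ι ι F)) ∘ₗ τ, fun x => rfl⟩
  refine ⟨W'.map φ, ?_, ?_⟩
  · rintro u ⟨x, hx, rfl⟩
    obtain ⟨h1, h2⟩ := hτ x hx
    rw [hφ, QuadraticMap.map_add ⇑Q, mv_quad ⇑Q g, h2, P.perp x hx _ (hg _ h1)]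
    ring
  · have hinj : Function.Injective (φ.domRestrict W') := by
      rw [← LinearMap.ker_eq_bot, LinearMap.ker_eq_bot']
      intro x hx
      have h1 : φ (x : ι → F) = 0 := hx
      rw [hφ] at h1
      have h2 : (x : ι → F) ∈ W := by
        have h3 : (x : ι → F) = - mv ⇑Q g (τ x) := eq_neg_of_add_eq_zero_left h1
        rw [h3]
        exact W.neg_mem (hg _ (hτ x x.2).1)
      exact Subtype.ext (P.disj hQ x x.2 h2)
    have h4 := LinearMap.finrank_range_of_inj hinj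
    rw [LinearMap.range_domRestrict] at h4
    exact h4

/-- Minus type excludes an isometry swapping `W` and `W^⊥` when `dim W = n/2` is even. -/
theorem ond5_no_swap (Q : (ι → F) → F) (hQ : IsNondegenerateQuadraticForm Q)
    (W : Submodule F (ι → F)) (hW : IsNondegenerateOn (QuadraticMap.polar Q) W)
    (hminus : ¬ IsPlusTypeOn Q ⊤) (heven : Even (Module.finrank F W))
    (h : 2 * Module.finrank F W = Fintype.card ι) :
    ¬ ∃ g : ↥(isometryGroup F Q), ∀ x : ι → F, (∀ w ∈ W, QuadraticMap.polar Q x w = 0) →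
        ((g : GL ι F) : Matrix ι ι F) *ᵥ x ∈ W := by
  obtain ⟨Qb, hQb⟩ : ∃ Qb : QuadraticForm F (ι → F), Qb = Helper98.op_qf Q hQ := ⟨_, rfl⟩
  have hcoe : ⇑Qb = Q := by
    rw [hQb]
    rfl
  have hnd : (QuadraticMap.polarBilin Qb).Nondegenerate := by
    rw [hQb]
    exact Helper98.op_qf_nondeg Q hQ
  have hWnd : ∀ w ∈ W, w ≠ 0 → ∃ x ∈ W, QuadraticMap.polar ⇑Qb x w ≠ 0 := by
    intro w hw hw0
    rw [hcoe]
    exact (hW w hw hw0).1
  have P := OPair.of_nondeg hnd W hWnd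
  obtain ⟨W', hW'⟩ : ∃ W' : Submodule F (ι → F),
      W' = LinearMap.BilinForm.orthogonal (QuadraticMap.polarBilin Qb) W := ⟨_, rfl⟩
  rw [← hW'] at P
  have hsum := P.finrank_add hnd
  obtain ⟨m, hm⟩ := heven
  subst hcoe
  rintro ⟨g, hg⟩
  obtain ⟨U, hU, hUf⟩ := ond5_ts_of_swap Qb hnd W' W P m (by omega) g
    (fun x hx => hg x (P.perp x hx))
  apply hminus
  refine ⟨U, le_top, hU, ?_⟩
  rw [finrank_top, Module.finrank_fintype_fun_eq_card]
  omega

end ONd5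

end Cfsg.Agent.Helper94
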