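import Mathlib
import Cfsg.Prelude.Def_GeometricClasses
import Cfsg.Agent.Helper94.OSF1

/-!
Rational Eichler transformations and the skew maps `W(x, y) : v ↦ B(y, v) x - B(x, v) y` for a
quadratic form with a rational structure; the standing hypotheses on an overgroup `M` of the
subfield subgroup of `Ω(Q)`.
-/

set_option autoImplicit false
set_option linter.unusedSectionVars false
set_option linter.unusedVariables false

universe u

namespace Cfsg.Agent.Helper94

open Matrix Cfsg Cfsg.Geo Cfsg.Agent.Helper45 Cfsg.Agent.Helper97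

section OSF2

variable {ι : Type} [Fintype ι] [DecidableEq ι] {F : Type u} [Field F] [Fintype F]
  {F₀ : Subfield F}

theorem oRat_mulVec {A : Matrix ι ι F} (hA : A ∈ SG.ratMat F₀ ι) {v : ι → F} (hv : oRat F₀ v) :
    oRat F₀ (A *ᵥ v) := by
  intro i
  rw [Matrix.mulVec, dotProduct]
  exact sum_mem fun j _ => mul_mem (hA i j) (hv j)

theorem ratMat_of_oRat {A : Matrix ι ι F} (h : ∀ v, oRat F₀ v → oRat F₀ (A *ᵥ v)) :
    A ∈ SG.ratMat F₀ ι := by
  intro i j
  have h1 := h _ (oRat_single (F₀ := F₀) j) i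
  rwa [Matrix.mulVec_single_one] at h1

variable (Q : QuadraticForm F (ι → F))

theorem oE_rat (hq : ORatQ Q F₀) {u b : ι → F} (hu : oRat F₀ u) (hb : oRat F₀ b) (hQu : Q u = 0)
    (hub : QuadraticMap.polar ⇑Q u b = 0) :
    (((oE Q u b : ↥(isometryGroup F ⇑Q)) : GL ι F) : Matrix ι ι F) ∈ SG.ratMat F₀ ι := by
  apply ratMat_of_oRat
  intro v hv
  have h1 : (((oE Q u b : ↥(isometryGroup F ⇑Q)) : GL ι F) : Matrix ι ι F) *ᵥ v =
      v + (QuadraticMap.polar ⇑Q b v - Q b * QuadraticMap.polar ⇑Q u v) • u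
        - (QuadraticMap.polar ⇑Q u v) • b := mv_oE Q u b hQu hub v
  rw [h1]
  exact oRat_sub (oRat_add hv (oRat_smul (sub_mem (hq.polar hb hv)
    (mul_mem (hq b hb) (hq.polar hu hv))) hu)) (oRat_smul (hq.polar hu hv) hb)

theorem ratMat_mem_sub {g : GL ι F} (hg : (g : Matrix ι ι F) ∈ SG.ratMat F₀ ι) :
    g ∈ subfieldSubgroup F₀ (1 : GL ι F) := by
  rw [SG.mem_subfieldSubgroup_one]
  exact ⟨1, one_ne_zero, by rw [one_smul]; exact hg⟩

/-- The standing hypotheses: `M` lies between the subfield subgroup of `Ω(Q)` and `Ω(Q)`. -/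
structure OCtx (Q : QuadraticForm F (ι → F)) (F₀ : Subfield F) (M : Subgroup (GL ι F)) : Prop where
  nd : (QuadraticMap.polarBilin Q).Nondegenerate
  rq : ORatQ Q F₀
  card : 13 ≤ Fintype.card ι
  le : subfieldSubgroup F₀ (1 : GL ι F) ⊓ omegaGL ⇑Q ≤ M
  om : M ≤ omegaGL ⇑Q

/-- All Eichler transformations of `M` with rational centre are rational. -/
def ORatRoot (Q : QuadraticForm F (ι → F)) (F₀ : Subfield F) (M : Subgroup (GL ι F)) : Prop :=
  ∀ u b : ι → F, oRat F₀ u → u ≠ 0 → Q u = 0 → QuadraticMap.polar ⇑Q u b = 0 →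
    ((oE Q u b : ↥(isometryGroup F ⇑Q)) : GL ι F) ∈ M → ∃ c : F, oRat F₀ (b - c • u)

variable {Q} {M : Subgroup (GL ι F)}

theorem OCtx.five (hc : OCtx Q F₀ M) : 5 ≤ Fintype.card ι := le_trans (by norm_num) hc.card

theorem OCtx.oE_mem (hc : OCtx Q F₀ M) {u b : ι → F} (hu : oRat F₀ u) (hb : oRat F₀ b)
    (hQu : Q u = 0) (hub : QuadraticMap.polar ⇑Q u b = 0) :
    ((oE Q u b : ↥(isometryGroup F ⇑Q)) : GL ι F) ∈ M :=
  hc.le ⟨ratMat_mem_sub (oE_rat Q hc.rq hu hb hQu hub),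
    Subgroup.mem_map_of_mem _ (oE_mem_omega Q hc.nd hc.five u b)⟩

theorem OCtx.lift (hc : OCtx Q F₀ M) {k : GL ι F} (hk : k ∈ M) :
    ∃ k' : ↥(isometryGroup F ⇑Q), (k' : GL ι F) = k := by
  obtain ⟨k', -, hk'⟩ := Subgroup.mem_map.mp (hc.om hk)
  exact ⟨k', hk'⟩

variable (Q)

theorem oE_swap (u b : ι → F) (hu : Q u = 0) (hb : Q b = 0)
    (hub : QuadraticMap.polar ⇑Q u b = 0) : oE Q u b = oE Q b (-u) := by
  have hbu : QuadraticMap.polar ⇑Q b (-u) = 0 := by
    rw [QuadraticMap.polar_neg_right, QuadraticMap.polar_comm, hub, neg_zero]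
  apply ext_mv
  intro x
  rw [mv_oE Q u b hu hub, mv_oE Q b (-u) hb hbu, hb, QuadraticMap.map_neg, hu,
    QuadraticMap.polar_neg_left]
  module

theorem oE_inv (u b : ι → F) (hu : Q u = 0) (hub : QuadraticMap.polar ⇑Q u b = 0) :
    (oE Q u b)⁻¹ = oE Q u (-b) := by
  apply inv_eq_of_mul_eq_one_right
  rw [oE_mul Q u b (-b) hu hub (by rw [QuadraticMap.polar_neg_right, hub, neg_zero]),
    add_neg_cancel, oE_zero Q u hu]

theorem oE_add_smul (u b : ι → F) (c : F) (hu : Q u = 0)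
    (hub : QuadraticMap.polar ⇑Q u b = 0) : oE Q u (b + c • u) = oE Q u b := by
  have huu : QuadraticMap.polar ⇑Q u u = 0 := polar_self_zero Q u hu
  have hub' : QuadraticMap.polar ⇑Q u (b + c • u) = 0 := by
    rw [QuadraticMap.polar_add_right, QuadraticMap.polar_smul_right, hub, huu, smul_zero, add_zero]
  have hQ : Q (b + c • u) = Q b := by
    rw [QuadraticMap.map_add (⇑Q) b (c • u), QuadraticMap.map_smul, hu,
      QuadraticMap.polar_smul_right, QuadraticMap.polar_comm, hub]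
    simp
  apply ext_mv
  intro x
  rw [mv_oE Q u _ hu hub', mv_oE Q u b hu hub, hQ, QuadraticMap.polar_add_left,
    QuadraticMap.polar_smul_left]
  module

/-- Conjugating a root element of `M` by an element of `M` fixing its centre. -/
theorem oE_diff {M : Subgroup (GL ι F)} (k : ↥(isometryGroup F ⇑Q)) (hk : (k : GL ι F) ∈ M)
    (u b : ι → F) (hu : Q u = 0) (hub : QuadraticMap.polar ⇑Q u b = 0) (hku : mv ⇑Q k u = u)
    (h : ((oE Q u b : ↥(isometryGroup F ⇑Q)) : GL ι F) ∈ M) :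
    ((oE Q u (mv ⇑Q k b - b) : ↥(isometryGroup F ⇑Q)) : GL ι F) ∈ M := by
  have hub' : QuadraticMap.polar ⇑Q u (mv ⇑Q k b) = 0 := by
    have := mv_polar Q k u b
    rw [hku] at this
    rw [this, hub]
  have e : oE Q u (mv ⇑Q k b - b) = k * oE Q u b * k⁻¹ * (oE Q u b)⁻¹ := by
    rw [oE_conj Q k u b hu hub, hku, oE_inv Q u b hu hub,
      oE_mul Q u _ _ hu hub' (by rw [QuadraticMap.polar_neg_right, hub, neg_zero]),
      sub_eq_add_neg]
  rw [e]
  exact M.mul_mem (M.mul_mem (M.mul_mem hk h) (M.inv_mem hk)) (M.inv_mem h)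

/-- The skew map `v ↦ B(y, v) x - B(x, v) y` as a matrix. -/
noncomputable def oW (x y : ι → F) : Matrix ι ι F :=
  LinearMap.toMatrix' ((QuadraticMap.polarBilin Q y).smulRight x
    - (QuadraticMap.polarBilin Q x).smulRight y)

theorem oW_mulVec (x y v : ι → F) :
    oW Q x y *ᵥ v = QuadraticMap.polar ⇑Q y v • x - QuadraticMap.polar ⇑Q x v • y := by
  unfold oW
  rw [← Matrix.toLin'_apply, Matrix.toLin'_toMatrix']
  rfl

theorem oW_add_left (x x' y : ι → F) : oW Q (x + x') y = oW Q x y + oW Q x' y := by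
  apply Helper13.mulVec_ext
  intro v
  rw [Matrix.add_mulVec, oW_mulVec, oW_mulVec, oW_mulVec, QuadraticMap.polar_add_left]
  module

theorem oW_add_right (x y y' : ι → F) : oW Q x (y + y') = oW Q x y + oW Q x y' := by
  apply Helper13.mulVec_ext
  intro v
  rw [Matrix.add_mulVec, oW_mulVec, oW_mulVec, oW_mulVec, QuadraticMap.polar_add_left]
  module

theorem oW_smul_left (c : F) (x y : ι → F) : oW Q (c • x) y = c • oW Q x y := by
  apply Helper13.mulVec_ext
  intro v
  rw [Matrix.smul_mulVec, oW_mulVec, oW_mulVec, QuadraticMap.polar_smul_left]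
  module

theorem oW_smul_right (c : F) (x y : ι → F) : oW Q x (c • y) = c • oW Q x y := by
  apply Helper13.mulVec_ext
  intro v
  rw [Matrix.smul_mulVec, oW_mulVec, oW_mulVec, QuadraticMap.polar_smul_left]
  module

theorem oW_zero_left (y : ι → F) : oW Q 0 y = 0 := by
  apply Helper13.mulVec_ext
  intro v
  rw [oW_mulVec, QuadraticMap.polar_zero_left, Matrix.zero_mulVec]
  module

theorem oW_zero_right (x : ι → F) : oW Q x 0 = 0 := by
  apply Helper13.mulVec_ext
  intro v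
  rw [oW_mulVec, QuadraticMap.polar_zero_left, Matrix.zero_mulVec]
  module

theorem oW_sum_left {κ : Type*} (s : Finset κ) (w : κ → ι → F) (y : ι → F) :
    oW Q (∑ k ∈ s, w k) y = ∑ k ∈ s, oW Q (w k) y := by
  classical
  induction s using Finset.induction_on with
  | empty => rw [Finset.sum_empty, Finset.sum_empty, oW_zero_left]
  | insert a s ha ih => rw [Finset.sum_insert ha, Finset.sum_insert ha, oW_add_left, ih]

theorem oW_sum_right {κ : Type*} (s : Finset κ) (x : ι → F) (w : κ → ι → F) :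
    oW Q x (∑ k ∈ s, w k) = ∑ k ∈ s, oW Q x (w k) := by
  classical
  induction s using Finset.induction_on with
  | empty => rw [Finset.sum_empty, Finset.sum_empty, oW_zero_right]
  | insert a s ha ih => rw [Finset.sum_insert ha, Finset.sum_insert ha, oW_add_right, ih]

theorem oW_rat (hq : ORatQ Q F₀) {x y : ι → F} (hx : oRat F₀ x) (hy : oRat F₀ y) :
    oW Q x y ∈ SG.ratMat F₀ ι := by
  apply ratMat_of_oRat
  intro v hv
  rw [oW_mulVec]
  exact oRat_sub (oRat_smul (hq.polar hy hv) hx) (oRat_smul (hq.polar hx hv) hy)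

/-- A long root element is `1 + W`. -/
theorem oE_val (u b : ι → F) (hu : Q u = 0) (hb : Q b = 0)
    (hub : QuadraticMap.polar ⇑Q u b = 0) :
    (((oE Q u b : ↥(isometryGroup F ⇑Q)) : GL ι F) : Matrix ι ι F) = 1 + oW Q u b := by
  apply Helper13.mulVec_ext
  intro v
  have h1 : (((oE Q u b : ↥(isometryGroup F ⇑Q)) : GL ι F) : Matrix ι ι F) *ᵥ v =
      v + (QuadraticMap.polar ⇑Q b v - Q b * QuadraticMap.polar ⇑Q u v) • u
        - (QuadraticMap.polar ⇑Q u v) • b := mv_oE Q u b hu hub v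
  rw [h1, Matrix.add_mulVec, Matrix.one_mulVec, oW_mulVec, hb]
  module

theorem oW_conj (g : ↥(isometryGroup F ⇑Q)) (x y : ι → F) :
    ((g : GL ι F) : Matrix ι ι F) * oW Q x y * (((g : GL ι F)⁻¹ : GL ι F) : Matrix ι ι F) =
      oW Q (mv ⇑Q g x) (mv ⇑Q g y) := by
  apply Helper13.mulVec_ext
  intro v
  have h1 : ∀ z : ι → F, QuadraticMap.polar ⇑Q z (mv ⇑Q g⁻¹ v) =
      QuadraticMap.polar ⇑Q (mv ⇑Q g z) v := by
    intro z
    rw [← mv_polar Q g z (mv ⇑Q g⁻¹ v), mv_inv_cancel]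
  have h2 : (((g : GL ι F)⁻¹ : GL ι F) : Matrix ι ι F) *ᵥ v = mv ⇑Q g⁻¹ v := rfl
  rw [← Matrix.mulVec_mulVec, ← Matrix.mulVec_mulVec, h2, oW_mulVec, oW_mulVec,
    Matrix.mulVec_sub, Matrix.mulVec_smul, Matrix.mulVec_smul, h1, h1]

end OSF2

end Cfsg.Agent.Helper94
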