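import Mathlib
import Cfsg.Prelude.Def_GeometricClasses
import Cfsg.Agent.Helper94.OSF2

/-!
Overgroups `M` of the subfield subgroup of `Ω(Q)` all of whose Eichler transformations with
rational centre are rational: root elements of `M` centred at a non-rational point of a rational
totally singular line, and the images under `M` of rational points.
-/

set_option autoImplicit false
set_option linter.unusedSectionVars false
set_option linter.unusedVariables false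

universe u

namespace Cfsg.Agent.Helper94

open Matrix Cfsg Cfsg.Geo Cfsg.Agent.Helper45 Cfsg.Agent.Helper97

section OSF3

variable {ι : Type} [Fintype ι] [DecidableEq ι] {F : Type u} [Field F] [Fintype F]
  {F₀ : Subfield F} {Q : QuadraticForm F (ι → F)} {M : Subgroup (GL ι F)}

theorem oRat_smul_cancel {c : F} {w : ι → F} (hw : oRat F₀ w) (hw0 : w ≠ 0)
    (h : oRat F₀ (c • w)) : c ∈ F₀ := by
  obtain ⟨j, hj⟩ : ∃ j, w j ≠ 0 := by
    by_contra hcon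
    push Not at hcon
    exact hw0 (funext hcon)
  have h1 : c = (c • w) j * (w j)⁻¹ := by
    rw [Pi.smul_apply, smul_eq_mul, mul_assoc, mul_inv_cancel₀ hj, mul_one]
  rw [h1]
  exact mul_mem (h j) (inv_mem (hw j))

namespace OFr

variable {e f : Fin 6 → ι → F} (h : OFr Q F₀ e f)
include h

theorem ef_ne {i j : Fin 6} (hij : i ≠ j) : QuadraticMap.polar ⇑Q (e i) (f j) = 0 := by
  rw [h.ef, if_neg hij]

theorem ef_self (i : Fin 6) : QuadraticMap.polar ⇑Q (e i) (f i) = 1 := by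
  rw [h.ef, if_pos rfl]

theorem fe_ne {i j : Fin 6} (hij : i ≠ j) : QuadraticMap.polar ⇑Q (f i) (e j) = 0 := by
  rw [h.fe, if_neg hij]

theorem fe_self (i : Fin 6) : QuadraticMap.polar ⇑Q (f i) (e i) = 1 := by
  rw [h.fe, if_pos rfl]

end OFr

theorem polar_sum_left' {κ : Type*} (s : Finset κ) (w : κ → ι → F) (v : ι → F) :
    QuadraticMap.polar ⇑Q (∑ k ∈ s, w k) v = ∑ k ∈ s, QuadraticMap.polar ⇑Q (w k) v := by
  rw [QuadraticMap.polar_comm, polar_sum_right']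
  exact Finset.sum_congr rfl fun k _ => QuadraticMap.polar_comm _ _ _

/-- The projection onto the complement of a frame is self-adjoint. -/
theorem oPr_polar (e f : Fin 6 → ι → F) (c z : ι → F) :
    QuadraticMap.polar ⇑Q c (oPr Q e f z) = QuadraticMap.polar ⇑Q (oPr Q e f c) z := by
  unfold oPr
  rw [QuadraticMap.polar_sub_right, QuadraticMap.polar_sub_right, QuadraticMap.polar_sub_left,
    QuadraticMap.polar_sub_left, polar_sum_right', polar_sum_right', polar_sum_left',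
    polar_sum_left']
  simp only [QuadraticMap.polar_smul_left, QuadraticMap.polar_smul_right, smul_eq_mul]
  have h1 : ∑ i, QuadraticMap.polar ⇑Q (f i) z * QuadraticMap.polar ⇑Q c (e i)
      = ∑ i, QuadraticMap.polar ⇑Q (e i) c * QuadraticMap.polar ⇑Q (f i) z :=
    Finset.sum_congr rfl fun i _ => by rw [QuadraticMap.polar_comm ⇑Q c (e i)]; ring
  have h2 : ∑ i, QuadraticMap.polar ⇑Q (e i) z * QuadraticMap.polar ⇑Q c (f i)
      = ∑ i, QuadraticMap.polar ⇑Q (f i) c * QuadraticMap.polar ⇑Q (e i) z :=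
    Finset.sum_congr rfl fun i _ => by rw [QuadraticMap.polar_comm ⇑Q c (f i)]; ring
  rw [h1, h2]
  ring

/-- A conjugate of a root element of `M` by an element of `M`. -/
theorem oE_conj_mem (k : ↥(isometryGroup F ⇑Q)) (hk : (k : GL ι F) ∈ M) (u b : ι → F)
    (hu : Q u = 0) (hub : QuadraticMap.polar ⇑Q u b = 0)
    (h : ((oE Q u b : ↥(isometryGroup F ⇑Q)) : GL ι F) ∈ M) :
    ((oE Q (mv ⇑Q k u) (mv ⇑Q k b) : ↥(isometryGroup F ⇑Q)) : GL ι F) ∈ M := by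
  rw [← oE_conj Q k u b hu hub]
  exact M.mul_mem (M.mul_mem hk h) (M.inv_mem hk)

/-- A totally singular combination. -/
theorem q_comb {x y : ι → F} (hx : Q x = 0) (hy : Q y = 0) (hxy : QuadraticMap.polar ⇑Q x y = 0)
    (a b : F) : Q (a • x + b • y) = 0 := by
  rw [QuadraticMap.map_add ⇑Q, QuadraticMap.map_smul, QuadraticMap.map_smul, hx, hy,
    QuadraticMap.polar_smul_left, QuadraticMap.polar_smul_right, hxy]
  simp

/-- Root elements of `M` centred at a non-rational point `v` of the rational line `⟨e 0, e 1⟩`: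
the second vector is orthogonal to suitable rational singular vectors. -/
theorem oZ_aux (hc : OCtx Q F₀ M) (hr : ORatRoot Q F₀ M) {e f : Fin 6 → ι → F}
    (hf : OFr Q F₀ e f) {α β : F} (hαβ : ∀ μ : F, μ ≠ 0 → ¬(μ * α ∈ F₀ ∧ μ * β ∈ F₀))
    {z : ι → F} (hvz : QuadraticMap.polar ⇑Q (α • e 0 + β • e 1) z = 0)
    (hM : ((oE Q (α • e 0 + β • e 1) z : ↥(isometryGroup F ⇑Q)) : GL ι F) ∈ M)
    {u : ι → F} (hu : oRat F₀ u) (hQu : Q u = 0)
    (hu0 : QuadraticMap.polar ⇑Q u (e 0) = 0) (hu1 : QuadraticMap.polar ⇑Q u (e 1) = 0)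
    {i j : Fin 6} (hi0 : i ≠ 0) (hi1 : i ≠ 1) (hj0 : j ≠ 0) (hj1 : j ≠ 1) (hij : i ≠ j)
    (hui : QuadraticMap.polar ⇑Q u (e i) = 0) (hufi : QuadraticMap.polar ⇑Q u (f i) = 0)
    (huj : QuadraticMap.polar ⇑Q u (e j) = 0) :
    QuadraticMap.polar ⇑Q u z = 0 := by
  obtain ⟨v, hv⟩ : ∃ v, v = α • e 0 + β • e 1 := ⟨_, rfl⟩
  rw [← hv] at hvz hM
  have hQv : Q v = 0 := by
    rw [hv]
    exact q_comb (hf.Qe 0) (hf.Qe 1) (hf.ee 0 1) α β
  have huv : QuadraticMap.polar ⇑Q u v = 0 := by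
    rw [hv, QuadraticMap.polar_add_right, QuadraticMap.polar_smul_right,
      QuadraticMap.polar_smul_right, hu0, hu1]
    simp
  have hev : ∀ l, QuadraticMap.polar ⇑Q (e l) v = 0 := by
    intro l
    rw [hv, QuadraticMap.polar_add_right, QuadraticMap.polar_smul_right,
      QuadraticMap.polar_smul_right, hf.ee, hf.ee]
    simp
  have hfv : QuadraticMap.polar ⇑Q (f i) v = 0 := by
    rw [hv, QuadraticMap.polar_add_right, QuadraticMap.polar_smul_right,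
      QuadraticMap.polar_smul_right, hf.fe_ne hi0, hf.fe_ne hi1]
    simp
  have hg₁ := hc.oE_mem hu (hf.re i) hQu hui
  have hfix₁ : mv ⇑Q (oE Q u (e i)) v = v := by
    rw [mv_oE Q u (e i) hQu hui, hev i, huv]
    simp
  have h₁ := oE_diff Q (oE Q u (e i)) hg₁ v z hQv hvz hfix₁ hM
  rw [mv_oE Q u (e i) hQu hui, hf.Qe i] at h₁
  obtain ⟨μ, hμ⟩ : ∃ μ, μ = QuadraticMap.polar ⇑Q u z := ⟨_, rfl⟩
  obtain ⟨z₁, hz₁⟩ : ∃ z₁, z₁ = QuadraticMap.polar ⇑Q (e i) z • u - μ • e i := ⟨_, rfl⟩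
  have e₁ : z + (QuadraticMap.polar ⇑Q (e i) z - 0 * QuadraticMap.polar ⇑Q u z) • u
      - QuadraticMap.polar ⇑Q u z • e i - z = z₁ := by
    rw [hz₁, hμ]
    module
  rw [e₁] at h₁
  have hvz₁ : QuadraticMap.polar ⇑Q v z₁ = 0 := by
    rw [hz₁, QuadraticMap.polar_sub_right, QuadraticMap.polar_smul_right,
      QuadraticMap.polar_smul_right, QuadraticMap.polar_comm ⇑Q v u, huv,
      QuadraticMap.polar_comm ⇑Q v (e i), hev i]
    simp
  have hji : j ≠ i := Ne.symm hij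
  have hg₂ := hc.oE_mem (hf.re j) (hf.rf i) (hf.Qe j) (hf.ef_ne hji)
  have hfix₂ : mv ⇑Q (oE Q (e j) (f i)) v = v := by
    rw [mv_oE Q (e j) (f i) (hf.Qe j) (hf.ef_ne hji), hfv, hev j]
    simp
  have h₂ := oE_diff Q (oE Q (e j) (f i)) hg₂ v z₁ hQv hvz₁ hfix₂ h₁
  rw [mv_oE Q (e j) (f i) (hf.Qe j) (hf.ef_ne hji), hf.Qf i] at h₂
  have p1 : QuadraticMap.polar ⇑Q (e j) z₁ = 0 := by
    rw [hz₁, QuadraticMap.polar_sub_right, QuadraticMap.polar_smul_right,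
      QuadraticMap.polar_smul_right, QuadraticMap.polar_comm ⇑Q (e j) u, huj, hf.ee]
    simp
  have p2 : QuadraticMap.polar ⇑Q (f i) z₁ = -μ := by
    rw [hz₁, QuadraticMap.polar_sub_right, QuadraticMap.polar_smul_right,
      QuadraticMap.polar_smul_right, QuadraticMap.polar_comm ⇑Q (f i) u, hufi, hf.fe_self]
    simp
  rw [p1, p2] at h₂
  have e₂ : z₁ + (-μ - 0 * 0) • e j - (0 : F) • f i - z₁ = (-μ) • e j := by module
  rw [e₂] at h₂
  have hvej : QuadraticMap.polar ⇑Q v ((-μ) • e j) = 0 := by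
    rw [QuadraticMap.polar_smul_right, QuadraticMap.polar_comm ⇑Q v (e j), hev j]
    simp
  have hQej : Q ((-μ) • e j) = 0 := by
    rw [QuadraticMap.map_smul, hf.Qe j]
    simp
  rw [oE_swap Q v ((-μ) • e j) hQv hQej hvej] at h₂
  have hejv : QuadraticMap.polar ⇑Q (e j) (-v) = 0 := by
    rw [QuadraticMap.polar_neg_right, hev j, neg_zero]
  rw [oE_smul Q (-μ) (e j) (-v) (hf.Qe j) hejv] at h₂
  have hejv' : QuadraticMap.polar ⇑Q (e j) ((-μ) • (-v)) = 0 := by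
    rw [QuadraticMap.polar_smul_right, hejv]
    simp
  obtain ⟨c, hcr⟩ := hr (e j) ((-μ) • (-v)) (hf.re j) (hf.e_ne_zero j) (hf.Qe j) hejv' h₂
  have r0 := hc.rq.polar (hf.rf 0) hcr
  have r1 := hc.rq.polar (hf.rf 1) hcr
  rw [hv] at r0 r1
  simp only [QuadraticMap.polar_sub_right, QuadraticMap.polar_smul_right,
    QuadraticMap.polar_neg_right, QuadraticMap.polar_add_right, hf.fe_self,
    hf.fe_ne (Ne.symm hj0), hf.fe_ne (Ne.symm hj1), hf.fe_ne (show (0 : Fin 6) ≠ 1 by decide),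
    hf.fe_ne (show (1 : Fin 6) ≠ 0 by decide), smul_eq_mul, mul_zero, mul_one, add_zero, zero_add,
    sub_zero, mul_neg, neg_mul, neg_neg] at r0 r1
  by_contra hne
  rw [← hμ] at hne
  exact hαβ μ hne ⟨r0, r1⟩

/-- A root element of `M` centred at a non-rational point of the rational totally singular line
`⟨e 0, e 1⟩` has its second vector on that line. -/
theorem oZ (hc : OCtx Q F₀ M) (hr : ORatRoot Q F₀ M) {e f : Fin 6 → ι → F}
    (hf : OFr Q F₀ e f) {α β : F} (hαβ : ∀ μ : F, μ ≠ 0 → ¬(μ * α ∈ F₀ ∧ μ * β ∈ F₀))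
    {z : ι → F} (hvz : QuadraticMap.polar ⇑Q (α • e 0 + β • e 1) z = 0)
    (hM : ((oE Q (α • e 0 + β • e 1) z : ↥(isometryGroup F ⇑Q)) : GL ι F) ∈ M) :
    z = QuadraticMap.polar ⇑Q (f 0) z • e 0 + QuadraticMap.polar ⇑Q (f 1) z • e 1 := by
  have ha : ∀ i, QuadraticMap.polar ⇑Q (e i) z = 0 := by
    intro i
    by_cases hi : i = 2
    · exact oZ_aux hc hr hf hαβ hvz hM (hf.re i) (hf.Qe i) (hf.ee i 0) (hf.ee i 1) (i := 3)
        (j := 4) (by decide) (by decide) (by decide) (by decide) (by decide) (hf.ee i 3)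
        (hf.ef_ne (by rw [hi]; decide)) (hf.ee i 4)
    · exact oZ_aux hc hr hf hαβ hvz hM (hf.re i) (hf.Qe i) (hf.ee i 0) (hf.ee i 1) (i := 2)
        (j := 3) (by decide) (by decide) (by decide) (by decide) (by decide) (hf.ee i 2)
        (hf.ef_ne hi) (hf.ee i 3)
  have hb : ∀ i, i ≠ 0 → i ≠ 1 → QuadraticMap.polar ⇑Q (f i) z = 0 := by
    intro i hi0 hi1
    by_cases hi : i = 2 ∨ i = 3
    · have h4 : i ≠ 4 := by rcases hi with h | h <;> (rw [h]; decide)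
      have h5 : i ≠ 5 := by rcases hi with h | h <;> (rw [h]; decide)
      exact oZ_aux hc hr hf hαβ hvz hM (hf.rf i) (hf.Qf i) (hf.fe_ne hi0) (hf.fe_ne hi1) (i := 4)
        (j := 5) (by decide) (by decide) (by decide) (by decide) (by decide) (hf.fe_ne h4)
        (hf.ff i 4) (hf.fe_ne h5)
    · push Not at hi
      exact oZ_aux hc hr hf hαβ hvz hM (hf.rf i) (hf.Qf i) (hf.fe_ne hi0) (hf.fe_ne hi1) (i := 2)
        (j := 3) (by decide) (by decide) (by decide) (by decide) (by decide) (hf.fe_ne hi.1)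
        (hf.ff i 2) (hf.fe_ne hi.2)
  have hd : ∀ d, oRat F₀ d → (∀ i, QuadraticMap.polar ⇑Q (e i) d = 0) →
      (∀ i, QuadraticMap.polar ⇑Q (f i) d = 0) → QuadraticMap.polar ⇑Q d z = 0 := by
    intro d hdr hde hdf
    have hde' : ∀ i, QuadraticMap.polar ⇑Q d (e i) = 0 := fun i => by
      rw [QuadraticMap.polar_comm]
      exact hde i
    have hdf' : ∀ i, QuadraticMap.polar ⇑Q d (f i) = 0 := fun i => by
      rw [QuadraticMap.polar_comm]
      exact hdf i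
    obtain ⟨u, hu⟩ : ∃ u, u = d + ((-Q d) • e 2 + f 2) := ⟨_, rfl⟩
    have hur : oRat F₀ u := by
      rw [hu]
      exact oRat_add hdr (oRat_add (oRat_smul (neg_mem (hc.rq d hdr)) (hf.re 2)) (hf.rf 2))
    have hQu : Q u = 0 := by
      rw [hu, QuadraticMap.map_add ⇑Q, QuadraticMap.map_add ⇑Q ((-Q d) • e 2),
        QuadraticMap.map_smul, hf.Qe, hf.Qf, QuadraticMap.polar_add_right,
        QuadraticMap.polar_smul_right, QuadraticMap.polar_smul_left, hde', hdf', hf.ef_self]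
      simp
    have que : ∀ l, l ≠ 2 → QuadraticMap.polar ⇑Q u (e l) = 0 := by
      intro l hl
      rw [hu, QuadraticMap.polar_add_left, QuadraticMap.polar_add_left,
        QuadraticMap.polar_smul_left, hde', hf.ee, hf.fe_ne (Ne.symm hl)]
      simp
    have quf : ∀ l, l ≠ 2 → QuadraticMap.polar ⇑Q u (f l) = 0 := by
      intro l hl
      rw [hu, QuadraticMap.polar_add_left, QuadraticMap.polar_add_left,
        QuadraticMap.polar_smul_left, hdf', hf.ff, hf.ef_ne (Ne.symm hl)]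
      simp
    have key := oZ_aux hc hr hf hαβ hvz hM hur hQu (que 0 (by decide)) (que 1 (by decide))
      (i := 3) (j := 4) (by decide) (by decide) (by decide) (by decide) (by decide)
      (que 3 (by decide)) (quf 3 (by decide)) (que 4 (by decide))
    rw [hu] at key
    simp only [QuadraticMap.polar_add_left, QuadraticMap.polar_smul_left, ha 2,
      hb 2 (by decide) (by decide), smul_eq_mul, mul_zero, add_zero] at key
    exact key
  have hP0 : oPr Q e f z = 0 := by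
    apply oRat_sep (F₀ := F₀) hc.nd
    intro c hcr
    rw [oPr_polar]
    exact hd _ (oPr_rat hc.rq hf hcr) (fun i => oPr_perp_e hf c i) (fun i => oPr_perp_f hf c i)
  have hdec := oPr_decomp (Q := Q) e f z
  rw [hP0, add_zero, Fin.sum_univ_six, Fin.sum_univ_six] at hdec
  simp only [ha, hb 2 (by decide) (by decide), hb 3 (by decide) (by decide),
    hb 4 (by decide) (by decide), hb 5 (by decide) (by decide), zero_smul, add_zero] at hdec
  exact hdec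

/-- The image under `k ∈ M` of a rational point of a rational totally singular line, when `k` maps
the line onto a rational line, is a scalar multiple of a rational point. -/
theorem oPT (hc : OCtx Q F₀ M) (hr : ORatRoot Q F₀ M) {e f e' f' : Fin 6 → ι → F}
    (hf : OFr Q F₀ e f) (hf' : OFr Q F₀ e' f') (k : ↥(isometryGroup F ⇑Q))
    (hk : (k : GL ι F) ∈ M) {a₀ b₀ a₁ b₁ : F}
    (h0 : mv ⇑Q k (e 0) = a₀ • e' 0 + b₀ • e' 1) (h1 : mv ⇑Q k (e 1) = a₁ • e' 0 + b₁ • e' 1)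
    (hdet : a₀ * b₁ - a₁ * b₀ ≠ 0) {s t : F} (hs : s ∈ F₀) (ht : t ∈ F₀) :
    ∃ μ : F, μ ≠ 0 ∧ μ * (s * a₀ + t * a₁) ∈ F₀ ∧ μ * (s * b₀ + t * b₁) ∈ F₀ := by
  by_contra hcon
  have hαβ : ∀ μ : F, μ ≠ 0 → ¬(μ * (s * a₀ + t * a₁) ∈ F₀ ∧ μ * (s * b₀ + t * b₁) ∈ F₀) :=
    fun μ hμ hAB => hcon ⟨μ, hμ, hAB.1, hAB.2⟩
  obtain ⟨p, hp⟩ : ∃ p, p = s • e 0 + t • e 1 := ⟨_, rfl⟩
  have hpr : oRat F₀ p := by
    rw [hp]
    exact oRat_add (oRat_smul hs (hf.re 0)) (oRat_smul ht (hf.re 1))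
  have hQp : Q p = 0 := by
    rw [hp]
    exact q_comb (hf.Qe 0) (hf.Qe 1) (hf.ee 0 1) s t
  have hpe : QuadraticMap.polar ⇑Q p (e 2) = 0 := by
    rw [hp, QuadraticMap.polar_add_left, QuadraticMap.polar_smul_left,
      QuadraticMap.polar_smul_left, hf.ee, hf.ee]
    simp
  have hkp : mv ⇑Q k p = (s * a₀ + t * a₁) • e' 0 + (s * b₀ + t * b₁) • e' 1 := by
    rw [hp, mv_add, mv_smul, mv_smul, h0, h1]
    module
  have hM := oE_conj_mem k hk p (e 2) hQp hpe (hc.oE_mem hpr (hf.re 2) hQp hpe)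
  have hvz : QuadraticMap.polar ⇑Q (mv ⇑Q k p) (mv ⇑Q k (e 2)) = 0 := by
    rw [mv_polar]
    exact hpe
  rw [hkp] at hM hvz
  have hz := oZ hc hr hf' hαβ hvz hM
  have hX : QuadraticMap.polar ⇑Q (mv ⇑Q k (f 2)) (e' 0) = 0 ∧
      QuadraticMap.polar ⇑Q (mv ⇑Q k (f 2)) (e' 1) = 0 := by
    have eq1 : QuadraticMap.polar ⇑Q (mv ⇑Q k (f 2)) (mv ⇑Q k (e 0)) = 0 := by
      rw [mv_polar]
      exact hf.fe_ne (by decide)
    have eq2 : QuadraticMap.polar ⇑Q (mv ⇑Q k (f 2)) (mv ⇑Q k (e 1)) = 0 := by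
      rw [mv_polar]
      exact hf.fe_ne (by decide)
    rw [h0, QuadraticMap.polar_add_right, QuadraticMap.polar_smul_right,
      QuadraticMap.polar_smul_right, smul_eq_mul, smul_eq_mul] at eq1
    rw [h1, QuadraticMap.polar_add_right, QuadraticMap.polar_smul_right,
      QuadraticMap.polar_smul_right, smul_eq_mul, smul_eq_mul] at eq2
    constructor
    · have : (a₀ * b₁ - a₁ * b₀) * QuadraticMap.polar ⇑Q (mv ⇑Q k (f 2)) (e' 0) = 0 := by
        linear_combination b₁ * eq1 - b₀ * eq2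
      exact (mul_eq_zero.mp this).resolve_left hdet
    · have : (a₀ * b₁ - a₁ * b₀) * QuadraticMap.polar ⇑Q (mv ⇑Q k (f 2)) (e' 1) = 0 := by
        linear_combination a₀ * eq2 - a₁ * eq1
      exact (mul_eq_zero.mp this).resolve_left hdet
  have h3 : QuadraticMap.polar ⇑Q (mv ⇑Q k (f 2)) (mv ⇑Q k (e 2)) = 1 := by
    rw [mv_polar]
    exact hf.fe_self 2
  rw [hz, QuadraticMap.polar_add_right, QuadraticMap.polar_smul_right,
    QuadraticMap.polar_smul_right, hX.1, hX.2] at h3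
  simp at h3

/-- The pair lemma: if `k ∈ M` maps the rational totally singular line `⟨e 0, e 1⟩` to a line
whose skew map is rational, then up to one scalar `k` maps the rational vectors orthogonal to
the line to rational vectors. -/
theorem oCL1 (hc : OCtx Q F₀ M) (hr : ORatRoot Q F₀ M) (k : ↥(isometryGroup F ⇑Q))
    (hk : (k : GL ι F) ∈ M) {e f : Fin 6 → ι → F} (hf : OFr Q F₀ e f)
    (hW : oW Q (mv ⇑Q k (e 0)) (mv ⇑Q k (e 1)) ∈ SG.ratMat F₀ ι) :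
    ∃ lam : F, lam ≠ 0 ∧ ∀ b, oRat F₀ b → QuadraticMap.polar ⇑Q (e 0) b = 0 →
      QuadraticMap.polar ⇑Q (e 1) b = 0 → oRat F₀ (lam • mv ⇑Q k b) := by
  obtain ⟨x', hx'⟩ : ∃ x', x' = mv ⇑Q k (e 0) := ⟨_, rfl⟩
  obtain ⟨y', hy'⟩ : ∃ y', y' = mv ⇑Q k (e 1) := ⟨_, rfl⟩
  rw [← hx', ← hy'] at hW
  have hQx' : Q x' = 0 := by
    rw [hx', mv_quad ⇑Q k]
    exact hf.Qe 0
  have hQy' : Q y' = 0 := by
    rw [hy', mv_quad ⇑Q k]
    exact hf.Qe 1
  have hxy' : QuadraticMap.polar ⇑Q x' y' = 0 := by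
    rw [hx', hy', mv_polar]
    exact hf.ee 0 1
  have hind : ∀ a b : F, a • x' + b • y' = 0 → a = 0 ∧ b = 0 := by
    intro a b hab
    have h1 := congrArg (QuadraticMap.polar ⇑Q (mv ⇑Q k (f 0))) hab
    have h2 := congrArg (QuadraticMap.polar ⇑Q (mv ⇑Q k (f 1))) hab
    rw [hx', hy', QuadraticMap.polar_add_right, QuadraticMap.polar_smul_right,
      QuadraticMap.polar_smul_right, mv_polar, mv_polar, QuadraticMap.polar_zero_right] at h1 h2
    rw [hf.fe_self, hf.fe_ne (by decide)] at h1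
    rw [hf.fe_self, hf.fe_ne (by decide)] at h2
    simp at h1 h2
    exact ⟨h1, h2⟩
  have hx'0 : x' ≠ 0 := by
    intro h
    have := hind 1 0 (by rw [h]; simp)
    exact one_ne_zero this.1
  have hex : ∀ w : ι → F, w ≠ 0 → ∃ v, oRat F₀ v ∧ QuadraticMap.polar ⇑Q w v ≠ 0 := by
    intro w hw
    by_contra hcon
    push Not at hcon
    apply hw
    apply oRat_sep (F₀ := F₀) hc.nd
    intro c hcr
    rw [QuadraticMap.polar_comm]
    exact hcon c hcr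
  obtain ⟨v₁, hv₁, hp₁0⟩ := hex x' hx'0
  obtain ⟨p₁, hp₁⟩ : ∃ p₁, p₁ = QuadraticMap.polar ⇑Q x' v₁ := ⟨_, rfl⟩
  obtain ⟨q₁, hq₁⟩ : ∃ q₁, q₁ = QuadraticMap.polar ⇑Q y' v₁ := ⟨_, rfl⟩
  rw [← hp₁] at hp₁0
  obtain ⟨a', ha'⟩ : ∃ a', a' = q₁ • x' - p₁ • y' := ⟨_, rfl⟩
  have ha'r : oRat F₀ a' := by
    have := oRat_mulVec hW hv₁
    rw [oW_mulVec, ← hp₁, ← hq₁, ← ha'] at this
    exact this
  have ha'0 : a' ≠ 0 := by
    intro h
    have := hind q₁ (-p₁) (by rw [← h, ha']; module)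
    exact hp₁0 (neg_eq_zero.mp this.2)
  obtain ⟨v₂, hv₂, hD0⟩ := hex a' ha'0
  obtain ⟨p₂, hp₂⟩ : ∃ p₂, p₂ = QuadraticMap.polar ⇑Q x' v₂ := ⟨_, rfl⟩
  obtain ⟨q₂, hq₂⟩ : ∃ q₂, q₂ = QuadraticMap.polar ⇑Q y' v₂ := ⟨_, rfl⟩
  obtain ⟨b', hb'⟩ : ∃ b', b' = q₂ • x' - p₂ • y' := ⟨_, rfl⟩
  have hb'r : oRat F₀ b' := by
    have := oRat_mulVec hW hv₂
    rw [oW_mulVec, ← hp₂, ← hq₂, ← hb'] at this
    exact this
  obtain ⟨D, hD⟩ : ∃ D, D = q₁ * p₂ - p₁ * q₂ := ⟨_, rfl⟩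
  have hD0' : D ≠ 0 := by
    rw [ha', QuadraticMap.polar_sub_left, QuadraticMap.polar_smul_left,
      QuadraticMap.polar_smul_left, ← hp₂, ← hq₂, smul_eq_mul, smul_eq_mul, ← hD] at hD0
    exact hD0
  have hQa' : Q a' = 0 := by
    rw [ha', sub_eq_add_neg, ← neg_smul]
    exact q_comb hQx' hQy' hxy' _ _
  have hQb' : Q b' = 0 := by
    rw [hb', sub_eq_add_neg, ← neg_smul]
    exact q_comb hQx' hQy' hxy' _ _
  have hyx' : QuadraticMap.polar ⇑Q y' x' = 0 := by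
    rw [QuadraticMap.polar_comm]
    exact hxy'
  have hab' : QuadraticMap.polar ⇑Q a' b' = 0 := by
    rw [ha', hb']
    simp only [QuadraticMap.polar_sub_left, QuadraticMap.polar_sub_right,
      QuadraticMap.polar_smul_left, QuadraticMap.polar_smul_right, hxy', hyx',
      polar_self_zero Q x' hQx', polar_self_zero Q y' hQy', smul_zero, sub_zero]
  have hindab : ∀ c : F, b' ≠ c • a' := by
    intro c hcab
    have := hind (q₂ - c * q₁) (-(p₂ - c * p₁)) (by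
      have h0 : b' - c • a' = 0 := sub_eq_zero.mpr hcab
      rw [← h0, ha', hb']
      module)
    apply hD0'
    have e1 : q₂ = c * q₁ := sub_eq_zero.mp this.1
    have e2 : p₂ = c * p₁ := sub_eq_zero.mp (neg_eq_zero.mp this.2)
    rw [hD, e1, e2]
    ring
  obtain ⟨e₂, f₂, hf₂, he₂0, he₂1⟩ :=
    exists_oFr_pair hc.rq hc.nd hc.card ha'r hb'r hQa' hQb' hab' hindab ha'0
  have hx'e : x' = (D⁻¹ * p₂) • a' + (-(D⁻¹ * p₁)) • b' := by
    have h1 : D • x' = p₂ • a' - p₁ • b' := by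
      rw [hD, ha', hb']
      module
    have h2 : x' = D⁻¹ • (D • x') := by rw [smul_smul, inv_mul_cancel₀ hD0', one_smul]
    rw [h2, h1]
    module
  have hy'e : y' = (D⁻¹ * q₂) • a' + (-(D⁻¹ * q₁)) • b' := by
    have h1 : D • y' = q₂ • a' - q₁ • b' := by
      rw [hD, ha', hb']
      module
    have h2 : y' = D⁻¹ • (D • y') := by rw [smul_smul, inv_mul_cancel₀ hD0', one_smul]
    rw [h2, h1]
    module
  have hdet : (D⁻¹ * p₂) * (-(D⁻¹ * q₁)) - (D⁻¹ * q₂) * (-(D⁻¹ * p₁)) ≠ 0 := by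
    have hD' : q₂ * p₁ - p₂ * q₁ = -D := by
      rw [hD]
      ring
    have e : (D⁻¹ * p₂) * (-(D⁻¹ * q₁)) - (D⁻¹ * q₂) * (-(D⁻¹ * p₁))
        = D⁻¹ * D⁻¹ * (q₂ * p₁ - p₂ * q₁) := by ring
    rw [e, hD']
    exact mul_ne_zero (mul_ne_zero (inv_ne_zero hD0') (inv_ne_zero hD0')) (neg_ne_zero.mpr hD0')
  have h0 : mv ⇑Q k (e 0) = (D⁻¹ * p₂) • e₂ 0 + (-(D⁻¹ * p₁)) • e₂ 1 := by
    rw [he₂0, he₂1, ← hx']
    exact hx'e
  have h1 : mv ⇑Q k (e 1) = (D⁻¹ * q₂) • e₂ 0 + (-(D⁻¹ * q₁)) • e₂ 1 := by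
    rw [he₂0, he₂1, ← hy']
    exact hy'e
  obtain ⟨μ₁, hμ₁0, hA₁, hB₁⟩ := oPT hc hr hf hf₂ k hk h0 h1 hdet (s := 1) (t := 0)
    (one_mem _) (zero_mem _)
  obtain ⟨μ₂, hμ₂0, hA₂, hB₂⟩ := oPT hc hr hf hf₂ k hk h0 h1 hdet (s := 0) (t := 1)
    (zero_mem _) (one_mem _)
  simp only [one_mul, zero_mul, add_zero, zero_add] at hA₁ hB₁ hA₂ hB₂
  obtain ⟨x₁, hx₁⟩ : ∃ x₁, x₁ = μ₁ • x' := ⟨_, rfl⟩
  obtain ⟨y₁, hy₁⟩ : ∃ y₁, y₁ = μ₂ • y' := ⟨_, rfl⟩
  have hx₁r : oRat F₀ x₁ := by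
    have e : x₁ = (μ₁ * (D⁻¹ * p₂)) • a' + (μ₁ * (-(D⁻¹ * p₁))) • b' := by
      rw [hx₁]
      nth_rewrite 1 [hx'e]
      module
    rw [e]
    exact oRat_add (oRat_smul hA₁ ha'r) (oRat_smul hB₁ hb'r)
  have hy₁r : oRat F₀ y₁ := by
    have e : y₁ = (μ₂ * (D⁻¹ * q₂)) • a' + (μ₂ * (-(D⁻¹ * q₁))) • b' := by
      rw [hy₁]
      nth_rewrite 1 [hy'e]
      module
    rw [e]
    exact oRat_add (oRat_smul hA₂ ha'r) (oRat_smul hB₂ hb'r)
  have hQx₁ : Q x₁ = 0 := by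
    rw [hx₁, QuadraticMap.map_smul, hQx', smul_zero]
  have hQy₁ : Q y₁ = 0 := by
    rw [hy₁, QuadraticMap.map_smul, hQy', smul_zero]
  have hx₁y₁ : QuadraticMap.polar ⇑Q x₁ y₁ = 0 := by
    rw [hx₁, hy₁, QuadraticMap.polar_smul_left, QuadraticMap.polar_smul_right, hxy', smul_zero,
      smul_zero]
  have hx₁0 : x₁ ≠ 0 := by
    rw [hx₁]
    exact smul_ne_zero hμ₁0 hx'0
  have hind₁ : ∀ c : F, y₁ ≠ c • x₁ := by
    intro c h
    have := hind (-(c * μ₁)) μ₂ (by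
      have h0 : y₁ - c • x₁ = 0 := sub_eq_zero.mpr h
      rw [← h0, hx₁, hy₁]
      module)
    exact hμ₂0 this.2
  obtain ⟨e', f', hf', he'0, he'1⟩ :=
    exists_oFr_pair hc.rq hc.nd hc.card hx₁r hy₁r hQx₁ hQy₁ hx₁y₁ hind₁ hx₁0
  have hke0 : mv ⇑Q k (e 0) = μ₁⁻¹ • e' 0 := by
    rw [he'0, ← hx', hx₁, smul_smul, inv_mul_cancel₀ hμ₁0, one_smul]
  have hke1 : mv ⇑Q k (e 1) = μ₂⁻¹ • e' 1 := by
    rw [he'1, ← hy', hy₁, smul_smul, inv_mul_cancel₀ hμ₂0, one_smul]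
  have h0' : mv ⇑Q k (e 0) = μ₁⁻¹ • e' 0 + (0 : F) • e' 1 := by
    rw [hke0, zero_smul, add_zero]
  have h1' : mv ⇑Q k (e 1) = (0 : F) • e' 0 + μ₂⁻¹ • e' 1 := by
    rw [hke1, zero_smul, zero_add]
  have hdet' : μ₁⁻¹ * μ₂⁻¹ - 0 * 0 ≠ 0 := by
    rw [mul_zero, sub_zero]
    exact mul_ne_zero (inv_ne_zero hμ₁0) (inv_ne_zero hμ₂0)
  obtain ⟨μ, hμ0, hA, hB⟩ := oPT hc hr hf hf' k hk h0' h1' hdet' (s := 1) (t := 1)
    (one_mem _) (one_mem _)
  simp only [one_mul, add_zero, zero_add] at hA hB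
  have hc₀ : μ₂ * μ₁⁻¹ ∈ F₀ := by
    have := mul_mem hA (inv_mem hB)
    have e : μ * μ₁⁻¹ * (μ * μ₂⁻¹)⁻¹ = μ₂ * μ₁⁻¹ := by
      field_simp
    rwa [e] at this
  refine ⟨μ₁⁻¹, inv_ne_zero hμ₁0, ?_⟩
  intro b hb hb0 hb1
  have hM0 := oE_conj_mem k hk (e 0) b (hf.Qe 0) hb0 (hc.oE_mem (hf.re 0) hb (hf.Qe 0) hb0)
  have hpb0 : QuadraticMap.polar ⇑Q (e' 0) (mv ⇑Q k b) = 0 := by
    rw [he'0, hx₁, hx', QuadraticMap.polar_smul_left, mv_polar, hb0, smul_zero]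
  rw [hke0, oE_smul Q μ₁⁻¹ (e' 0) (mv ⇑Q k b) (hf'.Qe 0) hpb0] at hM0
  have hpb0' : QuadraticMap.polar ⇑Q (e' 0) (μ₁⁻¹ • mv ⇑Q k b) = 0 := by
    rw [QuadraticMap.polar_smul_right, hpb0, smul_zero]
  obtain ⟨c, hcr⟩ := hr (e' 0) (μ₁⁻¹ • mv ⇑Q k b) (hf'.re 0) (hf'.e_ne_zero 0) (hf'.Qe 0)
    hpb0' hM0
  have hM1 := oE_conj_mem k hk (e 1) b (hf.Qe 1) hb1 (hc.oE_mem (hf.re 1) hb (hf.Qe 1) hb1)
  have hpb1 : QuadraticMap.polar ⇑Q (e' 1) (mv ⇑Q k b) = 0 := by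
    rw [he'1, hy₁, hy', QuadraticMap.polar_smul_left, mv_polar, hb1, smul_zero]
  rw [hke1, oE_smul Q μ₂⁻¹ (e' 1) (mv ⇑Q k b) (hf'.Qe 1) hpb1] at hM1
  have hpb1' : QuadraticMap.polar ⇑Q (e' 1) (μ₂⁻¹ • mv ⇑Q k b) = 0 := by
    rw [QuadraticMap.polar_smul_right, hpb1, smul_zero]
  obtain ⟨c', hcr'⟩ := hr (e' 1) (μ₂⁻¹ • mv ⇑Q k b) (hf'.re 1) (hf'.e_ne_zero 1) (hf'.Qe 1)
    hpb1' hM1
  have hcr'' : oRat F₀ (μ₁⁻¹ • mv ⇑Q k b - (μ₂ * μ₁⁻¹ * c') • e' 1) := by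
    have := oRat_smul hc₀ hcr'
    have e : (μ₂ * μ₁⁻¹) • (μ₂⁻¹ • mv ⇑Q k b - c' • e' 1)
        = μ₁⁻¹ • mv ⇑Q k b - (μ₂ * μ₁⁻¹ * c') • e' 1 := by
      rw [smul_sub, smul_smul, smul_smul]
      congr 2
      field_simp
    rwa [e] at this
  have hdiff : oRat F₀ (c • e' 0 - (μ₂ * μ₁⁻¹ * c') • e' 1) := by
    have := oRat_sub hcr'' hcr
    have e : μ₁⁻¹ • mv ⇑Q k b - (μ₂ * μ₁⁻¹ * c') • e' 1 - (μ₁⁻¹ • mv ⇑Q k b - c • e' 0)
        = c • e' 0 - (μ₂ * μ₁⁻¹ * c') • e' 1 := by abel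
    rwa [e] at this
  have hcF : c ∈ F₀ := by
    have := hc.rq.polar (hf'.rf 0) hdiff
    rw [QuadraticMap.polar_sub_right, QuadraticMap.polar_smul_right,
      QuadraticMap.polar_smul_right, hf'.fe_self, hf'.fe_ne (show (0 : Fin 6) ≠ 1 by decide),
      smul_zero, sub_zero, smul_eq_mul, mul_one] at this
    exact this
  have e : μ₁⁻¹ • mv ⇑Q k b = (μ₁⁻¹ • mv ⇑Q k b - c • e' 0) + c • e' 0 := by abel
  rw [e]
  exact oRat_add hcr (oRat_smul hcF (hf'.re 0))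

theorem mv_sum' (g : ↥(isometryGroup F ⇑Q)) {κ : Type*} (s : Finset κ) (w : κ → ι → F) :
    mv ⇑Q g (∑ i ∈ s, w i) = ∑ i ∈ s, mv ⇑Q g (w i) := Matrix.mulVec_sum _ _ _

/-- The core lemma: an element `k ∈ M` mapping a rational totally singular line to a line with
rational skew map lies in the subfield group. -/
theorem oCL (hc : OCtx Q F₀ M) (hr : ORatRoot Q F₀ M) (k : ↥(isometryGroup F ⇑Q))
    (hk : (k : GL ι F) ∈ M) {x y : ι → F} (hx : oRat F₀ x) (hy : oRat F₀ y) (hQx : Q x = 0)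
    (hQy : Q y = 0) (hxy : QuadraticMap.polar ⇑Q x y = 0) (hind : ∀ c : F, y ≠ c • x)
    (hx0 : x ≠ 0) (hW : oW Q (mv ⇑Q k x) (mv ⇑Q k y) ∈ SG.ratMat F₀ ι) :
    (k : GL ι F) ∈ subfieldSubgroup F₀ (1 : GL ι F) := by
  obtain ⟨e, f, hf, he0, he1⟩ := exists_oFr_pair hc.rq hc.nd hc.card hx hy hQx hQy hxy hind hx0
  rw [← he0, ← he1] at hW
  obtain ⟨lam, hlam0, hlam⟩ := oCL1 hc hr k hk hf hW
  have hl2 : lam * lam ∈ F₀ := by
    have h1 := hlam (e 2) (hf.re 2) (hf.ee 0 2) (hf.ee 1 2)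
    have h2 := hlam (f 2) (hf.rf 2) (hf.ef_ne (by decide)) (hf.ef_ne (by decide))
    have := hc.rq.polar h1 h2
    rw [QuadraticMap.polar_smul_left, QuadraticMap.polar_smul_right, mv_polar, hf.ef_self,
      smul_eq_mul, smul_eq_mul, mul_one] at this
    exact this
  obtain ⟨σ, hσ⟩ : ∃ σ : Fin 6 ≃ Fin 6, σ = Equiv.swap 0 2 * Equiv.swap 1 3 := ⟨_, rfl⟩
  have hσ0 : σ 0 = 2 := by
    rw [hσ]
    decide
  have hσ1 : σ 1 = 3 := by
    rw [hσ]
    decide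
  have hf₂ := hf.reindex σ
  have hW₂ : oW Q (mv ⇑Q k ((e ∘ σ) 0)) (mv ⇑Q k ((e ∘ σ) 1)) ∈ SG.ratMat F₀ ι := by
    rw [Function.comp_apply, Function.comp_apply, hσ0, hσ1]
    have h2 := hlam (e 2) (hf.re 2) (hf.ee 0 2) (hf.ee 1 2)
    have h3 := hlam (e 3) (hf.re 3) (hf.ee 0 3) (hf.ee 1 3)
    have h4 := oW_rat Q hc.rq h2 h3
    rw [oW_smul_left, oW_smul_right, smul_smul] at h4
    have h5 := SG.smul_mem_ratMat h4 (inv_mem hl2)
    rw [smul_smul, inv_mul_cancel₀ (mul_ne_zero hlam0 hlam0), one_smul] at h5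
    exact h5
  obtain ⟨lam₂, hlam₂0, hlam₂⟩ := oCL1 hc hr k hk hf₂ hW₂
  simp only [Function.comp_apply, hσ0, hσ1] at hlam₂
  have hcmp : lam * lam₂⁻¹ ∈ F₀ := by
    have h1 := hlam (e 0) (hf.re 0) (hf.ee 0 0) (hf.ee 1 0)
    have h2 := hlam₂ (e 0) (hf.re 0) (hf.ee 2 0) (hf.ee 3 0)
    have hne : lam₂ • mv ⇑Q k (e 0) ≠ 0 :=
      smul_ne_zero hlam₂0 (mv_ne_zero Q k (e 0) (hf.e_ne_zero 0))
    apply oRat_smul_cancel h2 hne
    rw [smul_smul, mul_assoc, inv_mul_cancel₀ hlam₂0, mul_one]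
    exact h1
  have hlam' : ∀ b, oRat F₀ b → QuadraticMap.polar ⇑Q (e 2) b = 0 →
      QuadraticMap.polar ⇑Q (e 3) b = 0 → oRat F₀ (lam • mv ⇑Q k b) := by
    intro b hb h2 h3
    have := oRat_smul hcmp (hlam₂ b hb h2 h3)
    rw [smul_smul, mul_assoc, inv_mul_cancel₀ hlam₂0, mul_one] at this
    exact this
  have hfi : ∀ i, oRat F₀ (lam • mv ⇑Q k (f i)) := by
    intro i
    by_cases hi : i = 0 ∨ i = 1
    · have h2 : (2 : Fin 6) ≠ i := by rcases hi with h | h <;> (rw [h]; decide)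
      have h3 : (3 : Fin 6) ≠ i := by rcases hi with h | h <;> (rw [h]; decide)
      exact hlam' (f i) (hf.rf i) (hf.ef_ne h2) (hf.ef_ne h3)
    · push Not at hi
      exact hlam (f i) (hf.rf i) (hf.ef_ne (Ne.symm hi.1)) (hf.ef_ne (Ne.symm hi.2))
  have key : ∀ b, oRat F₀ b → oRat F₀ (lam • mv ⇑Q k b) := by
    intro b hb
    have hdec := oPr_decomp (Q := Q) e f b
    have e1 : lam • mv ⇑Q k b = ∑ i, QuadraticMap.polar ⇑Q (f i) b • (lam • mv ⇑Q k (e i))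
        + ∑ i, QuadraticMap.polar ⇑Q (e i) b • (lam • mv ⇑Q k (f i))
        + lam • mv ⇑Q k (oPr Q e f b) := by
      conv_lhs => rw [hdec]
      rw [mv_add, mv_add, smul_add, smul_add, mv_sum', mv_sum', Finset.smul_sum, Finset.smul_sum]
      congr 1
      congr 1
      · refine Finset.sum_congr rfl fun i _ => ?_
        rw [mv_smul, smul_comm]
      · refine Finset.sum_congr rfl fun i _ => ?_
        rw [mv_smul, smul_comm]
    rw [e1]
    exact oRat_add (oRat_add (oRat_sum _ _ fun i _ => oRat_smul (hc.rq.polar (hf.rf i) hb)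
      (hlam (e i) (hf.re i) (hf.ee 0 i) (hf.ee 1 i)))
      (oRat_sum _ _ fun i _ => oRat_smul (hc.rq.polar (hf.re i) hb) (hfi i)))
      (hlam _ (oPr_rat hc.rq hf hb) (oPr_perp_e hf b 0) (oPr_perp_e hf b 1))
  rw [SG.mem_subfieldSubgroup_one]
  refine ⟨lam, hlam0, ratMat_of_oRat fun v hv => ?_⟩
  rw [Matrix.smul_mulVec]
  exact key v hv

end OSF3

end Cfsg.Agent.Helper94
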