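import Mathlib
import Cfsg.Prelude.Def_GeometricClasses
import Cfsg.Agent.Helper94.OSF3
import Cfsg.Agent.Helper97.SFRoot

/-!
The averaging argument for overgroups `M` of the subfield subgroup of `Ω(Q)` all of whose Eichler
transformations with rational centre are rational: such an `M` lies in the subfield group.
-/

set_option autoImplicit false
set_option linter.unusedSectionVars false
set_option linter.unusedVariables false
set_option linter.unusedSimpArgs false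

universe u

namespace Cfsg.Agent.Helper94

open Matrix Cfsg Cfsg.Geo Cfsg.Agent.Helper45 Cfsg.Agent.Helper97

section OSF4

variable {ι : Type} [Fintype ι] [DecidableEq ι] {F : Type u} [Field F] [Fintype F]
  {F₀ : Subfield F} {Q : QuadraticForm F (ι → F)} {M : Subgroup (GL ι F)}

theorem oE_pow (u b : ι → F) (hu : Q u = 0) (hub : QuadraticMap.polar ⇑Q u b = 0) (n : ℕ) :
    (oE Q u b) ^ n = oE Q u ((n : F) • b) := by
  induction n with
  | zero => rw [pow_zero, Nat.cast_zero, zero_smul, oE_zero Q u hu]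
  | succ n ih =>
    rw [pow_succ, ih, oE_mul Q u _ _ hu (by rw [QuadraticMap.polar_smul_right, hub, smul_zero]) hub]
    congr 1
    push_cast
    module

/-- If a conjugate by `g ∈ M` of a rational root element with independent rational totally
singular pair lies in the subfield group, then so does `g`. -/
theorem oFree (hc : OCtx Q F₀ M) (hr : ORatRoot Q F₀ M) {x y : ι → F} (hx : oRat F₀ x)
    (hy : oRat F₀ y) (hQx : Q x = 0) (hQy : Q y = 0) (hxy : QuadraticMap.polar ⇑Q x y = 0)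
    (hind : ∀ c : F, y ≠ c • x) (hx0 : x ≠ 0) {g : GL ι F} (hg : g ∈ M)
    (hsg : g⁻¹ * ((oE Q x y : ↥(isometryGroup F ⇑Q)) : GL ι F) * g
      ∈ subfieldSubgroup F₀ (1 : GL ι F)) :
    g ∈ subfieldSubgroup F₀ (1 : GL ι F) := by
  obtain ⟨g', hg'⟩ := hc.lift hg
  obtain ⟨k, hk⟩ : ∃ k : ↥(isometryGroup F ⇑Q), k = g'⁻¹ := ⟨_, rfl⟩
  have hkg : (k : GL ι F) = g⁻¹ := by
    rw [hk, ← hg']
    rfl
  have hkM : (k : GL ι F) ∈ M := by
    rw [hkg]
    exact M.inv_mem hg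
  have hs : g⁻¹ * ((oE Q x y : ↥(isometryGroup F ⇑Q)) : GL ι F) * g
      = ((oE Q (mv ⇑Q k x) (mv ⇑Q k y) : ↥(isometryGroup F ⇑Q)) : GL ι F) := by
    rw [← oE_conj Q k x y hQx hxy]
    show _ = (k : GL ι F) * _ * ((k : GL ι F))⁻¹
    rw [hkg, inv_inv]
  rw [hs] at hsg
  obtain ⟨x', hx'⟩ : ∃ x', x' = mv ⇑Q k x := ⟨_, rfl⟩
  obtain ⟨y', hy'⟩ : ∃ y', y' = mv ⇑Q k y := ⟨_, rfl⟩
  rw [← hx', ← hy'] at hsg
  have hQx' : Q x' = 0 := by
    rw [hx', mv_quad ⇑Q k]
    exact hQx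
  have hQy' : Q y' = 0 := by
    rw [hy', mv_quad ⇑Q k]
    exact hQy
  have hxy' : QuadraticMap.polar ⇑Q x' y' = 0 := by
    rw [hx', hy', mv_polar]
    exact hxy
  obtain ⟨p, hp⟩ : ∃ p, p = ringChar F := ⟨_, rfl⟩
  have : CharP F p := by
    rw [hp]
    exact ringChar.charP F
  have : Fact p.Prime := ⟨CharP.char_is_prime F p⟩
  have hpow : (oE Q x' y') ^ p = 1 := by
    rw [oE_pow x' y' hQx' hxy', CharP.cast_eq_zero, zero_smul, oE_zero Q x' hQx']
  have hA : ((((oE Q x' y' : ↥(isometryGroup F ⇑Q)) : GL ι F) : Matrix ι ι F)) ^ p = 1 := by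
    rw [← Units.val_pow_eq_pow_val, ← SubgroupClass.coe_pow, hpow]
    rfl
  obtain ⟨d, hd0, hdrat⟩ := (SG.mem_subfieldSubgroup_one F₀ _).mp hsg
  obtain ⟨i₀⟩ : Nonempty ι := Fintype.card_pos_iff.mp (by have := hc.card; omega)
  have hdp : d ^ p ∈ F₀ := by
    have h1 : (d • (((oE Q x' y' : ↥(isometryGroup F ⇑Q)) : GL ι F) : Matrix ι ι F)) ^ p
        ∈ SG.ratMat F₀ ι := pow_mem hdrat p
    rw [smul_pow, hA] at h1
    have h2 := h1 i₀ i₀
    simpa using h2
  have hd : d ∈ F₀ := SF.sf_frob F₀ p d hdp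
  have hrat : (((oE Q x' y' : ↥(isometryGroup F ⇑Q)) : GL ι F) : Matrix ι ι F)
      ∈ SG.ratMat F₀ ι := by
    have e : (((oE Q x' y' : ↥(isometryGroup F ⇑Q)) : GL ι F) : Matrix ι ι F)
        = d⁻¹ • (d • (((oE Q x' y' : ↥(isometryGroup F ⇑Q)) : GL ι F) : Matrix ι ι F)) := by
      rw [smul_smul, inv_mul_cancel₀ hd0, one_smul]
    rw [e]
    exact SG.smul_mem_ratMat hdrat (inv_mem hd)
  have hW : oW Q x' y' ∈ SG.ratMat F₀ ι := by
    have h1 := oE_val Q x' y' hQx' hQy' hxy'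
    have h2 : oW Q x' y'
        = (((oE Q x' y' : ↥(isometryGroup F ⇑Q)) : GL ι F) : Matrix ι ι F) - 1 := by
      rw [h1, add_sub_cancel_left]
    rw [h2]
    exact sub_mem hrat (one_mem _)
  rw [hx', hy'] at hW
  have hkS := oCL hc hr k hkM hx hy hQx hQy hxy hind hx0 hW
  rw [hkg] at hkS
  have := Subgroup.inv_mem _ hkS
  rwa [inv_inv] at this

section Avg

open Classical

variable [Fintype (GL ι F ⧸ subfieldSubgroup F₀ (1 : GL ι F))]

/-- The averaging operator agrees with the retraction on a matrix centralised by a rational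
three-parameter unipotent group acting freely on the non-trivial cosets of the subfield group
meeting `M`. -/
theorem oAvg_gen [Fintype F₀] (i₀ : ι) (X : Matrix ι ι F) (rho : F₀ × F₀ × F₀ → GL ι F)
    (E₁ E₂ E₃ : Matrix ι ι F) (hadd : ∀ s t, rho (s + t) = rho s * rho t)
    (hM : ∀ t, rho t ∈ M) (hS : ∀ t, rho t ∈ subfieldSubgroup F₀ (1 : GL ι F))
    (hval : ∀ t : F₀ × F₀ × F₀, (rho t : Matrix ι ι F)
      = 1 + ((t.1 : F) • E₁ + (t.2.1 : F) • E₂ + (t.2.2 : F) • E₃))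
    (hinv : ∀ t : F₀ × F₀ × F₀, (((rho t)⁻¹ : GL ι F) : Matrix ι ι F)
      = 1 - ((t.1 : F) • E₁ + (t.2.1 : F) • E₂ + (t.2.2 : F) • E₃))
    (hconj : ∀ t, (rho t : Matrix ι ι F) * X * (((rho t)⁻¹ : GL ι F) : Matrix ι ι F) = X)
    (hfree : ∀ t, t ≠ 0 → ∀ g ∈ M, g⁻¹ * rho t * g ∈ subfieldSubgroup F₀ (1 : GL ι F) →
      g ∈ subfieldSubgroup F₀ (1 : GL ι F)) :
    X ∈ SG.sfP F₀ M i₀ := by
  rw [SG.mem_sfP]
  have hzero : rho 0 = 1 := by
    have h := hadd 0 0
    rw [add_zero] at h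
    exact right_eq_mul.mp h
  have h1mem : (QuotientGroup.mk 1 : GL ι F ⧸ subfieldSubgroup F₀ (1 : GL ι F)) ∈ SG.sfQ F₀ M :=
    SG.mem_sfQ.mpr ⟨1, M.one_mem, rfl⟩
  rw [SG.sfE_apply, ← Finset.add_sum_erase _ _ h1mem, SG.sfF_mk, SG.sfPiAt_one]
  have hrest : ∑ q ∈ (SG.sfQ F₀ M).erase (QuotientGroup.mk 1), SG.sfF F₀ i₀ X q = 0 := by
    refine SG.orbit_sum_zero (A := F₀ × F₀ × F₀) (fun t q => rho t • q) ?_ ?_
      (SG.sfF F₀ i₀ X) ?_ _ _ rfl ?_ ?_
    · intro q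
      show rho (0 : F₀ × F₀ × F₀) • q = q
      rw [hzero, one_smul]
    · intro a b q
      show rho (a + b) • q = rho a • (rho b • q)
      rw [hadd, mul_smul]
    · intro q
      induction q using QuotientGroup.induction_on with
      | H g =>
        have hterm : ∀ t : F₀ × F₀ × F₀,
            SG.sfF F₀ i₀ X (rho t • (QuotientGroup.mk g : GL ι F ⧸
                subfieldSubgroup F₀ (1 : GL ι F)))
              = (rho t : Matrix ι ι F) * SG.sfPiAt F₀ g X
                * (((rho t)⁻¹ : GL ι F) : Matrix ι ι F) := by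
          intro t
          have h1 := SG.sfF_conj i₀ (rho t) X
            (rho t • (QuotientGroup.mk g : GL ι F ⧸ subfieldSubgroup F₀ (1 : GL ι F)))
          rw [inv_smul_smul, SG.sfF_mk, hconj] at h1
          exact h1
        simp only [hterm, hval, hinv]
        exact SG.lemN F₀ _ _ _ _
    · intro t q hq
      rw [Finset.mem_erase] at hq ⊢
      refine ⟨fun h => hq.1 ?_, (SG.smul_mem_sfQ (hM t) q).mp hq.2⟩
      have h2 : q = (rho t)⁻¹ • (QuotientGroup.mk 1 : GL ι F ⧸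
          subfieldSubgroup F₀ (1 : GL ι F)) := by
        rw [← h, inv_smul_smul]
      rw [h2, MulAction.Quotient.smul_mk, smul_eq_mul, mul_one]
      exact QuotientGroup.eq.mpr (by simpa using hS t)
    · intro t q hq hfix
      by_contra ht
      rw [Finset.mem_erase] at hq
      obtain ⟨g, hg, rfl⟩ := SG.mem_sfQ.mp hq.2
      apply hq.1
      have hfix' : (QuotientGroup.mk (rho t * g) : GL ι F ⧸
          subfieldSubgroup F₀ (1 : GL ι F)) = QuotientGroup.mk g := hfix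
      have h1 : (rho t * g)⁻¹ * g ∈ subfieldSubgroup F₀ (1 : GL ι F) :=
        QuotientGroup.eq.mp hfix'
      have h2 : g⁻¹ * rho t * g ∈ subfieldSubgroup F₀ (1 : GL ι F) := by
        have h3 := (subfieldSubgroup F₀ (1 : GL ι F)).inv_mem h1
        have e : ((rho t * g)⁻¹ * g)⁻¹ = g⁻¹ * rho t * g := by group
        rwa [e] at h3
      have h3 := hfree t ht g hg h2
      exact QuotientGroup.eq.mpr (by simpa using h3)
  rw [hrest, add_zero]

/-- The averaging operator agrees with the retraction on the multiples of the skew maps of pairs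
of vectors orthogonal to four members of a rational frame. -/
theorem oAvg [Fintype F₀] (hc : OCtx Q F₀ M) (hr : ORatRoot Q F₀ M) (i₀ : ι)
    {e f : Fin 6 → ι → F} (hf : OFr Q F₀ e f) {j0 j1 j2 j3 : Fin 6} (h01 : j0 ≠ j1)
    (h02 : j0 ≠ j2) (h03 : j0 ≠ j3) (h12 : j1 ≠ j2) (h13 : j1 ≠ j3) (h23 : j2 ≠ j3)
    {a b : ι → F}
    (ha : ∀ k, k = j0 ∨ k = j1 ∨ k = j2 ∨ k = j3 → QuadraticMap.polar ⇑Q (e k) a = 0)
    (hb : ∀ k, k = j0 ∨ k = j1 ∨ k = j2 ∨ k = j3 → QuadraticMap.polar ⇑Q (e k) b = 0) (θ : F) :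
    θ • oW Q a b ∈ SG.sfP F₀ M i₀ := by
  obtain ⟨y, hy⟩ : ∃ y : F₀ × F₀ × F₀ → ι → F, ∀ t, y t
      = (t.1 : F) • e j1 + (t.2.1 : F) • e j2 + (t.2.2 : F) • e j3 := ⟨_, fun _ => rfl⟩
  have hyr : ∀ t, oRat F₀ (y t) := fun t => by
    rw [hy]
    exact oRat_add (oRat_add (oRat_smul t.1.2 (hf.re j1)) (oRat_smul t.2.1.2 (hf.re j2)))
      (oRat_smul t.2.2.2 (hf.re j3))
  have hey : ∀ l t, QuadraticMap.polar ⇑Q (e l) (y t) = 0 := by
    intro l t
    rw [hy]
    simp only [QuadraticMap.polar_add_right, QuadraticMap.polar_smul_right, hf.ee, smul_zero,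
      add_zero]
  have hQy : ∀ t, Q (y t) = 0 := by
    intro t
    rw [hy, QuadraticMap.map_add ⇑Q, QuadraticMap.map_add ⇑Q]
    simp only [QuadraticMap.map_smul, hf.Qe, QuadraticMap.polar_add_left,
      QuadraticMap.polar_smul_left, QuadraticMap.polar_smul_right, hf.ee, smul_zero, add_zero]
  have hyadd : ∀ s t, y (s + t) = y s + y t := by
    intro s t
    rw [hy, hy, hy]
    simp only [Prod.fst_add, Prod.snd_add, Subfield.coe_add]
    module
  have hyneg : ∀ t, y (-t) = -y t := by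
    intro t
    rw [hy, hy]
    simp only [Prod.fst_neg, Prod.snd_neg, Subfield.coe_neg]
    module
  have hya : ∀ t, QuadraticMap.polar ⇑Q (y t) a = 0 := by
    intro t
    rw [hy]
    simp only [QuadraticMap.polar_add_left, QuadraticMap.polar_smul_left,
      ha j1 (Or.inr (Or.inl rfl)), ha j2 (Or.inr (Or.inr (Or.inl rfl))),
      ha j3 (Or.inr (Or.inr (Or.inr rfl))), smul_zero, add_zero]
  have hyb : ∀ t, QuadraticMap.polar ⇑Q (y t) b = 0 := by
    intro t
    rw [hy]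
    simp only [QuadraticMap.polar_add_left, QuadraticMap.polar_smul_left,
      hb j1 (Or.inr (Or.inl rfl)), hb j2 (Or.inr (Or.inr (Or.inl rfl))),
      hb j3 (Or.inr (Or.inr (Or.inr rfl))), smul_zero, add_zero]
  obtain ⟨rho, hrho⟩ : ∃ rho : F₀ × F₀ × F₀ → GL ι F, ∀ t, rho t
      = ((oE Q (e j0) (y t) : ↥(isometryGroup F ⇑Q)) : GL ι F) := ⟨_, fun _ => rfl⟩
  have hX : ∀ t, (rho t : Matrix ι ι F) * (θ • oW Q a b)
      * (((rho t)⁻¹ : GL ι F) : Matrix ι ι F) = θ • oW Q a b := by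
    intro t
    have fa : mv ⇑Q (oE Q (e j0) (y t)) a = a := by
      rw [mv_oE Q (e j0) (y t) (hf.Qe j0) (hey j0 t), ha j0 (Or.inl rfl), hya t]
      simp
    have fb : mv ⇑Q (oE Q (e j0) (y t)) b = b := by
      rw [mv_oE Q (e j0) (y t) (hf.Qe j0) (hey j0 t), hb j0 (Or.inl rfl), hyb t]
      simp
    rw [hrho, Matrix.mul_smul, Matrix.smul_mul, oW_conj Q (oE Q (e j0) (y t)) a b, fa, fb]
  refine oAvg_gen i₀ (θ • oW Q a b) rho (oW Q (e j0) (e j1)) (oW Q (e j0) (e j2))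
    (oW Q (e j0) (e j3)) ?_ ?_ ?_ ?_ ?_ hX ?_
  · intro s t
    rw [hrho, hrho, hrho, hyadd, ← oE_mul Q (e j0) (y s) (y t) (hf.Qe j0) (hey j0 s) (hey j0 t)]
    rfl
  · intro t
    rw [hrho]
    exact hc.oE_mem (hf.re j0) (hyr t) (hf.Qe j0) (hey j0 t)
  · intro t
    rw [hrho]
    exact ratMat_mem_sub (oE_rat Q hc.rq (hf.re j0) (hyr t) (hf.Qe j0) (hey j0 t))
  · intro t
    rw [hrho, oE_val Q (e j0) (y t) (hf.Qe j0) (hQy t) (hey j0 t), hy, oW_add_right,
      oW_add_right, oW_smul_right, oW_smul_right, oW_smul_right]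
  · intro t
    have h1 : (rho t)⁻¹ = rho (-t) := by
      rw [hrho, hrho, hyneg]
      show (((oE Q (e j0) (y t))⁻¹ : ↥(isometryGroup F ⇑Q)) : GL ι F) = _
      rw [oE_inv Q (e j0) (y t) (hf.Qe j0) (hey j0 t)]
    rw [h1, hrho, oE_val Q (e j0) (y (-t)) (hf.Qe j0) (hQy (-t)) (hey j0 (-t)), hy, oW_add_right,
      oW_add_right, oW_smul_right, oW_smul_right, oW_smul_right]
    simp only [Prod.fst_neg, Prod.snd_neg, Subfield.coe_neg, neg_smul]
    abel
  · intro t ht g hg hsg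
    rw [hrho] at hsg
    refine oFree hc hr (hf.re j0) (hyr t) (hf.Qe j0) (hQy t) (hey j0 t) ?_ (hf.e_ne_zero j0) hg hsg
    intro c hyc
    apply ht
    have p1 := congrArg (QuadraticMap.polar ⇑Q (f j1)) hyc
    have p2 := congrArg (QuadraticMap.polar ⇑Q (f j2)) hyc
    have p3 := congrArg (QuadraticMap.polar ⇑Q (f j3)) hyc
    rw [hy] at p1 p2 p3
    simp only [QuadraticMap.polar_add_right, QuadraticMap.polar_smul_right, hf.fe_self,
      hf.fe_ne h12, hf.fe_ne h13, hf.fe_ne (Ne.symm h01), smul_eq_mul, mul_one, mul_zero,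
      add_zero, zero_add] at p1
    simp only [QuadraticMap.polar_add_right, QuadraticMap.polar_smul_right, hf.fe_self,
      hf.fe_ne (Ne.symm h12), hf.fe_ne h23, hf.fe_ne (Ne.symm h02), smul_eq_mul, mul_one,
      mul_zero, add_zero, zero_add] at p2
    simp only [QuadraticMap.polar_add_right, QuadraticMap.polar_smul_right, hf.fe_self,
      hf.fe_ne (Ne.symm h13), hf.fe_ne (Ne.symm h23), hf.fe_ne (Ne.symm h03), smul_eq_mul,
      mul_one, mul_zero, add_zero, zero_add] at p3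
    exact Prod.ext (ZeroMemClass.coe_eq_zero.mp p1)
      (Prod.ext (ZeroMemClass.coe_eq_zero.mp p2) (ZeroMemClass.coe_eq_zero.mp p3))

end Avg

theorem fin6_four : ∀ i i' : Fin 6, ∃ j0 j1 j2 j3 : Fin 6, j0 ≠ j1 ∧ j0 ≠ j2 ∧ j0 ≠ j3 ∧
    j1 ≠ j2 ∧ j1 ≠ j3 ∧ j2 ≠ j3 ∧ j0 ≠ i ∧ j1 ≠ i ∧ j2 ≠ i ∧ j3 ≠ i ∧ j0 ≠ i' ∧ j1 ≠ i' ∧
    j2 ≠ i' ∧ j3 ≠ i' := by decide

/-- Step 2: an overgroup of the subfield group inside `Ω(Q)` all of whose Eichler transformations
with rational centre are rational lies in the subfield group. -/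
theorem o_step2 (hc : OCtx Q F₀ M) (hr : ORatRoot Q F₀ M) :
    M ≤ subfieldSubgroup F₀ (1 : GL ι F) := by
  classical
  have : Fintype F₀ := Fintype.ofFinite _
  have : Fintype (GL ι F ⧸ subfieldSubgroup F₀ (1 : GL ι F)) := Fintype.ofFinite _
  obtain ⟨e, f, hf⟩ := exists_oFr hc.rq hc.nd hc.card
  obtain ⟨i₀⟩ : Nonempty ι := Fintype.card_pos_iff.mp (by have := hc.card; omega)
  obtain ⟨P, hP⟩ : ∃ P : Submodule F (Matrix ι ι F),
      ∀ X, X ∈ P ↔ ∀ θ : F, θ • X ∈ SG.sfP F₀ M i₀ :=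
    ⟨{ carrier := {X | ∀ θ : F, θ • X ∈ SG.sfP F₀ M i₀}
       add_mem' := fun {X Y} hX hY θ => by
        rw [smul_add]
        exact add_mem (hX θ) (hY θ)
       zero_mem' := fun θ => by
        rw [smul_zero]
        exact zero_mem _
       smul_mem' := fun c X hX θ => by
        rw [smul_smul]
        exact hX _ }, fun X => Iff.rfl⟩
  have hgen : ∀ a b : ι → F, (∃ i, ∀ k, k ≠ i → QuadraticMap.polar ⇑Q (e k) a = 0) →
      (∃ i, ∀ k, k ≠ i → QuadraticMap.polar ⇑Q (e k) b = 0) → oW Q a b ∈ P := by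
    rintro a b ⟨i, hi⟩ ⟨i', hi'⟩
    obtain ⟨j0, j1, j2, j3, h01, h02, h03, h12, h13, h23, a0, a1, a2, a3, b0, b1, b2, b3⟩ :=
      fin6_four i i'
    rw [hP]
    intro θ
    refine oAvg hc hr i₀ hf h01 h02 h03 h12 h13 h23 ?_ ?_ θ
    · rintro k (rfl | rfl | rfl | rfl)
      · exact hi _ a0
      · exact hi _ a1
      · exact hi _ a2
      · exact hi _ a3
    · rintro k (rfl | rfl | rfl | rfl)
      · exact hi' _ b0
      · exact hi' _ b1
      · exact hi' _ b2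
      · exact hi' _ b3
  have hspan : ∀ K : Submodule F (ι → F),
      (∀ a, (∃ i, ∀ k, k ≠ i → QuadraticMap.polar ⇑Q (e k) a = 0) → a ∈ K) → ∀ x, x ∈ K := by
    intro K hK x
    rw [oPr_decomp (Q := Q) e f x]
    refine K.add_mem (K.add_mem
      (K.sum_mem fun i _ => K.smul_mem _ (hK _ ⟨i, fun k _ => hf.ee k i⟩))
      (K.sum_mem fun i _ => K.smul_mem _ (hK _ ⟨i, fun k hk => hf.ef_ne hk⟩))) ?_
    rw [oPr_single]
    exact K.sum_mem fun j _ => K.smul_mem _ (hK _ ⟨0, fun k _ => oPr_perp_e hf _ k⟩)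
  have hall1 : ∀ a, (∃ i, ∀ k, k ≠ i → QuadraticMap.polar ⇑Q (e k) a = 0) →
      ∀ y, oW Q a y ∈ P := by
    intro a ha
    exact hspan
      { carrier := {y | oW Q a y ∈ P}
        add_mem' := fun {y y'} hy hy' => by
          show oW Q a (y + y') ∈ P
          rw [oW_add_right]
          exact P.add_mem hy hy'
        zero_mem' := by
          show oW Q a 0 ∈ P
          rw [oW_zero_right]
          exact P.zero_mem
        smul_mem' := fun c y hy => by
          show oW Q a (c • y) ∈ P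
          rw [oW_smul_right]
          exact P.smul_mem c hy }
      (fun b hb => hgen a b ha hb)
  have hall : ∀ x y, oW Q x y ∈ P := by
    intro x y
    exact hspan
      { carrier := {x | oW Q x y ∈ P}
        add_mem' := fun {x x'} hx hx' => by
          show oW Q (x + x') y ∈ P
          rw [oW_add_left]
          exact P.add_mem hx hx'
        zero_mem' := by
          show oW Q 0 y ∈ P
          rw [oW_zero_left]
          exact P.zero_mem
        smul_mem' := fun c x hx => by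
          show oW Q (c • x) y ∈ P
          rw [oW_smul_left]
          exact P.smul_mem c hx }
      (fun a ha => hall1 a ha y) x
  intro m' hm'
  obtain ⟨k, hk⟩ := hc.lift hm'
  have hkM : (k : GL ι F) ∈ M := by
    rw [hk]
    exact hm'
  have hY : oW Q (mv ⇑Q k (e 0)) (mv ⇑Q k (e 1)) = ((k : GL ι F) : Matrix ι ι F)
      * oW Q (e 0) (e 1) * (((k : GL ι F)⁻¹ : GL ι F) : Matrix ι ι F) :=
    (oW_conj Q k (e 0) (e 1)).symm
  have hrat1 : oW Q (e 0) (e 1) ∈ SG.ratMat F₀ ι := oW_rat Q hc.rq (hf.re 0) (hf.re 1)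
  have h01P : oW Q (e 0) (e 1) ∈ SG.sfP F₀ M i₀ := by
    have := (hP _).mp (hall (e 0) (e 1)) 1
    rwa [one_smul] at this
  have hYP : oW Q (mv ⇑Q k (e 0)) (mv ⇑Q k (e 1)) ∈ SG.sfP F₀ M i₀ := by
    have := (hP _).mp (hall (mv ⇑Q k (e 0)) (mv ⇑Q k (e 1))) 1
    rwa [one_smul] at this
  have hEY : SG.sfE F₀ M i₀ (oW Q (mv ⇑Q k (e 0)) (mv ⇑Q k (e 1)))
      = oW Q (mv ⇑Q k (e 0)) (mv ⇑Q k (e 1)) := by
    rw [hY, SG.sfE_conj i₀ hkM, SG.mem_sfP.mp h01P, SG.sfPi_rat hrat1]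
  have hYrat : oW Q (mv ⇑Q k (e 0)) (mv ⇑Q k (e 1)) ∈ SG.ratMat F₀ ι :=
    SG.mem_ratMat_of_sfPi_eq (by rw [← SG.mem_sfP.mp hYP]; exact hEY)
  have hind : ∀ c : F, e 1 ≠ c • e 0 := by
    intro c h
    have h1 := congrArg (QuadraticMap.polar ⇑Q (f 1)) h
    rw [hf.fe_self, QuadraticMap.polar_smul_right, hf.fe_ne (by decide), smul_zero] at h1
    exact one_ne_zero h1
  have := oCL hc hr k hkM (hf.re 0) (hf.re 1) (hf.Qe 0) (hf.Qe 1) (hf.ee 0 1) hind
    (hf.e_ne_zero 0) hYrat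
  rwa [hk] at this

end OSF4

end Cfsg.Agent.Helper94
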