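import Mathlib
import Cfsg.Prelude.Def_GeometricClasses
import Cfsg.Agent.Helper94.OSF3
import Cfsg.Agent.Helper97.SFStep1
import Cfsg.Agent.Helper97.GSubfield
import Cfsg.Agent.Helper98.OPar

/-!
Overgroups `M` of the subfield subgroup of `Ω(Q)` containing a non-rational Eichler transformation
with rational centre: such an `M` contains `Ω(Q)` (subfield of prime degree).
-/

set_option autoImplicit false
set_option linter.unusedSectionVars false
set_option linter.unusedVariables false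
set_option linter.unusedSimpArgs false
set_option linter.style.haveILetI false

universe u

namespace Cfsg.Agent.Helper94

open Matrix Cfsg Cfsg.Geo Cfsg.Agent.Helper45 Cfsg.Agent.Helper97

section OSF5

variable {ι : Type} [Fintype ι] [DecidableEq ι] {F : Type u} [Field F] [Fintype F]
  {F₀ : Subfield F} {Q : QuadraticForm F (ι → F)} {M : Subgroup (GL ι F)}

/-- The second vectors of the root elements of `M` with singular centre `u`. -/
def oA (Q : QuadraticForm F (ι → F)) (M : Subgroup (GL ι F)) (u : ι → F) (hu : Q u = 0) :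
    AddSubgroup (ι → F) where
  carrier := {b | QuadraticMap.polar ⇑Q u b = 0 ∧
    ((oE Q u b : ↥(isometryGroup F ⇑Q)) : GL ι F) ∈ M}
  add_mem' := by
    rintro a b ⟨h1, m1⟩ ⟨h2, m2⟩
    refine ⟨by rw [QuadraticMap.polar_add_right, h1, h2, add_zero], ?_⟩
    rw [← oE_mul Q u a b hu h1 h2]
    exact M.mul_mem m1 m2
  zero_mem' := by
    refine ⟨QuadraticMap.polar_zero_right _ _, ?_⟩
    rw [oE_zero Q u hu]
    exact M.one_mem
  neg_mem' := by
    rintro b ⟨h1, m1⟩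
    refine ⟨by rw [QuadraticMap.polar_neg_right, h1, neg_zero], ?_⟩
    rw [← oE_inv Q u b hu h1]
    exact M.inv_mem m1

theorem mem_oA {u : ι → F} (hu : Q u = 0) {b : ι → F} :
    b ∈ oA Q M u hu ↔ QuadraticMap.polar ⇑Q u b = 0 ∧
      ((oE Q u b : ↥(isometryGroup F ⇑Q)) : GL ι F) ∈ M := Iff.rfl

theorem oA_rat (hc : OCtx Q F₀ M) {u b : ι → F} (hu : Q u = 0) (hur : oRat F₀ u)
    (hb : oRat F₀ b) (hub : QuadraticMap.polar ⇑Q u b = 0) : b ∈ oA Q M u hu :=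
  (mem_oA hu).mpr ⟨hub, hc.oE_mem hur hb hu hub⟩

theorem oA_self {u : ι → F} (hu : Q u = 0) (c : F) : c • u ∈ oA Q M u hu := by
  have h0 : QuadraticMap.polar ⇑Q u (0 : ι → F) = 0 := QuadraticMap.polar_zero_right _ _
  refine (mem_oA hu).mpr
    ⟨by rw [QuadraticMap.polar_smul_right, polar_self_zero Q u hu, smul_zero], ?_⟩
  have h1 := oE_add_smul Q u 0 c hu h0
  rw [zero_add] at h1
  rw [h1, oE_zero Q u hu]
  exact M.one_mem

theorem oA_diff {u : ι → F} (hu : Q u = 0) (g : ↥(isometryGroup F ⇑Q)) (hg : (g : GL ι F) ∈ M)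
    (hgu : mv ⇑Q g u = u) {b : ι → F} (hb : b ∈ oA Q M u hu) :
    mv ⇑Q g b - b ∈ oA Q M u hu := by
  obtain ⟨h1, h2⟩ := (mem_oA hu).mp hb
  refine (mem_oA hu).mpr ⟨?_, oE_diff Q g hg u b hu h1 hgu h2⟩
  have h3 := mv_polar Q g u b
  rw [hgu] at h3
  rw [QuadraticMap.polar_sub_right, h3, h1, sub_zero]

/-- Two conjugations by rational root elements extract a coordinate of `b₀`. -/
theorem o1_S2 (hc : OCtx Q F₀ M) {e f : Fin 6 → ι → F} (hf : OFr Q F₀ e f) {b₀ : ι → F}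
    (hb₀ : b₀ ∈ oA Q M (e 0) (hf.Qe 0)) {z : ι → F} (hz : oRat F₀ z) (hQz : Q z = 0)
    (hz0 : QuadraticMap.polar ⇑Q z (e 0) = 0) {k l : Fin 6} (hk0 : k ≠ 0) (hl0 : l ≠ 0)
    (hkl : k ≠ l) (hzk : QuadraticMap.polar ⇑Q z (e k) = 0)
    (hzfk : QuadraticMap.polar ⇑Q z (f k) = 0) (hzfl : QuadraticMap.polar ⇑Q z (f l) = 0) :
    (-(QuadraticMap.polar ⇑Q z b₀)) • f l ∈ oA Q M (e 0) (hf.Qe 0) := by
  have hg₁ := hc.oE_mem hz (hf.re k) hQz hzk
  have fix₁ : mv ⇑Q (oE Q z (e k)) (e 0) = e 0 := by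
    rw [mv_oE Q z (e k) hQz hzk, hf.ee k 0, hz0]
    simp
  have h₁ := oA_diff (hf.Qe 0) (oE Q z (e k)) hg₁ fix₁ hb₀
  rw [mv_oE Q z (e k) hQz hzk, hf.Qe k] at h₁
  obtain ⟨μ, hμ⟩ : ∃ μ, μ = QuadraticMap.polar ⇑Q z b₀ := ⟨_, rfl⟩
  obtain ⟨z₁, hz₁⟩ : ∃ z₁, z₁ = QuadraticMap.polar ⇑Q (e k) b₀ • z - μ • e k := ⟨_, rfl⟩
  have e₁ : b₀ + (QuadraticMap.polar ⇑Q (e k) b₀ - 0 * QuadraticMap.polar ⇑Q z b₀) • z
      - QuadraticMap.polar ⇑Q z b₀ • e k - b₀ = z₁ := by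
    rw [hz₁, hμ]
    module
  rw [e₁] at h₁
  have hg₂ := hc.oE_mem (hf.rf l) (hf.rf k) (hf.Qf l) (hf.ff l k)
  have fix₂ : mv ⇑Q (oE Q (f l) (f k)) (e 0) = e 0 := by
    rw [mv_oE Q (f l) (f k) (hf.Qf l) (hf.ff l k), hf.fe_ne hk0, hf.fe_ne hl0]
    simp
  have h₂ := oA_diff (hf.Qe 0) (oE Q (f l) (f k)) hg₂ fix₂ h₁
  rw [mv_oE Q (f l) (f k) (hf.Qf l) (hf.ff l k), hf.Qf k] at h₂
  have p1 : QuadraticMap.polar ⇑Q (f l) z₁ = 0 := by
    rw [hz₁, QuadraticMap.polar_sub_right, QuadraticMap.polar_smul_right,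
      QuadraticMap.polar_smul_right, QuadraticMap.polar_comm ⇑Q (f l) z, hzfl,
      hf.fe_ne (Ne.symm hkl)]
    simp
  have p2 : QuadraticMap.polar ⇑Q (f k) z₁ = -μ := by
    rw [hz₁, QuadraticMap.polar_sub_right, QuadraticMap.polar_smul_right,
      QuadraticMap.polar_smul_right, QuadraticMap.polar_comm ⇑Q (f k) z, hzfk, hf.fe_self]
    simp
  rw [p1, p2] at h₂
  have e₂ : z₁ + (-μ - 0 * 0) • f l - (0 : F) • f k - z₁ = (-μ) • f l := by module
  rw [e₂, hμ] at h₂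
  exact h₂

/-- A non-rational root element with rational centre `e 0` yields a non-rational root element
`x_{0l}(θ)` of the frame. -/
theorem o1_exists (hc : OCtx Q F₀ M) {e f : Fin 6 → ι → F} (hf : OFr Q F₀ e f) {b₀ : ι → F}
    (hb₀ : b₀ ∈ oA Q M (e 0) (hf.Qe 0)) (hnr : ∀ c : F, ¬oRat F₀ (b₀ - c • e 0)) :
    ∃ l : Fin 6, l ≠ 0 ∧ ∃ θ : F, θ ∉ F₀ ∧ θ • f l ∈ oA Q M (e 0) (hf.Qe 0) := by
  by_contra hcon
  have hall : ∀ l : Fin 6, l ≠ 0 → ∀ θ : F, θ • f l ∈ oA Q M (e 0) (hf.Qe 0) → θ ∈ F₀ := by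
    intro l hl θ hθ
    by_contra hθF
    exact hcon ⟨l, hl, θ, hθF, hθ⟩
  have hz : ∀ z, oRat F₀ z → Q z = 0 → QuadraticMap.polar ⇑Q z (e 0) = 0 → ∀ k l : Fin 6,
      k ≠ 0 → l ≠ 0 → k ≠ l → QuadraticMap.polar ⇑Q z (e k) = 0 →
      QuadraticMap.polar ⇑Q z (f k) = 0 → QuadraticMap.polar ⇑Q z (f l) = 0 →
      QuadraticMap.polar ⇑Q z b₀ ∈ F₀ := by
    intro z hzr hQz hz0 k l hk0 hl0 hkl hzk hzfk hzfl
    have h1 := hall l hl0 _ (o1_S2 hc hf hb₀ hzr hQz hz0 hk0 hl0 hkl hzk hzfk hzfl)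
    have h2 := neg_mem h1
    rwa [neg_neg] at h2
  have ha : ∀ i, i ≠ 0 → QuadraticMap.polar ⇑Q (e i) b₀ ∈ F₀ := by
    intro i hi0
    by_cases hi : i = 1 ∨ i = 2
    · have h3 : i ≠ 3 := by rcases hi with h | h <;> (rw [h]; decide)
      have h4 : i ≠ 4 := by rcases hi with h | h <;> (rw [h]; decide)
      exact hz (e i) (hf.re i) (hf.Qe i) (hf.ee i 0) 3 4 (by decide) (by decide) (by decide)
        (hf.ee i 3) (hf.ef_ne h3) (hf.ef_ne h4)
    · push Not at hi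
      exact hz (e i) (hf.re i) (hf.Qe i) (hf.ee i 0) 1 2 (by decide) (by decide) (by decide)
        (hf.ee i 1) (hf.ef_ne hi.1) (hf.ef_ne hi.2)
  have hb : ∀ i, i ≠ 0 → QuadraticMap.polar ⇑Q (f i) b₀ ∈ F₀ := by
    intro i hi0
    by_cases hi : i = 1
    · exact hz (f i) (hf.rf i) (hf.Qf i) (hf.fe_ne hi0) 2 3 (by decide) (by decide) (by decide)
        (hf.fe_ne (by rw [hi]; decide)) (hf.ff i 2) (hf.ff i 3)
    · exact hz (f i) (hf.rf i) (hf.Qf i) (hf.fe_ne hi0) 1 2 (by decide) (by decide) (by decide)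
        (hf.fe_ne hi) (hf.ff i 1) (hf.ff i 2)
  have hd : ∀ d, oRat F₀ d → (∀ i, QuadraticMap.polar ⇑Q (e i) d = 0) →
      (∀ i, QuadraticMap.polar ⇑Q (f i) d = 0) → QuadraticMap.polar ⇑Q d b₀ ∈ F₀ := by
    intro d hdr hde hdf
    have hde' : ∀ i, QuadraticMap.polar ⇑Q d (e i) = 0 := fun i => by
      rw [QuadraticMap.polar_comm]
      exact hde i
    have hdf' : ∀ i, QuadraticMap.polar ⇑Q d (f i) = 0 := fun i => by
      rw [QuadraticMap.polar_comm]
      exact hdf i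
    obtain ⟨u, hu⟩ : ∃ u, u = d + ((-Q d) • e 1 + f 1) := ⟨_, rfl⟩
    have hur : oRat F₀ u := by
      rw [hu]
      exact oRat_add hdr (oRat_add (oRat_smul (neg_mem (hc.rq d hdr)) (hf.re 1)) (hf.rf 1))
    have hQu : Q u = 0 := by
      rw [hu, QuadraticMap.map_add ⇑Q, QuadraticMap.map_add ⇑Q ((-Q d) • e 1),
        QuadraticMap.map_smul, hf.Qe, hf.Qf, QuadraticMap.polar_add_right,
        QuadraticMap.polar_smul_right, QuadraticMap.polar_smul_left, hde', hdf', hf.ef_self]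
      simp
    have que : ∀ l, l ≠ 1 → QuadraticMap.polar ⇑Q u (e l) = 0 := by
      intro l hl
      rw [hu, QuadraticMap.polar_add_left, QuadraticMap.polar_add_left,
        QuadraticMap.polar_smul_left, hde', hf.ee, hf.fe_ne (Ne.symm hl)]
      simp
    have quf : ∀ l, l ≠ 1 → QuadraticMap.polar ⇑Q u (f l) = 0 := by
      intro l hl
      rw [hu, QuadraticMap.polar_add_left, QuadraticMap.polar_add_left,
        QuadraticMap.polar_smul_left, hdf', hf.ff, hf.ef_ne (Ne.symm hl)]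
      simp
    have key := hz u hur hQu (que 0 (by decide)) 2 3 (by decide) (by decide) (by decide)
      (que 2 (by decide)) (quf 2 (by decide)) (quf 3 (by decide))
    rw [hu, QuadraticMap.polar_add_left, QuadraticMap.polar_add_left,
      QuadraticMap.polar_smul_left, smul_eq_mul] at key
    have h2 := sub_mem key (add_mem (mul_mem (neg_mem (hc.rq d hdr)) (ha 1 (by decide)))
      (hb 1 (by decide)))
    rwa [add_sub_cancel_right] at h2
  apply hnr (QuadraticMap.polar ⇑Q (f 0) b₀)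
  apply oRat_of_forall_polar hc.rq hc.nd
  intro c hcr
  have he1 : ∀ i, QuadraticMap.polar ⇑Q (e i) (b₀ - QuadraticMap.polar ⇑Q (f 0) b₀ • e 0)
      ∈ F₀ := by
    intro i
    rw [QuadraticMap.polar_sub_right, QuadraticMap.polar_smul_right, hf.ee, smul_zero, sub_zero]
    by_cases hi : i = 0
    · rw [hi, ((mem_oA (hf.Qe 0)).mp hb₀).1]
      exact zero_mem _
    · exact ha i hi
  have hf1 : ∀ i, QuadraticMap.polar ⇑Q (f i) (b₀ - QuadraticMap.polar ⇑Q (f 0) b₀ • e 0)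
      ∈ F₀ := by
    intro i
    rw [QuadraticMap.polar_sub_right, QuadraticMap.polar_smul_right]
    by_cases hi : i = 0
    · rw [hi, hf.fe_self, smul_eq_mul, mul_one, sub_self]
      exact zero_mem _
    · rw [hf.fe_ne hi, smul_zero, sub_zero]
      exact hb i hi
  have hd1 : QuadraticMap.polar ⇑Q (oPr Q e f c)
      (b₀ - QuadraticMap.polar ⇑Q (f 0) b₀ • e 0) ∈ F₀ := by
    rw [QuadraticMap.polar_sub_right, QuadraticMap.polar_smul_right,
      QuadraticMap.polar_comm ⇑Q _ (e 0), oPr_perp_e hf c 0, smul_zero, sub_zero]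
    exact hd _ (oPr_rat hc.rq hf hcr) (fun i => oPr_perp_e hf c i) (fun i => oPr_perp_f hf c i)
  have hdec := oPr_decomp (Q := Q) e f c
  rw [hdec, QuadraticMap.polar_add_left, QuadraticMap.polar_add_left, polar_sum_left',
    polar_sum_left']
  simp only [QuadraticMap.polar_smul_left, smul_eq_mul]
  exact add_mem (add_mem (sum_mem fun i _ => mul_mem (hc.rq.polar (hf.rf i) hcr) (he1 i))
    (sum_mem fun i _ => mul_mem (hc.rq.polar (hf.re i) hcr) (hf1 i))) hd1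

/-- The commutator relation `[x_{ij}(a), x_{jk}(b)] = x_{ik}(ab)` for the root elements of a
frame. -/
theorem o1_OD {e f : Fin 6 → ι → F} (hf : OFr Q F₀ e f) {i j k : Fin 6} (hij : i ≠ j)
    (hjk : j ≠ k) (hik : i ≠ k) {a b : F} (ha : a • f j ∈ oA Q M (e i) (hf.Qe i))
    (hb : b • f k ∈ oA Q M (e j) (hf.Qe j)) : (a * b) • f k ∈ oA Q M (e i) (hf.Qe i) := by
  obtain ⟨hb1, hb2⟩ := (mem_oA (hf.Qe j)).mp hb
  have fix : mv ⇑Q (oE Q (e j) (b • f k)) (e i) = e i := by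
    rw [mv_oE Q (e j) (b • f k) (hf.Qe j) hb1, QuadraticMap.polar_smul_left,
      hf.fe_ne (Ne.symm hik), hf.ee]
    simp
  have h := oA_diff (hf.Qe i) (oE Q (e j) (b • f k)) hb2 fix ha
  rw [mv_oE Q (e j) (b • f k) (hf.Qe j) hb1] at h
  have e1 : a • f j + (QuadraticMap.polar ⇑Q (b • f k) (a • f j)
      - Q (b • f k) * QuadraticMap.polar ⇑Q (e j) (a • f j)) • e j
      - QuadraticMap.polar ⇑Q (e j) (a • f j) • (b • f k) - a • f j = -((a * b) • f k) := by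
    rw [QuadraticMap.polar_smul_left, QuadraticMap.polar_smul_right, hf.ff,
      QuadraticMap.polar_smul_right, hf.ef_self, QuadraticMap.map_smul, hf.Qf]
    simp only [smul_eq_mul, mul_zero, mul_one, sub_zero, zero_smul, zero_mul]
    module
  rw [e1] at h
  have h2 := (oA Q M (e i) (hf.Qe i)).neg_mem h
  rwa [neg_neg] at h2

/-- A non-rational root element `x_{01}(θ₀)` in `M` makes the root group at `e 0` full. -/
theorem o1_full (hc : OCtx Q F₀ M) (r : ℕ) (hr : r.Prime)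
    (hcard : Fintype.card F = Nat.card F₀ ^ r) {e f : Fin 6 → ι → F} (hf : OFr Q F₀ e f)
    {θ₀ : F} (hθ₀ : θ₀ ∉ F₀) (hθ₀M : θ₀ • f 1 ∈ oA Q M (e 0) (hf.Qe 0)) :
    ∀ b, QuadraticMap.polar ⇑Q (e 0) b = 0 → b ∈ oA Q M (e 0) (hf.Qe 0) := by
  have hrat : ∀ i j : Fin 6, i ≠ j → ∀ c : F, c ∈ F₀ → c • f j ∈ oA Q M (e i) (hf.Qe i) :=
    fun i j hij c hc' => oA_rat hc (hf.Qe i) (hf.re i) (oRat_smul hc' (hf.rf j))
      (by rw [QuadraticMap.polar_smul_right, hf.ef_ne hij, smul_zero])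
  have hmul : ∀ a b : F, a • f 1 ∈ oA Q M (e 0) (hf.Qe 0) → b • f 1 ∈ oA Q M (e 0) (hf.Qe 0) →
      (a * b) • f 1 ∈ oA Q M (e 0) (hf.Qe 0) := by
    intro a b ha hb
    have h02 : a • f 2 ∈ oA Q M (e 0) (hf.Qe 0) := by
      have h := o1_OD hf (i := 0) (j := 1) (k := 2) (by decide) (by decide) (by decide) ha
        (hrat 1 2 (by decide) 1 (one_mem _))
      rwa [mul_one] at h
    have h21 : b • f 1 ∈ oA Q M (e 2) (hf.Qe 2) := by
      have h := o1_OD hf (i := 2) (j := 0) (k := 1) (by decide) (by decide) (by decide)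
        (hrat 2 0 (by decide) 1 (one_mem _)) hb
      rwa [one_mul] at h
    exact o1_OD hf (i := 0) (j := 2) (k := 1) (by decide) (by decide) (by decide) h02 h21
  obtain ⟨L, hL⟩ : ∃ L : Subalgebra F₀ F, ∀ θ, θ ∈ L ↔ θ • f 1 ∈ oA Q M (e 0) (hf.Qe 0) :=
    ⟨{ carrier := {θ | θ • f 1 ∈ oA Q M (e 0) (hf.Qe 0)}
       mul_mem' := fun {a b} ha hb => hmul a b ha hb
       add_mem' := fun {a b} ha hb => by
        show (a + b) • f 1 ∈ oA Q M (e 0) (hf.Qe 0)
        rw [add_smul]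
        exact add_mem ha hb
       algebraMap_mem' := fun c => hrat 0 1 (by decide) _ c.2 }, fun θ => Iff.rfl⟩
  have hfr : (Module.finrank F₀ F).Prime := by
    rw [SF.sf_finrank F₀ r hcard]
    exact hr
  haveI := Subalgebra.isSimpleOrder_of_finrank_prime F₀ F hfr
  have hLtop : L = ⊤ := by
    rcases eq_bot_or_eq_top L with h | h
    · exfalso
      have h1 : θ₀ ∈ L := (hL θ₀).mpr hθ₀M
      rw [h, Algebra.mem_bot] at h1
      obtain ⟨c, hc'⟩ := h1
      exact hθ₀ (by rw [← hc']; exact c.2)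
    · exact h
  have hΘ : ∀ θ : F, θ • f 1 ∈ oA Q M (e 0) (hf.Qe 0) := fun θ =>
    (hL θ).mp (by rw [hLtop]; exact Algebra.mem_top)
  have hFj : ∀ j, j ≠ 0 → ∀ θ : F, θ • f j ∈ oA Q M (e 0) (hf.Qe 0) := by
    intro j hj θ
    by_cases hj1 : j = 1
    · rw [hj1]
      exact hΘ θ
    · have h := o1_OD hf (i := 0) (j := 1) (k := j) (by decide) (Ne.symm hj1) (Ne.symm hj) (hΘ θ)
        (hrat 1 j (Ne.symm hj1) 1 (one_mem _))
      rwa [mul_one] at h
  have hEj : ∀ j, j ≠ 0 → ∀ θ : F, θ • e j ∈ oA Q M (e 0) (hf.Qe 0) := by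
    intro j hj θ
    obtain ⟨k, hk0, hkj⟩ : ∃ k : Fin 6, k ≠ 0 ∧ k ≠ j := by
      by_cases hj1 : j = 1
      · exact ⟨2, by decide, by rw [hj1]; decide⟩
      · exact ⟨1, by decide, Ne.symm hj1⟩
    have hg := hc.oE_mem (hf.re j) (hf.re k) (hf.Qe j) (hf.ee j k)
    have fix : mv ⇑Q (oE Q (e j) (e k)) (e 0) = e 0 := by
      rw [mv_oE Q (e j) (e k) (hf.Qe j) (hf.ee j k), hf.ee, hf.ee]
      simp
    have h := oA_diff (hf.Qe 0) (oE Q (e j) (e k)) hg fix (hFj k hk0 θ)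
    rw [mv_oE Q (e j) (e k) (hf.Qe j) (hf.ee j k), hf.Qe k, QuadraticMap.polar_smul_right,
      QuadraticMap.polar_smul_right, hf.ef_self, hf.ef_ne (Ne.symm hkj)] at h
    have e1 : θ • f k + (θ • (1 : F) - 0 * θ • (0 : F)) • e j - (θ • (0 : F)) • e k - θ • f k
        = θ • e j := by
      simp only [smul_eq_mul, mul_one, mul_zero, sub_zero, zero_smul]
      abel
    rwa [e1] at h
  have hD : ∀ d, oRat F₀ d → (∀ i, QuadraticMap.polar ⇑Q (e i) d = 0) →
      (∀ i, QuadraticMap.polar ⇑Q (f i) d = 0) → ∀ θ : F, θ • d ∈ oA Q M (e 0) (hf.Qe 0) := by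
    intro d hdr hde hdf θ
    have hg := hc.oE_mem (hf.re 1) hdr (hf.Qe 1) (hde 1)
    have fix : mv ⇑Q (oE Q (e 1) d) (e 0) = e 0 := by
      rw [mv_oE Q (e 1) d (hf.Qe 1) (hde 1), QuadraticMap.polar_comm ⇑Q d (e 0), hde 0, hf.ee]
      simp
    have h := oA_diff (hf.Qe 0) (oE Q (e 1) d) hg fix (hΘ (-θ))
    rw [mv_oE Q (e 1) d (hf.Qe 1) (hde 1), QuadraticMap.polar_smul_right,
      QuadraticMap.polar_smul_right, hf.ef_self, QuadraticMap.polar_comm ⇑Q d (f 1), hdf 1] at h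
    have h2 := add_mem h (hEj 1 (by decide) (-(Q d * θ)))
    have e1 : -θ • f 1 + (-θ • (0 : F) - Q d * -θ • (1 : F)) • e 1 - (-θ • (1 : F)) • d
        - -θ • f 1 + -(Q d * θ) • e 1 = θ • d := by
      simp only [smul_eq_mul, mul_one, mul_zero, zero_sub, mul_neg, neg_neg]
      module
    rwa [e1] at h2
  intro b hb
  have hdec := oPr_decomp (Q := Q) e f b
  rw [hdec]
  refine add_mem (add_mem (sum_mem fun i _ => ?_) (sum_mem fun i _ => ?_)) ?_
  · by_cases hi : i = 0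
    · rw [hi]
      exact oA_self (hf.Qe 0) _
    · exact hEj i hi _
  · by_cases hi : i = 0
    · rw [hi, hb, zero_smul]
      exact zero_mem _
    · exact hFj i hi _
  · rw [oPr_single]
    exact sum_mem fun j _ => hD _ (oPr_rat hc.rq hf (oRat_single j))
      (fun i => oPr_perp_e hf _ i) (fun i => oPr_perp_f hf _ i) _

/-- A non-rational root element of `M` with rational centre `u` makes the root group at `u`
full. -/
theorem o1_centre (hc : OCtx Q F₀ M) (r : ℕ) (hr : r.Prime)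
    (hcard : Fintype.card F = Nat.card F₀ ^ r) {u : ι → F} (hur : oRat F₀ u) (hu0 : u ≠ 0)
    (hQu : Q u = 0) {b₀ : ι → F} (hb₀ : b₀ ∈ oA Q M u hQu)
    (hnr : ∀ c : F, ¬oRat F₀ (b₀ - c • u)) :
    ∀ b, QuadraticMap.polar ⇑Q u b = 0 → b ∈ oA Q M u hQu := by
  obtain ⟨e, f, hf, he0⟩ := exists_oFr_vec hc.rq hc.nd hc.card hur hu0 hQu
  subst he0
  obtain ⟨l, hl0, θ, hθ, hθM⟩ := o1_exists hc hf hb₀ hnr
  obtain ⟨σ, hσ⟩ : ∃ σ : Fin 6 ≃ Fin 6, σ = Equiv.swap 1 l := ⟨_, rfl⟩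
  have hσ0 : σ 0 = 0 := by
    rw [hσ]
    exact Equiv.swap_apply_of_ne_of_ne (by decide) (Ne.symm hl0)
  have hσ1 : σ 1 = l := by
    rw [hσ]
    exact Equiv.swap_apply_left 1 l
  have hf' := hf.reindex σ
  have hθM' : θ • (f ∘ σ) 1 ∈ oA Q M ((e ∘ σ) 0) (hf'.Qe 0) := by
    obtain ⟨h1, h2⟩ := (mem_oA _).mp hθM
    refine (mem_oA _).mpr ⟨?_, ?_⟩
    · rw [Function.comp_apply, Function.comp_apply, hσ0, hσ1]
      exact h1
    · rw [Function.comp_apply, Function.comp_apply, hσ0, hσ1]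
      exact h2
  have key := o1_full hc r hr hcard hf' hθ hθM'
  intro b hb
  obtain ⟨h1, h2⟩ := (mem_oA _).mp (key b (by rw [Function.comp_apply, hσ0]; exact hb))
  rw [Function.comp_apply, hσ0] at h1 h2
  exact (mem_oA _).mpr ⟨h1, h2⟩

/-- Step 1: an overgroup of the subfield group inside `Ω(Q)` containing a non-rational Eichler
transformation with rational centre contains `Ω(Q)`. -/
theorem o_step1 (hc : OCtx Q F₀ M) (r : ℕ) (hr : r.Prime)
    (hcard : Fintype.card F = Nat.card F₀ ^ r) (hnr : ¬ORatRoot Q F₀ M) : omegaGL ⇑Q ≤ M := by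
  unfold ORatRoot at hnr
  push Not at hnr
  obtain ⟨u, b₀, hur, hu0, hQu, hub₀, hM₀, hnr'⟩ := hnr
  have full₁ := o1_centre hc r hr hcard hur hu0 hQu (b₀ := b₀) ((mem_oA hQu).mpr ⟨hub₀, hM₀⟩)
    hnr'
  obtain ⟨e, f, hf, he0⟩ := exists_oFr_vec hc.rq hc.nd hc.card hur hu0 hQu
  subst he0
  obtain ⟨θ, hθ⟩ : ∃ θ : F, θ ∉ F₀ := by
    by_contra hcon
    push Not at hcon
    exact Gen.subfield_ne_top_of_card F₀ r hr hcard (eq_top_iff.mpr fun x _ => hcon x)
  have h1 : (θ • -e 0) ∈ oA Q M (f 1) (hf.Qf 1) := by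
    refine (mem_oA _).mpr ⟨by rw [QuadraticMap.polar_smul_right, QuadraticMap.polar_neg_right,
      hf.fe_ne (by decide), neg_zero, smul_zero], ?_⟩
    have hm := ((mem_oA _).mp (full₁ (θ • f 1)
      (by rw [QuadraticMap.polar_smul_right, hf.ef_ne (by decide), smul_zero]))).2
    rw [oE_swap Q (e 0) (θ • f 1) (hf.Qe 0) (by rw [QuadraticMap.map_smul, hf.Qf, smul_zero])
        (by rw [QuadraticMap.polar_smul_right, hf.ef_ne (by decide), smul_zero]),
      oE_smul Q θ (f 1) (-e 0) (hf.Qf 1)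
        (by rw [QuadraticMap.polar_neg_right, hf.fe_ne (by decide), neg_zero])] at hm
    exact hm
  have full₂ := o1_centre hc r hr hcard (hf.rf 1) (hf.f_ne_zero 1) (hf.Qf 1) h1 (by
    intro c hcr
    have h3 := hc.rq.polar (hf.rf 0) hcr
    rw [QuadraticMap.polar_sub_right, QuadraticMap.polar_smul_right,
      QuadraticMap.polar_smul_right, QuadraticMap.polar_neg_right, hf.fe_self, hf.ff, smul_zero,
      sub_zero, smul_eq_mul, mul_neg, mul_one] at h3
    exact hθ (by have h4 := neg_mem h3; rwa [neg_neg] at h4))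
  have h2 : (θ • -f 1) ∈ oA Q M (f 0) (hf.Qf 0) := by
    refine (mem_oA _).mpr ⟨by rw [QuadraticMap.polar_smul_right, QuadraticMap.polar_neg_right,
      hf.ff, neg_zero, smul_zero], ?_⟩
    have hm := ((mem_oA _).mp (full₂ (θ • f 0)
      (by rw [QuadraticMap.polar_smul_right, hf.ff, smul_zero]))).2
    rw [oE_swap Q (f 1) (θ • f 0) (hf.Qf 1) (by rw [QuadraticMap.map_smul, hf.Qf, smul_zero])
        (by rw [QuadraticMap.polar_smul_right, hf.ff, smul_zero]),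
      oE_smul Q θ (f 0) (-f 1) (hf.Qf 0)
        (by rw [QuadraticMap.polar_neg_right, hf.ff, neg_zero])] at hm
    exact hm
  have full₃ := o1_centre hc r hr hcard (hf.rf 0) (hf.f_ne_zero 0) (hf.Qf 0) h2 (by
    intro c hcr
    have h3 := hc.rq.polar (hf.re 1) hcr
    rw [QuadraticMap.polar_sub_right, QuadraticMap.polar_smul_right,
      QuadraticMap.polar_smul_right, QuadraticMap.polar_neg_right, hf.ef_self,
      hf.ef_ne (by decide), smul_zero, sub_zero, smul_eq_mul, mul_neg, mul_one] at h3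
    exact hθ (by have h4 := neg_mem h3; rwa [neg_neg] at h4))
  have hC1 : e 0 ∈ Helper98.op_C Q (M.comap (isometryGroup F ⇑Q).subtype) :=
    ⟨hf.Qe 0, fun b hub => by
      rw [← oE_eq Q (e 0) b (hf.Qe 0) hub]
      exact ((mem_oA _).mp (full₁ b hub)).2⟩
  have hC2 : f 0 ∈ Helper98.op_C Q (M.comap (isometryGroup F ⇑Q).subtype) :=
    ⟨hf.Qf 0, fun b hub => by
      rw [← oE_eq Q (f 0) b (hf.Qf 0) hub]
      exact ((mem_oA _).mp (full₃ b hub)).2⟩
  have hle := Helper98.op_omega_le Q hc.nd hc.five _ (e 0) (f 0) hC1 hC2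
    (by rw [hf.ef_self]; exact one_ne_zero)
  exact Subgroup.map_le_iff_le_comap.mpr hle

end OSF5

end Cfsg.Agent.Helper94
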