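import Mathlib
import Cfsg.Prelude.Def_GeometricClasses
import Cfsg.Agent.Helper94.OSF4
import Cfsg.Agent.Helper94.OSF5
import Cfsg.Agent.Helper97.SFMax

/-!
Maximality of the subfield subgroups of `Ω(Q)` (subfield of prime degree, dimension at least 13,
non-degenerate polar form): first for the standard rational structure, then for any rational
structure of a scalar multiple of the form.
-/

set_option autoImplicit false
set_option linter.unusedSectionVars false
set_option linter.unusedVariables false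
set_option linter.unusedSimpArgs false

universe u

namespace Cfsg.Agent.Helper94

open Matrix Cfsg Cfsg.Geo Cfsg.Agent.Helper45 Cfsg.Agent.Helper97

section OSF6

variable {ι : Type} [Fintype ι] [DecidableEq ι] {F : Type u} [Field F] [Fintype F]
  {F₀ : Subfield F}

/-- Maximality of the subfield subgroup of `Ω(Q)` for a form rational on the standard rational
vectors. -/
theorem o_sub_max_one (Q : QuadraticForm F (ι → F))
    (hnd : (QuadraticMap.polarBilin Q).Nondegenerate) (hrq : ORatQ Q F₀)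
    (hn : 13 ≤ Fintype.card ι) (r : ℕ) (hr : r.Prime)
    (hcard : Fintype.card F = Nat.card F₀ ^ r) :
    IsMaximalIn (omegaGL ⇑Q) (subfieldSubgroup F₀ (1 : GL ι F) ⊓ omegaGL ⇑Q) := by
  constructor
  · refine lt_of_le_of_ne inf_le_right ?_
    intro heq
    obtain ⟨e, f, hf⟩ := exists_oFr hrq hnd hn
    obtain ⟨θ, hθ⟩ : ∃ θ : F, θ ∉ F₀ := by
      by_contra hcon
      push Not at hcon
      exact Gen.subfield_ne_top_of_card F₀ r hr hcard (eq_top_iff.mpr fun x _ => hcon x)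
    have hmem : ((oE Q (e 0) (θ • e 1) : ↥(isometryGroup F ⇑Q)) : GL ι F) ∈ omegaGL ⇑Q :=
      Subgroup.mem_map_of_mem _ (oE_mem_omega Q hnd (by omega) _ _)
    rw [← heq] at hmem
    obtain ⟨c, hc0, hcrat⟩ := (SG.mem_subfieldSubgroup_one F₀ _).mp hmem.1
    have hpe : QuadraticMap.polar ⇑Q (e 0) (θ • e 1) = 0 := by
      rw [QuadraticMap.polar_smul_right, hf.ee, smul_zero]
    have h2 := oRat_mulVec hcrat (hf.re 2)
    rw [Matrix.smul_mulVec] at h2
    have m2 : mv ⇑Q (oE Q (e 0) (θ • e 1)) (e 2) = e 2 := by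
      rw [mv_oE Q (e 0) (θ • e 1) (hf.Qe 0) hpe, QuadraticMap.polar_smul_left, hf.ee, hf.ee]
      simp
    rw [show (((oE Q (e 0) (θ • e 1) : ↥(isometryGroup F ⇑Q)) : GL ι F) : Matrix ι ι F) *ᵥ e 2
      = e 2 from m2] at h2
    have hcF : c ∈ F₀ := oRat_smul_cancel (hf.re 2) (hf.e_ne_zero 2) h2
    have h3 := oRat_mulVec hcrat (hf.rf 1)
    rw [Matrix.smul_mulVec] at h3
    have m3 : mv ⇑Q (oE Q (e 0) (θ • e 1)) (f 1) = f 1 + θ • e 0 := by
      rw [mv_oE Q (e 0) (θ • e 1) (hf.Qe 0) hpe, QuadraticMap.polar_smul_left, hf.ef_self,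
        hf.ef_ne (by decide), QuadraticMap.map_smul, hf.Qe]
      simp
    rw [show (((oE Q (e 0) (θ • e 1) : ↥(isometryGroup F ⇑Q)) : GL ι F) : Matrix ι ι F) *ᵥ f 1
      = f 1 + θ • e 0 from m3] at h3
    have h4 : oRat F₀ (θ • e 0) := by
      have h5 := oRat_sub (oRat_smul (inv_mem hcF) h3) (hf.rf 1)
      have e1 : c⁻¹ • c • (f 1 + θ • e 0) - f 1 = θ • e 0 := by
        rw [smul_smul, inv_mul_cancel₀ hc0, one_smul]
        abel
      rwa [e1] at h5
    exact hθ (oRat_smul_cancel (hf.re 0) (hf.e_ne_zero 0) h4)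
  · intro M hHM hMK
    have hc : OCtx Q F₀ M := ⟨hnd, hrq, hn, hHM, hMK⟩
    by_cases hrr : ORatRoot Q F₀ M
    · left
      exact le_antisymm (le_inf (o_step2 hc hrr) hMK) hHM
    · right
      exact le_antisymm hMK (o_step1 hc r hr hcard hrr)

/-- The form `v ↦ ζ Q(P v)` is again a non-degenerate quadratic form. -/
theorem o_qconj_nondeg (Q : (ι → F) → F) (hQ : IsNondegenerateQuadraticForm Q) (P : GL ι F)
    {ζ : F} (hζ : ζ ≠ 0) :
    IsNondegenerateQuadraticForm (fun v : ι → F => ζ * Q ((P : Matrix ι ι F) *ᵥ v)) := by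
  have hpol : ∀ u v : ι → F,
      QuadraticMap.polar (fun v : ι → F => ζ * Q ((P : Matrix ι ι F) *ᵥ v)) u v
        = ζ * QuadraticMap.polar Q ((P : Matrix ι ι F) *ᵥ u) ((P : Matrix ι ι F) *ᵥ v) := by
    intro u v
    show ζ * Q ((P : Matrix ι ι F) *ᵥ (u + v)) - ζ * Q ((P : Matrix ι ι F) *ᵥ u)
      - ζ * Q ((P : Matrix ι ι F) *ᵥ v) = ζ * (Q ((P : Matrix ι ι F) *ᵥ u
        + (P : Matrix ι ι F) *ᵥ v) - Q ((P : Matrix ι ι F) *ᵥ u) - Q ((P : Matrix ι ι F) *ᵥ v))
    rw [Matrix.mulVec_add]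
    ring
  refine ⟨?_, ⟨?_, ?_, ?_, ?_⟩, ?_⟩
  · intro c v
    show ζ * Q ((P : Matrix ι ι F) *ᵥ (c • v)) = c ^ 2 * (ζ * Q ((P : Matrix ι ι F) *ᵥ v))
    rw [Matrix.mulVec_smul, hQ.smul]
    ring
  · intro x y v
    rw [hpol, hpol, hpol, Matrix.mulVec_add, hQ.polar_bilinear.add_left]
    ring
  · intro c x v
    rw [hpol, hpol, Matrix.mulVec_smul, hQ.polar_bilinear.smul_left]
    ring
  · intro v x y
    rw [hpol, hpol, hpol, Matrix.mulVec_add, hQ.polar_bilinear.add_right]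
    ring
  · intro c v x
    rw [hpol, hpol, Matrix.mulVec_smul, hQ.polar_bilinear.smul_right]
    ring
  · intro v hv
    have hPv : (P : Matrix ι ι F) *ᵥ v ≠ 0 := by
      intro h
      apply hv
      have h1 := congrArg (fun w => ((P⁻¹ : GL ι F) : Matrix ι ι F) *ᵥ w) h
      simp only [Matrix.mulVec_mulVec, Units.inv_mul, Matrix.one_mulVec, Matrix.mulVec_zero] at h1
      exact h1
    obtain ⟨⟨x, hx⟩, ⟨y, hy⟩⟩ := hQ.nondegenerate _ hPv
    refine ⟨⟨((P⁻¹ : GL ι F) : Matrix ι ι F) *ᵥ x, ?_⟩,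
      ⟨((P⁻¹ : GL ι F) : Matrix ι ι F) *ᵥ y, ?_⟩⟩
    · rw [hpol, Matrix.mulVec_mulVec, Units.mul_inv, Matrix.one_mulVec]
      exact mul_ne_zero hζ hx
    · rw [hpol, Matrix.mulVec_mulVec, Units.mul_inv, Matrix.one_mulVec]
      exact mul_ne_zero hζ hy

/-- The isometry group of `v ↦ ζ Q(P v)` is the conjugate by `P⁻¹` of the isometry group of
`Q`. -/
theorem o_iso_conj (Q : (ι → F) → F) (P : GL ι F) {ζ : F} (hζ : ζ ≠ 0) :
    (isometryGroup F (fun v : ι → F => ζ * Q ((P : Matrix ι ι F) *ᵥ v))).map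
      (MulAut.conj P).toMonoidHom = isometryGroup F Q := by
  ext g
  constructor
  · rintro ⟨y, hy, rfl⟩
    have hy := (Helper45.mem_iso_iff _ y).mp hy
    rw [Helper45.mem_iso_iff]
    intro v
    have h1 := hy (((P⁻¹ : GL ι F) : Matrix ι ι F) *ᵥ v)
    have h2 : ζ * Q ((P : Matrix ι ι F) *ᵥ ((y : Matrix ι ι F)
        *ᵥ (((P⁻¹ : GL ι F) : Matrix ι ι F) *ᵥ v)))
        = ζ * Q ((P : Matrix ι ι F) *ᵥ (((P⁻¹ : GL ι F) : Matrix ι ι F) *ᵥ v)) := h1
    rw [Matrix.mulVec_mulVec (v) (P : Matrix ι ι F), Units.mul_inv, Matrix.one_mulVec] at h2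
    have h3 := mul_left_cancel₀ hζ h2
    rw [← h3]
    show Q ((((P * y * P⁻¹ : GL ι F)) : Matrix ι ι F) *ᵥ v) = _
    rw [Units.val_mul, Units.val_mul, ← Matrix.mulVec_mulVec, ← Matrix.mulVec_mulVec]
  · intro hg
    rw [Helper45.mem_iso_iff] at hg
    refine ⟨P⁻¹ * g * P, (Helper45.mem_iso_iff _ _).mpr ?_, ?_⟩
    · intro v
      show ζ * Q ((P : Matrix ι ι F) *ᵥ (((P⁻¹ * g * P : GL ι F) : Matrix ι ι F) *ᵥ v))
        = ζ * Q ((P : Matrix ι ι F) *ᵥ v)
      rw [Units.val_mul, Units.val_mul, ← Matrix.mulVec_mulVec, ← Matrix.mulVec_mulVec,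
        Matrix.mulVec_mulVec _ (P : Matrix ι ι F), Units.mul_inv, Matrix.one_mulVec, hg]
    · simp only [MulEquiv.coe_toMonoidHom, MulAut.conj_apply]
      group

theorem o_omega_conj (Q : (ι → F) → F) (P : GL ι F) {ζ : F} (hζ : ζ ≠ 0) :
    (omegaGL (fun v : ι → F => ζ * Q ((P : Matrix ι ι F) *ᵥ v))).map
      (MulAut.conj P).toMonoidHom = omegaGL Q := by
  unfold omegaGL
  rw [Subgroup.map_subtype_commutator, Subgroup.map_subtype_commutator, Subgroup.map_commutator,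
    o_iso_conj Q P hζ]

theorem o_sub_eq_map (F₀ : Subfield F) (P : GL ι F) :
    subfieldSubgroup F₀ P
      = (subfieldSubgroup F₀ (1 : GL ι F)).map (MulAut.conj P).toMonoidHom := by
  have h2 : subfieldSubgroup F₀ (1 : GL ι F)
      = (Matrix.GeneralLinearGroup.map (F₀.subtype : F₀ →+* F)).range ⊔ scalars ι F := by
    rw [subfieldSubgroup, map_one]
    exact Subgroup.map_id _
  rw [h2]
  rfl

/-- **Maximality of the subfield subgroups of `Ω(Q)`**: `Q` a non-degenerate quadratic form in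
dimension at least 13 over a finite field `F`, `F₀` a subfield of prime degree, and `P` a basis on
whose `F₀`-span a scalar multiple of `Q` takes values in `F₀`. -/
theorem o_sub_max (hn : 13 ≤ Fintype.card ι) (Q : (ι → F) → F)
    (hQ : IsNondegenerateQuadraticForm Q) (F₀ : Subfield F) (r : ℕ) (hr : r.Prime)
    (hcard : Fintype.card F = Nat.card F₀ ^ r) (P : GL ι F) (ζ : F) (hζ : ζ ≠ 0)
    (hP : IsQuadFormRationalStructure (fun v : ι → F => ζ * Q v) F₀ P) :
    IsMaximalIn (omegaGL Q) (subfieldSubgroup F₀ P ⊓ omegaGL Q) := by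
  have hQ' := o_qconj_nondeg Q hQ P hζ
  have hrq : ORatQ (Helper98.op_qf _ hQ') F₀ := fun u hu => hP u hu
  have h1 := o_sub_max_one (Helper98.op_qf _ hQ') (Helper98.op_qf_nondeg _ hQ') hrq hn r hr hcard
  have h2 := SF.sf_isMaximalIn_map (MulAut.conj P) h1
  rw [Subgroup.map_inf _ _ _ (MulAut.conj P).injective] at h2
  have e1 : (omegaGL ⇑(Helper98.op_qf _ hQ')).map (MulAut.conj P).toMonoidHom = omegaGL Q :=
    o_omega_conj Q P hζ
  have e2 : (subfieldSubgroup F₀ (1 : GL ι F)).map (MulAut.conj P).toMonoidHom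
      = subfieldSubgroup F₀ P := (o_sub_eq_map F₀ P).symm
  rw [e1, e2] at h2
  exact h2

end OSF6

end Cfsg.Agent.Helper94
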