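import Mathlib
import Cfsg.Prelude.Def_GeometricClasses
import Cfsg.Agent.Helper94.ONd1

/-!
Orthogonal groups in characteristic two: maximality in `Ω(Q)` of the stabiliser of a
non-singular vector.
-/

set_option autoImplicit false
set_option linter.unusedSectionVars false
set_option linter.unusedVariables false

universe u

namespace Cfsg.Agent.Helper94

open Matrix Cfsg Cfsg.Geo Cfsg.Agent.Helper45

section OVec

variable {ι : Type} [Fintype ι] [DecidableEq ι] {F : Type u} [Field F] [Fintype F]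
  {Q : QuadraticForm F (ι → F)}

/-- The hypothesis that `M` contains every element of `Ω` fixing `v`. -/
def HFix (Q : QuadraticForm F (ι → F)) (v : ι → F) (M : Subgroup ↥(isometryGroup F ⇑Q)) : Prop :=
  ∀ g ∈ Omega F ⇑Q, mv ⇑Q g v = v → g ∈ M

theorem ov_E_fix (v s b : ι → F) (hvs : QuadraticMap.polar ⇑Q v s = 0)
    (hvb : QuadraticMap.polar ⇑Q v b = 0) (hsQ : Q s = 0) (hsb : QuadraticMap.polar ⇑Q s b = 0) :
    mv ⇑Q (oE Q s b) v = v := by
  rw [mv_oE Q s b hsQ hsb, QuadraticMap.polar_comm ⇑Q s v, QuadraticMap.polar_comm ⇑Q b v, hvs,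
    hvb]
  simp

theorem ov_E_in (hQ : (QuadraticMap.polarBilin Q).Nondegenerate) (hn : 5 ≤ Fintype.card ι)
    (v : ι → F) (M : Subgroup ↥(isometryGroup F ⇑Q)) (hH : HFix Q v M) (s b : ι → F)
    (hvs : QuadraticMap.polar ⇑Q v s = 0) (hvb : QuadraticMap.polar ⇑Q v b = 0) (hsQ : Q s = 0)
    (hsb : QuadraticMap.polar ⇑Q s b = 0) : oE Q s b ∈ M :=
  hH _ (oE_mem_omega Q hQ hn s b) (ov_E_fix v s b hvs hvb hsQ hsb)

theorem ov_RR_in (h2 : (2 : F) = 0) (hQ : (QuadraticMap.polarBilin Q).Nondegenerate)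
    (v : ι → F) (M : Subgroup ↥(isometryGroup F ⇑Q)) (hH : HFix Q v M) (a b : ι → F)
    (ha : Q a ≠ 0) (hb : Q b ≠ 0) (hva : QuadraticMap.polar ⇑Q v a = 0)
    (hvb : QuadraticMap.polar ⇑Q v b = 0) : reflO Q a ha * reflO Q b hb ∈ M := by
  have : CharP F 2 := CharTwo.of_one_ne_zero_of_two_eq_zero one_ne_zero h2
  apply hH _ (Helper44.refl_pair_mem_omega Q hQ a b ha hb)
  have hb' : mv ⇑Q (reflO Q b hb) v = v := by
    rw [mv_reflO, QuadraticMap.polar_comm ⇑Q b v, hvb, mul_zero, zero_smul, sub_zero]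
  rw [mv_mul, hb', mv_reflO, QuadraticMap.polar_comm ⇑Q a v, hva, mul_zero, zero_smul, sub_zero]

theorem ov_trans1 (h2 : (2 : F) = 0) (hQ : (QuadraticMap.polarBilin Q).Nondegenerate)
    (v : ι → F) (hv : Q v ≠ 0) (M : Subgroup ↥(isometryGroup F ⇑Q)) (hH : HFix Q v M)
    (u z : ι → F) (hvu : QuadraticMap.polar ⇑Q v u = 0) (hvz : QuadraticMap.polar ⇑Q v z = 0)
    (huQ : Q u = 0) (hzQ : Q z = 0) (huz : QuadraticMap.polar ⇑Q u z ≠ 0) :
    ∃ h ∈ M, mv ⇑Q h u = z ∧ mv ⇑Q h v = v := by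
  have hd : Q (u - z) = -QuadraticMap.polar ⇑Q u z := by
    rw [q_sub, huQ, hzQ]
    ring
  have hd0 : Q (u - z) ≠ 0 := by
    rw [hd]
    exact neg_ne_zero.mpr huz
  have hvv : QuadraticMap.polar ⇑Q v v = 0 := by
    rw [Helper44.polar_self_eq, h2, zero_mul]
  have hvd : QuadraticMap.polar ⇑Q v (u - z) = 0 := by
    rw [QuadraticMap.polar_sub_right, hvu, hvz, sub_zero]
  refine ⟨reflO Q (u - z) hd0 * reflO Q v hv, ov_RR_in h2 hQ v M hH _ _ hd0 hv hvd hvv, ?_, ?_⟩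
  · have hv' : mv ⇑Q (reflO Q v hv) u = u := by
      rw [mv_reflO, hvu, mul_zero, zero_smul, sub_zero]
    rw [mv_mul, hv', mv_reflO,
      QuadraticMap.polar_sub_left, polar_self_zero Q u huQ, QuadraticMap.polar_comm ⇑Q z u, hd]
    have h1 : (-QuadraticMap.polar ⇑Q u z)⁻¹ * (0 - QuadraticMap.polar ⇑Q u z) = 1 := by
      rw [zero_sub]
      exact inv_mul_cancel₀ (neg_ne_zero.mpr huz)
    rw [h1, one_smul]
    abel
  · have hv' : mv ⇑Q (reflO Q v hv) v = v := by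
      rw [mv_reflO, hvv, mul_zero, zero_smul, sub_zero]
    rw [mv_mul, hv', mv_reflO, QuadraticMap.polar_comm ⇑Q (u - z) v, hvd, mul_zero, zero_smul,
      sub_zero]

theorem ov_not_smul (v u : ι → F) (hv : Q v ≠ 0) (huQ : Q u = 0) (hu0 : u ≠ 0) (t : F) :
    u ≠ t • v := sing_ne_smul Q v u hv huQ hu0 t

theorem ov_trans (h2 : (2 : F) = 0) (hQ : (QuadraticMap.polarBilin Q).Nondegenerate)
    (v : ι → F) (hv : Q v ≠ 0) (M : Subgroup ↥(isometryGroup F ⇑Q)) (hH : HFix Q v M)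
    (u z : ι → F) (hvu : QuadraticMap.polar ⇑Q v u = 0) (hvz : QuadraticMap.polar ⇑Q v z = 0)
    (hu0 : u ≠ 0) (hz0 : z ≠ 0) (huQ : Q u = 0) (hzQ : Q z = 0) :
    ∃ h ∈ M, mv ⇑Q h u = z ∧ mv ⇑Q h v = v := by
  by_cases huz : QuadraticMap.polar ⇑Q u z = 0
  swap
  · exact ov_trans1 h2 hQ v hv M hH u z hvu hvz huQ hzQ huz
  obtain ⟨x₁, hvx₁, hx₁u⟩ := exists_perp_not_perp Q hQ v u (ov_not_smul v u hv huQ hu0)
  obtain ⟨x₂, hvx₂, hx₂z⟩ := exists_perp_not_perp Q hQ v z (ov_not_smul v z hv hzQ hz0)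
  obtain ⟨x, hvx, hxu, hxz⟩ : ∃ x, QuadraticMap.polar ⇑Q v x = 0 ∧
      QuadraticMap.polar ⇑Q x u ≠ 0 ∧ QuadraticMap.polar ⇑Q x z ≠ 0 := by
    by_cases h1 : QuadraticMap.polar ⇑Q x₁ z = 0
    swap
    · exact ⟨x₁, hvx₁, by rw [QuadraticMap.polar_comm]; exact hx₁u, h1⟩
    by_cases h3 : QuadraticMap.polar ⇑Q x₂ u = 0
    swap
    · exact ⟨x₂, hvx₂, h3, by rw [QuadraticMap.polar_comm]; exact hx₂z⟩
    refine ⟨x₁ + x₂, ?_, ?_, ?_⟩
    · rw [QuadraticMap.polar_add_right, hvx₁, hvx₂, add_zero]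
    · rw [QuadraticMap.polar_add_left, h3, add_zero, QuadraticMap.polar_comm]
      exact hx₁u
    · rw [QuadraticMap.polar_add_left, h1, zero_add, QuadraticMap.polar_comm]
      exact hx₂z
  obtain ⟨z', hz'def⟩ : ∃ z', z' = x - (Q x / QuadraticMap.polar ⇑Q x u) • u := ⟨_, rfl⟩
  have hvz' : QuadraticMap.polar ⇑Q v z' = 0 := by
    rw [hz'def, QuadraticMap.polar_sub_right, QuadraticMap.polar_smul_right, hvx, hvu, smul_zero,
      sub_zero]
  have hz'Q : Q z' = 0 := by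
    rw [hz'def, q_sub, QuadraticMap.map_smul, huQ, QuadraticMap.polar_smul_right, smul_zero,
      add_zero, smul_eq_mul, div_mul_cancel₀ _ hxu, sub_self]
  have huz' : QuadraticMap.polar ⇑Q u z' ≠ 0 := by
    rw [hz'def, QuadraticMap.polar_sub_right, QuadraticMap.polar_smul_right,
      polar_self_zero Q u huQ, smul_zero, sub_zero, QuadraticMap.polar_comm]
    exact hxu
  have hz'z : QuadraticMap.polar ⇑Q z' z ≠ 0 := by
    rw [hz'def, QuadraticMap.polar_sub_left, QuadraticMap.polar_smul_left, huz, smul_zero,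
      sub_zero]
    exact hxz
  obtain ⟨h₁, hh₁, hh₁u, hh₁v⟩ := ov_trans1 h2 hQ v hv M hH u z' hvu hvz' huQ hz'Q huz'
  obtain ⟨h₂, hh₂, hh₂u, hh₂v⟩ := ov_trans1 h2 hQ v hv M hH z' z hvz' hvz hz'Q hzQ hz'z
  refine ⟨h₂ * h₁, M.mul_mem hh₂ hh₁, ?_, ?_⟩
  · rw [mv_mul, hh₁u, hh₂u]
  · rw [mv_mul, hh₁v, hh₂v]

/-- A mixed Eichler transformation in `M` forces `Ω ≤ M`. -/
theorem ov_step2 (h2 : (2 : F) = 0) (hQ : (QuadraticMap.polarBilin Q).Nondegenerate)
    (hn : 5 ≤ Fintype.card ι) (v : ι → F) (hv : Q v ≠ 0)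
    (M : Subgroup ↥(isometryGroup F ⇑Q)) (hH : HFix Q v M) (u₀ b₀ : ι → F)
    (hvu₀ : QuadraticMap.polar ⇑Q v u₀ = 0) (hu₀0 : u₀ ≠ 0) (hu₀Q : Q u₀ = 0)
    (hub : QuadraticMap.polar ⇑Q u₀ b₀ = 0) (hvb₀ : QuadraticMap.polar ⇑Q v b₀ ≠ 0)
    (hE : oE Q u₀ b₀ ∈ M) : Omega F ⇑Q ≤ M := by
  -- scalar multiples of `b₀`
  have hscal : ∀ μ : F, μ ≠ 0 → oE Q u₀ (μ • b₀) ∈ M := by
    intro μ hμ
    obtain ⟨h, hh, hhu, hhv⟩ := ov_trans h2 hQ v hv M hH u₀ (μ • u₀) hvu₀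
      (by rw [QuadraticMap.polar_smul_right, hvu₀, smul_zero]) hu₀0 (smul_ne_zero hμ hu₀0) hu₀Q
      (by rw [QuadraticMap.map_smul, hu₀Q, smul_zero])
    have h1 := oE_conj Q h u₀ b₀ hu₀Q hub
    rw [hhu] at h1
    have hub' : QuadraticMap.polar ⇑Q u₀ (mv ⇑Q h b₀) = 0 := by
      have h3 := mv_polar Q h u₀ b₀
      rw [hhu, QuadraticMap.polar_smul_left, hub, smul_eq_mul] at h3
      rcases mul_eq_zero.mp h3 with h4 | h4
      · exact absurd h4 hμ
      · exact h4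
    rw [oE_smul Q μ u₀ (mv ⇑Q h b₀) hu₀Q hub'] at h1
    have h4 : oE Q u₀ (μ • mv ⇑Q h b₀) ∈ M := by
      rw [← h1]
      exact M.mul_mem (M.mul_mem hh hE) (M.inv_mem hh)
    have hvhb : QuadraticMap.polar ⇑Q v (mv ⇑Q h b₀) = QuadraticMap.polar ⇑Q v b₀ := by
      have h3 := mv_polar Q h v b₀
      rw [hhv] at h3
      exact h3
    have h5 : oE Q u₀ (μ • b₀ - μ • mv ⇑Q h b₀) ∈ M := by
      apply ov_E_in hQ hn v M hH u₀ _ hvu₀ _ hu₀Q
      · rw [QuadraticMap.polar_sub_right, QuadraticMap.polar_smul_right,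
          QuadraticMap.polar_smul_right, hub, hub', sub_self]
      · rw [QuadraticMap.polar_sub_right, QuadraticMap.polar_smul_right,
          QuadraticMap.polar_smul_right, hvhb, sub_self]
    have h6 := M.mul_mem h4 h5
    rw [oE_mul Q u₀ _ _ hu₀Q (by rw [QuadraticMap.polar_smul_right, hub', smul_zero])
      (by rw [QuadraticMap.polar_sub_right, QuadraticMap.polar_smul_right,
          QuadraticMap.polar_smul_right, hub, hub', sub_self]), add_sub_cancel] at h6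
    exact h6
  have hC : u₀ ∈ Helper98.op_C Q M := by
    refine ⟨hu₀Q, fun b hb => ?_⟩
    rw [← oE_eq Q u₀ b hu₀Q hb]
    by_cases hvb : QuadraticMap.polar ⇑Q v b = 0
    · exact ov_E_in hQ hn v M hH u₀ b hvu₀ hvb hu₀Q hb
    · obtain ⟨μ, hμ⟩ : ∃ μ : F, μ = QuadraticMap.polar ⇑Q v b / QuadraticMap.polar ⇑Q v b₀ :=
        ⟨_, rfl⟩
      have hμ0 : μ ≠ 0 := by
        rw [hμ]
        exact div_ne_zero hvb hvb₀
      have h1 := hscal μ hμ0
      have h3 : QuadraticMap.polar ⇑Q u₀ (b - μ • b₀) = 0 := by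
        rw [QuadraticMap.polar_sub_right, QuadraticMap.polar_smul_right, hb, hub, smul_zero,
          sub_zero]
      have h4 : oE Q u₀ (b - μ • b₀) ∈ M := by
        apply ov_E_in hQ hn v M hH u₀ _ hvu₀ _ hu₀Q h3
        rw [QuadraticMap.polar_sub_right, QuadraticMap.polar_smul_right, smul_eq_mul, hμ,
          div_mul_cancel₀ _ hvb₀, sub_self]
      have h5 := M.mul_mem h1 h4
      rw [oE_mul Q u₀ _ _ hu₀Q (by rw [QuadraticMap.polar_smul_right, hub, smul_zero]) h3,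
        add_sub_cancel] at h5
      exact h5
  obtain ⟨x, hvx, hux⟩ := exists_perp_not_perp Q hQ v u₀ (ov_not_smul v u₀ hv hu₀Q hu₀0)
  have hxu : QuadraticMap.polar ⇑Q x u₀ ≠ 0 := by
    rw [QuadraticMap.polar_comm]
    exact hux
  obtain ⟨z, hzdef⟩ : ∃ z, z = x - (Q x / QuadraticMap.polar ⇑Q x u₀) • u₀ := ⟨_, rfl⟩
  have hvz : QuadraticMap.polar ⇑Q v z = 0 := by
    rw [hzdef, QuadraticMap.polar_sub_right, QuadraticMap.polar_smul_right, hvx, hvu₀, smul_zero,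
      sub_zero]
  have hzQ : Q z = 0 := by
    rw [hzdef, q_sub, QuadraticMap.map_smul, hu₀Q, QuadraticMap.polar_smul_right, smul_zero,
      add_zero, smul_eq_mul, div_mul_cancel₀ _ hxu, sub_self]
  have huz : QuadraticMap.polar ⇑Q u₀ z ≠ 0 := by
    rw [hzdef, QuadraticMap.polar_sub_right, QuadraticMap.polar_smul_right,
      polar_self_zero Q u₀ hu₀Q, smul_zero, sub_zero]
    exact hux
  obtain ⟨h, hh, hhu, _⟩ := ov_trans1 h2 hQ v hv M hH u₀ z hvu₀ hvz hu₀Q hzQ huz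
  have hzC := Helper98.op_C_mv Q M h hh u₀ hC
  rw [hhu] at hzC
  exact Helper98.op_omega_le Q hQ hn M u₀ z hC hzC huz

/-- A vector orthogonal to the common orthogonal complement of `v` and `s` lies in their
span. -/
theorem ov_span (hQ : (QuadraticMap.polarBilin Q).Nondegenerate) (v s y : ι → F)
    (hy : ∀ x, QuadraticMap.polar ⇑Q v x = 0 → QuadraticMap.polar ⇑Q s x = 0 →
      QuadraticMap.polar ⇑Q x y = 0) : ∃ α β : F, y = α • v + β • s := by
  by_contra hcon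
  push Not at hcon
  have hnot : y ∉ Submodule.span F ({v, s} : Set (ι → F)) := by
    intro hmem
    rw [Submodule.mem_span_pair] at hmem
    obtain ⟨a, b, hab⟩ := hmem
    exact hcon a b hab.symm
  obtain ⟨w, hwU, hwy⟩ := exists_perp_of_notMem Q hQ _ y hnot
  exact hwy (hy w (hwU v (Submodule.subset_span (by simp)))
    (hwU s (Submodule.subset_span (by simp))))

/-- Two independent singular vectors orthogonal to `v`, with the same span test. -/
theorem ov_two (h2 : (2 : F) = 0) (hQ : (QuadraticMap.polarBilin Q).Nondegenerate)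
    (hn : 8 ≤ Fintype.card ι) (v : ι → F) (hv : Q v ≠ 0) (y : ι → F) (hyQ : Q y = Q v)
    (hy : ∀ s : ι → F, s ≠ 0 → Q s = 0 → QuadraticMap.polar ⇑Q v s = 0 →
      QuadraticMap.polar ⇑Q y s = 0 → ∃ α β : F, y = α • v + β • s) : y = v := by
  have hvv : QuadraticMap.polar ⇑Q v v = 0 := by
    rw [Helper44.polar_self_eq, h2, zero_mul]
  have hv0 : v ≠ 0 := by
    rintro rfl
    exact hv (map_zero _)
  -- a first singular vector
  obtain ⟨s₁, hs₁0, hs₁Q, hvs₁, hys₁⟩ := exists_sing_perp2 Q (by omega) v y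
  obtain ⟨α, β, h1⟩ := hy s₁ hs₁0 hs₁Q hvs₁ hys₁
  -- separating vectors
  obtain ⟨t, hvt, hs₁t⟩ := exists_perp_not_perp Q hQ v s₁ (ov_not_smul v s₁ hv hs₁Q hs₁0)
  have hvs₁' : ∀ c : F, v ≠ c • s₁ := by
    intro c h
    apply hv
    rw [h, QuadraticMap.map_smul, hs₁Q, smul_zero]
  obtain ⟨t', hs₁t', hvt'⟩ := exists_perp_not_perp Q hQ s₁ v hvs₁'
  -- a second singular vector, orthogonal to `v, y, s₁, t, t'`
  have h3 : 3 ≤ Module.finrank F ↥(perp3 Q v y s₁ ⊓ perpSub Q t ⊓ perpSub Q t') := by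
    have e1 := finrank_perp3_ge Q v y s₁
    have e2 := finrank_inf_perpSub_ge Q (perp3 Q v y s₁) t
    have e3 := finrank_inf_perpSub_ge Q (perp3 Q v y s₁ ⊓ perpSub Q t) t'
    omega
  obtain ⟨s₂, hs₂mem, hs₂0, hs₂Q⟩ := exists_sing_in Q _ h3
  obtain ⟨⟨hs₂a', hs₂t⟩, hs₂t'⟩ := hs₂mem
  have hs₂a := (mem_perp3 Q v y s₁ s₂).mp hs₂a'
  rw [SetLike.mem_coe, mem_perpSub] at hs₂t hs₂t'
  obtain ⟨α', β', h1'⟩ := hy s₂ hs₂0 hs₂Q hs₂a.1 hs₂a.2.1
  -- compare
  have hβ : β = 0 := by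
    have e : QuadraticMap.polar ⇑Q t y = β * QuadraticMap.polar ⇑Q t s₁ := by
      rw [h1, QuadraticMap.polar_add_right, QuadraticMap.polar_smul_right,
        QuadraticMap.polar_smul_right, QuadraticMap.polar_comm ⇑Q t v, hvt]
      simp
    have e' : QuadraticMap.polar ⇑Q t y = 0 := by
      rw [h1', QuadraticMap.polar_add_right, QuadraticMap.polar_smul_right,
        QuadraticMap.polar_smul_right, QuadraticMap.polar_comm ⇑Q t v, hvt, hs₂t]
      simp
    rw [e'] at e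
    rcases mul_eq_zero.mp e.symm with h | h
    · exact h
    · exfalso
      apply hs₁t
      rw [QuadraticMap.polar_comm]
      exact h
  rw [hβ, zero_smul, add_zero] at h1
  have hα : α * α = 1 := by
    have e := hyQ
    rw [h1, QuadraticMap.map_smul, smul_eq_mul] at e
    have e2 : (α * α - 1) * Q v = 0 := by linear_combination e
    rcases mul_eq_zero.mp e2 with h | h
    · exact sub_eq_zero.mp h
    · exact absurd h hv
  have hα1 : α = 1 := by
    have e : (α - 1) * (α - 1) = 0 := by linear_combination hα + (1 - α) * h2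
    have e2 := mul_self_eq_zero.mp e
    exact sub_eq_zero.mp e2
  rw [h1, hα1, one_smul]

/-- Under the hypothesis that no mixed Eichler transformation lies in `M`: an element of `M`
mapping one non-zero singular vector of `v^⊥` into `v^⊥` fixes `v`. -/
theorem ov_spade (h2 : (2 : F) = 0) (hQ : (QuadraticMap.polarBilin Q).Nondegenerate)
    (hn : 8 ≤ Fintype.card ι) (v : ι → F) (hv : Q v ≠ 0)
    (M : Subgroup ↥(isometryGroup F ⇑Q)) (hH : HFix Q v M)
    (hsp : ∀ u : ι → F, QuadraticMap.polar ⇑Q v u = 0 → u ≠ 0 → Q u = 0 → ∀ b,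
      QuadraticMap.polar ⇑Q u b = 0 → oE Q u b ∈ M → QuadraticMap.polar ⇑Q v b = 0)
    (g : ↥(isometryGroup F ⇑Q)) (hg : g ∈ M) (u₀ : ι → F)
    (hvu₀ : QuadraticMap.polar ⇑Q v u₀ = 0) (hu₀0 : u₀ ≠ 0) (hu₀Q : Q u₀ = 0)
    (hgu : QuadraticMap.polar ⇑Q v (mv ⇑Q g u₀) = 0) : mv ⇑Q g v = v := by
  have hpol : ∀ x y : ι → F, QuadraticMap.polar ⇑Q (mv ⇑Q g⁻¹ x) y =
      QuadraticMap.polar ⇑Q x (mv ⇑Q g y) := by
    intro x y
    have h1 := mv_polar Q g (mv ⇑Q g⁻¹ x) y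
    rw [mv_inv_cancel] at h1
    exact h1.symm
  have key : ∀ u : ι → F, QuadraticMap.polar ⇑Q v u = 0 → u ≠ 0 → Q u = 0 →
      QuadraticMap.polar ⇑Q v (mv ⇑Q g u) = 0 → ∀ b, QuadraticMap.polar ⇑Q v b = 0 →
      QuadraticMap.polar ⇑Q u b = 0 → QuadraticMap.polar ⇑Q v (mv ⇑Q g b) = 0 := by
    intro u hvu hu0 huQ hgu b hvb hub
    have h1 := ov_E_in hQ (by omega) v M hH u b hvu hvb huQ hub
    have h3 := oE_conj Q g u b huQ hub
    have h4 : oE Q (mv ⇑Q g u) (mv ⇑Q g b) ∈ M := by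
      rw [← h3]
      exact M.mul_mem (M.mul_mem hg h1) (M.inv_mem hg)
    exact hsp _ hgu (mv_ne_zero Q g u hu0) (by rw [mv_quad ⇑Q g]; exact huQ) _
      (by rw [mv_polar]; exact hub) h4
  -- `w = g⁻¹ v` has the norm of `v` and lies in `span {v, s}` for every singular `s ⊥ v, w`
  have hw : mv ⇑Q g⁻¹ v = v := by
    apply ov_two h2 hQ hn v hv (mv ⇑Q g⁻¹ v) (mv_quad ⇑Q g⁻¹ v)
    intro s hs0 hsQ hvs hws
    apply ov_span hQ v s
    intro x hvx hsx
    rw [QuadraticMap.polar_comm, hpol]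
    have hgs : QuadraticMap.polar ⇑Q v (mv ⇑Q g s) = 0 := by
      rw [← hpol]
      exact hws
    exact key s hvs hs0 hsQ hgs x hvx hsx
  have h5 := mv_inv_cancel Q g v
  rw [hw] at h5
  exact h5

/-- The core of the maximality proof. -/
theorem ov_core (h2 : (2 : F) = 0) (hQ : (QuadraticMap.polarBilin Q).Nondegenerate)
    (hn : 8 ≤ Fintype.card ι) (v : ι → F) (hv : Q v ≠ 0)
    (M : Subgroup ↥(isometryGroup F ⇑Q)) (hH : HFix Q v M) (g : ↥(isometryGroup F ⇑Q))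
    (hg : g ∈ M) (hgv : mv ⇑Q g v ≠ v) : Omega F ⇑Q ≤ M := by
  by_cases hsp : ∀ u : ι → F, QuadraticMap.polar ⇑Q v u = 0 → u ≠ 0 → Q u = 0 → ∀ b,
      QuadraticMap.polar ⇑Q u b = 0 → oE Q u b ∈ M → QuadraticMap.polar ⇑Q v b = 0
  swap
  · push Not at hsp
    obtain ⟨u, hvu, hu0, huQ, b, hub, hE, hb⟩ := hsp
    exact ov_step2 h2 hQ (by omega) v hv M hH u b hvu hu0 huQ hub hb hE
  exfalso
  apply hgv
  -- nice elements fix `g v`
  have hnice : ∀ h ∈ M, ∀ p q : ι → F, (∀ x, QuadraticMap.polar ⇑Q p x = 0 →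
      QuadraticMap.polar ⇑Q q x = 0 → mv ⇑Q h x = x) → mv ⇑Q h (mv ⇑Q g v) = mv ⇑Q g v := by
    intro h hh p q hfix
    obtain ⟨u₀, hu₀0, hu₀Q, hvu₀, hpu₀, hqu₀⟩ :=
      exists_sing_perp3 Q (by omega) v (mv ⇑Q g⁻¹ p) (mv ⇑Q g⁻¹ q)
    have hp' : QuadraticMap.polar ⇑Q p (mv ⇑Q g u₀) = 0 := by
      have h1 := mv_polar Q g (mv ⇑Q g⁻¹ p) u₀
      rw [mv_inv_cancel] at h1
      rw [h1]
      exact hpu₀
    have hq' : QuadraticMap.polar ⇑Q q (mv ⇑Q g u₀) = 0 := by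
      have h1 := mv_polar Q g (mv ⇑Q g⁻¹ q) u₀
      rw [mv_inv_cancel] at h1
      rw [h1]
      exact hqu₀
    have hm : mv ⇑Q (g⁻¹ * h * g) u₀ = u₀ := by
      rw [mv_mul, mv_mul, hfix _ hp' hq', mv_inv_cancel']
    have h3 := ov_spade h2 hQ hn v hv M hH hsp (g⁻¹ * h * g)
      (M.mul_mem (M.mul_mem (M.inv_mem hg) hh) hg) u₀ hvu₀ hu₀0 hu₀Q (by rw [hm]; exact hvu₀)
    rw [mv_mul, mv_mul] at h3
    have h4 := congrArg (mv ⇑Q g) h3
    rw [mv_inv_cancel] at h4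
    exact h4
  apply ov_two h2 hQ hn v hv (mv ⇑Q g v) (mv_quad ⇑Q g v)
  intro s hs0 hsQ hvs hys
  apply ov_span hQ v s
  intro b hvb hsb
  by_cases hbs : ∃ t : F, b = t • s
  · obtain ⟨t, rfl⟩ := hbs
    rw [QuadraticMap.polar_smul_left, QuadraticMap.polar_comm ⇑Q s, hys, smul_zero]
  push Not at hbs
  have h1 := hnice (oE Q s b) (ov_E_in hQ (by omega) v M hH s b hvs hvb hsQ hsb) s b
    (fun x e1 e2 => by rw [mv_oE Q s b hsQ hsb, e1, e2]; simp)
  rw [mv_oE Q s b hsQ hsb, QuadraticMap.polar_comm ⇑Q s (mv ⇑Q g v), hys] at h1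
  simp only [mul_zero, sub_zero, zero_smul] at h1
  have h3 : (QuadraticMap.polar ⇑Q b (mv ⇑Q g v)) • s = 0 := by
    have h4 := congrArg (fun z => z - mv ⇑Q g v) h1
    simpa using h4
  rcases smul_eq_zero.mp h3 with h4 | h4
  · exact h4
  · exact absurd h4 hs0

end OVec

end Cfsg.Agent.Helper94

namespace Cfsg.Agent.Helper94

open Matrix Cfsg Cfsg.Geo Cfsg.Agent.Helper45

section OVecMax

variable {ι : Type} [Fintype ι] [DecidableEq ι] {F : Type u} [Field F] [Fintype F]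

/-- **Maximality of the stabiliser of a non-singular vector** in `Ω(Q)` in characteristic
two. -/
theorem ov_max_fun (Q : (ι → F) → F) (hQ : IsNondegenerateQuadraticForm Q)
    (hn : 8 ≤ Fintype.card ι) (hchar : ¬ Odd (Fintype.card F)) (v : ι → F) (hv : Q v ≠ 0) :
    IsMaximalIn (omegaGL Q) (subspaceStabilizer (Submodule.span F {v}) ⊓ omegaGL Q) := by
  have h2 : (2 : F) = 0 := by
    by_contra h
    apply hchar
    have h3 := FiniteField.odd_card_of_char_ne_two (F := F) (fun hc => h (by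
      have : CharP F 2 := ringChar.of_eq hc
      exact CharTwo.two_eq_zero))
    exact Nat.odd_iff.mpr h3
  obtain ⟨Qb, hQb⟩ : ∃ Qb : QuadraticForm F (ι → F), Qb = Helper98.op_qf Q hQ := ⟨_, rfl⟩
  have hcoe : ⇑Qb = Q := by
    rw [hQb]
    rfl
  have hnd : (QuadraticMap.polarBilin Qb).Nondegenerate := by
    rw [hQb]
    exact Helper98.op_qf_nondeg Q hQ
  subst hcoe
  have hv0 : v ≠ 0 := by
    rintro rfl
    exact hv (map_zero _)
  have hstab : ∀ g : ↥(isometryGroup F ⇑Qb), (g : GL ι F) ∈ subspaceStabilizer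
      (Submodule.span F {v}) ↔ mv ⇑Qb g v = v := by
    intro g
    constructor
    · intro hmem
      have h1 : mv ⇑Qb g v ∈ Submodule.span F {v} :=
        (hmem v).mp (Submodule.mem_span_singleton_self v)
      obtain ⟨c, hc⟩ := Submodule.mem_span_singleton.mp h1
      have h3 := mv_quad ⇑Qb g v
      rw [← hc, QuadraticMap.map_smul, smul_eq_mul] at h3
      have h4 : (c * c - 1) * Qb v = 0 := by linear_combination h3
      have h5 : c * c = 1 := by
        rcases mul_eq_zero.mp h4 with h | h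
        · exact sub_eq_zero.mp h
        · exact absurd h hv
      have h6 : (c - 1) * (c - 1) = 0 := by linear_combination h5 + (1 - c) * h2
      have h7 : c = 1 := sub_eq_zero.mp (mul_self_eq_zero.mp h6)
      rw [← hc, h7, one_smul]
    · intro hgv x
      constructor
      · intro hx
        obtain ⟨c, rfl⟩ := Submodule.mem_span_singleton.mp hx
        show mv ⇑Qb g (c • v) ∈ Submodule.span F {v}
        rw [mv_smul, hgv]
        exact Submodule.smul_mem _ c (Submodule.mem_span_singleton_self v)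
      · intro hx
        have hx' : mv ⇑Qb g x ∈ Submodule.span F {v} := hx
        obtain ⟨c, hc⟩ := Submodule.mem_span_singleton.mp hx'
        have h1 : mv ⇑Qb g (c • v) = mv ⇑Qb g x := by rw [mv_smul, hgv, hc]
        have h3 := congrArg (mv ⇑Qb g⁻¹) h1
        rw [mv_inv_cancel', mv_inv_cancel'] at h3
        rw [← h3]
        exact Submodule.smul_mem _ c (Submodule.mem_span_singleton_self v)
  constructor
  · rw [SetLike.lt_iff_le_and_exists]
    refine ⟨inf_le_right, ?_⟩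
    obtain ⟨u, hu0, huQ, hvu, _⟩ := exists_sing_perp2 Qb (by omega) v v
    obtain ⟨b, hub, hvb⟩ := exists_perp_not_perp Qb hnd u v
      (fun t => ne_smul_of_sing Qb v u hv huQ t)
    refine ⟨((oE Qb u b : ↥(isometryGroup F ⇑Qb)) : GL ι F),
      Subgroup.mem_map_of_mem _ (oE_mem_omega Qb hnd (by omega) u b), fun hmem => ?_⟩
    have h1 := (hstab _).mp hmem.1
    rw [mv_oE Qb u b huQ hub, QuadraticMap.polar_comm ⇑Qb u v, hvu, mul_zero, sub_zero,
      zero_smul, sub_zero] at h1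
    have h3 : (QuadraticMap.polar ⇑Qb b v) • u = 0 := by
      have h4 := congrArg (fun z => z - v) h1
      simpa using h4
    rcases smul_eq_zero.mp h3 with h4 | h4
    · apply hvb
      rw [QuadraticMap.polar_comm]
      exact h4
    · exact hu0 h4
  · intro M hHM hMG
    by_cases hMH : M = subspaceStabilizer (Submodule.span F {v}) ⊓ omegaGL ⇑Qb
    · exact Or.inl hMH
    right
    apply le_antisymm hMG
    obtain ⟨M', hM'⟩ : ∃ M' : Subgroup ↥(isometryGroup F ⇑Qb),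
        M' = M.comap (isometryGroup F ⇑Qb).subtype := ⟨_, rfl⟩
    have hmemM' : ∀ g : ↥(isometryGroup F ⇑Qb), g ∈ M' ↔ (g : GL ι F) ∈ M := by
      intro g
      rw [hM']
      exact Subgroup.mem_comap
    suffices hΩ : Omega F ⇑Qb ≤ M' by
      unfold omegaGL
      rw [Subgroup.map_le_iff_le_comap, ← hM']
      exact hΩ
    have hH : HFix Qb v M' := by
      intro g hg hgv
      rw [hmemM']
      exact hHM ⟨(hstab g).mpr hgv, Subgroup.mem_map_of_mem _ hg⟩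
    obtain ⟨y, hyM, hyH⟩ := SetLike.exists_of_lt (lt_of_le_of_ne hHM (Ne.symm hMH))
    obtain ⟨y', hy'Ω, rfl⟩ := Subgroup.mem_map.mp (hMG hyM)
    have hy'M : y' ∈ M' := (hmemM' y').mpr hyM
    have hy'v : mv ⇑Qb y' v ≠ v := by
      intro h
      exact hyH ⟨(hstab y').mpr h, hMG hyM⟩
    exact ov_core h2 hnd hn v hv M' hH y' hy'M hy'v

end OVecMax

end Cfsg.Agent.Helper94
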