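import Cfsg.Agent.Helper94.Blocks3

set_option autoImplicit false
set_option linter.unusedSectionVars false
set_option linter.unusedSimpArgs false
set_option linter.unnecessarySeqFocus false
set_option linter.unusedVariables false

namespace Cfsg.Agent.Helper94

open Cfsg Cfsg.Geo Matrix
open scoped commutatorElement

universe u

variable {ι : Type} [Fintype ι] [DecidableEq ι] {F : Type u} [Field F]
variable {Q : (ι → F) → F}

/-- A general recipe: a set `T` mapped into itself by the decomposition stabiliser in `Ω`, an element of `Ω`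
stabilising `T` but not the decomposition, and an element of `Ω` not stabilising `T`. -/
theorem between_of_witness {t : ℕ} (D : Fin t → Submodule F (ι → F)) (T : Set (ι → F))
    (hfwd : ∀ g : GL ι F, g ∈ decompositionStabilizer D ⊓ omegaGL Q →
      ∀ v ∈ T, (g : Matrix ι ι F) *ᵥ v ∈ T)
    (g₁ : GL ι F) (h₁Ω : g₁ ∈ omegaGL Q) (h₁T : g₁ ∈ Cfsg.stabilizing (Cfsg.glToMat ι F) T)
    (h₁D : g₁ ∉ decompositionStabilizer D)
    (g₂ : GL ι F) (h₂Ω : g₂ ∈ omegaGL Q) (h₂T : g₂ ∉ Cfsg.stabilizing (Cfsg.glToMat ι F) T) :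
    ∃ K : Subgroup (GL ι F), decompositionStabilizer D ⊓ omegaGL Q < K ∧ K < omegaGL Q := by
  refine ⟨Cfsg.stabilizing (Cfsg.glToMat ι F) T ⊓ omegaGL Q, ?_, ?_⟩
  · rw [SetLike.lt_iff_le_and_exists]
    constructor
    · intro g hg
      refine ⟨(mem_stabilizing_iff _ g).mpr ?_, hg.2⟩
      intro v
      refine ⟨hfwd g hg v, fun hv => ?_⟩
      have := hfwd g⁻¹ (inv_mem hg) _ hv
      rwa [mulVec_mulVec, ← Units.val_mul, inv_mul_cancel, Units.val_one, one_mulVec] at this
    · exact ⟨g₁, ⟨h₁T, h₁Ω⟩, fun h => h₁D h.1⟩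
  · rw [SetLike.lt_iff_le_and_exists]
    exact ⟨inf_le_right, g₂, h₂Ω, fun h => h₂T h.1⟩

/-- The decomposition stabiliser in `Ω` maps the frame set into itself. -/
theorem frame_fwd {t : ℕ} (D : Fin t → Submodule F (ι → F)) (η : F) (g : GL ι F)
    (hg : g ∈ decompositionStabilizer D ⊓ omegaGL Q) :
    ∀ v ∈ frameSet Q D η, (g : Matrix ι ι F) *ᵥ v ∈ frameSet Q D η := by
  obtain ⟨⟨σ, hσ⟩, hgΩ⟩ := hg
  rintro v ⟨i, hvi, hv⟩
  refine ⟨σ i, ?_, ?_⟩
  · rw [← hσ i]
    exact ⟨v, hvi, Matrix.toLin'_apply _ _⟩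
  · rw [isom_apply (omega_le_isom hgΩ), hv]

/-- Isometries preserve the polar form. -/
theorem isom_polB (hQ : IsNondegenerateQuadraticForm Q) {g : GL ι F} (hg : g ∈ isometryGroup F Q)
    (u v : ι → F) :
    polB hQ ((g : Matrix ι ι F) *ᵥ u) ((g : Matrix ι ι F) *ᵥ v) = polB hQ u v := by
  rw [polB_apply, polB_apply]
  unfold QuadraticMap.polar
  rw [← mulVec_add, isom_apply hg, isom_apply hg, isom_apply hg]

/-- A hyperbolic basis of a non-degenerate plus-type plane. -/
theorem plus_plane_basis (hQ : IsNondegenerateQuadraticForm Q) (W : Submodule F (ι → F))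
    (hdim : Module.finrank F W = 2) (hW : IsNondegenerateOn (QuadraticMap.polar Q) W)
    (hWp : IsPlusTypeOn Q W) :
    ∃ e f : ι → F, e ∈ W ∧ f ∈ W ∧ Q e = 0 ∧ Q f = 0 ∧ polB hQ e f = 1 ∧
      W = Submodule.span F {e, f} := by
  obtain ⟨U, hUW, hUts, hUdim⟩ := hWp
  have hU1 : Module.finrank F U = 1 := by omega
  obtain ⟨e₀, he₀, -⟩ := finrank_eq_one_iff'.mp hU1
  obtain ⟨e, heW, he0, he⟩ : ∃ e : ι → F, e ∈ W ∧ e ≠ 0 ∧ Q e = 0 :=
    ⟨e₀, hUW e₀.2, fun h => he₀ (Subtype.ext h), hUts _ e₀.2⟩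
  obtain ⟨⟨y, hyW, hy⟩, -⟩ := hW _ heW he0
  obtain ⟨f, hfW, hf, hef⟩ : ∃ f : ι → F, f ∈ W ∧ Q f = 0 ∧ polB hQ e f = 1 := by
    obtain ⟨a, b, hf, hef⟩ := exists_partner hQ e y he hy
    exact ⟨_, W.add_mem (W.smul_mem _ hyW) (W.smul_mem _ heW), hf, hef⟩
  have bee : polB hQ e e = 0 := by rw [polB_self, he, mul_zero]
  have bff : polB hQ f f = 0 := by rw [polB_self, hf, mul_zero]
  have bfe : polB hQ f e = 1 := by rw [polB_comm]; exact hef
  have hli : LinearIndependent F ![e, f] := by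
    rw [LinearIndependent.pair_iff]
    intro s t hst
    have h1 := congrArg (fun v => polB hQ e v) hst
    simp only [map_add, map_smul, map_zero, smul_eq_mul, bee, hef] at h1
    have ht : t = 0 := by simpa using h1
    subst ht
    simp only [zero_smul, add_zero, smul_eq_zero] at hst
    exact ⟨hst.resolve_right he0, rfl⟩
  have hspan : W = Submodule.span F {e, f} := by
    symm
    apply Submodule.eq_of_le_of_finrank_eq
    · rw [Submodule.span_le]
      intro v hv
      rcases hv with rfl | rfl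
      exacts [heW, hfW]
    · rw [hdim]
      have := finrank_span_eq_card hli
      rw [Matrix.range_cons_cons_empty] at this
      simpa using this
  exact ⟨e, f, heW, hfW, he, hf, hef, hspan⟩

/-- Over the field with five elements a non-degenerate plus-type plane is good with value one. -/
theorem good_plus5 [Fintype F] (hQ : IsNondegenerateQuadraticForm Q) (hq : Fintype.card F = 5)
    (W : Submodule F (ι → F)) (hdim : Module.finrank F W = 2)
    (hW : IsNondegenerateOn (QuadraticMap.polar Q) W) (hWp : IsPlusTypeOn Q W) : GoodIn hQ W 1 := by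
  obtain ⟨e, f, heW, hfW, he, hf, hef, hspan⟩ := plus_plane_basis hQ W hdim hW hWp
  have bee : polB hQ e e = 0 := by rw [polB_self, he, mul_zero]
  have bff : polB hQ f f = 0 := by rw [polB_self, hf, mul_zero]
  have bfe : polB hQ f e = 1 := by rw [polB_comm]; exact hef
  refine ⟨e + f, e - f, W.add_mem heW hfW, ?_, ?_, W.sub_mem heW hfW, ?_, ?_⟩
  · rw [q_add hQ, he, hf, hef]; ring
  · intro s hs hsq
    rw [hspan] at hs
    obtain ⟨α, β, rfl⟩ := Submodule.mem_span_pair.mp hs
    rw [q_add hQ, q_smul hQ, q_smul hQ, he, hf] at hsq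
    simp only [map_smul, LinearMap.smul_apply, smul_eq_mul, hef, mul_zero, zero_add, mul_one] at hsq
    have hα0 : α ≠ 0 := by
      rintro rfl
      simp at hsq
    have hα4 : α ^ 4 = 1 := by
      have := FiniteField.pow_card_sub_one_eq_one α hα0
      rwa [hq] at this
    have hkey : (α + β) * (α - β) = 0 := by
      have h1 : β ^ 2 = α ^ 2 := by
        linear_combination (-(β ^ 2)) * hα4 + (α ^ 2 * (β * α + 1)) * hsq
      linear_combination -h1
    rcases mul_eq_zero.mp hkey with h | h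
    · right
      simp only [map_add, map_smul, LinearMap.add_apply, LinearMap.smul_apply, smul_eq_mul, bee, bff, hef,
        bfe]
      linear_combination h
    · left
      refine ⟨α, ?_⟩
      have : β = α := by linear_combination -h
      rw [this, smul_add]
  · simp only [map_add, map_sub, LinearMap.add_apply, LinearMap.sub_apply, bee, bff, hef, bfe]
    ring
  · rw [q_sub hQ, he, hf, hef]
    simp

/-- In characteristic two the reflection in a vector of value one is `v ↦ v + B(v,u) u`. -/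
theorem refl_char2 (hQ : IsNondegenerateQuadraticForm Q) (h2 : (2 : F) = 0) (u : ι → F) (hu : Q u = 1)
    (v : ι → F) : reflLin hQ u v = v + polB hQ v u • u := by
  rw [reflLin_apply, hu, inv_one, one_mul, sub_eq_add_neg, ← neg_smul]
  congr 2
  linear_combination (-polB hQ v u) * h2


theorem eq_zero_or_one_of_card_two [Fintype F] (hq : Fintype.card F = 2) (a : F) : a = 0 ∨ a = 1 := by
  by_cases ha : a = 0
  · exact Or.inl ha
  · right
    have := FiniteField.pow_card_sub_one_eq_one a ha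
    rw [hq] at this
    simpa using this

theorem two_eq_zero_of_card_two [Fintype F] (hq : Fintype.card F = 2) : (2 : F) = 0 := by
  have := Nat.cast_card_eq_zero F
  rw [hq] at this
  exact_mod_cast this

/-- Transport of a block member by the inverse of an element of the decomposition stabiliser. -/
theorem inv_block_mem {t : ℕ} (D : Fin t → Submodule F (ι → F)) (g : GL ι F)
    (hg : g ∈ decompositionStabilizer D ⊓ omegaGL Q) (j : Fin t) (s : ι → F) (hs : s ∈ D j) :
    ∃ j' : Fin t, ∃ s' ∈ D j', (g : Matrix ι ι F) *ᵥ s' = s ∧ Q s' = Q s := by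
  have hg' := inv_mem hg
  obtain ⟨⟨σ, hσ⟩, hgΩ'⟩ := hg'
  refine ⟨σ j, ((g⁻¹ : GL ι F) : Matrix ι ι F) *ᵥ s, ?_, ?_, ?_⟩
  · rw [← hσ j]
    exact ⟨s, hs, Matrix.toLin'_apply _ _⟩
  · rw [mulVec_mulVec, ← Units.val_mul, mul_inv_cancel, Units.val_one, one_mulVec]
  · exact isom_apply (omega_le_isom hgΩ') s

/-- Plus-type planes over the field with two elements: the decomposition stabiliser in `Ω` fixes the sum of the
non-singular vectors of the members, and the stabiliser of that vector is a proper subgroup of `Ω`. -/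
theorem plus2_q2_not_max [Fintype F] (hQ : IsNondegenerateQuadraticForm Q) (hq : Fintype.card F = 2) {t : ℕ}
    (D : Fin t → Submodule F (ι → F)) (hD : IsOrthogonalMDecomposition Q 2 D) (ht : 3 ≤ t)
    (hplus : ∀ i, IsPlusTypeOn Q (D i)) :
    ∃ K : Subgroup (GL ι F), decompositionStabilizer D ⊓ omegaGL Q < K ∧ K < omegaGL Q := by
  classical
  have h2 := two_eq_zero_of_card_two hq
  have h01 := eq_zero_or_one_of_card_two hq
  have horth : ∀ i j, i ≠ j → ∀ u ∈ D i, ∀ v ∈ D j, polB hQ u v = 0 :=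
    fun i j hij u hu v hv => hD.decomp.orthogonal i j hij u hu v hv
  have hbasis : ∀ i, ∃ e f : ι → F, e ∈ D i ∧ f ∈ D i ∧ Q e = 0 ∧ Q f = 0 ∧ polB hQ e f = 1 ∧
      D i = Submodule.span F {e, f} :=
    fun i => plus_plane_basis hQ (D i) (hD.decomp.decomp.finrank_eq i) (hD.decomp.nondegenerate i)
      (hplus i)
  choose e f heD hfD he hf hef hspan using hbasis
  have bee : ∀ i, polB hQ (e i) (e i) = 0 := fun i => by rw [polB_self, he, mul_zero]
  have bff : ∀ i, polB hQ (f i) (f i) = 0 := fun i => by rw [polB_self, hf, mul_zero]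
  have bfe : ∀ i, polB hQ (f i) (e i) = 1 := fun i => by rw [polB_comm]; exact hef i
  have oee : ∀ i j, i ≠ j → polB hQ (e i) (e j) = 0 := fun i j h => horth i j h _ (heD i) _ (heD j)
  have oef : ∀ i j, i ≠ j → polB hQ (e i) (f j) = 0 := fun i j h => horth i j h _ (heD i) _ (hfD j)
  have ofe : ∀ i j, i ≠ j → polB hQ (f i) (e j) = 0 := fun i j h => horth i j h _ (hfD i) _ (heD j)
  have off : ∀ i j, i ≠ j → polB hQ (f i) (f j) = 0 := fun i j h => horth i j h _ (hfD i) _ (hfD j)
  have he0 : ∀ i, e i ≠ 0 := by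
    intro i h
    have := hef i
    rw [h, map_zero, LinearMap.zero_apply] at this
    exact zero_ne_one this
  have hf0 : ∀ i, f i ≠ 0 := by
    intro i h
    have := hef i
    rw [h, map_zero] at this
    exact zero_ne_one this
  obtain ⟨i₀, i₁, i₂, n01, n02, n12⟩ : ∃ i₀ i₁ i₂ : Fin t, i₀ ≠ i₁ ∧ i₀ ≠ i₂ ∧ i₁ ≠ i₂ :=
    ⟨⟨0, by omega⟩, ⟨1, by omega⟩, ⟨2, by omega⟩, by simp [Fin.ext_iff], by simp [Fin.ext_iff],
      by simp [Fin.ext_iff]⟩
  have n10 := n01.symm
  have n20 := n02.symm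
  have n21 := n12.symm
  -- the set of vectors with prescribed products against the members
  obtain ⟨T, hT⟩ : ∃ T : Set (ι → F), T = {v | ∀ i, ∀ s ∈ D i, s ≠ 0 → polB hQ v s = 1 + Q s} := ⟨_, rfl⟩
  have hTe : ∀ v ∈ T, ∀ i, polB hQ v (e i) = 1 := by
    intro v hv i
    rw [hT] at hv
    rw [hv i _ (heD i) (he0 i), he, add_zero]
  have hTf : ∀ v ∈ T, ∀ i, polB hQ v (f i) = 1 := by
    intro v hv i
    rw [hT] at hv
    rw [hv i _ (hfD i) (hf0 i), hf, add_zero]
  have hv₀ : (∑ i, (e i + f i)) ∈ T := by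
    rw [hT]
    intro j s hs hs0
    rw [map_sum, LinearMap.sum_apply, Finset.sum_eq_single j]
    · rw [hspan j] at hs
      obtain ⟨α, β, rfl⟩ := Submodule.mem_span_pair.mp hs
      rw [q_add hQ, q_smul hQ, q_smul hQ, he, hf]
      simp only [map_add, map_smul, LinearMap.add_apply, LinearMap.smul_apply, smul_eq_mul, bee, bff, hef,
        bfe]
      rcases h01 α with rfl | rfl <;> rcases h01 β with rfl | rfl
      · simp at hs0
      · ring
      · ring
      · ring
    · intro i _ hij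
      exact horth i j hij _ (add_mem (heD i) (hfD i)) s hs
    · intro h
      exact absurd (Finset.mem_univ j) h
  have hfwd : ∀ g : GL ι F, g ∈ decompositionStabilizer D ⊓ omegaGL Q →
      ∀ v ∈ T, (g : Matrix ι ι F) *ᵥ v ∈ T := by
    intro g hg v hv
    rw [hT] at hv ⊢
    intro j s hs hs0
    obtain ⟨j', s', hs', hgs', hQs'⟩ := inv_block_mem D g hg j s hs
    have hs'0 : s' ≠ 0 := by
      rintro rfl
      apply hs0
      rw [← hgs', mulVec_zero]
    rw [← hgs', isom_polB hQ (omega_le_isom hg.2), hv j' s' hs' hs'0, hQs', hgs']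
  -- vectors for the witnesses
  obtain ⟨u, hu⟩ : ∃ u, u = e i₀ + f i₀ + e i₁ + e i₂ := ⟨_, rfl⟩
  obtain ⟨w, hw⟩ : ∃ w, w = e i₁ + f i₁ := ⟨_, rfl⟩
  obtain ⟨b, hb⟩ : ∃ b, b = e i₀ + e i₁ + f i₁ := ⟨_, rfl⟩
  obtain ⟨a, ha⟩ : ∃ a, a = e i₀ + f i₀ := ⟨_, rfl⟩
  have hQu : Q u = 1 := by
    rw [hu, q_add hQ, q_add hQ, q_add hQ, he, hf, he, he]
    simp only [map_add, LinearMap.add_apply, bee, bff, hef, bfe, oee, oef, ofe, off, n01, n02, n12, n10,
      n20, n21, ne_eq, not_false_eq_true]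
    ring
  have hQw : Q w = 1 := by
    rw [hw, q_add hQ, he, hf, hef]; ring
  have hQa : Q a = 1 := by
    rw [ha, q_add hQ, he, hf, hef]; ring
  have hQb : Q b = 1 := by
    rw [hb, q_add hQ, q_add hQ, he, hf, he]
    simp only [map_add, LinearMap.add_apply, bee, bff, hef, bfe, oee, oef, ofe, off, n01, n02, n12, n10,
      n20, n21, ne_eq, not_false_eq_true]
    ring
  have hu1 : Q u ≠ 0 := by rw [hQu]; exact one_ne_zero
  have hw1 : Q w ≠ 0 := by rw [hQw]; exact one_ne_zero
  have ha1 : Q a ≠ 0 := by rw [hQa]; exact one_ne_zero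
  have hb1 : Q b ≠ 0 := by rw [hQb]; exact one_ne_zero
  have hfixu : ∀ v ∈ T, reflLin hQ u v = v := by
    intro v hv
    have : polB hQ v u = 0 := by
      rw [hu]
      simp only [map_add, hTe v hv, hTf v hv]
      linear_combination 2 * h2
    rw [reflLin_apply, this, mul_zero, zero_smul, sub_zero]
  have hfixw : ∀ v ∈ T, reflLin hQ w v = v := by
    intro v hv
    have : polB hQ v w = 0 := by
      rw [hw]
      simp only [map_add, hTe v hv, hTf v hv]
      linear_combination h2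
    rw [reflLin_apply, this, mul_zero, zero_smul, sub_zero]
  have hstu : reflGL hQ u hu1 ∈ Cfsg.stabilizing (Cfsg.glToMat ι F) T := by
    apply mem_stabilizing_of_invol _ _ (reflGL_inv hQ _ hu1)
    intro v hv
    rw [reflGL_mulVec, hfixu v hv]
    exact hv
  have hstw : reflGL hQ w hw1 ∈ Cfsg.stabilizing (Cfsg.glToMat ι F) T := by
    apply mem_stabilizing_of_invol _ _ (reflGL_inv hQ _ hw1)
    intro v hv
    rw [reflGL_mulVec, hfixw v hv]
    exact hv
  refine between_of_witness D T hfwd ⁅reflGL hQ u hu1, reflGL hQ w hw1⁆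
    (comm_mem_omega (reflGL_mem hQ _ hu1) (reflGL_mem hQ _ hw1)) ?_ ?_
    ⁅reflGL hQ a ha1, reflGL hQ b hb1⁆
    (comm_mem_omega (reflGL_mem hQ _ ha1) (reflGL_mem hQ _ hb1)) ?_
  · rw [commutatorElement_def]
    exact Subgroup.mul_mem _ (Subgroup.mul_mem _ (Subgroup.mul_mem _ hstu hstw)
      (Subgroup.inv_mem _ hstu)) (Subgroup.inv_mem _ hstw)
  · rintro ⟨σ, hσ⟩
    have c1 : ((⁅reflGL hQ u hu1, reflGL hQ w hw1⁆ : GL ι F) : Matrix ι ι F) *ᵥ f i₁ = f i₁ - u := by
      have r1 : reflLin hQ w (f i₁) = - e i₁ := by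
        rw [reflLin_apply, hQw, hw]
        simp only [map_add, bee, bff, hef, bfe]
        module
      have r2 : reflLin hQ u (- e i₁) = - e i₁ := by
        rw [reflLin_apply, hQu, hu]
        simp only [map_add, map_neg, LinearMap.neg_apply, bee, bff, hef, bfe, oee, oef, ofe, off, n01, n02,
          n12, n10, n20, n21, ne_eq, not_false_eq_true]
        module
      have r3 : reflLin hQ w (- e i₁) = f i₁ := by
        rw [reflLin_apply, hQw, hw]
        simp only [map_add, map_neg, LinearMap.neg_apply, bee, bff, hef, bfe]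
        module
      have r4 : reflLin hQ u (f i₁) = f i₁ - u := by
        rw [reflLin_apply, hQu]
        have : polB hQ (f i₁) u = 1 := by
          rw [hu]
          simp only [map_add, bee, bff, hef, bfe, oee, oef, ofe, off, n01, n02, n12, n10, n20, n21, ne_eq,
            not_false_eq_true]
          ring
        rw [this]
        module
      rw [comm_refl_mulVec, r1, r2, r3, r4]
    have m1 : f i₁ - u ∈ D (σ i₁) := by
      rw [← hσ i₁]
      exact ⟨f i₁, hfD i₁, by rw [Matrix.toLin'_apply, c1]⟩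
    have p0 : polB hQ (f i₁ - u) (e i₀) = -1 := by
      rw [hu]
      simp only [map_add, map_sub, LinearMap.add_apply, LinearMap.sub_apply, bee, bff, hef, bfe, oee, oef,
        ofe, off, n01, n02, n12, n10, n20, n21, ne_eq, not_false_eq_true]
      ring
    have p1 : polB hQ (f i₁ - u) (e i₁) = 1 := by
      rw [hu]
      simp only [map_add, map_sub, LinearMap.add_apply, LinearMap.sub_apply, bee, bff, hef, bfe, oee, oef,
        ofe, off, n01, n02, n12, n10, n20, n21, ne_eq, not_false_eq_true]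
      ring
    have hσ0 : σ i₁ = i₀ := by
      by_contra hne
      have := horth (σ i₁) i₀ hne _ m1 _ (heD i₀)
      rw [p0] at this
      exact one_ne_zero (neg_eq_zero.mp this)
    rw [hσ0] at m1
    have := horth i₀ i₁ n01 _ m1 _ (heD i₁)
    rw [p1] at this
    exact one_ne_zero this
  · intro hst
    have hv := hv₀
    obtain ⟨v, hvdef⟩ : ∃ v, v = ∑ i, (e i + f i) := ⟨_, rfl⟩
    rw [← hvdef] at hv
    have hin := ((mem_stabilizing_iff _ _).mp hst v).mp hv
    have bvb : polB hQ v b = 1 := by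
      rw [hb]
      simp only [map_add, hTe v hv, hTf v hv]
      linear_combination h2
    have bva : polB hQ v a = 0 := by
      rw [ha]
      simp only [map_add, hTe v hv, hTf v hv]
      linear_combination h2
    have bba : polB hQ b a = 1 := by
      rw [ha, hb]
      simp only [map_add, LinearMap.add_apply, bee, bff, hef, bfe, oee, oef, ofe, off, n01, n02, n12, n10,
        n20, n21, ne_eq, not_false_eq_true]
      ring
    have bab : polB hQ a b = 1 := by rw [polB_comm]; exact bba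
    have bbb : polB hQ b b = 0 := by rw [polB_self, hQb]; linear_combination h2
    have baa : polB hQ a a = 0 := by rw [polB_self, hQa]; linear_combination h2
    have r1 : reflLin hQ b v = v - b := by
      rw [reflLin_apply, hQb, bvb]
      module
    have r2 : reflLin hQ a (v - b) = v - b + a := by
      rw [reflLin_apply, hQa]
      simp only [map_sub, LinearMap.sub_apply, bva, bba]
      module
    have r3 : reflLin hQ b (v - b + a) = v - b + a := by
      rw [reflLin_apply, hQb]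
      simp only [map_add, map_sub, LinearMap.add_apply, LinearMap.sub_apply, bvb, bbb, bab]
      have : ((1 : F)⁻¹ * (1 - 0 + 1)) = 0 := by linear_combination h2
      rw [this]
      module
    have r4 : reflLin hQ a (v - b + a) = v - b := by
      rw [reflLin_apply, hQa]
      simp only [map_add, map_sub, LinearMap.add_apply, LinearMap.sub_apply, bva, bba, baa]
      have hsm : (2 : F) • a = 0 := by rw [h2, zero_smul]
      have : ((1 : F)⁻¹ * (0 - 1 + 0)) = -1 := by simp
      rw [this]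
      have h3 : v - b + a - (-1 : F) • a = v - b + (2 : F) • a := by module
      rw [h3, hsm, add_zero]
    rw [comm_refl_mulVec, r1, r2, r3, r4, hT] at hin
    have := hin i₁ (e i₁) (heD i₁) (he0 i₁)
    rw [he, hb] at this
    simp only [map_add, map_sub, LinearMap.add_apply, LinearMap.sub_apply, hTe v hv, bee, bff, hef, bfe,
      oee, oef, ofe, off, n01, n02, n12, n10, n20, n21, ne_eq, not_false_eq_true] at this
    have h10 : (1 : F) = 0 := by linear_combination -this
    exact one_ne_zero h10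


/-- Reflections preserve the polar form. -/
theorem polB_refl (hQ : IsNondegenerateQuadraticForm Q) (b : ι → F) (hb : Q b ≠ 0) (x y : ι → F) :
    polB hQ (reflLin hQ b x) (reflLin hQ b y) = polB hQ x y := by
  rw [polB_apply, polB_apply]
  unfold QuadraticMap.polar
  rw [← map_add, q_reflLin hQ hb, q_reflLin hQ hb, q_reflLin hQ hb]

/-- Conjugating a reflection by a reflection. -/
theorem refl_conj (hQ : IsNondegenerateQuadraticForm Q) (a b : ι → F) (hb : Q b ≠ 0) (v : ι → F) :
    reflLin hQ b (reflLin hQ a (reflLin hQ b v)) = reflLin hQ (reflLin hQ b a) v := by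
  have h1 : polB hQ (reflLin hQ b v) a = polB hQ v (reflLin hQ b a) := by
    have := polB_refl hQ b hb v (reflLin hQ b a)
    rw [reflLin_invol hQ hb] at this
    exact this
  rw [reflLin_apply hQ a, map_sub, map_smul, reflLin_invol hQ hb, reflLin_apply hQ (reflLin hQ b a),
    q_reflLin hQ hb, h1]

/-- In a hyperbolic plane over the field with four elements, two vectors of value one have product in the
prime field. -/
theorem plane4_pair [Fintype F] (hQ : IsNondegenerateQuadraticForm Q) (hq : Fintype.card F = 4)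
    (e f : ι → F) (he : Q e = 0) (hf : Q f = 0) (hef : polB hQ e f = 1) (s s' : ι → F)
    (hs : s ∈ Submodule.span F {e, f}) (hs' : s' ∈ Submodule.span F {e, f}) (hQs : Q s = 1)
    (hQs' : Q s' = 1) : polB hQ s s' ^ 2 = polB hQ s s' := by
  have h2 := two_eq_zero_of_card_four hq
  have h3 := pow_three_of_card_four hq
  have bee : polB hQ e e = 0 := by rw [polB_self, he, mul_zero]
  have bff : polB hQ f f = 0 := by rw [polB_self, hf, mul_zero]
  have bfe : polB hQ f e = 1 := by rw [polB_comm]; exact hef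
  obtain ⟨α, β, rfl⟩ := Submodule.mem_span_pair.mp hs
  obtain ⟨γ, δ, rfl⟩ := Submodule.mem_span_pair.mp hs'
  rw [q_add hQ, q_smul hQ, q_smul hQ, he, hf] at hQs hQs'
  simp only [map_smul, LinearMap.smul_apply, smul_eq_mul, hef, mul_zero, zero_add, mul_one] at hQs hQs'
  have hαβ : α * β = 1 := by linear_combination hQs
  have hγδ : γ * δ = 1 := by linear_combination hQs'
  have hcd : (α * δ) * (β * γ) = 1 := by linear_combination (γ * δ) * hαβ + hγδ
  have hc0 : α * δ ≠ 0 := by
    intro h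
    rw [h, zero_mul] at hcd
    exact zero_ne_one hcd
  have hd0 : β * γ ≠ 0 := by
    intro h
    rw [h, mul_zero] at hcd
    exact zero_ne_one hcd
  have hc3 := h3 _ hc0
  have hd3 := h3 _ hd0
  have hc2 : (α * δ) ^ 2 = β * γ := by linear_combination (-(α * δ) ^ 2) * hcd + (β * γ) * hc3
  have hd2 : (β * γ) ^ 2 = α * δ := by linear_combination (-(β * γ) ^ 2) * hcd + (α * δ) * hd3
  simp only [map_add, map_smul, LinearMap.add_apply, LinearMap.smul_apply, smul_eq_mul, bee, bff, hef, bfe]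
  linear_combination hc2 + hd2 + (α * δ * (β * γ)) * h2

/-- Plus-type planes over the field with four elements: the decomposition stabiliser in `Ω` preserves the
additive group generated by the vectors of value one in the members, whose stabiliser is proper in `Ω`. -/
theorem plus2_q4_not_max [Fintype F] (hQ : IsNondegenerateQuadraticForm Q) (hq : Fintype.card F = 4) {t : ℕ}
    (D : Fin t → Submodule F (ι → F)) (hD : IsOrthogonalMDecomposition Q 2 D) (ht : 3 ≤ t)
    (hplus : ∀ i, IsPlusTypeOn Q (D i)) :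
    ∃ K : Subgroup (GL ι F), decompositionStabilizer D ⊓ omegaGL Q < K ∧ K < omegaGL Q := by
  classical
  have h2 := two_eq_zero_of_card_four hq
  have h3 := pow_three_of_card_four hq
  have horth : ∀ i j, i ≠ j → ∀ u ∈ D i, ∀ v ∈ D j, polB hQ u v = 0 :=
    fun i j hij u hu v hv => hD.decomp.orthogonal i j hij u hu v hv
  have hbasis : ∀ i, ∃ e f : ι → F, e ∈ D i ∧ f ∈ D i ∧ Q e = 0 ∧ Q f = 0 ∧ polB hQ e f = 1 ∧
      D i = Submodule.span F {e, f} :=
    fun i => plus_plane_basis hQ (D i) (hD.decomp.decomp.finrank_eq i) (hD.decomp.nondegenerate i)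
      (hplus i)
  choose e f heD hfD he hf hef hspan using hbasis
  have bee : ∀ i, polB hQ (e i) (e i) = 0 := fun i => by rw [polB_self, he, mul_zero]
  have bff : ∀ i, polB hQ (f i) (f i) = 0 := fun i => by rw [polB_self, hf, mul_zero]
  have bfe : ∀ i, polB hQ (f i) (e i) = 1 := fun i => by rw [polB_comm]; exact hef i
  -- an element of the field outside the prime field
  obtain ⟨ω, hω0, hω1⟩ : ∃ ω : F, ω ≠ 0 ∧ ω ≠ 1 := by
    obtain ⟨a, b, c, hab, hac, hbc⟩ := Fintype.two_lt_card_iff.mp (by rw [hq]; norm_num : 2 < Fintype.card F)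
    by_cases ha0 : a = 0
    · by_cases hb1 : b = 1
      · exact ⟨c, fun h => hac (ha0.trans h.symm), fun h => hbc (hb1.trans h.symm)⟩
      · exact ⟨b, fun h => hab (ha0.trans h.symm), hb1⟩
    · by_cases ha1 : a = 1
      · by_cases hb0 : b = 0
        · exact ⟨c, fun h => hbc (hb0.trans h.symm), fun h => hac (ha1.trans h.symm)⟩
        · exact ⟨b, hb0, fun h => hab (ha1.trans h.symm)⟩
      · exact ⟨a, ha0, ha1⟩
  have hω3 := h3 ω hω0
  have hω : ω ^ 2 + ω + 1 = 0 := by
    have h : (ω - 1) * (ω ^ 2 + ω + 1) = 0 := by linear_combination hω3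
    exact (mul_eq_zero.mp h).resolve_left (sub_ne_zero.mpr hω1)
  -- the vectors p i, q i
  obtain ⟨p, hp⟩ : ∃ p : Fin t → ι → F, p = fun i => e i + f i := ⟨_, rfl⟩
  obtain ⟨q, hq'⟩ : ∃ q : Fin t → ι → F, q = fun i => ω • e i + ω ^ 2 • f i := ⟨_, rfl⟩
  have hpD : ∀ i, p i ∈ D i := fun i => by rw [hp]; exact add_mem (heD i) (hfD i)
  have hqD : ∀ i, q i ∈ D i := fun i => by
    rw [hq']; exact add_mem ((D i).smul_mem _ (heD i)) ((D i).smul_mem _ (hfD i))
  have hQp : ∀ i, Q (p i) = 1 := fun i => by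
    rw [hp]
    change Q (e i + f i) = 1
    rw [q_add hQ, he, hf, hef]; ring
  have hQq : ∀ i, Q (q i) = 1 := fun i => by
    rw [hq']
    change Q (ω • e i + ω ^ 2 • f i) = 1
    rw [q_add hQ, q_smul hQ, q_smul hQ, he, hf]
    simp only [map_smul, LinearMap.smul_apply, smul_eq_mul, hef]
    linear_combination hω3
  have bpq : ∀ i, polB hQ (p i) (q i) = 1 := fun i => by
    rw [hp, hq']
    change polB hQ (e i + f i) (ω • e i + ω ^ 2 • f i) = 1
    simp only [map_add, map_smul, LinearMap.add_apply, LinearMap.smul_apply, smul_eq_mul, bee, bff, hef, bfe]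
    linear_combination hω - h2
  have bqp : ∀ i, polB hQ (q i) (p i) = 1 := fun i => by rw [polB_comm]; exact bpq i
  have bpp : ∀ i, polB hQ (p i) (p i) = 0 := fun i => by rw [polB_self, hQp]; linear_combination h2
  have bqq : ∀ i, polB hQ (q i) (q i) = 0 := fun i => by rw [polB_self, hQq]; linear_combination h2
  have opp : ∀ i j, i ≠ j → polB hQ (p i) (p j) = 0 := fun i j h => horth i j h _ (hpD i) _ (hpD j)
  have opq : ∀ i j, i ≠ j → polB hQ (p i) (q j) = 0 := fun i j h => horth i j h _ (hpD i) _ (hqD j)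
  have oqp : ∀ i j, i ≠ j → polB hQ (q i) (p j) = 0 := fun i j h => horth i j h _ (hqD i) _ (hpD j)
  have oqq : ∀ i j, i ≠ j → polB hQ (q i) (q j) = 0 := fun i j h => horth i j h _ (hqD i) _ (hqD j)
  obtain ⟨i₀, i₁, i₂, n01, n02, n12⟩ : ∃ i₀ i₁ i₂ : Fin t, i₀ ≠ i₁ ∧ i₀ ≠ i₂ ∧ i₁ ≠ i₂ :=
    ⟨⟨0, by omega⟩, ⟨1, by omega⟩, ⟨2, by omega⟩, by simp [Fin.ext_iff], by simp [Fin.ext_iff],
      by simp [Fin.ext_iff]⟩
  have n10 := n01.symm
  have n20 := n02.symm
  have n21 := n12.symm
  -- the additive group generated by the frame set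
  obtain ⟨A, hA⟩ : ∃ A : AddSubgroup (ι → F), A = AddSubgroup.closure (frameSet Q D 1) := ⟨_, rfl⟩
  have hSA : ∀ s ∈ frameSet Q D 1, s ∈ A := fun s hs => by rw [hA]; exact AddSubgroup.subset_closure hs
  have hpA : ∀ i, p i ∈ A := fun i => hSA _ ⟨i, hpD i, hQp i⟩
  have hqA : ∀ i, q i ∈ A := fun i => hSA _ ⟨i, hqD i, hQq i⟩
  have hB2 : ∀ s ∈ frameSet Q D 1, ∀ s' ∈ frameSet Q D 1, polB hQ s s' ^ 2 = polB hQ s s' := by
    rintro s ⟨i, hsi, hs⟩ s' ⟨j, hsj, hs'⟩
    by_cases hij : i = j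
    · subst hij
      rw [hspan i] at hsi hsj
      exact plane4_pair hQ hq (e i) (f i) (he i) (hf i) (hef i) s s' hsi hsj hs hs'
    · rw [horth i j hij s hsi s' hsj]; ring
  have hA1 : ∀ v ∈ A, ∀ s' ∈ frameSet Q D 1, polB hQ v s' ^ 2 = polB hQ v s' := by
    intro v hv s' hs'
    rw [hA] at hv
    refine AddSubgroup.closure_induction (p := fun x _ => polB hQ x s' ^ 2 = polB hQ x s') ?_ ?_ ?_ ?_ hv
    · intro x hx
      exact hB2 x hx s' hs'
    · rw [map_zero, LinearMap.zero_apply]; ring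
    · intro x y _ _ hx hy
      rw [map_add, LinearMap.add_apply]
      linear_combination hx + hy + (polB hQ x s' * polB hQ y s') * h2
    · intro x _ hx
      rw [map_neg, LinearMap.neg_apply]
      linear_combination hx + (polB hQ x s') * h2
  have hA2 : ∀ v ∈ A, ∀ u ∈ A, polB hQ v u ^ 2 = polB hQ v u := by
    intro v hv u hu
    rw [hA] at hu
    refine AddSubgroup.closure_induction (p := fun x _ => polB hQ v x ^ 2 = polB hQ v x) ?_ ?_ ?_ ?_ hu
    · intro x hx
      exact hA1 v hv x hx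
    · rw [map_zero]; ring
    · intro x y _ _ hx hy
      rw [map_add]
      linear_combination hx + hy + (polB hQ v x * polB hQ v y) * h2
    · intro x _ hx
      rw [map_neg]
      linear_combination hx + (polB hQ v x) * h2
  have hrefl : ∀ u ∈ A, Q u = 1 → ∀ v ∈ A, reflLin hQ u v ∈ A := by
    intro u hu hQu v hv
    rw [reflLin_apply, hQu, inv_one, one_mul]
    have h := hA2 v hv u hu
    have h' : polB hQ v u * (polB hQ v u - 1) = 0 := by linear_combination h
    rcases mul_eq_zero.mp h' with h0 | h1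
    · rw [h0, zero_smul, sub_zero]; exact hv
    · have : polB hQ v u = 1 := by linear_combination h1
      rw [this, one_smul]; exact sub_mem hv hu
  have hfwd : ∀ g : GL ι F, g ∈ decompositionStabilizer D ⊓ omegaGL Q →
      ∀ v ∈ (A : Set (ι → F)), (g : Matrix ι ι F) *ᵥ v ∈ (A : Set (ι → F)) := by
    intro g hg v hv
    have hv' : v ∈ AddSubgroup.closure (frameSet Q D 1) := by rw [← hA]; exact hv
    change (g : Matrix ι ι F) *ᵥ v ∈ A
    refine AddSubgroup.closure_induction (p := fun x _ => (g : Matrix ι ι F) *ᵥ x ∈ A) ?_ ?_ ?_ ?_ hv'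
    · intro x hx
      exact hSA _ (frame_fwd D 1 g hg x hx)
    · rw [mulVec_zero]; exact zero_mem _
    · intro x y _ _ hx hy
      rw [mulVec_add]; exact add_mem hx hy
    · intro x _ hx
      rw [mulVec_neg]; exact neg_mem hx
  -- the witnesses
  obtain ⟨u, hu⟩ : ∃ u, u = p i₀ + p i₁ + p i₂ := ⟨_, rfl⟩
  obtain ⟨b, hb⟩ : ∃ b, b = p i₀ + ω • p i₁ := ⟨_, rfl⟩
  have huA : u ∈ A := by rw [hu]; exact add_mem (add_mem (hpA _) (hpA _)) (hpA _)
  have hQu : Q u = 1 := by
    rw [hu, q_add hQ, q_add hQ, hQp, hQp, hQp]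
    simp only [map_add, LinearMap.add_apply, opp, n01, n02, n12, n10, n20, n21, ne_eq, not_false_eq_true]
    linear_combination h2
  have hQb : Q b = -ω := by
    rw [hb, q_add hQ, q_smul hQ, hQp, hQp]
    simp only [map_smul, smul_eq_mul, opp, n01, n02, n12, n10, n20, n21, ne_eq, not_false_eq_true]
    linear_combination hω
  have hu1 : Q u ≠ 0 := by rw [hQu]; exact one_ne_zero
  have hw1 : Q (q i₁) ≠ 0 := by rw [hQq]; exact one_ne_zero
  have hb1 : Q b ≠ 0 := by rw [hQb]; exact neg_ne_zero.mpr hω0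
  have hstu : reflGL hQ u hu1 ∈ Cfsg.stabilizing (Cfsg.glToMat ι F) (A : Set (ι → F)) := by
    apply mem_stabilizing_of_invol _ _ (reflGL_inv hQ _ hu1)
    intro v hv
    rw [reflGL_mulVec]
    exact hrefl u huA hQu v hv
  have hstw : reflGL hQ (q i₁) hw1 ∈ Cfsg.stabilizing (Cfsg.glToMat ι F) (A : Set (ι → F)) := by
    apply mem_stabilizing_of_invol _ _ (reflGL_inv hQ _ hw1)
    intro v hv
    rw [reflGL_mulVec]
    exact hrefl _ (hqA i₁) (hQq i₁) v hv
  refine between_of_witness D (A : Set (ι → F)) hfwd ⁅reflGL hQ u hu1, reflGL hQ (q i₁) hw1⁆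
    (comm_mem_omega (reflGL_mem hQ _ hu1) (reflGL_mem hQ _ hw1)) ?_ ?_
    ⁅reflGL hQ (q i₁) hw1, reflGL hQ b hb1⁆
    (comm_mem_omega (reflGL_mem hQ _ hw1) (reflGL_mem hQ _ hb1)) ?_
  · rw [commutatorElement_def]
    exact Subgroup.mul_mem _ (Subgroup.mul_mem _ (Subgroup.mul_mem _ hstu hstw)
      (Subgroup.inv_mem _ hstu)) (Subgroup.inv_mem _ hstw)
  · rintro ⟨σ, hσ⟩
    have bq1u : polB hQ (q i₁) u = 1 := by
      rw [hu]
      simp only [map_add, bqp, oqp, n01, n02, n12, n10, n20, n21, ne_eq, not_false_eq_true]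
      ring
    have buq1 : polB hQ u (q i₁) = 1 := by rw [polB_comm]; exact bq1u
    have buu : polB hQ u u = 0 := by rw [polB_self, hQu]; linear_combination h2
    have c1 : ((⁅reflGL hQ u hu1, reflGL hQ (q i₁) hw1⁆ : GL ι F) : Matrix ι ι F) *ᵥ q i₁ =
        q i₁ - u + q i₁ := by
      have r1 : reflLin hQ (q i₁) (q i₁) = q i₁ := by
        rw [reflLin_apply, bqq, mul_zero, zero_smul, sub_zero]
      have r2 : reflLin hQ u (q i₁) = q i₁ - u := by
        rw [reflLin_apply, hQu, bq1u]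
        module
      have r3 : reflLin hQ (q i₁) (q i₁ - u) = q i₁ - u + q i₁ := by
        rw [reflLin_apply, hQq]
        simp only [map_sub, LinearMap.sub_apply, bqq, buq1]
        module
      have r4 : reflLin hQ u (q i₁ - u + q i₁) = q i₁ - u + q i₁ := by
        rw [reflLin_apply, hQu]
        simp only [map_add, map_sub, LinearMap.add_apply, LinearMap.sub_apply, bq1u, buu]
        have : ((1 : F)⁻¹ * (1 - 0 + 1)) = 0 := by linear_combination h2
        rw [this]
        module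
      rw [comm_refl_mulVec, r1, r2, r3, r4]
    have m1 : q i₁ - u + q i₁ ∈ D (σ i₁) := by
      rw [← hσ i₁]
      exact ⟨q i₁, hqD i₁, by rw [Matrix.toLin'_apply, c1]⟩
    have p0 : polB hQ (q i₁ - u + q i₁) (q i₀) = -1 := by
      rw [hu]
      simp only [map_add, map_sub, LinearMap.add_apply, LinearMap.sub_apply, bpq, bqq, opq, oqq, n01, n02,
        n12, n10, n20, n21, ne_eq, not_false_eq_true]
      ring
    have p1 : polB hQ (q i₁ - u + q i₁) (q i₁) = -1 := by
      rw [hu]
      simp only [map_add, map_sub, LinearMap.add_apply, LinearMap.sub_apply, bpq, bqq, opq, oqq, n01, n02,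
        n12, n10, n20, n21, ne_eq, not_false_eq_true]
      ring
    have hσ0 : σ i₁ = i₀ := by
      by_contra hne
      have := horth (σ i₁) i₀ hne _ m1 _ (hqD i₀)
      rw [p0] at this
      exact one_ne_zero (neg_eq_zero.mp this)
    rw [hσ0] at m1
    have := horth i₀ i₁ n01 _ m1 _ (hqD i₁)
    rw [p1] at this
    exact one_ne_zero (neg_eq_zero.mp this)
  · intro hst
    have hin := ((mem_stabilizing_iff _ _).mp hst (q i₀)).mp (hqA i₀)
    rw [comm_refl_mulVec, refl_conj hQ _ _ hb1] at hin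
    -- the conjugated vector
    have bab : polB hQ (q i₁) b = ω := by
      rw [hb]
      simp only [map_add, map_smul, smul_eq_mul, bqp, oqp, n01, n02, n12, n10, n20, n21, ne_eq,
        not_false_eq_true]
      ring
    have hc : reflLin hQ b (q i₁) = q i₁ + b := by
      rw [reflLin_apply, hQb, bab]
      have : (-ω)⁻¹ * ω = -1 := by field_simp
      rw [this]
      module
    rw [hc] at hin
    have hQc : Q (q i₁ + b) = 1 := by
      rw [← hc, q_reflLin hQ hb1, hQq]
    have hin2 := hrefl _ (hqA i₁) (hQq i₁) _ hin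
    rw [reflLin_invol hQ hw1] at hin2
    have bq0c : polB hQ (q i₀) (q i₁ + b) = 1 := by
      rw [hb]
      simp only [map_add, map_smul, smul_eq_mul, bqp, oqp, oqq, n01, n02, n12, n10, n20, n21, ne_eq,
        not_false_eq_true]
      ring
    rw [reflLin_apply, hQc, bq0c, inv_one, one_mul, one_smul] at hin2
    have hcA : q i₁ + b ∈ A := by
      have := sub_mem (hqA i₀) hin2
      rwa [sub_sub_cancel] at this
    have E := hA1 _ hcA (q i₁) ⟨i₁, hqD i₁, hQq i₁⟩
    have bcq : polB hQ (q i₁ + b) (q i₁) = ω := by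
      rw [hb]
      simp only [map_add, map_smul, LinearMap.add_apply, LinearMap.smul_apply, smul_eq_mul, bpq, bqq, opq,
        n01, n02, n12, n10, n20, n21, ne_eq, not_false_eq_true]
      ring
    rw [bcq] at E
    have h' : ω * (ω - 1) = 0 := by linear_combination E
    rcases mul_eq_zero.mp h' with h0 | h1
    · exact hω0 h0
    · exact hω1 (by linear_combination h1)


/-- A hyperbolic basis of a non-degenerate plus-type subspace of dimension four. -/
theorem plus4_basis (hQ : IsNondegenerateQuadraticForm Q) (W : Submodule F (ι → F))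
    (hdim : Module.finrank F W = 4) (hW : IsNondegenerateOn (QuadraticMap.polar Q) W)
    (hWp : IsPlusTypeOn Q W) :
    ∃ e₁ f₁ e₂ f₂ : ι → F, e₁ ∈ W ∧ f₁ ∈ W ∧ e₂ ∈ W ∧ f₂ ∈ W ∧ Q e₁ = 0 ∧ Q f₁ = 0 ∧ Q e₂ = 0 ∧ Q f₂ = 0 ∧
      polB hQ e₁ f₁ = 1 ∧ polB hQ e₂ f₂ = 1 ∧ polB hQ e₁ e₂ = 0 ∧ polB hQ e₁ f₂ = 0 ∧ polB hQ f₁ e₂ = 0 ∧
      polB hQ f₁ f₂ = 0 ∧ ∀ s ∈ W, ∃ α β γ δ : F, s = α • e₁ + β • f₁ + γ • e₂ + δ • f₂ := by
  obtain ⟨U, hUW, hUts, hUdim⟩ := hWp
  have hU2 : Module.finrank F U = 2 := by omega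
  have hUB : ∀ x ∈ U, ∀ y ∈ U, polB hQ x y = 0 := by
    intro x hx y hy
    rw [polB_apply]
    unfold QuadraticMap.polar
    rw [hUts _ (U.add_mem hx hy), hUts _ hx, hUts _ hy]; ring
  have hUne : U ≠ ⊥ := by
    intro hbot
    rw [hbot] at hU2
    simp at hU2
  obtain ⟨e₁, he₁U, he₁0⟩ := Submodule.exists_mem_ne_zero_of_ne_bot hUne
  have he₁ : Q e₁ = 0 := hUts _ he₁U
  have he₁W : e₁ ∈ W := hUW he₁U
  obtain ⟨⟨y, hyW, hy⟩, -⟩ := hW _ he₁W he₁0
  obtain ⟨f₁, hf₁W, hf₁, hef₁⟩ : ∃ f : ι → F, f ∈ W ∧ Q f = 0 ∧ polB hQ e₁ f = 1 := by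
    obtain ⟨a, b, hf, hef⟩ := exists_partner hQ e₁ y he₁ hy
    exact ⟨_, W.add_mem (W.smul_mem _ hyW) (W.smul_mem _ he₁W), hf, hef⟩
  have bfe₁ : polB hQ f₁ e₁ = 1 := by rw [polB_comm]; exact hef₁
  have bee₁ : polB hQ e₁ e₁ = 0 := by rw [polB_self, he₁, mul_zero]
  have bff₁ : polB hQ f₁ f₁ = 0 := by rw [polB_self, hf₁, mul_zero]
  have hnotle : ¬ U ≤ Submodule.span F {e₁} := by
    intro hle
    have h1 := Submodule.finrank_mono hle
    have h5 : Module.finrank F (Submodule.span F {e₁}) = 1 := finrank_span_singleton he₁0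
    omega
  obtain ⟨w, hwU, hw⟩ := SetLike.not_le_iff_exists.mp hnotle
  obtain ⟨e₂, he₂U, he₂0, he₂f₁⟩ : ∃ e₂ : ι → F, e₂ ∈ U ∧ e₂ ≠ 0 ∧ polB hQ e₂ f₁ = 0 := by
    refine ⟨w - polB hQ w f₁ • e₁, U.sub_mem hwU (U.smul_mem _ he₁U), ?_, ?_⟩
    · intro h
      apply hw
      rw [sub_eq_zero] at h
      rw [h]
      exact Submodule.smul_mem _ _ (Submodule.mem_span_singleton_self e₁)
    · simp only [map_sub, map_smul, LinearMap.sub_apply, LinearMap.smul_apply, smul_eq_mul, hef₁]
      ring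
  have he₂ : Q e₂ = 0 := hUts _ he₂U
  have he₂W : e₂ ∈ W := hUW he₂U
  have be₁e₂ : polB hQ e₁ e₂ = 0 := hUB _ he₁U _ he₂U
  have be₂e₁ : polB hQ e₂ e₁ = 0 := hUB _ he₂U _ he₁U
  have bf₁e₂ : polB hQ f₁ e₂ = 0 := by rw [polB_comm]; exact he₂f₁
  have bee₂ : polB hQ e₂ e₂ = 0 := by rw [polB_self, he₂, mul_zero]
  obtain ⟨⟨y₂, hy₂W, hy₂⟩, -⟩ := hW _ he₂W he₂0
  obtain ⟨y', hy'W, hy'e₂, hy'e₁, hy'f₁⟩ : ∃ y' : ι → F, y' ∈ W ∧ polB hQ y' e₂ ≠ 0 ∧ polB hQ y' e₁ = 0 ∧
      polB hQ y' f₁ = 0 := by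
    refine ⟨y₂ - polB hQ y₂ f₁ • e₁ - polB hQ y₂ e₁ • f₁,
      W.sub_mem (W.sub_mem hy₂W (W.smul_mem _ he₁W)) (W.smul_mem _ hf₁W), ?_, ?_, ?_⟩
    · have hy₂' : polB hQ y₂ e₂ ≠ 0 := hy₂
      simp only [map_sub, map_smul, LinearMap.sub_apply, LinearMap.smul_apply, smul_eq_mul, be₁e₂, bf₁e₂]
      simpa using hy₂'
    · simp only [map_sub, map_smul, LinearMap.sub_apply, LinearMap.smul_apply, smul_eq_mul, bee₁, bfe₁]
      ring
    · simp only [map_sub, map_smul, LinearMap.sub_apply, LinearMap.smul_apply, smul_eq_mul, bff₁, hef₁]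
      ring
  obtain ⟨f₂, hf₂W, hf₂, hef₂, hf₂e₁, hf₂f₁⟩ : ∃ f₂ : ι → F, f₂ ∈ W ∧ Q f₂ = 0 ∧ polB hQ e₂ f₂ = 1 ∧
      polB hQ f₂ e₁ = 0 ∧ polB hQ f₂ f₁ = 0 := by
    obtain ⟨a', b', hf', he'f'⟩ := exists_partner hQ e₂ y' he₂ hy'e₂
    refine ⟨_, W.add_mem (W.smul_mem _ hy'W) (W.smul_mem _ he₂W), hf', he'f', ?_, ?_⟩
    · simp only [map_add, map_smul, LinearMap.add_apply, LinearMap.smul_apply, smul_eq_mul, hy'e₁, be₂e₁]
      ring
    · simp only [map_add, map_smul, LinearMap.add_apply, LinearMap.smul_apply, smul_eq_mul, hy'f₁, he₂f₁]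
      ring
  have be₁f₂ : polB hQ e₁ f₂ = 0 := by rw [polB_comm]; exact hf₂e₁
  have bf₁f₂ : polB hQ f₁ f₂ = 0 := by rw [polB_comm]; exact hf₂f₁
  have bfe₂ : polB hQ f₂ e₂ = 1 := by rw [polB_comm]; exact hef₂
  have bff₂ : polB hQ f₂ f₂ = 0 := by rw [polB_self, hf₂, mul_zero]
  have hli : LinearIndependent F ![e₁, f₁, e₂, f₂] := by
    rw [Fintype.linearIndependent_iff]
    intro g hg
    rw [Fin.sum_univ_four] at hg
    simp only [Matrix.cons_val_zero, Matrix.cons_val_one, Matrix.cons_val_two, Matrix.cons_val_three,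
      Matrix.head_cons, Matrix.tail_cons] at hg
    have h0 := congrArg (fun z => polB hQ z f₁) hg
    simp only [map_add, map_smul, LinearMap.add_apply, LinearMap.smul_apply, smul_eq_mul, hef₁, bff₁,
      he₂f₁, hf₂f₁, LinearMap.zero_apply, map_zero, mul_zero, add_zero, mul_one] at h0
    have h1 := congrArg (fun z => polB hQ z e₁) hg
    simp only [map_add, map_smul, LinearMap.add_apply, LinearMap.smul_apply, smul_eq_mul, bee₁, bfe₁,
      be₂e₁, hf₂e₁, LinearMap.zero_apply, map_zero, mul_zero, add_zero, zero_add, mul_one] at h1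
    have h2 := congrArg (fun z => polB hQ z f₂) hg
    simp only [map_add, map_smul, LinearMap.add_apply, LinearMap.smul_apply, smul_eq_mul, be₁f₂, bf₁f₂,
      hef₂, bff₂, LinearMap.zero_apply, map_zero, mul_zero, add_zero, zero_add, mul_one] at h2
    have h3 := congrArg (fun z => polB hQ z e₂) hg
    simp only [map_add, map_smul, LinearMap.add_apply, LinearMap.smul_apply, smul_eq_mul, be₁e₂, bf₁e₂,
      bee₂, bfe₂, LinearMap.zero_apply, map_zero, mul_zero, add_zero, zero_add, mul_one] at h3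
    intro i
    fin_cases i
    · exact h0
    · exact h1
    · exact h2
    · exact h3
  have hspan : Submodule.span F (Set.range ![e₁, f₁, e₂, f₂]) = W := by
    apply Submodule.eq_of_le_of_finrank_eq
    · rw [Submodule.span_le]
      rintro z ⟨i, rfl⟩
      fin_cases i
      · exact he₁W
      · exact hf₁W
      · exact he₂W
      · exact hf₂W
    · rw [hdim, finrank_span_eq_card hli]
      simp
  refine ⟨e₁, f₁, e₂, f₂, he₁W, hf₁W, he₂W, hf₂W, he₁, hf₁, he₂, hf₂, hef₁, hef₂, be₁e₂, be₁f₂, bf₁e₂,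
    bf₁f₂, ?_⟩
  intro s hs
  rw [← hspan] at hs
  obtain ⟨c, hc⟩ := (Submodule.mem_span_range_iff_exists_fun F).mp hs
  rw [Fin.sum_univ_four] at hc
  simp only [Matrix.cons_val_zero, Matrix.cons_val_one, Matrix.cons_val_two, Matrix.cons_val_three,
    Matrix.head_cons, Matrix.tail_cons] at hc
  exact ⟨c 0, c 1, c 2, c 3, hc.symm⟩

end Cfsg.Agent.Helper94
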