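import Cfsg.Agent.Helper94.UMax

/-!
# CALL S5798 (helper71), piece UA (helper94): the unitary-form lemmas of `UForm.lean` in dimension `≥ 6`
-/

set_option autoImplicit false
set_option linter.unusedSectionVars false
set_option linter.unusedSimpArgs false
set_option linter.unusedVariables false

namespace Cfsg.Agent.Helper94.S6UA

open Cfsg Cfsg.Geo Matrix Cfsg.Agent.Helper94

universe u

variable {F : Type u} [Field F] {ι : Type} [Fintype ι] [DecidableEq ι]
variable {σ : F ≃+* F} {f : (ι → F) → (ι → F) → F}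

theorem uf_exists_aniso_crit (h : UF σ f) {k : ℕ} (v : Fin k → ι → F)
    (hk : 2 * k ≤ Fintype.card ι) (i j : Fin k) (hij : f (v i) (v j) ≠ 0) :
    ∃ z, f z z ≠ 0 ∧ ∀ i, f z (v i) = 0 := by
  by_contra hcon
  push Not at hcon
  have hiso : ∀ z, (∀ i, f z (v i) = 0) → f z z = 0 := fun z hz => by
    by_contra h0
    obtain ⟨i, hi⟩ := hcon z h0
    exact hi (hz i)
  let L : (ι → F) →ₗ[F] (Fin k → F) := LinearMap.pi (fun i => h.fl (v i))
  have hmemU : ∀ z, z ∈ LinearMap.ker L ↔ ∀ i, f z (v i) = 0 := by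
    intro z
    rw [LinearMap.mem_ker]
    constructor
    · intro hz i
      exact congrFun hz i
    · intro hz
      ext i
      exact hz i
  have hpol : ∀ u w, u ∈ LinearMap.ker L → w ∈ LinearMap.ker L → f u w = 0 := by
    intro u w hu hw
    apply uf_eq_zero_of_tr σ h.ne_id
    intro l
    have h1 := hiso (l • u + w)
      ((hmemU _).mp (Submodule.add_mem _ (Submodule.smul_mem _ l hu) hw))
    have h2 := hiso u ((hmemU _).mp hu)
    have h3 := hiso w ((hmemU _).mp hw)
    rw [h.add_left, h.add_right, h.add_right, h.smul_left, h.smul_left, h.smul_right,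
      h.smul_right, h2, h3] at h1
    rw [map_mul, h.sigma_apply u w]
    linear_combination h1
  have hsp : LinearMap.ker L ≤ Submodule.span F (Set.range v) := by
    intro u hu
    have hker : ⨅ i, LinearMap.ker (h.fl (v i)) ≤ LinearMap.ker (h.fl u) := by
      intro x hx
      rw [Submodule.mem_iInf] at hx
      rw [LinearMap.mem_ker, UF.fl_apply]
      apply hpol x u _ hu
      rw [hmemU]
      intro i
      exact LinearMap.mem_ker.mp (hx i)
    have := mem_span_of_iInf_ker_le_ker hker
    obtain ⟨c, hc⟩ := (Submodule.mem_span_range_iff_exists_fun F).mp this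
    have hu' : u = ∑ i, σ (c i) • v i := by
      apply h.ext_right
      intro x
      have := LinearMap.congr_fun hc x
      rw [UF.fl_apply] at this
      rw [← this, h.sum_right]
      simp [LinearMap.sum_apply, h.smul_right, h.invol, UF.fl_apply]
    rw [hu']
    exact Submodule.sum_mem _ (fun i _ => Submodule.smul_mem _ _ (Submodule.subset_span ⟨i, rfl⟩))
  have h1 : Module.finrank F (Submodule.span F (Set.range v)) ≤ k := by
    calc Module.finrank F (Submodule.span F (Set.range v))
        ≤ Fintype.card (Fin k) := finrank_range_le_card v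
      _ = k := Fintype.card_fin k
  have h2 := LinearMap.finrank_range_add_finrank_ker L
  have h3 : Module.finrank F (LinearMap.range L) ≤ k := by
    calc Module.finrank F (LinearMap.range L)
        ≤ Module.finrank F (Fin k → F) := Submodule.finrank_le _
      _ = k := by simp
  have h4 : Module.finrank F (ι → F) = Fintype.card ι := Module.finrank_pi F
  have h5 : Module.finrank F (Submodule.span F (Set.range v)) ≤
      Module.finrank F (LinearMap.ker L) := by omega
  have heq : LinearMap.ker L = Submodule.span F (Set.range v) :=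
    Submodule.eq_of_le_of_finrank_le hsp h5
  have hvi : v i ∈ LinearMap.ker L := by rw [heq]; exact Submodule.subset_span ⟨i, rfl⟩
  have hvj : v j ∈ LinearMap.ker L := by rw [heq]; exact Submodule.subset_span ⟨j, rfl⟩
  exact hij (hpol _ _ hvi hvj)

theorem uf_exists_iso_both6 [Finite F] (h : UF σ f) (hn : 5 < Fintype.card ι)
    (a y₁ y₂ : ι → F) (h1 : f y₁ a = 0) (h1' : ¬ ∃ l : F, y₁ = l • a) (h2 : f y₂ a = 0)
    (h2' : ¬ ∃ l : F, y₂ = l • a) :
    ∃ c, f c c = 0 ∧ f c a = 0 ∧ f y₁ c ≠ 0 ∧ f y₂ c ≠ 0 := by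
  have key : ∀ y, ¬ (∃ l : F, y = l • a) → ∃ x, f x a = 0 ∧ f y x ≠ 0 := by
    intro y hy
    by_contra hcon
    push Not at hcon
    exact hy (h.mem_line_of_perp fun x hx => h.swap_zero (hcon x hx))
  obtain ⟨x₁, hx₁a, hx₁⟩ := key y₁ h1'
  obtain ⟨x₂, hx₂a, hx₂⟩ := key y₂ h2'
  obtain ⟨x, hxa, hx1, hx2⟩ : ∃ x, f x a = 0 ∧ f y₁ x ≠ 0 ∧ f y₂ x ≠ 0 := by
    by_cases e1 : f y₂ x₁ = 0
    · by_cases e2 : f y₁ x₂ = 0
      · refine ⟨x₁ + x₂, by rw [h.add_left, hx₁a, hx₂a, add_zero], ?_, ?_⟩
        · rw [h.add_right, e2, add_zero]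
          exact hx₁
        · rw [h.add_right, e1, zero_add]
          exact hx₂
      · exact ⟨x₂, hx₂a, e2, hx₂⟩
    · exact ⟨x₁, hx₁a, hx₁, e1⟩
  by_cases hxx : f x x = 0
  · exact ⟨x, hxx, hxa, hx1, hx2⟩
  obtain ⟨z, hzz, hz⟩ := uf_exists_aniso_crit h ![a, x, y₁] (by omega) 2 1 (by simpa using hx1)
  have hza : f z a = 0 := by simpa using hz 0
  have hzx : f z x = 0 := by simpa using hz 1
  have hz1 : f z y₁ = 0 := by simpa using hz 2
  have hxz : f x z = 0 := h.swap_zero hzx
  obtain ⟨l, hl⟩ := h.exists_iso_add hxz hzz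
  have hexp : ∀ m : F, f (x + m • z) (x + m • z) = f x x + m * σ m * f z z := by
    intro m
    simp only [h.add_left, h.add_right, h.smul_left, h.smul_right, hxz, hzx]
    ring
  have hl' : f x x + l * σ l * f z z = 0 := by rw [← hexp]; exact hl
  have hl0 : l ≠ 0 := by
    rintro rfl
    apply hxx
    rw [← hl']
    ring
  have hσl0 : σ l ≠ 0 := fun h0 => hl0 (by
    have := congrArg σ h0
    rwa [h.invol, map_zero] at this)
  obtain ⟨w, hw⟩ := h.ne_id
  have hw0 : w ≠ 0 := by
    rintro rfl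
    exact hw (map_zero σ)
  have hσw0 : σ w ≠ 0 := fun h0 => hw0 (by
    have := congrArg σ h0
    rwa [h.invol, map_zero] at this)
  obtain ⟨u, hu⟩ : ∃ u : F, u = w / σ w := ⟨_, rfl⟩
  have hu1 : u * σ u = 1 := by
    rw [hu, map_div₀, h.invol]
    field_simp
  have hune : σ u ≠ 1 := by
    intro h1u
    have : u = 1 := by
      have := congrArg σ h1u
      rwa [h.invol, map_one] at this
    rw [hu, div_eq_one_iff_eq hσw0] at this
    exact hw this.symm
  have hy1 : ∀ m : F, f y₁ (x + m • z) = f y₁ x := by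
    intro m
    rw [h.add_right, h.smul_right, h.swap_zero hz1, mul_zero, add_zero]
  have hca : ∀ m : F, f (x + m • z) a = 0 := by
    intro m
    rw [h.add_left, h.smul_left, hxa, hza, mul_zero, add_zero]
  have hy2 : ∀ m : F, f y₂ (x + m • z) = f y₂ x + σ m * f y₂ z := by
    intro m
    rw [h.add_right, h.smul_right]
  by_cases e : f y₂ x + σ l * f y₂ z = 0
  · refine ⟨x + (u * l) • z, ?_, hca _, ?_, ?_⟩
    · rw [hexp, map_mul]
      linear_combination hl' + (l * σ l * f z z) * hu1
    · rw [hy1]; exact hx1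
    · rw [hy2, map_mul]
      intro e'
      have hyz : f y₂ z ≠ 0 := by
        intro h0
        apply hx2
        rw [h0, mul_zero, add_zero] at e
        exact e
      have : (σ u - 1) * (σ l * f y₂ z) = 0 := by linear_combination e' - e
      rcases mul_eq_zero.mp this with h' | h'
      · exact hune (sub_eq_zero.mp h')
      · exact mul_ne_zero hσl0 hyz h'
  · refine ⟨x + l • z, hl, hca _, ?_, ?_⟩
    · rw [hy1]; exact hx1
    · rw [hy2]; exact e

theorem uf_exists_iso_sum6 [Finite F] (h : UF σ f) (hn : 5 < Fintype.card ι)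
    (a v : ι → F) (hva : f v a = 0) :
    ∃ c₁ c₂ : ι → F, ∃ s : F, f c₁ c₁ = 0 ∧ f c₂ c₂ = 0 ∧ f c₁ a = 0 ∧ f c₂ a = 0 ∧
      (¬ ∃ l : F, c₁ = l • a) ∧ (¬ ∃ l : F, c₂ = l • a) ∧ v = c₁ + s • c₂ := by
  by_cases hv : ∃ l : F, v = l • a
  · obtain ⟨l, rfl⟩ := hv
    obtain ⟨z, hzz, hz⟩ := h.exists_aniso ![a] (by omega)
    have hza : f z a = 0 := by simpa using hz 0
    have hzl : ¬ ∃ l : F, z = l • a := by
      rintro ⟨m, rfl⟩
      apply hzz
      rw [h.smul_right, hza, mul_zero]
    obtain ⟨c, hcc, hca, hc1, -⟩ := uf_exists_iso_both6 h hn a z z hza hzl hza hzl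
    have hcl : ¬ ∃ m : F, c = m • a := by
      rintro ⟨m, rfl⟩
      apply hc1
      rw [h.smul_right, hza, mul_zero]
    have hla : l * f a a = 0 := by
      rw [← h.smul_left]
      exact hva
    refine ⟨c + l • a, c, -1, ?_, hcc, ?_, hca, ?_, hcl, by module⟩
    · simp only [h.add_left, h.add_right, h.smul_left, h.smul_right, hcc, hca, h.swap_zero hca]
      linear_combination σ l * hla
    · rw [h.add_left, h.smul_left, hca, zero_add]
      exact hla
    · rintro ⟨m, hm⟩
      exact hcl ⟨m - l, by rw [sub_smul, ← hm]; module⟩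
  · obtain ⟨c, hcc, hca, hvc, -⟩ := uf_exists_iso_both6 h hn a v v hva hv hva hv
    have hcl : ¬ ∃ m : F, c = m • a := by
      rintro ⟨m, rfl⟩
      apply hvc
      rw [h.smul_right, hva, mul_zero]
    obtain ⟨γ, hγ, hγ0⟩ : ∃ γ : F, γ + σ γ = f v v ∧ σ γ ≠ 0 := by
      by_cases hvv : f v v = 0
      · obtain ⟨ν, hν0, hν⟩ := uf_exists_tr0 σ h.invol h.ne_id
        exact ⟨ν, by rw [hν, hvv]; ring, by rw [hν]; exact neg_ne_zero.mpr hν0⟩
      · obtain ⟨γ, hγ⟩ := uf_exists_tr σ h.invol h.ne_id (f v v) (h.self_fix v)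
        refine ⟨γ, hγ, fun h0 => hvv ?_⟩
        have : γ = 0 := by
          have := congrArg σ h0
          rwa [h.invol, map_zero] at this
        rw [← hγ, h0, this, add_zero]
    obtain ⟨s, hs⟩ : ∃ s : F, σ s * f v c = γ :=
      ⟨σ (γ / f v c), by rw [h.invol, div_mul_cancel₀ _ hvc]⟩
    have e : s * f c v = σ γ := by
      rw [← hs, map_mul, h.invol, h.sigma_apply v c]
    refine ⟨v - s • c, c, s, ?_, hcc, ?_, hca, ?_, hcl, by module⟩
    · simp only [h.sub_left, h.sub_right, h.smul_left, h.smul_right, hcc]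
      linear_combination -hγ - hs - e
    · rw [h.sub_left, h.smul_left, hva, hca, mul_zero, sub_zero]
    · rintro ⟨m, hm⟩
      have e1 : f v (v - s • c) = σ γ := by
        rw [h.sub_right, h.smul_right, hs, ← hγ]
        ring
      rw [hm, h.smul_right, hva, mul_zero] at e1
      exact hγ0 e1.symm

end Cfsg.Agent.Helper94.S6UA
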