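import Mathlib
import Cfsg.Prelude.Def_GeometricClasses
import Cfsg.Prelude.Def_Classical
import Cfsg.Agent.Helper35.S88Defs
import Cfsg.Agent.Helper58.TSDefs
import Cfsg.Agent.Helper35.TBFULL
import Cfsg.Agent.Helper43.TBXISO
import Cfsg.Agent.Helper37.TBBLKO
import Cfsg.Agent.Helper37.TBBLKE

set_option autoImplicit false
set_option linter.unusedVariables false

/-!
# CALL S88 (row S5988; top architect helper90), stage NDIV, the model (helper94)

`ndiv_exists_S`: from a block `(V₁, Q₁, T₁)` (an isometry killed by the `r`-th cyclotomic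
polynomial) build an isometry `S` of the given plus-type form `Q` with `S ^ r = 1`, with fixed
space of dimension at most `2 (μ + κ)` and containing an elliptic `2 μ`-space.  The model is
`(E × Y) × V₁`, `E` the standard minus space of dimension `2 μ`, `Y` a standard space of dimension
`2 κ` whose type makes the total space of plus type, transferred to `Q` by the classification
(`tb_xiso`).

`ndiv_maxel`: the element with maximal profile for the hypotheses of `s88_ndiv`.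
-/

namespace Cfsg.Agent.Helper94.S88

open Module Polynomial Cfsg Cfsg.Geo Cfsg.Agent.Helper58.TS
open Cfsg.Agent.Helper43 Cfsg.Agent.Helper43.OrthEven Cfsg.Agent.Helper43.CycFactors
  Cfsg.Agent.Helper43.PrimeOrdMat
open scoped MatrixGroups

universe u

section model

variable {F : Type u} [Field F] [Fintype F]

theorem ndiv_exists_S {ι : Type} [Fintype ι] [DecidableEq ι] (Q : (ι → F) → F)
    (hQ : IsNondegenerateQuadraticForm Q) (d : ℕ) (hcard : Fintype.card ι = 2 * d)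
    (hplus : IsPlusTypeOn Q ⊤) (r : ℕ) [Fact r.Prime] (hrF : (r : F) ≠ 0)
    {V₁ : Type u} [AddCommGroup V₁] [Module F V₁] [FiniteDimensional F V₁]
    (Q₁ : QuadraticForm F V₁) (T₁ : Module.End F V₁) (hnd : PolarNondeg Q₁)
    (hT : ∀ v, Q₁ (T₁ v) = Q₁ v) (hcyc : aeval T₁ (cyclotomic r F) = 0) (l : ℕ)
    (hV₁ : finrank F V₁ = 2 * l) (μ κ : ℕ) (hμ : 1 ≤ μ) (hd : d = μ + κ + l)
    (hcond : 1 ≤ κ ∨ ¬ HasTS Q₁ l) :
    ∃ S : Module.End F (ι → F), (∀ v, Q (S v) = Q v) ∧ S ^ r = 1 ∧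
      finrank F (LinearMap.ker (S - 1)) ≤ 2 * (μ + κ) ∧
      ∃ W₀ : Submodule F (ι → F), (finrank F W₀ = 2 * μ ∧
        IsNondegenerateOn (QuadraticMap.polar Q) W₀ ∧ ¬ IsPlusTypeOn Q W₀) ∧
        W₀ ≤ LinearMap.ker (S - 1) := by
  classical
  have hrp : r.Prime := Fact.out
  -- the elliptic part
  obtain ⟨E, _, _, _, QE, hndE, hdimE, htypeE, -⟩ :=
    Cfsg.Agent.Helper35.TB.tb_fixed_space (F := F) μ 1 le_rfl hμ
  have hnoE : ¬ HasTS QE μ := fun h => one_ne_zero (htypeE.mp h)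
  -- the free part
  obtain ⟨ε, hε1, hεκ, hεdef⟩ : ∃ ε : ℕ, ε ≤ 1 ∧ ε ≤ κ ∧ (ε = 0 ↔ ¬ HasTS Q₁ l) := by
    by_cases h : HasTS Q₁ l
    · refine ⟨1, le_rfl, ?_, ?_⟩
      · rcases hcond with h1 | h1
        · exact h1
        · exact absurd h h1
      · constructor
        · intro h0; exact absurd h0 one_ne_zero
        · intro h0; exact absurd h h0
    · exact ⟨0, Nat.zero_le _, Nat.zero_le _, ⟨fun _ => h, fun _ => rfl⟩⟩
  obtain ⟨Y, _, _, _, QY, hndY, hdimY, htypeY, -⟩ :=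
    Cfsg.Agent.Helper35.TB.tb_fixed_space (F := F) κ ε hε1 hεκ
  -- the fixed space `E × Y`
  have hnd₀ : PolarNondeg (QE.prod QY) := Cfsg.Agent.Helper31.TB.tb_prod_nd QE QY hndE hndY
  have hdim₀ : finrank F (E × Y) = 2 * (μ + κ) := by
    rw [Module.finrank_prod, hdimE, hdimY]; ring
  have htype₀ : HasTS (QE.prod QY) (μ + κ) ↔ HasTS Q₁ l := by
    rw [Cfsg.Agent.Helper93.TB.tb_type_prod QE QY hndE hndY μ κ hdimE hdimY, htypeY, hεdef]
    constructor
    · intro h
      by_contra hh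
      exact hnoE (h.mpr hh)
    · intro h
      exact ⟨fun h' => absurd h' hnoE, fun h' => absurd h h'⟩
  -- the model
  have hnd' : PolarNondeg ((QE.prod QY).prod Q₁) :=
    Cfsg.Agent.Helper31.TB.tb_prod_nd _ Q₁ hnd₀ hnd
  have hdim' : finrank F ((E × Y) × V₁) = 2 * d := by
    rw [Module.finrank_prod, hdim₀, hV₁, hd]; ring
  have htype' : HasTS ((QE.prod QY).prod Q₁) d ↔ (0 : ℕ) = 0 := by
    have h := Cfsg.Agent.Helper93.TB.tb_type_prod (QE.prod QY) Q₁ hnd₀ hnd (μ + κ) l hdim₀ hV₁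
    rw [hd, h, htype₀]
    exact ⟨fun _ => rfl, fun _ => Iff.rfl⟩
  obtain ⟨T, hTdef⟩ : ∃ T : Module.End F ((E × Y) × V₁),
      T = (1 : Module.End F (E × Y)).prodMap T₁ := ⟨_, rfl⟩
  have hTapp : ∀ v : (E × Y) × V₁, T v = (v.1, T₁ v.2) := by
    intro v
    rw [hTdef]
    rfl
  have hXr : (X ^ r - 1 : F[X]) = cyclotomic r F * (X - 1) :=
    (cyclotomic_prime_mul_X_sub_one F r).symm
  have hT₁r : aeval T₁ (X ^ r - 1 : F[X]) = 0 := by
    rw [hXr, map_mul, hcyc, zero_mul]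
  have hTr : T ^ r = 1 := by
    have h1 : aeval T (X ^ r - 1 : F[X]) = 0 := by
      rw [hTdef, Cfsg.Agent.Helper98.TB.tb_aeval_prod, hT₁r]
      have h2 : aeval (1 : Module.End F (E × Y)) (X ^ r - 1 : F[X]) = 0 := by simp
      rw [h2]
      exact LinearMap.prodMap_zero
    have h3 : aeval T (X ^ r - 1 : F[X]) = T ^ r - 1 := by simp
    rw [h3] at h1
    exact sub_eq_zero.mp h1
  have hTQ : ∀ v, ((QE.prod QY).prod Q₁) (T v) = ((QE.prod QY).prod Q₁) v := by
    intro v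
    simp only [hTapp, QuadraticMap.prod_apply, hT]
  have hTfix : ∀ v : (E × Y) × V₁, T v = v → v.2 = 0 := by
    intro v hv
    have h2 : T₁ v.2 = v.2 := by
      have h := congrArg Prod.snd hv
      rw [hTapp] at h
      exact h
    by_contra hne
    have hev : T₁.HasEigenvector 1 v.2 :=
      ⟨Module.End.mem_eigenspace_iff.mpr (by rw [h2, one_smul]), hne⟩
    have h5 := Module.End.aeval_apply_of_hasEigenvector hev (p := cyclotomic r F)
    rw [hcyc, eval_one_cyclotomic_prime, LinearMap.zero_apply] at h5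
    rcases smul_eq_zero.mp h5.symm with h6 | h6
    · exact hrF h6
    · exact hne h6
  -- transfer to `Q`
  obtain ⟨Φ, hΦ⟩ := Cfsg.Agent.Helper43.TB.tb_xiso Q hQ d 0 (by omega) hcard
    (typeDefect_plus hplus) ((QE.prod QY).prod Q₁) hnd' hdim' htype'
  obtain ⟨S, hSdef⟩ : ∃ S : Module.End F (ι → F),
      S = Φ.toLinearMap ∘ₗ T ∘ₗ Φ.symm.toLinearMap := ⟨_, rfl⟩
  have hSapp : ∀ x, S x = Φ (T (Φ.symm x)) := by
    intro x
    rw [hSdef]
    rfl
  have hSpow : ∀ n : ℕ, ∀ x, (S ^ n) x = Φ ((T ^ n) (Φ.symm x)) := by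
    intro n
    induction n with
    | zero =>
      intro x
      rw [pow_zero, pow_zero, Module.End.one_apply, Module.End.one_apply,
        LinearEquiv.apply_symm_apply]
    | succ n ih =>
      intro x
      rw [pow_succ, Module.End.mul_apply, ih, hSapp, LinearEquiv.symm_apply_apply, pow_succ,
        Module.End.mul_apply]
  have hSQ : ∀ v, Q (S v) = Q v := by
    intro v
    rw [hSapp, hΦ, hTQ, ← hΦ, LinearEquiv.apply_symm_apply]
  have hSr : S ^ r = 1 := by
    apply LinearMap.ext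
    intro x
    rw [hSpow, hTr, Module.End.one_apply, LinearEquiv.apply_symm_apply, Module.End.one_apply]
  -- the fixed space
  obtain ⟨ψ₀, hψ₀def⟩ : ∃ ψ₀ : (E × Y) →ₗ[F] (ι → F),
      ψ₀ = Φ.toLinearMap ∘ₗ LinearMap.inl F (E × Y) V₁ := ⟨_, rfl⟩
  have hψ₀app : ∀ a : E × Y, ψ₀ a = Φ (a, 0) := by
    intro a
    rw [hψ₀def]
    rfl
  have hψ₀inj : Function.Injective ψ₀ := by
    intro a b hab
    rw [hψ₀app, hψ₀app] at hab
    have h := Φ.injective hab
    exact (Prod.mk.inj h).1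
  have hker : LinearMap.ker (S - 1) ≤ LinearMap.range ψ₀ := by
    intro x hx
    rw [LinearMap.mem_ker, LinearMap.sub_apply, Module.End.one_apply, sub_eq_zero, hSapp] at hx
    have h1 : T (Φ.symm x) = Φ.symm x := by
      have h := congrArg Φ.symm hx
      rw [LinearEquiv.symm_apply_apply] at h
      exact h
    have h2 := hTfix _ h1
    refine ⟨(Φ.symm x).1, ?_⟩
    rw [hψ₀app]
    have h3 : ((Φ.symm x).1, (0 : V₁)) = Φ.symm x := by
      rw [← h2]
    rw [h3, LinearEquiv.apply_symm_apply]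
  have hfin : finrank F (LinearMap.ker (S - 1)) ≤ 2 * (μ + κ) := by
    have h1 := Submodule.finrank_mono hker
    rw [LinearMap.finrank_range_of_inj hψ₀inj, hdim₀] at h1
    exact h1
  -- the elliptic subspace
  obtain ⟨ψ, hψdef⟩ : ∃ ψ : E →ₗ[F] (ι → F), ψ = ψ₀ ∘ₗ LinearMap.inl F E Y := ⟨_, rfl⟩
  have hψapp : ∀ e : E, ψ e = Φ ((e, 0), 0) := by
    intro e
    rw [hψdef, LinearMap.comp_apply, hψ₀app]
    rfl
  have hψinj : Function.Injective ψ := by
    intro a b hab
    rw [hψapp, hψapp] at hab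
    have h := Φ.injective hab
    exact (Prod.mk.inj (Prod.mk.inj h).1).1
  have hψQ : ∀ e : E, Q (ψ e) = QE e := by
    intro e
    rw [hψapp, hΦ]
    simp only [QuadraticMap.prod_apply, map_zero, add_zero]
  have hψpol : ∀ e e' : E, QuadraticMap.polar Q (ψ e) (ψ e') = QuadraticMap.polar QE e e' := by
    intro e e'
    unfold QuadraticMap.polar
    rw [← map_add, hψQ, hψQ, hψQ]
  refine ⟨S, hSQ, hSr, hfin, LinearMap.range ψ, ⟨?_, ?_, ?_⟩, ?_⟩
  · rw [LinearMap.finrank_range_of_inj hψinj, hdimE]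
  · rintro _ ⟨e, rfl⟩ hne
    have he : e ≠ 0 := by
      rintro rfl
      exact hne (map_zero ψ)
    have hex : ∃ e' : E, QuadraticMap.polar QE e e' ≠ 0 := by
      by_contra hcon
      push Not at hcon
      exact he (hndE e hcon)
    obtain ⟨e', he'⟩ := hex
    refine ⟨⟨ψ e', ⟨e', rfl⟩, ?_⟩, ⟨ψ e', ⟨e', rfl⟩, ?_⟩⟩
    · rw [QuadraticMap.polar_comm, hψpol]
      exact he'
    · rw [hψpol]
      exact he'
  · rintro ⟨U, hUW, hU0, hUdim⟩
    rw [LinearMap.finrank_range_of_inj hψinj, hdimE] at hUdim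
    apply hnoE
    refine ⟨U.comap ψ, ?_, ?_⟩
    · have h1 : (U.comap ψ).map ψ = U := Submodule.map_comap_eq_of_le hUW
      have h2 : finrank F ((U.comap ψ).map ψ) = finrank F (U.comap ψ) :=
        (Submodule.equivMapOfInjective ψ hψinj (U.comap ψ)).finrank_eq.symm
      rw [h1] at h2
      omega
    · intro e he
      rw [← hψQ]
      exact hU0 _ he
  · rintro _ ⟨e, rfl⟩
    rw [LinearMap.mem_ker, LinearMap.sub_apply, Module.End.one_apply, sub_eq_zero, hSapp, hψapp,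
      LinearEquiv.symm_apply_apply, hTapp, map_zero]

/-- the element with maximal profile under the hypotheses of `s88_ndiv`: fixed space of dimension
at most `(2 d) % c`, containing an elliptic `m`-space. -/
theorem ndiv_maxel {ι : Type} [Fintype ι] [DecidableEq ι] {p : ℕ} [Fact p.Prime] [CharP F p]
    (Q : (ι → F) → F) (hQ : IsNondegenerateQuadraticForm Q) (d m : ℕ)
    (hcard : Fintype.card ι = 2 * d) (hplus : IsPlusTypeOn Q ⊤) (hm : 2 ≤ m) (hme : Even m)
    (r : ℕ) [Fact r.Prime] (hr2 : 2 < r) (hrp : r ≠ p) (i c : ℕ)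
    (hi : i = orderOf ((Fintype.card F : ℕ) : ZMod r)) (hc : c = if Even i then i else 2 * i)
    (hk : m < (2 * d) % c ∨ (Even i ∧ m = (2 * d) % c ∧ Odd ((2 * d) / i))) :
    ∃ S : Module.End F (ι → F), (∀ v, Q (S v) = Q v) ∧ S ^ r = 1 ∧
      finrank F (LinearMap.ker (S - 1)) ≤ (2 * d) % c ∧
      ∃ W₀ : Submodule F (ι → F), (finrank F W₀ = m ∧
        IsNondegenerateOn (QuadraticMap.polar Q) W₀ ∧ ¬ IsPlusTypeOn Q W₀) ∧
        W₀ ≤ LinearMap.ker (S - 1) := by
  classical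
  have hr : r.Prime := Fact.out
  have hrF : (r : F) ≠ 0 := natCast_ne_zero_of_ne (p := p) hr hrp
  have hipos : 0 < i := by rw [hi]; exact orderOf_pos_of_card (p := p) rfl hr hrp
  obtain ⟨μ, hμ⟩ := hme
  by_cases hodd : Odd i
  · have hc' : c = 2 * i := by rw [hc, if_neg (Nat.not_even_iff_odd.mpr hodd)]
    have hmod : (2 * d) % c = 2 * (d % i) := by rw [hc', Nat.mul_mod_mul_left]
    have hk' : m < 2 * (d % i) := by
      rcases hk with h | ⟨h, -, -⟩
      · rw [hmod] at h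
        exact h
      · exact absurd h (Nat.not_even_iff_odd.mpr hodd)
    obtain ⟨V₁, _, _, _, Q₁, T₁, hnd₁, hT₁, hcyc₁, hfr₁, hts₁, -⟩ :=
      Cfsg.Agent.Helper37.TB.tb_blk_odd (F := F) p r hr2 hrp (by rw [← hi]; exact hodd) (d / i)
    rw [← hi] at hfr₁ hts₁
    have hdi := Nat.div_add_mod d i
    obtain ⟨S, hS, hSr, hfin, W₀, hW₀, hW₀K⟩ := ndiv_exists_S Q hQ d hcard hplus r hrF Q₁ T₁
      hnd₁ hT₁ hcyc₁ (i * (d / i)) hfr₁ μ (d % i - μ) (by omega) (by omega) (Or.inl (by omega))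
    refine ⟨S, hS, hSr, ?_, W₀, ?_, hW₀K⟩
    · rw [hmod]
      have h : 2 * (μ + (d % i - μ)) = 2 * (d % i) := by omega
      omega
    · have h : m = 2 * μ := by omega
      rw [h]
      exact hW₀
  · have heven : Even i := Nat.not_odd_iff_even.mp hodd
    have hc' : c = i := by rw [hc, if_pos heven]
    obtain ⟨j, hj⟩ := heven
    have hjpos : 0 < j := by omega
    have hi2 : i / 2 = j := by omega
    have hij : i = 2 * j := by omega
    have hmod : (2 * d) % c = 2 * (d % j) := by rw [hc', hij, Nat.mul_mod_mul_left]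
    have hdiv : (2 * d) / i = d / j := by
      rw [hij, Nat.mul_div_mul_left _ _ (by norm_num : 0 < 2)]
    have hcardJ : (cycJ F r).card * i = r - 1 := by
      rw [hi]; exact cycJ_card_mul (p := p) rfl hr hrp
    obtain ⟨P, hP⟩ : ∃ P, P ∈ cycJ F r := by
      apply Finset.card_pos.mp
      rcases Nat.eq_zero_or_pos (cycJ F r).card with h0 | h0
      · rw [h0, zero_mul] at hcardJ
        omega
      · exact h0
    obtain ⟨V₁, _, _, _, Q₁, T₁, hnd₁, hT₁, hcyc₁, -, hfr₁, hts₁, -⟩ :=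
      Cfsg.Agent.Helper37.TB.tb_blk_even (F := F) p r hr2 hrp (by rw [← hi]; exact ⟨j, hj⟩) P hP
        (d / j)
    rw [← hi, hi2] at hfr₁ hts₁
    have hdj := Nat.div_add_mod d j
    have hμκ : μ ≤ d % j ∧ (1 ≤ d % j - μ ∨ ¬ HasTS Q₁ (j * (d / j))) := by
      rcases hk with h | ⟨-, h, hodd'⟩
      · rw [hmod] at h
        exact ⟨by omega, Or.inl (by omega)⟩
      · rw [hmod] at h
        rw [hdiv] at hodd'
        refine ⟨by omega, Or.inr ?_⟩
        intro hts
        exact (Nat.not_even_iff_odd.mpr hodd') (hts₁.mp hts)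
    obtain ⟨S, hS, hSr, hfin, W₀, hW₀, hW₀K⟩ := ndiv_exists_S Q hQ d hcard hplus r hrF Q₁ T₁
      hnd₁ hT₁ hcyc₁ (j * (d / j)) hfr₁ μ (d % j - μ) (by omega) (by omega) hμκ.2
    refine ⟨S, hS, hSr, ?_, W₀, ?_, hW₀K⟩
    · rw [hmod]
      have h : 2 * (μ + (d % j - μ)) = 2 * (d % j) := by omega
      omega
    · have h : m = 2 * μ := by omega
      rw [h]
      exact hW₀

end model

end Cfsg.Agent.Helper94.S88
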