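import Cfsg.Agent.Helper64.UCDefs

/-!
# CALL S2100 / S2398 (helper64), piece S1 (helper94)
-/

set_option autoImplicit false

namespace Cfsg.Agent.Helper94.STUS1

open Cfsg Cfsg.Lie Cfsg.Agent.Helper36 Cfsg.Agent.Helper64.UC

section

variable {K : Type*} [Field K] {Γ : Type*} [Group Γ] {E : Type*} [Group E]

/-- PIECE S1: one term `(k; 1, 1)`. -/
theorem s1_add (D : ChevalleyDatum) (y : ℕ → K → E)
    (hy : ∀ (r : ℕ) (t u : K), y r t * y r u = y r (t + u)) {r s k : ℕ}
    (hsig : sig D r s = [(k, 1, 1)])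
    (c : ∀ t u : K, y k u * y s t = y s t * y k u) :
    ∀ t u u' : K, y s u * sW y (D.commWord K r s t u) *
        (y s u' * sW y (D.commWord K r s t u')) =
      y s (u + u') * sW y (D.commWord K r s t (u + u')) := by
  have hct : ∃ C : ℤ, D.commTerms r s = [(k, C, 1, 1)] := by
    unfold sig at hsig
    obtain ⟨⟨a1, C1, i1, j1⟩, l1, hl, hf, hl1⟩ := List.map_eq_cons_iff.mp hsig
    rw [List.map_eq_nil_iff] at hl1
    simp only [Prod.mk.injEq] at hf
    obtain ⟨rfl, rfl, rfl⟩ := hf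
    exact ⟨C1, by rw [hl, hl1]⟩
  obtain ⟨C, hct⟩ := hct
  have hw : ∀ t u : K, D.commWord K r s t u = [(k, (C : K) * (-t) ^ 1 * u ^ 1)] := by
    intro t u
    unfold ChevalleyDatum.commWord
    rw [hct]
    rfl
  have c' : ∀ (a b : K) (z : E), y k a * (y s b * z) = y s b * (y k a * z) := fun a b z => by
    rw [← mul_assoc, c, mul_assoc]
  have hy' : ∀ (r : ℕ) (a b : K) (z : E), y r a * (y r b * z) = y r (a + b) * z := fun r a b z => by
    rw [← mul_assoc, hy]
  intro t u u'
  rw [hw, hw, hw]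
  simp only [sW_cons, sW_nil, mul_one]
  simp only [mul_assoc, c, c', hy, hy']
  congr 2
  ring

end

end Cfsg.Agent.Helper94.STUS1
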