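import Cfsg.Agent.Helper64.UCDefs

/-!
# CALL S2100 / S2398 (helper64), piece S2A (helper94)
-/

set_option autoImplicit false

namespace Cfsg.Agent.Helper94.STUS2A

open Cfsg Cfsg.Lie Cfsg.Agent.Helper36 Cfsg.Agent.Helper64.UC

section

variable {K : Type*} [Field K] {Γ : Type*} [Group Γ] {E : Type*} [Group E]

/-- PIECE S2A -/
theorem s2a_add (D : ChevalleyDatum) (y : ℕ → K → E)
    (hy : ∀ (r : ℕ) (t u : K), y r t * y r u = y r (t + u)) {r s k1 k2 : ℕ}
    (hsig : sig D r s = [(k1, 1, 1), (k2, 2, 1)])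
    (c1 : ∀ t u : K, y k1 u * y s t = y s t * y k1 u)
    (c2 : ∀ t u : K, y k2 u * y s t = y s t * y k2 u)
    (c3 : ∀ t u : K, y k2 u * y k1 t = y k1 t * y k2 u) :
    ∀ t u u' : K, y s u * sW y (D.commWord K r s t u) *
        (y s u' * sW y (D.commWord K r s t u')) =
      y s (u + u') * sW y (D.commWord K r s t (u + u')) := by
  have hct : ∃ C1 C2 : ℤ, D.commTerms r s = [(k1, C1, 1, 1), (k2, C2, 2, 1)] := by
    unfold sig at hsig
    obtain ⟨⟨a1, C1, i1, j1⟩, l1, hl, hf, hl1⟩ := List.map_eq_cons_iff.mp hsig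
    obtain ⟨⟨a2, C2, i2, j2⟩, l2, hl', hf', hl2⟩ := List.map_eq_cons_iff.mp hl1
    rw [List.map_eq_nil_iff] at hl2
    simp only [Prod.mk.injEq] at hf hf'
    obtain ⟨rfl, rfl, rfl⟩ := hf
    obtain ⟨rfl, rfl, rfl⟩ := hf'
    exact ⟨C1, C2, by rw [hl, hl', hl2]⟩
  obtain ⟨C1, C2, hct⟩ := hct
  have hw : ∀ t u : K, D.commWord K r s t u =
      [(k1, (C1 : K) * (-t) ^ 1 * u ^ 1), (k2, (C2 : K) * (-t) ^ 2 * u ^ 1)] := by
    intro t u
    unfold ChevalleyDatum.commWord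
    rw [hct]
    rfl
  have c1' : ∀ (a b : K) (z : E), y k1 a * (y s b * z) = y s b * (y k1 a * z) := fun a b z => by
    rw [← mul_assoc, c1, mul_assoc]
  have c2' : ∀ (a b : K) (z : E), y k2 a * (y s b * z) = y s b * (y k2 a * z) := fun a b z => by
    rw [← mul_assoc, c2, mul_assoc]
  have c3' : ∀ (a b : K) (z : E), y k2 a * (y k1 b * z) = y k1 b * (y k2 a * z) := fun a b z => by
    rw [← mul_assoc, c3, mul_assoc]
  have hy' : ∀ (r : ℕ) (a b : K) (z : E), y r a * (y r b * z) = y r (a + b) * z := fun r a b z => by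
    rw [← mul_assoc, hy]
  intro t u u'
  rw [hw, hw, hw]
  simp only [sW_cons, sW_nil, mul_one]
  simp only [mul_assoc, c1, c1', c2, c2', c3, c3', hy, hy']
  congr 3 <;> ring

end

end Cfsg.Agent.Helper94.STUS2A
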