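import Cfsg.Agent.Helper64.UCDefs

/-!
# CALL S2100 / S2398 (helper64), piece S2B (helper94)
-/

set_option autoImplicit false

namespace Cfsg.Agent.Helper94.STUS2B

open Cfsg Cfsg.Lie Cfsg.Agent.Helper36 Cfsg.Agent.Helper64.UC

section

variable {K : Type*} [Field K] {Γ : Type*} [Group Γ] {E : Type*} [Group E]

/-- PIECE S2B -/
theorem s2b_add (D : ChevalleyDatum) (y : ℕ → K → E)
    (hy : ∀ (r : ℕ) (t u : K), y r t * y r u = y r (t + u)) {r s k1 k2 : ℕ}
    (hsig : sig D r s = [(k1, 1, 1), (k2, 1, 2)])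
    (c1 : ∀ t u : K, y k1 u * y r t = y r t * y k1 u)
    (c2 : ∀ t u : K, y k2 u * y r t = y r t * y k2 u)
    (c3 : ∀ t u : K, y k2 u * y k1 t = y k1 t * y k2 u) :
    ∀ t t' u : K, y r t * (sW y (D.commWord K r s t u))⁻¹ *
        (y r t' * (sW y (D.commWord K r s t' u))⁻¹) =
      y r (t + t') * (sW y (D.commWord K r s (t + t') u))⁻¹ := by
  have hct : ∃ C1 C2 : ℤ, D.commTerms r s = [(k1, C1, 1, 1), (k2, C2, 1, 2)] := by
    unfold sig at hsig
    obtain ⟨⟨a1, C1, i1, j1⟩, l1, hl, hf, hl1⟩ := List.map_eq_cons_iff.mp hsig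
    obtain ⟨⟨a2, C2, i2, j2⟩, l2, hl', hf', hl2⟩ := List.map_eq_cons_iff.mp hl1
    rw [List.map_eq_nil_iff] at hl2
    simp only [Prod.mk.injEq] at hf hf'
    obtain ⟨rfl, rfl, rfl⟩ := hf
    obtain ⟨rfl, rfl, rfl⟩ := hf'
    exact ⟨C1, C2, by rw [hl, hl', hl2]⟩
  obtain ⟨C1, C2, hct⟩ := hct
  have hw : ∀ t u : K, D.commWord K r s t u =
      [(k1, (C1 : K) * (-t) ^ 1 * u ^ 1), (k2, (C2 : K) * (-t) ^ 1 * u ^ 2)] := by
    intro t u
    unfold ChevalleyDatum.commWord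
    rw [hct]
    rfl
  have h0 : ∀ r : ℕ, y r (0 : K) = 1 := by
    intro r
    have := hy r 0 0
    rw [add_zero] at this
    exact mul_eq_left.mp this
  have hinv : ∀ (r : ℕ) (a : K), (y r a)⁻¹ = y r (-a) := by
    intro r a
    rw [inv_eq_iff_mul_eq_one, hy, add_neg_cancel, h0]
  have c1' : ∀ (a b : K) (z : E), y k1 a * (y r b * z) = y r b * (y k1 a * z) := fun a b z => by
    rw [← mul_assoc, c1, mul_assoc]
  have c2' : ∀ (a b : K) (z : E), y k2 a * (y r b * z) = y r b * (y k2 a * z) := fun a b z => by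
    rw [← mul_assoc, c2, mul_assoc]
  have c3' : ∀ (a b : K) (z : E), y k2 a * (y k1 b * z) = y k1 b * (y k2 a * z) := fun a b z => by
    rw [← mul_assoc, c3, mul_assoc]
  have hy' : ∀ (r : ℕ) (a b : K) (z : E), y r a * (y r b * z) = y r (a + b) * z := fun r a b z => by
    rw [← mul_assoc, hy]
  intro t t' u
  rw [hw, hw, hw]
  simp only [sW_cons, sW_nil, mul_one]
  simp only [mul_inv_rev, hinv, mul_assoc, c1, c1', c2, c2', c3, c3', hy, hy']
  congr 3 <;> ring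

end

end Cfsg.Agent.Helper94.STUS2B
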