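import Mathlib
import Cfsg.Agent.Helper96.T5Defs

/-!
# CALL S5704, piece SCO (helper94): in odd characteristic and dimension `a ≥ 3`, an additive group
`𝔖` of matrices stable under transvection conjugation, with scalar `A + A*` and scalar
`A* A' + A'* A`, consists of scalars.
-/

set_option autoImplicit false
set_option linter.unusedVariables false

namespace Cfsg.Agent.Helper94.T5SCO

open Matrix Cfsg Cfsg.Geo Cfsg.Agent.Helper71.T4 Cfsg.Agent.Helper96.T5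
open scoped Kronecker

variable {F : Type*} [Field F] {a b : ℕ}

/-- `τ A τ = q τ` for `τ = rk e e`. -/
theorem rk_mul_mul_rk (J₁ : Matrix (Fin a) (Fin a) F) (A : Matrix (Fin a) (Fin a) F)
    (e : Fin a → F) :
    rk J₁ e e * A * rk J₁ e e = bf J₁ (A *ᵥ e) e • rk J₁ e e := by
  have h1 : A * rk J₁ e e = rk J₁ (A *ᵥ e) e := by
    simp only [rk]
    rw [Matrix.mul_vecMulVec]
  rw [Matrix.mul_assoc, h1, rk_mul_rk]

/-- The sum of the two conjugates by `tv e 1` and `tv e (-1)`. -/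
theorem conj_sum (J₁ : Matrix (Fin a) (Fin a) F) (A : Matrix (Fin a) (Fin a) F)
    (e : Fin a → F) :
    tv J₁ e 1 * A * tv J₁ e (-1) + tv J₁ e (-1) * A * tv J₁ e (-(-1)) - A - A =
      (-(2 * bf J₁ (A *ᵥ e) e)) • rk J₁ e e := by
  have h := rk_mul_mul_rk J₁ A e
  simp only [tv, neg_neg, one_smul, neg_smul]
  have h2 : (1 + rk J₁ e e) * A * (1 + -rk J₁ e e) + (1 + -rk J₁ e e) * A * (1 + rk J₁ e e)
      - A - A = -(rk J₁ e e * A * rk J₁ e e) - rk J₁ e e * A * rk J₁ e e := by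
    noncomm_ring
  rw [h2, h]
  module

/-- The conjugate of `κ τ_e` by a transvection, on vectors. -/
theorem conj_rk_mulVec (J₁ : Matrix (Fin a) (Fin a) F) (halt : ∀ x, bf J₁ x x = 0)
    (e z : Fin a → F) (k c : F) (y : Fin a → F) :
    (tv J₁ z c * (k • rk J₁ e e) * tv J₁ z (-c)) *ᵥ y =
      (k * bf J₁ y (e + (c * bf J₁ e z) • z)) • (e + (c * bf J₁ e z) • z) := by
  have h1 : bf J₁ (tv J₁ z (-c) *ᵥ y) e = bf J₁ y (e + (c * bf J₁ e z) • z) := by
    rw [tv_mulVec, bf_add_left, bf_smul_left, bf_add_right, bf_smul_right, bf_swap J₁ halt z e]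
    ring
  rw [← Matrix.mulVec_mulVec, ← Matrix.mulVec_mulVec, Matrix.smul_mulVec, rk_mulVec, tv_mulVec,
    h1, bf_smul_left, bf_smul_left]
  module

/-- The pairing identity in terms of the form. -/
theorem pair_bf (J₁ : Matrix (Fin a) (Fin a) F) (hdet : J₁.det ≠ 0)
    (T T' : Matrix (Fin a) (Fin a) F) (lam : F)
    (h : adj J₁ T * T' + adj J₁ T' * T = lam • (1 : Matrix (Fin a) (Fin a) F))
    (x y : Fin a → F) :
    bf J₁ (T *ᵥ x) (T' *ᵥ y) + bf J₁ (T' *ᵥ x) (T *ᵥ y) = lam * bf J₁ x y := by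
  have h1 := congrArg (fun M : Matrix (Fin a) (Fin a) F => bf J₁ x (M *ᵥ y)) h
  beta_reduce at h1
  rw [Matrix.add_mulVec, bf_add_right, ← Matrix.mulVec_mulVec, ← Matrix.mulVec_mulVec,
    ← bf_adj J₁ hdet, ← bf_adj J₁ hdet, Matrix.smul_mulVec, Matrix.one_mulVec, bf_smul_right] at h1
  exact h1

theorem sco (J₁ : Matrix (Fin a) (Fin a) F) (halt : ∀ x, bf J₁ x x = 0) (hdet : J₁.det ≠ 0)
    (ha : 3 ≤ a) (h2 : (2 : F) ≠ 0) (𝔖 : AddSubgroup (Matrix (Fin a) (Fin a) F))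
    (hone : ∀ c : F, c • (1 : Matrix (Fin a) (Fin a) F) ∈ 𝔖)
    (hconj : ∀ (e : Fin a → F) (c : F) (A : Matrix (Fin a) (Fin a) F), A ∈ 𝔖 →
      tv J₁ e c * A * tv J₁ e (-c) ∈ 𝔖)
    (hadj : ∀ A ∈ 𝔖, ∃ κ : F, A + adj J₁ A = κ • (1 : Matrix (Fin a) (Fin a) F))
    (hpair : ∀ A ∈ 𝔖, ∀ A' ∈ 𝔖, ∃ κ : F,
      adj J₁ A * A' + adj J₁ A' * A = κ • (1 : Matrix (Fin a) (Fin a) F)) :
    ∀ A ∈ 𝔖, ∃ c : F, A = c • (1 : Matrix (Fin a) (Fin a) F) := by
  intro A hA
  obtain ⟨κ, hκ⟩ := hadj A hA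
  -- the skew part
  set A₀ : Matrix (Fin a) (Fin a) F := A - (κ / 2) • (1 : Matrix (Fin a) (Fin a) F) with hA₀
  have hA₀mem : A₀ ∈ 𝔖 := 𝔖.sub_mem hA (hone _)
  have hA₀v : ∀ x : Fin a → F, A₀ *ᵥ x = A *ᵥ x - (κ / 2) • x := by
    intro x
    rw [hA₀, Matrix.sub_mulVec, Matrix.smul_mulVec, Matrix.one_mulVec]
  have hadjv : ∀ y : Fin a → F, adj J₁ A *ᵥ y = κ • y - A *ᵥ y := by
    intro y
    have h1 : adj J₁ A = κ • (1 : Matrix (Fin a) (Fin a) F) - A := by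
      rw [← hκ]; abel
    rw [h1, Matrix.sub_mulVec, Matrix.smul_mulVec, Matrix.one_mulVec]
  have hskew : ∀ x y : Fin a → F, bf J₁ (A₀ *ᵥ x) y = - bf J₁ x (A₀ *ᵥ y) := by
    intro x y
    rw [hA₀v, hA₀v, bf_sub_left, bf_smul_left, bf_adj J₁ hdet, hadjv, bf_sub_right, bf_sub_right,
      bf_smul_right, bf_smul_right]
    field_simp
    ring
  -- the quadratic form q(e) = bf (A₀ e) e vanishes
  have hq : ∀ e : Fin a → F, bf J₁ (A₀ *ᵥ e) e = 0 := by
    intro e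
    by_contra hqe
    set q := bf J₁ (A₀ *ᵥ e) e with hqdef
    have he0 : e ≠ 0 := by
      intro h0
      apply hqe
      rw [hqdef, h0, bf_zero_right]
    -- T = k τ_e ∈ 𝔖
    set k : F := -(2 * q) with hk
    have hk0 : k ≠ 0 := by
      rw [hk]
      exact neg_ne_zero.mpr (mul_ne_zero h2 hqe)
    have hT : k • rk J₁ e e ∈ 𝔖 := by
      have h1 := conj_sum J₁ A₀ e
      rw [← h1]
      exact 𝔖.sub_mem (𝔖.sub_mem (𝔖.add_mem (hconj e 1 A₀ hA₀mem) (hconj e (-1) A₀ hA₀mem))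
        hA₀mem) hA₀mem
    obtain ⟨e', he'⟩ := exists_bf_eq_one J₁ hdet e he0
    -- T' = conjugate of T by tv e' 1
    have hT' : tv J₁ e' 1 * (k • rk J₁ e e) * tv J₁ e' (-1) ∈ 𝔖 := hconj e' 1 _ hT
    set e'' : Fin a → F := e + e' with he''
    have hT'v : ∀ y : Fin a → F,
        (tv J₁ e' 1 * (k • rk J₁ e e) * tv J₁ e' (-1)) *ᵥ y = (k * bf J₁ y e'') • e'' := by
      intro y
      rw [conj_rk_mulVec J₁ halt e e' k 1 y, he', mul_one, one_smul]
    have hTv : ∀ y : Fin a → F, (k • rk J₁ e e) *ᵥ y = (k * bf J₁ y e) • e := by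
      intro y
      rw [Matrix.smul_mulVec, rk_mulVec, smul_smul]
    have hee'' : bf J₁ e e'' = 1 := by
      rw [he'', bf_add_right, halt e, he', zero_add]
    obtain ⟨lam, hlam⟩ := hpair _ hT _ hT'
    -- bilinear form of the pairing identity
    have hpairv : ∀ x y : Fin a → F,
        bf J₁ ((k • rk J₁ e e) *ᵥ x) ((tv J₁ e' 1 * (k • rk J₁ e e) * tv J₁ e' (-1)) *ᵥ y) +
          bf J₁ ((tv J₁ e' 1 * (k • rk J₁ e e) * tv J₁ e' (-1)) *ᵥ x) ((k • rk J₁ e e) *ᵥ y) =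
            lam * bf J₁ x y := by
      intro x y
      exact pair_bf J₁ hdet _ _ lam hlam x y
    -- a non-zero x orthogonal to e and e''
    obtain ⟨x, hx0, hx1, hx2⟩ := exists_perp2 ha (J₁ *ᵥ e) (J₁ *ᵥ e'')
    have hxe : bf J₁ x e = 0 := hx1
    have hxe'' : bf J₁ x e'' = 0 := hx2
    -- lam from x := e, y := e'
    have hlam1 : lam * bf J₁ e e' = k * k * bf J₁ e e' := by
      have h1 := hpairv e e'
      rw [hTv, hTv, hT'v, hT'v, halt e] at h1
      simp only [bf_smul_left, bf_smul_right, hee''] at h1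
      have h3 : bf J₁ e'' e = -1 := by rw [bf_swap J₁ halt, hee'']
      have h4 : bf J₁ e' e'' = -1 := by
        rw [he'', bf_add_right, halt e', add_zero, bf_swap J₁ halt, he']
      have h6 : bf J₁ e' e = -1 := by rw [bf_swap J₁ halt, he']
      rw [h3, h4, he', h6] at h1
      rw [he']
      linear_combination -h1
    have hlam2 : lam = k * k := by
      rw [he', mul_one, mul_one] at hlam1
      exact hlam1
    -- now x is in the radical
    obtain ⟨y, hy⟩ := exists_bf_eq_one J₁ hdet x hx0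
    have h5 := hpairv x y
    rw [hTv, hTv, hT'v, hT'v, hxe, hxe'', hy] at h5
    simp only [mul_zero, zero_smul, bf_zero_left, add_zero, mul_one] at h5
    rw [hlam2] at h5
    exact mul_ne_zero hk0 hk0 h5.symm
  -- polarise
  have hA₀zero : ∀ e : Fin a → F, A₀ *ᵥ e = 0 := by
    intro e
    by_contra hne
    obtain ⟨y, hy⟩ := exists_bf_eq_one J₁ hdet _ hne
    have h1 := hq (e + y)
    rw [Matrix.mulVec_add, bf_add_left, bf_add_right, bf_add_right, hq e, hq y, hy] at h1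
    have h3 : bf J₁ (A₀ *ᵥ y) e = 1 := by
      rw [hskew, bf_swap J₁ halt, hy]
      ring
    rw [h3] at h1
    apply h2
    linear_combination h1
  have hA₀0 : A₀ = 0 := by
    ext i j
    have h1 := congrFun (hA₀zero (Pi.single j 1)) i
    simpa using h1
  refine ⟨κ / 2, ?_⟩
  have h1 : A = A₀ + (κ / 2) • (1 : Matrix (Fin a) (Fin a) F) := by rw [hA₀]; abel
  rw [h1, hA₀0, zero_add]

end Cfsg.Agent.Helper94.T5SCO
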