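import Mathlib
import Cfsg.Prelude.Def_GeometricClasses
import Cfsg.Agent.Helper94.Tens

/-!
Tensor decompositions `F^2 ⊗ F^{n₂}` over the field with two elements: the element `j ⊗ 1` of
order three (`j` a generator of the non-split torus of `GL_2(2)`), the subalgebra `F[j ⊗ 1]`
(a field with four elements) and its normalisation by the stabiliser of the tensor decomposition.
-/

set_option autoImplicit false
set_option linter.unusedSectionVars false
set_option linter.unusedVariables false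

universe u

namespace Cfsg.Agent.Helper94

open Matrix Cfsg Cfsg.Geo
open scoped Kronecker

section TensF2a

variable {F : Type u} [Field F] [Fintype F]

theorem tf2_two (hq : Fintype.card F = 2) : (2 : F) = 0 := by
  have h2 : ((2 : ℕ) : F) = 0 := by
    rw [← hq]
    exact Nat.cast_card_eq_zero F
  exact_mod_cast h2

theorem tf2_cases (hq : Fintype.card F = 2) (a : F) : a = 0 ∨ a = 1 := by
  have h := FiniteField.pow_card a
  rw [hq] at h
  have h' : a * (a - 1) = 0 := by linear_combination h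
  rcases mul_eq_zero.mp h' with h1 | h1
  · exact Or.inl h1
  · exact Or.inr (sub_eq_zero.mp h1)

theorem tf2_add_self (hq : Fintype.card F = 2) (a : F) : a + a = 0 := by
  linear_combination a * tf2_two hq

theorem tf2_neg (hq : Fintype.card F = 2) (a : F) : -a = a := by
  linear_combination -a * tf2_two hq

/-- The matrix `j = [[0,1],[1,1]]`. -/
def tf2J (F : Type u) [Field F] : Matrix (Fin 2) (Fin 2) F := !![0, 1; 1, 1]

theorem tf2J_mulVec (x : Fin 2 → F) : tf2J F *ᵥ x = ![x 1, x 0 + x 1] := by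
  funext i
  fin_cases i <;> simp [tf2J, Matrix.mulVec, dotProduct, Fin.sum_univ_two]

theorem tf2J_sq (hq : Fintype.card F = 2) : tf2J F * tf2J F = tf2J F + 1 := by
  have h2 := tf2_two hq
  ext i j
  fin_cases i <;> fin_cases j <;>
    simp [tf2J, Matrix.mul_apply, Fin.sum_univ_two]

/-- Conjugation by an invertible matrix maps `j` to `j` or to `j + 1`. -/
theorem tf2_conj (hq : Fintype.card F = 2) (a : GL (Fin 2) F) :
    (a : Matrix (Fin 2) (Fin 2) F) * tf2J F = tf2J F * (a : Matrix (Fin 2) (Fin 2) F) ∨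
      (a : Matrix (Fin 2) (Fin 2) F) * tf2J F =
        (tf2J F + 1) * (a : Matrix (Fin 2) (Fin 2) F) := by
  have h2 := tf2_two hq
  have h11 : (1 : F) + 1 = 0 := by linear_combination h2
  obtain ⟨A, hA⟩ : ∃ A : Matrix (Fin 2) (Fin 2) F, A = (a : Matrix (Fin 2) (Fin 2) F) := ⟨_, rfl⟩
  have hdet : A.det ≠ 0 := by
    rw [hA]
    exact (Matrix.isUnits_det_units a).ne_zero
  rw [Matrix.det_fin_two] at hdet
  rw [← hA]
  have key : ∀ p q r s : F, p * s - q * r ≠ 0 → (q = r ∧ s = p + q) ∨ (s = p ∧ q = p + r) := by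
    intro p q r s h
    rcases tf2_cases hq p with rfl | rfl <;> rcases tf2_cases hq q with rfl | rfl <;>
      rcases tf2_cases hq r with rfl | rfl <;> rcases tf2_cases hq s with rfl | rfl <;>
      simp [h11] at h ⊢
  rcases key _ _ _ _ hdet with ⟨h1, h3⟩ | ⟨h1, h3⟩
  · left
    ext i j
    fin_cases i <;> fin_cases j <;>
      simp [tf2J, Matrix.mul_apply, Fin.sum_univ_two]
    · exact h1
    · exact h3.symm
    · rw [h3, h1]
    · rw [h1]
  · right
    ext i j
    fin_cases i <;> fin_cases j <;>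
      simp [tf2J, Matrix.mul_apply, Fin.sum_univ_two, Matrix.one_apply, Matrix.add_apply]
    · rw [h3]
    · rw [h1]
      ring
    · rw [h1, h11, zero_mul, add_zero]
    · rw [h1, h3, h11, zero_mul, add_zero]
      ring

variable {ι : Type} [Fintype ι] [DecidableEq ι] {n₂ : ℕ}

/-- The map `j ⊗ 1` in the coordinates of a tensor decomposition. -/
def tf2M (e : ι ≃ Fin 2 × Fin n₂) (P : GL ι F) : Matrix ι ι F :=
  (P : Matrix ι ι F) * ((tf2J F ⊗ₖ (1 : Matrix (Fin n₂) (Fin n₂) F)).submatrix e e) *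
    ((P⁻¹ : GL ι F) : Matrix ι ι F)

theorem tf2M_phi (e : ι ≃ Fin 2 × Fin n₂) (P : GL ι F) (x : Fin 2 × Fin n₂ → F) :
    tf2M e P *ᵥ tPhi e P x =
      tPhi e P ((tf2J F ⊗ₖ (1 : Matrix (Fin n₂) (Fin n₂) F)) *ᵥ x) := by
  rw [tf2M, tPhi_apply, tPhi_apply, Matrix.mulVec_mulVec, mul_assoc, mul_assoc, ← Units.val_mul,
    inv_mul_cancel, Units.val_one, mul_one, ← Matrix.mulVec_mulVec,
    Matrix.submatrix_mulVec_equiv, Function.comp_assoc, Equiv.self_comp_symm, Function.comp_id]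

theorem tf2M_pure (e : ι ≃ Fin 2 × Fin n₂) (P : GL ι F) (x : Fin 2 → F) (y : Fin n₂ → F) :
    tf2M e P *ᵥ tPhi e P (tpv x y) = tPhi e P (tpv (tf2J F *ᵥ x) y) := by
  rw [tf2M_phi, tpv_kron, Matrix.one_mulVec]

theorem tf2M_sq (hq : Fintype.card F = 2) (e : ι ≃ Fin 2 × Fin n₂) (P : GL ι F) :
    tf2M e P * tf2M e P = tf2M e P + 1 := by
  have h1 : ((P⁻¹ : GL ι F) : Matrix ι ι F) * (P : Matrix ι ι F) = 1 := by
    rw [← Units.val_mul, inv_mul_cancel, Units.val_one]
  have h2 : (P : Matrix ι ι F) * ((P⁻¹ : GL ι F) : Matrix ι ι F) = 1 := by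
    rw [← Units.val_mul, mul_inv_cancel, Units.val_one]
  obtain ⟨S, hS⟩ : ∃ S : Matrix ι ι F,
      S = (tf2J F ⊗ₖ (1 : Matrix (Fin n₂) (Fin n₂) F)).submatrix e e := ⟨_, rfl⟩
  have hSS : S * S = S + 1 := by
    rw [hS, Matrix.submatrix_mul_equiv, ← Matrix.mul_kronecker_mul, tf2J_sq hq, Matrix.mul_one,
      Matrix.add_kronecker, Matrix.one_kronecker_one]
    ext i j
    simp [Matrix.submatrix_apply, Matrix.add_apply, Matrix.one_apply, e.injective.eq_iff]
  unfold tf2M
  rw [← hS]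
  calc (P : Matrix ι ι F) * S * ((P⁻¹ : GL ι F) : Matrix ι ι F) *
        ((P : Matrix ι ι F) * S * ((P⁻¹ : GL ι F) : Matrix ι ι F))
      = (P : Matrix ι ι F) * S * (((P⁻¹ : GL ι F) : Matrix ι ι F) * (P : Matrix ι ι F)) * S *
          ((P⁻¹ : GL ι F) : Matrix ι ι F) := by simp only [mul_assoc]
    _ = (P : Matrix ι ι F) * (S * S) * ((P⁻¹ : GL ι F) : Matrix ι ι F) := by
        rw [h1, mul_one, mul_assoc (P : Matrix ι ι F)]
    _ = (P : Matrix ι ι F) * S * ((P⁻¹ : GL ι F) : Matrix ι ι F) + 1 := by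
        rw [hSS, mul_add, add_mul, mul_one, h2]

/-- Every vector is the image of a sum of two pure tensors. -/
theorem tf2_decomp (e : ι ≃ Fin 2 × Fin n₂) (P : GL ι F) (v : ι → F) :
    ∃ y₀ y₁ : Fin n₂ → F, v = tPhi e P (tpv (Pi.single 0 1) y₀) +
      tPhi e P (tpv (Pi.single 1 1) y₁) := by
  obtain ⟨x, hx⟩ : ∃ x : Fin 2 × Fin n₂ → F,
      x = (((P⁻¹ : GL ι F) : Matrix ι ι F) *ᵥ v) ∘ e.symm := ⟨_, rfl⟩
  have hv : tPhi e P x = v := by
    rw [tPhi_apply, hx, Function.comp_assoc, Equiv.symm_comp_self, Function.comp_id,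
      Matrix.mulVec_mulVec, ← Units.val_mul, mul_inv_cancel, Units.val_one, Matrix.one_mulVec]
  refine ⟨fun l => x (0, l), fun l => x (1, l), ?_⟩
  rw [← map_add, ← hv]
  congr 1
  funext p
  obtain ⟨a, l⟩ := p
  fin_cases a <;> simp [tpv]

/-- The subalgebra `F[j ⊗ 1]`. -/
def tf2K (hq : Fintype.card F = 2) (e : ι ≃ Fin 2 × Fin n₂) (P : GL ι F) :
    Subalgebra F (Matrix ι ι F) where
  carrier := {X | ∃ α β : F, X = α • (1 : Matrix ι ι F) + β • tf2M e P}
  mul_mem' := by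
    rintro _ _ ⟨α, β, rfl⟩ ⟨α', β', rfl⟩
    refine ⟨α * α' + β * β', α * β' + β * α' + β * β', ?_⟩
    have h := tf2M_sq hq e P
    simp only [add_mul, mul_add, Matrix.smul_mul, Matrix.mul_smul, Matrix.one_mul, Matrix.mul_one,
      smul_smul, h, smul_add]
    module
  one_mem' := ⟨1, 0, by simp⟩
  add_mem' := by
    rintro _ _ ⟨α, β, rfl⟩ ⟨α', β', rfl⟩
    exact ⟨α + α', β + β', by module⟩
  zero_mem' := ⟨0, 0, by simp⟩
  algebraMap_mem' := fun r =>
    ⟨r, 0, by rw [zero_smul, add_zero, Algebra.algebraMap_eq_smul_one]⟩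

theorem mem_tf2K (hq : Fintype.card F = 2) (e : ι ≃ Fin 2 × Fin n₂) (P : GL ι F)
    (X : Matrix ι ι F) :
    X ∈ tf2K hq e P ↔ ∃ α β : F, X = α • (1 : Matrix ι ι F) + β • tf2M e P := Iff.rfl

theorem tf2M_not_scalar [Nonempty ι] (hq : Fintype.card F = 2) (e : ι ≃ Fin 2 × Fin n₂)
    (P : GL ι F) (c : F) : tf2M e P ≠ c • (1 : Matrix ι ι F) := by
  intro h
  have h2 := tf2M_sq hq e P
  rw [h] at h2
  obtain ⟨i⟩ := ‹Nonempty ι›
  have h3 := congrFun (congrFun h2 i) i
  simp only [Matrix.mul_smul, Matrix.smul_apply, Matrix.add_apply,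
    Matrix.one_apply_eq, smul_eq_mul, mul_one] at h3
  rcases tf2_cases hq c with rfl | rfl
  · simp at h3
  · have h4 := tf2_two hq
    apply one_ne_zero (α := F)
    linear_combination h3 + h4

theorem tf2K_field [Nonempty ι] (hq : Fintype.card F = 2) (e : ι ≃ Fin 2 × Fin n₂)
    (P : GL ι F) : IsFieldSubalgebra 2 (tf2K hq e P) := by
  have h2 := tf2_two hq
  have hsq := tf2M_sq hq e P
  have hJJ : tf2M e P + tf2M e P = 0 := by
    rw [← two_smul F, h2, zero_smul]
  refine ⟨?_, ?_, ?_⟩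
  · rintro _ ⟨α, β, rfl⟩ _ ⟨α', β', rfl⟩
    simp only [add_mul, mul_add, Matrix.smul_mul, Matrix.mul_smul, Matrix.one_mul, Matrix.mul_one,
      smul_smul]
    module
  · rintro _ ⟨α, β, rfl⟩ hne
    rcases tf2_cases hq α with rfl | rfl <;> rcases tf2_cases hq β with rfl | rfl
    · exfalso
      apply hne
      simp
    · refine ⟨(1 : F) • (1 : Matrix ι ι F) + (1 : F) • tf2M e P, ⟨1, 1, rfl⟩, ?_⟩
      rw [zero_smul, zero_add, one_smul, one_smul, mul_add, mul_one, hsq, ← add_assoc, hJJ,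
        zero_add]
    · refine ⟨(1 : F) • (1 : Matrix ι ι F) + (0 : F) • tf2M e P, ⟨1, 0, rfl⟩, ?_⟩
      simp
    · refine ⟨(0 : F) • (1 : Matrix ι ι F) + (1 : F) • tf2M e P, ⟨0, 1, rfl⟩, ?_⟩
      rw [zero_smul, zero_add, one_smul, one_smul, add_mul, one_mul, hsq, ← add_assoc, hJJ,
        zero_add]
  · rw [← Subalgebra.finrank_toSubmodule]
    obtain ⟨φ, hφ⟩ : ∃ φ : (F × F) →ₗ[F] Matrix ι ι F,
        ∀ p : F × F, φ p = p.1 • (1 : Matrix ι ι F) + p.2 • tf2M e P :=
      ⟨(LinearMap.fst F F F).smulRight (1 : Matrix ι ι F) +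
        (LinearMap.snd F F F).smulRight (tf2M e P), fun p => rfl⟩
    have hinj : Function.Injective φ := by
      intro p p' hpp
      rw [hφ, hφ] at hpp
      have h3 : (p.2 - p'.2) • tf2M e P = (p'.1 - p.1) • (1 : Matrix ι ι F) := by
        rw [sub_smul, sub_smul, sub_eq_sub_iff_add_eq_add]
        rw [add_comm] at hpp
        exact hpp
      by_cases h4 : p.2 = p'.2
      · rw [h4, sub_self, zero_smul] at h3
        obtain ⟨i⟩ := ‹Nonempty ι›
        have h5 := congrFun (congrFun h3 i) i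
        simp only [Matrix.zero_apply, Matrix.smul_apply, Matrix.one_apply_eq, smul_eq_mul,
          mul_one] at h5
        exact Prod.ext (sub_eq_zero.mp h5.symm).symm h4
      · exfalso
        apply tf2M_not_scalar hq e P ((p.2 - p'.2)⁻¹ * (p'.1 - p.1))
        rw [← smul_smul, ← h3, smul_smul, inv_mul_cancel₀ (sub_ne_zero.mpr h4), one_smul]
    have hrange : Subalgebra.toSubmodule (tf2K hq e P) = LinearMap.range φ := by
      ext X
      rw [Subalgebra.mem_toSubmodule, mem_tf2K, LinearMap.mem_range]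
      constructor
      · rintro ⟨α, β, rfl⟩
        exact ⟨(α, β), hφ _⟩
      · rintro ⟨p, rfl⟩
        exact ⟨p.1, p.2, hφ p⟩
    rw [hrange, LinearMap.finrank_range_of_inj hinj, Module.finrank_prod, Module.finrank_self]

end TensF2a

end Cfsg.Agent.Helper94
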