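import Mathlib
import Cfsg.Prelude.Def_GeometricClasses
import Cfsg.Agent.Helper94.Tens
import Cfsg.Agent.Helper94.TensF2a
import Cfsg.Agent.Helper94.ONd1
import Cfsg.Agent.Helper98.OC5

/-!
The stabiliser in `Ω(Q)` over the field with two elements of a tensor decomposition
`(symplectic of dimension 2) ⊗ symplectic` of the polar form, where `Q` vanishes on the pure
tensors, is not maximal: it normalises the field `F[j ⊗ 1]` with four elements, whose normaliser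
in `Ω(Q)` is a proper subgroup containing further elements.
-/

set_option autoImplicit false
set_option linter.unusedSectionVars false
set_option linter.unusedVariables false

universe u

namespace Cfsg.Agent.Helper94

open Matrix Cfsg Cfsg.Geo Cfsg.Agent.Helper45
open scoped Kronecker

section TensF2

variable {F : Type u} [Field F] [Fintype F]

theorem tf2_f1 (f₁ : (Fin 2 → F) → (Fin 2 → F) → F) (hf₁ : IsSymplecticForm f₁)
    (x y : Fin 2 → F) :
    f₁ x y = (x 0 * y 1 - x 1 * y 0) * f₁ (Pi.single 0 1) (Pi.single 1 1) := by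
  have hx : x = x 0 • Pi.single 0 1 + x 1 • Pi.single 1 1 := by
    funext i
    fin_cases i <;> simp
  have hy : y = y 0 • Pi.single 0 1 + y 1 • Pi.single 1 1 := by
    funext i
    fin_cases i <;> simp
  conv_lhs => rw [hx, hy]
  simp only [hf₁.bilinear.add_left, hf₁.bilinear.add_right, hf₁.bilinear.smul_left,
    hf₁.bilinear.smul_right, hf₁.alternating]
  rw [hf₁.skew (Pi.single 1 1) (Pi.single 0 1)]
  ring

theorem tf2J_e0 : tf2J F *ᵥ (Pi.single 0 1 : Fin 2 → F) = Pi.single 1 1 := by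
  rw [tf2J_mulVec]
  funext i
  fin_cases i <;> simp

theorem tf2J_e1 : tf2J F *ᵥ (Pi.single 1 1 : Fin 2 → F) = Pi.single 0 1 + Pi.single 1 1 := by
  rw [tf2J_mulVec]
  funext i
  fin_cases i <;> simp

theorem tf2_f1_J (hq : Fintype.card F = 2) (f₁ : (Fin 2 → F) → (Fin 2 → F) → F)
    (hf₁ : IsSymplecticForm f₁) (x y : Fin 2 → F) :
    f₁ (tf2J F *ᵥ x) (tf2J F *ᵥ y) = f₁ x y := by
  rw [tf2_f1 f₁ hf₁ (tf2J F *ᵥ x), tf2_f1 f₁ hf₁ x y, tf2J_mulVec, tf2J_mulVec]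
  simp only [Matrix.cons_val_zero, Matrix.cons_val_one, Matrix.cons_val_fin_one]
  linear_combination (x 1 * y 0 - x 0 * y 1) * f₁ (Pi.single 0 1) (Pi.single 1 1) * tf2_two hq

variable {ι : Type} [Fintype ι] [DecidableEq ι] {n₂ : ℕ}

theorem tf2_Q_sum (Qb : QuadraticForm F (ι → F)) (e : ι ≃ Fin 2 × Fin n₂) (P : GL ι F)
    (f₁ : (Fin 2 → F) → (Fin 2 → F) → F) (f₂ : (Fin n₂ → F) → (Fin n₂ → F) → F) (c : F)
    (hval : ∀ (x x' : Fin 2 → F) (y y' : Fin n₂ → F),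
      QuadraticMap.polar ⇑Qb (tPhi e P (tpv x y)) (tPhi e P (tpv x' y')) =
        c * (f₁ x x' * f₂ y y'))
    (hpure : ∀ (x : Fin 2 → F) (y : Fin n₂ → F), Qb (tPhi e P (tpv x y)) = 0)
    (x x' : Fin 2 → F) (y y' : Fin n₂ → F) :
    Qb (tPhi e P (tpv x y) + tPhi e P (tpv x' y')) = c * (f₁ x x' * f₂ y y') := by
  have h := hval x x' y y'
  unfold QuadraticMap.polar at h
  rw [hpure, hpure, sub_zero, sub_zero] at h
  exact h

theorem tf2_Q_J (hq : Fintype.card F = 2) (Qb : QuadraticForm F (ι → F))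
    (e : ι ≃ Fin 2 × Fin n₂) (P : GL ι F)
    (f₁ : (Fin 2 → F) → (Fin 2 → F) → F) (f₂ : (Fin n₂ → F) → (Fin n₂ → F) → F)
    (hf₁ : IsSymplecticForm f₁) (c : F)
    (hval : ∀ (x x' : Fin 2 → F) (y y' : Fin n₂ → F),
      QuadraticMap.polar ⇑Qb (tPhi e P (tpv x y)) (tPhi e P (tpv x' y')) =
        c * (f₁ x x' * f₂ y y'))
    (hpure : ∀ (x : Fin 2 → F) (y : Fin n₂ → F), Qb (tPhi e P (tpv x y)) = 0) (v : ι → F) :
    Qb (tf2M e P *ᵥ v) = Qb v := by
  obtain ⟨y₀, y₁, rfl⟩ := tf2_decomp e P v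
  rw [Matrix.mulVec_add, tf2M_pure, tf2M_pure, tf2_Q_sum Qb e P f₁ f₂ c hval hpure,
    tf2_Q_sum Qb e P f₁ f₂ c hval hpure, tf2_f1_J hq f₁ hf₁]

/-- The Eichler element `E(u, J u)` commutes with `J` when `J` is an isometry with
`J² = J + 1` in characteristic two. -/
theorem tf2_E_comm (h2 : (2 : F) = 0) (Qb : QuadraticForm F (ι → F)) (J : Matrix ι ι F)
    (hJsq : J * J = J + 1) (hJQ : ∀ v, Qb (J *ᵥ v) = Qb v) (u : ι → F) (hu : Qb u = 0) :
    QuadraticMap.polar ⇑Qb u (J *ᵥ u) = 0 ∧ Qb (J *ᵥ u) = 0 ∧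
      ∀ x, mv ⇑Qb (oE Qb u (J *ᵥ u)) (J *ᵥ x) = J *ᵥ (mv ⇑Qb (oE Qb u (J *ᵥ u)) x) := by
  have hJP : ∀ v w, QuadraticMap.polar ⇑Qb (J *ᵥ v) (J *ᵥ w) = QuadraticMap.polar ⇑Qb v w := by
    intro v w
    unfold QuadraticMap.polar
    rw [← Matrix.mulVec_add, hJQ, hJQ, hJQ]
  have hJJ : ∀ v, J *ᵥ (J *ᵥ v) = J *ᵥ v + v := by
    intro v
    rw [Matrix.mulVec_mulVec, hJsq, Matrix.add_mulVec, Matrix.one_mulVec]
  have hneg : ∀ z : ι → F, -z = z := by
    intro z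
    have h : (2 : F) • z = 0 := by rw [h2, zero_smul]
    rw [two_smul] at h
    exact neg_eq_of_add_eq_zero_right h
  have hQJu : Qb (J *ᵥ u) = 0 := by rw [hJQ, hu]
  have hub : QuadraticMap.polar ⇑Qb u (J *ᵥ u) = 0 := by
    unfold QuadraticMap.polar
    rw [add_comm, ← hJJ, hJQ, hJQ, hu]
    ring
  refine ⟨hub, hQJu, fun x => ?_⟩
  have hkey : QuadraticMap.polar ⇑Qb (J *ᵥ u) x =
      QuadraticMap.polar ⇑Qb u x + QuadraticMap.polar ⇑Qb u (J *ᵥ x) := by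
    rw [← hJP (J *ᵥ u) x, hJJ, QuadraticMap.polar_add_left, hJP]
  rw [mv_oE Qb u (J *ᵥ u) hu hub, mv_oE Qb u (J *ᵥ u) hu hub, hQJu, zero_mul, zero_mul, sub_zero,
    sub_zero, hJP, hkey, Matrix.mulVec_sub, Matrix.mulVec_add, Matrix.mulVec_smul,
    Matrix.mulVec_smul, hJJ, sub_eq_add_neg, hneg, sub_eq_add_neg, hneg]
  have h2a : QuadraticMap.polar ⇑Qb u x • (J *ᵥ u) + QuadraticMap.polar ⇑Qb u x • (J *ᵥ u) = 0 := by
    rw [← two_smul F, h2, zero_smul]
  linear_combination (norm := module) -h2a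

theorem tf2_comm_mem (hq : Fintype.card F = 2) (e : ι ≃ Fin 2 × Fin n₂) (P : GL ι F)
    (g : GL ι F)
    (hg : (g : Matrix ι ι F) * tf2M e P = tf2M e P * (g : Matrix ι ι F) ∨
      (g : Matrix ι ι F) * tf2M e P = (tf2M e P + 1) * (g : Matrix ι ι F)) :
    g ∈ subalgebraNormalizer (tf2K hq e P) := by
  apply Helper98.oc_normalizer_of_forall
  rintro _ ⟨α, β, rfl⟩
  have hgg : (g : Matrix ι ι F) * ((g⁻¹ : GL ι F) : Matrix ι ι F) = 1 := by
    rw [← Units.val_mul, mul_inv_cancel, Units.val_one]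
  have h1 : (g : Matrix ι ι F) * (α • (1 : Matrix ι ι F) + β • tf2M e P) *
      ((g⁻¹ : GL ι F) : Matrix ι ι F) =
      α • (1 : Matrix ι ι F) +
        β • ((g : Matrix ι ι F) * tf2M e P * ((g⁻¹ : GL ι F) : Matrix ι ι F)) := by
    rw [mul_add, add_mul, Matrix.mul_smul, Matrix.mul_smul, Matrix.smul_mul, Matrix.smul_mul,
      mul_one, hgg]
  rw [h1]
  rcases hg with hg | hg
  · rw [hg, mul_assoc, hgg, mul_one]
    exact ⟨α, β, rfl⟩
  · rw [hg, mul_assoc, hgg, mul_one]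
    exact ⟨α + β, β, by module⟩

theorem tf2_tens_le (hq : Fintype.card F = 2) (e : ι ≃ Fin 2 × Fin n₂) (P : GL ι F)
    (g : GL ι F) (hg : g ∈ tensorProductSubgroup 2 n₂ e P) :
    g ∈ subalgebraNormalizer (tf2K hq e P) := by
  obtain ⟨a, b, hab⟩ := tens_mem_act e P g hg
  apply tf2_comm_mem hq e P g
  have hsurj : ∀ v : ι → F, ∃ x, v = tPhi e P x := by
    intro v
    obtain ⟨y₀, y₁, h⟩ := tf2_decomp e P v
    exact ⟨_, by rw [map_add]; exact h⟩
  rcases tf2_conj hq a with ha | ha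
  · left
    apply Matrix.toLin'.injective
    apply LinearMap.ext
    intro v
    obtain ⟨x, rfl⟩ := hsurj v
    rw [Matrix.toLin'_apply, Matrix.toLin'_apply, ← Matrix.mulVec_mulVec, ← Matrix.mulVec_mulVec,
      tf2M_phi, hab, hab, tf2M_phi, Matrix.mulVec_mulVec, Matrix.mulVec_mulVec,
      ← Matrix.mul_kronecker_mul, ← Matrix.mul_kronecker_mul, ha, Matrix.one_mul, Matrix.mul_one]
  · right
    apply Matrix.toLin'.injective
    apply LinearMap.ext
    intro v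
    obtain ⟨x, rfl⟩ := hsurj v
    rw [Matrix.toLin'_apply, Matrix.toLin'_apply, ← Matrix.mulVec_mulVec, ← Matrix.mulVec_mulVec,
      tf2M_phi, hab, hab, Matrix.add_mulVec, Matrix.one_mulVec, tf2M_phi, ← map_add,
      Matrix.mulVec_mulVec, Matrix.mulVec_mulVec,
      ← Matrix.mul_kronecker_mul, ← Matrix.mul_kronecker_mul, ha, Matrix.one_mul, Matrix.mul_one,
      ← Matrix.add_mulVec, ← Matrix.add_kronecker, add_mul, one_mul]

theorem tens_f2_not_max (hq : Fintype.card F = 2) (Q : (ι → F) → F)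
    (hQ : IsNondegenerateQuadraticForm Q) (hn : 13 ≤ Fintype.card ι) (n₂ : ℕ) (h2 : 3 ≤ n₂)
    (e : ι ≃ Fin 2 × Fin n₂)
    (P : GL ι F) (f₁ : (Fin 2 → F) → (Fin 2 → F) → F) (f₂ : (Fin n₂ → F) → (Fin n₂ → F) → F)
    (hf₁ : IsSymplecticForm f₁) (hf₂ : IsSymplecticForm f₂)
    (hT : IsTensorFormStructure id (QuadraticMap.polar Q) f₁ f₂ e P)
    (hpure : ∀ (x₁ : Fin 2 → F) (x₂ : Fin n₂ → F), Q (tPhi e P (tpv x₁ x₂)) = 0) :
    ∃ K : Subgroup (GL ι F),
      tensorProductSubgroup 2 n₂ e P ⊓ omegaGL Q < K ∧ K < omegaGL Q := by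
  classical
  obtain ⟨Qb, hQb⟩ : ∃ Qb : QuadraticForm F (ι → F), Qb = Helper98.op_qf Q hQ := ⟨_, rfl⟩
  have hcoe : ⇑Qb = Q := by
    rw [hQb]
    rfl
  have hnd : (QuadraticMap.polarBilin Qb).Nondegenerate := by
    rw [hQb]
    exact Helper98.op_qf_nondeg Q hQ
  subst hcoe
  have hn5 : 5 ≤ Fintype.card ι := by omega
  have hne : Nonempty ι := Fintype.card_pos_iff.mp (by omega)
  have h2F := tf2_two hq
  obtain ⟨c, hc, hval⟩ := tens_val id (fun r s => rfl) (QuadraticMap.polar ⇑Qb) f₁ f₂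
    (formOfGram_gram id f₁ hf₁.bilinear.add_left hf₁.bilinear.smul_left hf₁.bilinear.add_right
      hf₁.bilinear.smul_right)
    (formOfGram_gram id f₂ hf₂.bilinear.add_left hf₂.bilinear.smul_left hf₂.bilinear.add_right
      hf₂.bilinear.smul_right) e P hT
  have hJQ : ∀ v, Qb (tf2M e P *ᵥ v) = Qb v := tf2_Q_J hq Qb e P f₁ f₂ hf₁ c hval hpure
  have hJsq := tf2M_sq hq e P
  have hK := tf2K_field hq e P
  have hsc : ∀ k ∈ tf2K hq e P, ∃ c : F, ∀ v : ι → F, Qb (k *ᵥ v) = c * Qb v := by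
    rintro _ ⟨α, β, rfl⟩
    rcases tf2_cases hq α with rfl | rfl <;> rcases tf2_cases hq β with rfl | rfl
    · exact ⟨0, fun v => by simp⟩
    · exact ⟨1, fun v => by rw [zero_smul, zero_add, one_smul, one_mul, hJQ]⟩
    · exact ⟨1, fun v => by rw [zero_smul, add_zero, one_smul, one_mul, Matrix.one_mulVec]⟩
    · refine ⟨1, fun v => ?_⟩
      rw [one_smul, one_smul, add_comm, ← hJsq, ← Matrix.mulVec_mulVec, hJQ, hJQ, one_mul]
  have hmax := Helper98.oc_unitary_max ⇑Qb hQ hn (tf2K hq e P) hK hsc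
  refine ⟨subalgebraNormalizer (tf2K hq e P) ⊓ omegaGL ⇑Qb, lt_of_le_of_ne ?_ ?_, hmax.1⟩
  · exact inf_le_inf_right _ (fun g hg => tf2_tens_le hq e P g hg)
  · intro heq
    have hc1 : c = 1 := (tf2_cases hq c).resolve_left hc
    have hd : f₁ (Pi.single 0 1) (Pi.single 1 1) = 1 := by
      refine (tf2_cases hq _).resolve_left ?_
      intro h0
      obtain ⟨-, ⟨x, hx⟩⟩ := hf₁.nondegenerate (Pi.single 0 1) (by
        intro h
        have := congrFun h 0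
        simp at this)
      apply hx
      rw [tf2_f1 f₁ hf₁, h0, mul_zero]
    have hval' : ∀ (x x' : Fin 2 → F) (y y' : Fin n₂ → F),
        QuadraticMap.polar ⇑Qb (tPhi e P (tpv x y)) (tPhi e P (tpv x' y')) =
          (x 0 * x' 1 - x 1 * x' 0) * f₂ y y' := by
      intro x x' y y'
      rw [hval, hc1, one_mul, tf2_f1 f₁ hf₁, hd, mul_one]
    have hn₂ : 0 < n₂ := by omega
    obtain ⟨w₁, hw₁⟩ : ∃ w₁ : Fin n₂ → F, w₁ ≠ 0 := ⟨Pi.single ⟨0, hn₂⟩ 1, by
      intro h0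
      have := congrFun h0 ⟨0, hn₂⟩
      simp at this⟩
    obtain ⟨-, ⟨y, hy⟩⟩ := hf₂.nondegenerate w₁ hw₁
    have hy1 : f₂ w₁ y = 1 := (tf2_cases hq _).resolve_left hy
    obtain ⟨φ, hφ⟩ : ∃ φ : (Fin n₂ → F) →ₗ[F] F × F, ∀ w, φ w = (f₂ w w₁, f₂ w y) :=
      ⟨{ toFun := fun w => (f₂ w w₁, f₂ w y)
         map_add' := fun w w' => by
          rw [hf₂.bilinear.add_left, hf₂.bilinear.add_left]
          rfl
         map_smul' := fun t w => by
          rw [hf₂.bilinear.smul_left, hf₂.bilinear.smul_left]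
          rfl }, fun w => rfl⟩
    have hker : LinearMap.ker φ ≠ ⊥ := by
      apply LinearMap.ker_ne_bot_of_finrank_lt
      rw [Module.finrank_prod, Module.finrank_self, Module.finrank_fin_fun]
      omega
    obtain ⟨w₂, hw₂ker, hw₂⟩ := (Submodule.ne_bot_iff _).mp hker
    have hw₂' := LinearMap.mem_ker.mp hw₂ker
    rw [hφ, Prod.mk_eq_zero] at hw₂'
    obtain ⟨h21, h2y⟩ := hw₂'
    obtain ⟨u, hu_def⟩ : ∃ u : ι → F, u = tPhi e P (tpv (Pi.single 0 1) w₁) +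
        tPhi e P (tpv (Pi.single 1 1) w₂) := ⟨_, rfl⟩
    have huQ : Qb u = 0 := by
      rw [hu_def, tf2_Q_sum Qb e P f₁ f₂ c hval hpure, hf₂.skew w₁ w₂, h21]
      ring
    obtain ⟨hub, hJuQ, hcomm⟩ := tf2_E_comm h2F Qb (tf2M e P) hJsq hJQ u huQ
    have hJu : tf2M e P *ᵥ u = tPhi e P (tpv (Pi.single 1 1) w₁) +
        tPhi e P (tpv (Pi.single 0 1 + Pi.single 1 1) w₂) := by
      rw [hu_def, Matrix.mulVec_add, tf2M_pure, tf2M_pure, tf2J_e0, tf2J_e1]
    have hneg : ∀ z : ι → F, -z = z := by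
      intro z
      have h : (2 : F) • z = 0 := by rw [h2F, zero_smul]
      rw [two_smul] at h
      exact neg_eq_of_add_eq_zero_right h
    have hE_K : ((oE Qb u (tf2M e P *ᵥ u) : ↥(isometryGroup F ⇑Qb)) : GL ι F) ∈
        subalgebraNormalizer (tf2K hq e P) ⊓ omegaGL ⇑Qb := by
      refine ⟨tf2_comm_mem hq e P _ (Or.inl ?_),
        Subgroup.mem_map_of_mem _ (oE_mem_omega Qb hnd hn5 u _)⟩
      apply Matrix.toLin'.injective
      apply LinearMap.ext
      intro x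
      rw [Matrix.toLin'_apply, Matrix.toLin'_apply, ← Matrix.mulVec_mulVec,
        ← Matrix.mulVec_mulVec]
      exact hcomm x
    rw [← heq] at hE_K
    obtain ⟨a, b, hab⟩ := tens_mem_act e P _ hE_K.1
    have hp_u : QuadraticMap.polar ⇑Qb u (tPhi e P (tpv (Pi.single 0 1) y)) = 0 := by
      rw [hu_def, QuadraticMap.polar_add_left, hval', hval', h2y]
      simp
    have hp_Ju : QuadraticMap.polar ⇑Qb (tf2M e P *ᵥ u) (tPhi e P (tpv (Pi.single 0 1) y)) =
        -1 := by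
      rw [hJu, QuadraticMap.polar_add_left, hval', hval', h2y, hy1]
      simp
    have h1 := hab (tpv (Pi.single 0 1) y)
    rw [tpv_kron] at h1
    have h2' : (((oE Qb u (tf2M e P *ᵥ u) : ↥(isometryGroup F ⇑Qb)) : GL ι F) : Matrix ι ι F) *ᵥ
        tPhi e P (tpv (Pi.single 0 1) y) =
        tPhi e P (tpv (Pi.single 0 1) y) +
          (QuadraticMap.polar ⇑Qb (tf2M e P *ᵥ u) (tPhi e P (tpv (Pi.single 0 1) y)) -
            Qb (tf2M e P *ᵥ u) * QuadraticMap.polar ⇑Qb u (tPhi e P (tpv (Pi.single 0 1) y))) • u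
          - (QuadraticMap.polar ⇑Qb u (tPhi e P (tpv (Pi.single 0 1) y))) • (tf2M e P *ᵥ u) :=
      mv_oE Qb u (tf2M e P *ᵥ u) huQ hub _
    rw [h2', hp_u, hp_Ju, hJuQ] at h1
    have h3 : tPhi e P (tpv ((a : Matrix (Fin 2) (Fin 2) F) *ᵥ Pi.single 0 1)
        ((b : Matrix (Fin n₂) (Fin n₂) F) *ᵥ y)) =
        tPhi e P (tpv (Pi.single 0 1) (y + w₁) + tpv (Pi.single 1 1) w₂) := by
      rw [← h1, hu_def, tpv_add_right, map_add, map_add, mul_zero, sub_zero, zero_smul, sub_zero,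
        neg_one_smul, hneg]
      abel
    have h4 := tPhi_injective e P h3
    have h50 : ∀ l, ((a : Matrix (Fin 2) (Fin 2) F) *ᵥ Pi.single 0 1) 0 *
        ((b : Matrix (Fin n₂) (Fin n₂) F) *ᵥ y) l = y l + w₁ l := by
      intro l
      have := congrFun h4 (0, l)
      simpa [tpv] using this
    have h51 : ∀ l, ((a : Matrix (Fin 2) (Fin 2) F) *ᵥ Pi.single 0 1) 1 *
        ((b : Matrix (Fin n₂) (Fin n₂) F) *ᵥ y) l = w₂ l := by
      intro l
      have := congrFun h4 (1, l)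
      simpa [tpv] using this
    have hα1 : ((a : Matrix (Fin 2) (Fin 2) F) *ᵥ Pi.single 0 1) 1 = 1 := by
      refine (tf2_cases hq _).resolve_left ?_
      intro h0
      apply hw₂
      funext l
      rw [← h51 l, h0, zero_mul]
      rfl
    have hβ : (b : Matrix (Fin n₂) (Fin n₂) F) *ᵥ y = w₂ := by
      funext l
      rw [← h51 l, hα1, one_mul]
    have h6 : y + w₁ = (((a : Matrix (Fin 2) (Fin 2) F) *ᵥ Pi.single 0 1) 0) • w₂ := by
      funext l
      rw [Pi.add_apply, ← h50 l, hβ]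
      rfl
    have h7 : f₂ w₁ (y + w₁) = 1 := by
      rw [hf₂.bilinear.add_right, hy1, hf₂.alternating, add_zero]
    rw [h6, hf₂.bilinear.smul_right, hf₂.skew w₁ w₂, h21, neg_zero, mul_zero] at h7
    exact zero_ne_one h7

end TensF2

end Cfsg.Agent.Helper94
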