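import Mathlib
import Cfsg.Prelude.Def_GeometricClasses
import Cfsg.Agent.Helper94.Tens

/-!
Non-degenerate symmetric bilinear forms on `F^3` over the field with three elements: an
orthonormal frame (up to one scalar), and the fact that every similarity is monomial in it.
-/

set_option autoImplicit false
set_option linter.unusedSectionVars false
set_option linter.unusedVariables false

universe u

namespace Cfsg.Agent.Helper94

open Matrix Cfsg Cfsg.Geo

section TensF3

variable {F : Type u} [Field F] [Fintype F]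

theorem tf3_three (hq : Fintype.card F = 3) : (3 : F) = 0 := by
  have h3 : ((3 : ℕ) : F) = 0 := by
    rw [← hq]
    exact Nat.cast_card_eq_zero F
  exact_mod_cast h3

theorem tf3_two_ne (hq : Fintype.card F = 3) : (2 : F) ≠ 0 := by
  intro h2
  have h3 := tf3_three hq
  have h1 : (1 : F) = 0 := by linear_combination h3 - h2
  exact one_ne_zero h1

theorem tf3_cases (hq : Fintype.card F = 3) (a : F) : a = 0 ∨ a = 1 ∨ a = -1 := by
  by_cases ha : a = 0
  · exact Or.inl ha
  right
  have h := FiniteField.pow_card_sub_one_eq_one a ha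
  rw [hq] at h
  have h' : (a - 1) * (a + 1) = 0 := by linear_combination h
  rcases mul_eq_zero.mp h' with h1 | h1
  · left
    linear_combination h1
  · right
    linear_combination h1

theorem tf3_sq (hq : Fintype.card F = 3) (a : F) : a = 0 ∨ a ^ 2 = 1 := by
  rcases tf3_cases hq a with h | h | h
  · exact Or.inl h
  · right
    rw [h]
    ring
  · right
    rw [h]
    ring

/-- A vector of `F_3^3` with `c₀² + c₁² + c₂² = 1` has exactly one non-zero coordinate. -/
theorem tf3_one_nonzero (hq : Fintype.card F = 3) (c : Fin 3 → F)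
    (h : c 0 ^ 2 + c 1 ^ 2 + c 2 ^ 2 = 1) : ∃ k, c k ≠ 0 ∧ ∀ l, l ≠ k → c l = 0 := by
  have h3 := tf3_three hq
  have h10 : (1 : F) ≠ 0 := one_ne_zero
  rcases tf3_sq hq (c 0) with h0 | h0 <;> rcases tf3_sq hq (c 1) with h1 | h1 <;>
    rcases tf3_sq hq (c 2) with h2 | h2
  · exfalso
    rw [h0, h1, h2] at h
    apply h10
    linear_combination -h
  · refine ⟨2, fun h' => ?_, fun l hl => ?_⟩
    · rw [h'] at h2
      apply h10
      linear_combination -h2
    · fin_cases l
      · exact h0
      · exact h1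
      · exact absurd rfl hl
  · refine ⟨1, fun h' => ?_, fun l hl => ?_⟩
    · rw [h'] at h1
      apply h10
      linear_combination -h1
    · fin_cases l
      · exact h0
      · exact absurd rfl hl
      · exact h2
  · exfalso
    rw [h0, h1, h2] at h
    apply h10
    linear_combination h
  · refine ⟨0, fun h' => ?_, fun l hl => ?_⟩
    · rw [h'] at h0
      apply h10
      linear_combination -h0
    · fin_cases l
      · exact absurd rfl hl
      · exact h1
      · exact h2
  · exfalso
    rw [h0, h1, h2] at h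
    apply h10
    linear_combination h
  · exfalso
    rw [h0, h1, h2] at h
    apply h10
    linear_combination h
  · exfalso
    rw [h0, h1, h2] at h
    apply h10
    linear_combination h3 - h

/-- Three pairwise orthogonal vectors of the same non-zero norm give coordinates in which the form
is a multiple of the dot product. -/
theorem tf3_of_frame (f : (Fin 3 → F) → (Fin 3 → F) → F) (hf : IsSymmetricForm f)
    (u : Fin 3 → Fin 3 → F) (ε : F) (hε : ε ≠ 0) (hn : ∀ i, f (u i) (u i) = ε)
    (ho : ∀ i j, i ≠ j → f (u i) (u j) = 0) :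
    ∃ B : GL (Fin 3) F, ∀ x y : Fin 3 → F,
      f ((B : Matrix (Fin 3) (Fin 3) F) *ᵥ x) ((B : Matrix (Fin 3) (Fin 3) F) *ᵥ y) =
        ε * (x ⬝ᵥ y) := by
  obtain ⟨B₀, hB₀⟩ : ∃ B₀ : Matrix (Fin 3) (Fin 3) F, B₀ = Matrix.of fun i j => u j i := ⟨_, rfl⟩
  have hmv : ∀ x : Fin 3 → F, B₀ *ᵥ x = x 0 • u 0 + x 1 • u 1 + x 2 • u 2 := by
    intro x
    funext i
    rw [hB₀]
    simp only [Matrix.mulVec, dotProduct, Matrix.of_apply, Fin.sum_univ_three, Pi.add_apply,
      Pi.smul_apply, smul_eq_mul]
    ring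
  have hform : ∀ x y : Fin 3 → F, f (B₀ *ᵥ x) (B₀ *ᵥ y) = ε * (x ⬝ᵥ y) := by
    intro x y
    rw [hmv, hmv]
    simp only [hf.bilinear.add_left, hf.bilinear.add_right, hf.bilinear.smul_left,
      hf.bilinear.smul_right, hn, ho 0 1 (by decide), ho 0 2 (by decide), ho 1 0 (by decide),
      ho 1 2 (by decide), ho 2 0 (by decide), ho 2 1 (by decide), dotProduct, Fin.sum_univ_three]
    ring
  have hz : ∀ v, f 0 v = 0 := by
    intro v
    have := hf.bilinear.smul_left 0 0 v
    rwa [zero_smul, zero_mul] at this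
  have hinj : Function.Injective B₀.mulVec := by
    intro x y hxy
    have h1 : ∀ z : Fin 3 → F, (x - y) ⬝ᵥ z = 0 := by
      intro z
      have h2 := hform (x - y) z
      have h3 : B₀ *ᵥ (x - y) = 0 := by
        rw [Matrix.mulVec_sub]
        exact sub_eq_zero.mpr hxy
      rw [h3, hz] at h2
      exact (mul_eq_zero.mp h2.symm).resolve_left hε
    have h4 : x - y = 0 := by
      funext i
      have := h1 (Pi.single i 1)
      simpa using this
    exact sub_eq_zero.mp h4
  have hunit : IsUnit B₀ := Matrix.mulVec_injective_iff_isUnit.mp hinj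
  exact ⟨hunit.unit, hform⟩

/-- A non-degenerate symmetric form on `F_3^3` is, in suitable coordinates, a non-zero multiple of
the dot product. -/
theorem tf3_frame (hq : Fintype.card F = 3) (f : (Fin 3 → F) → (Fin 3 → F) → F)
    (hf : IsSymmetricForm f) :
    ∃ (B : GL (Fin 3) F) (ε : F), ε ≠ 0 ∧ ∀ x y : Fin 3 → F,
      f ((B : Matrix (Fin 3) (Fin 3) F) *ᵥ x) ((B : Matrix (Fin 3) (Fin 3) F) *ᵥ y) =
        ε * (x ⬝ᵥ y) := by
  have h3 := tf3_three hq
  have h2 := tf3_two_ne hq
  obtain ⟨Bf, hBf⟩ : ∃ Bf : LinearMap.BilinForm F (Fin 3 → F), ∀ x y, Bf x y = f x y :=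
    ⟨LinearMap.mk₂ F f hf.bilinear.add_left hf.bilinear.smul_left hf.bilinear.add_right
      hf.bilinear.smul_right, fun x y => rfl⟩
  have hsymm : LinearMap.IsSymm Bf := ⟨fun x y => by
    rw [RingHom.id_apply, hBf, hBf]
    exact hf.symm x y⟩
  have : Invertible (2 : F) := invertibleOfNonzero h2
  obtain ⟨v, hv⟩ := LinearMap.BilinForm.exists_orthogonal_basis hsymm
  have hfr : Module.finrank F (Fin 3 → F) = 3 := Module.finrank_fin_fun F
  obtain ⟨w, hw⟩ : ∃ w : Module.Basis (Fin 3) F (Fin 3 → F), ∀ i j, i ≠ j → f (w i) (w j) = 0 := by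
    refine ⟨v.reindex (finCongr hfr), fun i j hij => ?_⟩
    rw [← hBf, Module.Basis.reindex_apply, Module.Basis.reindex_apply]
    apply hv
    intro h
    exact hij ((finCongr hfr).symm.injective h)
  have hnz : ∀ i, f (w i) (w i) ≠ 0 := by
    intro i h0
    have hall : Bf.flip (w i) = 0 := by
      apply w.ext
      intro j
      show Bf (w j) (w i) = 0
      rw [hBf]
      by_cases hji : j = i
      · rw [hji]
        exact h0
      · exact hw j i hji
    obtain ⟨x, hx⟩ := (hf.nondegenerate (w i) (w.ne_zero i)).1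
    apply hx
    have h5 : Bf.flip (w i) x = 0 := by rw [hall, LinearMap.zero_apply]
    rw [← hBf]
    exact h5
  have hpm : ∀ i, f (w i) (w i) = 1 ∨ f (w i) (w i) = -1 := fun i =>
    (tf3_cases hq _).resolve_left (hnz i)
  have hneg : ∀ i j, f (w i) (w i) ≠ f (w j) (w j) → f (w j) (w j) = - f (w i) (w i) := by
    intro i j hne
    rcases hpm i with hi | hi <;> rcases hpm j with hj | hj
    · exact absurd (hi.trans hj.symm) hne
    · rw [hi, hj]
    · rw [hi, hj, neg_neg]
    · exact absurd (hi.trans hj.symm) hne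
  -- rotation of a frame with norms `(a, a, -a)`
  have hrot : ∀ p q r : Fin 3 → F, f p p ≠ 0 → f q q = f p p → f r r = - f p p → f p q = 0 →
      f p r = 0 → f q r = 0 → ∃ (B : GL (Fin 3) F) (ε : F), ε ≠ 0 ∧ ∀ x y : Fin 3 → F,
      f ((B : Matrix (Fin 3) (Fin 3) F) *ᵥ x) ((B : Matrix (Fin 3) (Fin 3) F) *ᵥ y) =
        ε * (x ⬝ᵥ y) := by
    intro p q r hp hq' hr hpq hpr hqr
    have hqp : f q p = 0 := by rw [hf.symm]; exact hpq
    have hrp : f r p = 0 := by rw [hf.symm]; exact hpr
    have hrq : f r q = 0 := by rw [hf.symm]; exact hqr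
    have hsub : ∀ a b c : Fin 3 → F, f (a - b) c = f a c - f b c := by
      intro a b c
      have h1 := hf.bilinear.add_left (a - b) b c
      rw [sub_add_cancel] at h1
      linear_combination -h1
    have hsub' : ∀ a b c : Fin 3 → F, f c (a - b) = f c a - f c b := by
      intro a b c
      rw [hf.symm, hsub, hf.symm a, hf.symm b]
    obtain ⟨B, hB⟩ := tf3_of_frame f hf ![p + q, p - q, r] (- f p p) (neg_ne_zero.mpr hp)
      (by
        intro i
        fin_cases i
        · show f (p + q) (p + q) = _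
          rw [hf.bilinear.add_left, hf.bilinear.add_right, hf.bilinear.add_right, hq', hpq, hqp]
          linear_combination f p p * h3
        · show f (p - q) (p - q) = _
          rw [hsub, hsub', hsub', hq', hpq, hqp]
          linear_combination f p p * h3
        · exact hr)
      (by
        intro i j hij
        fin_cases i <;> fin_cases j
        · exact absurd rfl hij
        · show f (p + q) (p - q) = 0
          rw [hf.bilinear.add_left, hsub', hsub', hq', hpq, hqp]
          ring
        · show f (p + q) r = 0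
          rw [hf.bilinear.add_left, hpr, hqr, add_zero]
        · show f (p - q) (p + q) = 0
          rw [hsub, hf.bilinear.add_right, hf.bilinear.add_right, hq', hpq, hqp]
          ring
        · exact absurd rfl hij
        · show f (p - q) r = 0
          rw [hsub, hpr, hqr, sub_zero]
        · show f r (p + q) = 0
          rw [hf.bilinear.add_right, hrp, hrq, add_zero]
        · show f r (p - q) = 0
          rw [hsub', hrp, hrq, sub_zero]
        · exact absurd rfl hij)
    exact ⟨B, _, neg_ne_zero.mpr hp, hB⟩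
  by_cases h01 : f (w 0) (w 0) = f (w 1) (w 1)
  · by_cases h12 : f (w 1) (w 1) = f (w 2) (w 2)
    · obtain ⟨B, hB⟩ := tf3_of_frame f hf w (f (w 0) (w 0)) (hnz 0)
        (by
          intro i
          fin_cases i
          · rfl
          · exact h01.symm
          · exact (h01.trans h12).symm)
        hw
      exact ⟨B, _, hnz 0, hB⟩
    · exact hrot (w 0) (w 1) (w 2) (hnz 0) h01.symm
        (by rw [hneg 1 2 h12, h01]) (hw 0 1 (by decide)) (hw 0 2 (by decide)) (hw 1 2 (by decide))
  · by_cases h02 : f (w 0) (w 0) = f (w 2) (w 2)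
    · exact hrot (w 0) (w 2) (w 1) (hnz 0) h02.symm (hneg 0 1 h01) (hw 0 2 (by decide))
        (hw 0 1 (by decide)) (hw 2 1 (by decide))
    · have h1 := hneg 0 1 h01
      have h2' := hneg 0 2 h02
      exact hrot (w 1) (w 2) (w 0) (hnz 1) (by rw [h2', h1]) (by rw [h1, neg_neg])
        (hw 1 2 (by decide)) (hw 1 0 (by decide)) (hw 2 0 (by decide))

/-- Every similarity of the form is monomial in the frame. -/
theorem tf3_monomial (hq : Fintype.card F = 3) (f : (Fin 3 → F) → (Fin 3 → F) → F)
    (B : GL (Fin 3) F) (ε : F) (hε : ε ≠ 0)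
    (hB : ∀ x y : Fin 3 → F,
      f ((B : Matrix (Fin 3) (Fin 3) F) *ᵥ x) ((B : Matrix (Fin 3) (Fin 3) F) *ᵥ y) =
        ε * (x ⬝ᵥ y))
    (a : Matrix (Fin 3) (Fin 3) F) (μ : F) (hμ : μ ≠ 0)
    (ha : ∀ x y, f (a *ᵥ x) (a *ᵥ y) = μ * f x y) :
    ∃ (σ : Equiv.Perm (Fin 3)) (l : Fin 3 → F), ∀ i,
      a *ᵥ ((B : Matrix (Fin 3) (Fin 3) F) *ᵥ Pi.single i 1) =
        l i • ((B : Matrix (Fin 3) (Fin 3) F) *ᵥ Pi.single (σ i) 1) := by
  have h3 := tf3_three hq
  have h2 := tf3_two_ne hq
  obtain ⟨a', ha'⟩ : ∃ a' : Matrix (Fin 3) (Fin 3) F,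
      a' = ((B⁻¹ : GL (Fin 3) F) : Matrix (Fin 3) (Fin 3) F) * a *
        (B : Matrix (Fin 3) (Fin 3) F) := ⟨_, rfl⟩
  have hBa : ∀ x, (B : Matrix (Fin 3) (Fin 3) F) *ᵥ (a' *ᵥ x) =
      a *ᵥ ((B : Matrix (Fin 3) (Fin 3) F) *ᵥ x) := by
    intro x
    rw [ha', Matrix.mulVec_mulVec, Matrix.mulVec_mulVec, ← mul_assoc, ← mul_assoc,
      ← Units.val_mul, mul_inv_cancel, Units.val_one, one_mul]
  have hdot : ∀ x y, (a' *ᵥ x) ⬝ᵥ (a' *ᵥ y) = μ * (x ⬝ᵥ y) := by
    intro x y
    have h1 := hB (a' *ᵥ x) (a' *ᵥ y)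
    rw [hBa, hBa, ha, hB] at h1
    exact mul_left_cancel₀ hε
      (show ε * ((a' *ᵥ x) ⬝ᵥ (a' *ᵥ y)) = ε * (μ * (x ⬝ᵥ y)) by linear_combination -h1)
  have hc : ∀ i k : Fin 3, (a' *ᵥ Pi.single i 1) k = a' k i := by
    intro i k
    simp [Matrix.mulVec, dotProduct, Pi.single_apply]
  have hsum : ∀ i j : Fin 3, ∑ k, a' k i * a' k j = if i = j then μ else 0 := by
    intro i j
    have h1 := hdot (Pi.single i 1) (Pi.single j 1)
    rw [single_dotProduct, one_mul, Pi.single_apply] at h1
    simp only [dotProduct, hc] at h1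
    rw [h1]
    split_ifs <;> simp
  have hT : a'ᵀ * a' = μ • (1 : Matrix (Fin 3) (Fin 3) F) := by
    ext i j
    rw [Matrix.mul_apply, Matrix.smul_apply, Matrix.one_apply]
    simp only [Matrix.transpose_apply]
    rw [hsum]
    split_ifs <;> simp
  have hdet : a'.det ^ 2 = μ ^ 3 := by
    have h1 := congrArg Matrix.det hT
    rw [Matrix.det_mul, Matrix.det_transpose, Matrix.det_smul, Matrix.det_one, Fintype.card_fin,
      mul_one] at h1
    linear_combination h1
  have hμ1 : μ = 1 := by
    rcases tf3_cases hq μ with h | h | h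
    · exact absurd h hμ
    · exact h
    · exfalso
      rw [h] at hdet
      rcases tf3_sq hq a'.det with h0 | h0
      · rw [h0] at hdet
        apply one_ne_zero (α := F)
        linear_combination hdet
      · rw [h0] at hdet
        apply h2
        linear_combination hdet
  have hex : ∀ i, ∃ k, a' k i ≠ 0 ∧ ∀ l, l ≠ k → a' l i = 0 := by
    intro i
    apply tf3_one_nonzero hq (fun k => a' k i)
    have h1 := hsum i i
    rw [if_pos rfl, Fin.sum_univ_three, hμ1] at h1
    linear_combination h1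
  choose σ₀ hσ₀ hσ₀' using hex
  have hinj : Function.Injective σ₀ := by
    intro i j hij
    by_contra hne
    have h1 := hsum i j
    rw [if_neg hne, Finset.sum_eq_single (σ₀ i) (fun k _ hk => by rw [hσ₀' i k hk, zero_mul])
      (fun h => absurd (Finset.mem_univ _) h)] at h1
    rcases mul_eq_zero.mp h1 with h4 | h4
    · exact hσ₀ i h4
    · rw [hij] at h4
      exact hσ₀ j h4
  refine ⟨Equiv.ofBijective σ₀ (Finite.injective_iff_bijective.mp hinj), fun i => a' (σ₀ i) i,
    fun i => ?_⟩
  rw [← hBa, ← Matrix.mulVec_smul]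
  congr 1
  funext k
  rw [hc, Equiv.ofBijective_apply, Pi.smul_apply, Pi.single_apply, smul_eq_mul]
  split_ifs with hk
  · rw [hk, mul_one]
  · rw [mul_zero]
    exact hσ₀' i k hk

end TensF3

end Cfsg.Agent.Helper94
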