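import Mathlib
import Cfsg.Prelude.Def_GeometricClasses
import Cfsg.Agent.Helper94.Tens
import Cfsg.Agent.Helper94.USub
import Cfsg.Agent.Helper94.HermF4
import Cfsg.Agent.Helper97.UForm

/-!
Non-degenerate unitary forms on `F^2` over the field with four elements: an orthonormal frame,
and the fact that every similarity is monomial in it.
-/

set_option autoImplicit false
set_option linter.unusedSectionVars false
set_option linter.unusedVariables false

universe u

namespace Cfsg.Agent.Helper94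

open Matrix Cfsg Cfsg.Geo

section TensF4

variable {F : Type u} [Field F] [Fintype F]

/-- A `q`-power unitary form is a Hermitian form for the automorphism `x ↦ x^q`. -/
theorem upow_UF {ι : Type} [Fintype ι] [DecidableEq ι] {q : ℕ} {σ : F ≃+* F}
    (hσ : Helper97.IsSigma q σ) {f : (ι → F) → (ι → F) → F} (hf : IsUnitaryFormPow q f) :
    UF σ f :=
  ⟨hσ.inv, hσ.exists_ne, hf.add_left, hf.smul_left, fun v w => by rw [hσ.pow]; exact hf.herm v w,
    fun v hv => (hf.nondegenerate v hv).1⟩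

/-- A non-degenerate unitary form on `F_4^2` is the standard one in suitable coordinates. -/
theorem tf4_frame (hF : Fintype.card F = 4) {σ : F ≃+* F} (hσ : ∀ x, σ x = x ^ 2)
    (f : (Fin 2 → F) → (Fin 2 → F) → F) (h : UF σ f) :
    ∃ B : GL (Fin 2) F, ∀ x y : Fin 2 → F,
      f ((B : Matrix (Fin 2) (Fin 2) F) *ᵥ x) ((B : Matrix (Fin 2) (Fin 2) F) *ᵥ y) =
        x 0 * y 0 ^ 2 + x 1 * y 1 ^ 2 := by
  have hone : ∀ z, f z z ≠ 0 → f z z = 1 := by
    intro z hz
    have h1 := h.self_fix z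
    rw [hσ] at h1
    have h2 : f z z * (f z z - 1) = 0 := by linear_combination h1
    rcases mul_eq_zero.mp h2 with h3 | h3
    · exact absurd h3 hz
    · exact sub_eq_zero.mp h3
  obtain ⟨b₀, hb₀, -⟩ := h.exists_aniso (k := 0) (fun i => i.elim0)
    (by rw [Fintype.card_fin]; norm_num)
  have hb₀1 := hone b₀ hb₀
  have hW : ∀ u ∈ Submodule.span F {b₀}, u ≠ 0 → ∃ x ∈ Submodule.span F {b₀}, f x u ≠ 0 := by
    intro u hu hu0
    obtain ⟨t, rfl⟩ := Submodule.mem_span_singleton.mp hu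
    refine ⟨b₀, Submodule.mem_span_singleton_self b₀, ?_⟩
    rw [h.smul_right, hb₀1, mul_one]
    intro h0
    apply hu0
    rw [(map_eq_zero σ).mp h0, zero_smul]
  have hfin := h.finrank_uperp_ge (Submodule.span F {b₀}) hW
  have hb₀ne : b₀ ≠ 0 := by
    rintro rfl
    exact hb₀ (h.zero_left 0)
  rw [finrank_span_singleton hb₀ne, Fintype.card_fin] at hfin
  obtain ⟨b₁, hb₁U, hb₁, -⟩ := h.sub_exists_aniso (h.uperp (Submodule.span F {b₀}))
    (h.uperp_nondeg _ hW) (j := 0) (fun i => i.elim0) (by omega)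
  have hb₁1 := hone b₁ hb₁
  have h10 : f b₁ b₀ = 0 := hb₁U b₀ (Submodule.mem_span_singleton_self b₀)
  have h01 : f b₀ b₁ = 0 := h.swap_zero h10
  obtain ⟨B₀, hB₀⟩ : ∃ B₀ : Matrix (Fin 2) (Fin 2) F,
      B₀ = Matrix.of fun i j => (![b₀, b₁] : Fin 2 → Fin 2 → F) j i := ⟨_, rfl⟩
  have hmv : ∀ x : Fin 2 → F, B₀ *ᵥ x = x 0 • b₀ + x 1 • b₁ := by
    intro x
    funext i
    rw [hB₀]
    simp only [Matrix.mulVec, dotProduct, Matrix.of_apply, Fin.sum_univ_two, Pi.add_apply,
      Pi.smul_apply, smul_eq_mul, Matrix.cons_val_zero, Matrix.cons_val_one]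
    ring
  have hform : ∀ x y : Fin 2 → F, f (B₀ *ᵥ x) (B₀ *ᵥ y) = x 0 * y 0 ^ 2 + x 1 * y 1 ^ 2 := by
    intro x y
    rw [hmv, hmv]
    simp only [h.add_left, h.add_right, h.smul_left, h.smul_right, hb₀1, hb₁1, h10, h01, hσ]
    ring
  have hinj : Function.Injective B₀.mulVec := by
    intro x y hxy
    have h1 : ∀ z : Fin 2 → F, (x - y) 0 * z 0 ^ 2 + (x - y) 1 * z 1 ^ 2 = 0 := by
      intro z
      have h2 := hform (x - y) z
      have h3 : B₀ *ᵥ (x - y) = 0 := by
        rw [Matrix.mulVec_sub]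
        exact sub_eq_zero.mpr hxy
      rw [h3, h.zero_left] at h2
      exact h2.symm
    have h4 : x - y = 0 := by
      funext i
      fin_cases i
      · have := h1 ![1, 0]
        simpa using this
      · have := h1 ![0, 1]
        simpa using this
    exact sub_eq_zero.mp h4
  exact ⟨(Matrix.mulVec_injective_iff_isUnit.mp hinj).unit, hform⟩

/-- Every similarity of the standard unitary form on `F_4^2` is monomial in the frame. -/
theorem tf4_monomial (hF : Fintype.card F = 4) (f : (Fin 2 → F) → (Fin 2 → F) → F)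
    (B : GL (Fin 2) F)
    (hB : ∀ x y : Fin 2 → F,
      f ((B : Matrix (Fin 2) (Fin 2) F) *ᵥ x) ((B : Matrix (Fin 2) (Fin 2) F) *ᵥ y) =
        x 0 * y 0 ^ 2 + x 1 * y 1 ^ 2)
    (a : Matrix (Fin 2) (Fin 2) F) (μ : F) (hμ : μ ≠ 0)
    (ha : ∀ x y, f (a *ᵥ x) (a *ᵥ y) = μ * f x y) :
    ∃ (τ : Equiv.Perm (Fin 2)) (l : Fin 2 → F), ∀ i,
      a *ᵥ ((B : Matrix (Fin 2) (Fin 2) F) *ᵥ Pi.single i 1) =
        l i • ((B : Matrix (Fin 2) (Fin 2) F) *ᵥ Pi.single (τ i) 1) := by
  have h2 := two_eq_zero_of_card_four hF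
  obtain ⟨a', ha'⟩ : ∃ a' : Matrix (Fin 2) (Fin 2) F,
      a' = ((B⁻¹ : GL (Fin 2) F) : Matrix (Fin 2) (Fin 2) F) * a *
        (B : Matrix (Fin 2) (Fin 2) F) := ⟨_, rfl⟩
  have hBa : ∀ x, (B : Matrix (Fin 2) (Fin 2) F) *ᵥ (a' *ᵥ x) =
      a *ᵥ ((B : Matrix (Fin 2) (Fin 2) F) *ᵥ x) := by
    intro x
    rw [ha', Matrix.mulVec_mulVec, Matrix.mulVec_mulVec, ← mul_assoc, ← mul_assoc,
      ← Units.val_mul, mul_inv_cancel, Units.val_one, one_mul]
  have hdot : ∀ x y : Fin 2 → F, (a' *ᵥ x) 0 * (a' *ᵥ y) 0 ^ 2 + (a' *ᵥ x) 1 * (a' *ᵥ y) 1 ^ 2 =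
      μ * (x 0 * y 0 ^ 2 + x 1 * y 1 ^ 2) := by
    intro x y
    have h1 := hB (a' *ᵥ x) (a' *ᵥ y)
    rw [hBa, hBa, ha, hB] at h1
    exact h1.symm
  have hc : ∀ i k : Fin 2, (a' *ᵥ Pi.single i 1) k = a' k i := by
    intro i k
    simp [Matrix.mulVec, dotProduct, Pi.single_apply]
  have hsum : ∀ i j : Fin 2, ∑ k, a' k i * a' k j ^ 2 = if i = j then μ else 0 := by
    intro i j
    have h1 := hdot (Pi.single i 1) (Pi.single j 1)
    rw [hc, hc, hc, hc] at h1
    rw [Fin.sum_univ_two, h1]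
    fin_cases i <;> fin_cases j <;> simp
  have hcube : ∀ t : F, t = 0 ∨ t ^ 3 = 1 := fun t => by
    by_cases ht : t = 0
    · exact Or.inl ht
    · exact Or.inr (pow_three_of_card_four hF t ht)
  have hex : ∀ i, ∃ k, a' k i ≠ 0 ∧ ∀ l, l ≠ k → a' l i = 0 := by
    intro i
    have h1 := hsum i i
    rw [if_pos rfl, Fin.sum_univ_two] at h1
    have h1' : μ = a' 0 i ^ 3 + a' 1 i ^ 3 := by rw [← h1]; ring
    rcases hcube (a' 0 i) with h0 | h0 <;> rcases hcube (a' 1 i) with h3 | h3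
    · exfalso
      apply hμ
      rw [h1', h0, h3]
      ring
    · refine ⟨1, fun hz => ?_, fun l hl => ?_⟩
      · rw [hz] at h3
        simp at h3
      · fin_cases l
        · exact h0
        · exact absurd rfl hl
    · refine ⟨0, fun hz => ?_, fun l hl => ?_⟩
      · rw [hz] at h0
        simp at h0
      · fin_cases l
        · exact absurd rfl hl
        · exact h3
    · exfalso
      apply hμ
      rw [h1', h0, h3]
      linear_combination h2
  choose τ₀ hτ₀ hτ₀' using hex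
  have hinj : Function.Injective τ₀ := by
    intro i j hij
    by_contra hne
    have h1 := hsum i j
    rw [if_neg hne, Finset.sum_eq_single (τ₀ i) (fun k _ hk => by rw [hτ₀' i k hk, zero_mul])
      (fun h => absurd (Finset.mem_univ _) h)] at h1
    rcases mul_eq_zero.mp h1 with h4 | h4
    · exact hτ₀ i h4
    · rw [hij] at h4
      exact hτ₀ j (pow_eq_zero_iff (two_ne_zero)|>.mp h4)
  refine ⟨Equiv.ofBijective τ₀ (Finite.injective_iff_bijective.mp hinj), fun i => a' (τ₀ i) i,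
    fun i => ?_⟩
  rw [← hBa, ← Matrix.mulVec_smul]
  congr 1
  funext k
  rw [hc, Equiv.ofBijective_apply, Pi.smul_apply, Pi.single_apply, smul_eq_mul]
  split_ifs with hk
  · rw [hk, mul_one]
  · rw [mul_zero]
    exact hτ₀' i k hk

end TensF4

end Cfsg.Agent.Helper94
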