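import Mathlib
import Cfsg.Prelude.Def_GeometricClasses
import Cfsg.Agent.Helper94.Tens
import Cfsg.Agent.Helper94.TensF3
import Cfsg.Agent.Helper94.ONd1

/-!
The stabiliser in `Ω(Q)` over the field with three elements of a tensor decomposition
`(symmetric of dimension 3) ⊗ symmetric` of the polar form is not maximal: the three-dimensional
factor has an orthonormal frame permuted (up to signs) by all its similarities, so the stabiliser
lies in the stabiliser of a decomposition into three non-degenerate subspaces.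
-/

set_option autoImplicit false
set_option linter.unusedSectionVars false
set_option linter.unusedVariables false

universe u

namespace Cfsg.Agent.Helper94

open Matrix Cfsg Cfsg.Geo Cfsg.Agent.Helper45
open scoped Kronecker

section TensO

variable {ι : Type} [Fintype ι] [DecidableEq ι] {F : Type u} [Field F] [Fintype F]

theorem tens_o_not_max (hq : Fintype.card F = 3) (Q : (ι → F) → F)
    (hQ : IsNondegenerateQuadraticForm Q) (n₂ : ℕ) (h2 : 3 ≤ n₂) (e : ι ≃ Fin 3 × Fin n₂)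
    (P : GL ι F) (f₁ : (Fin 3 → F) → (Fin 3 → F) → F) (f₂ : (Fin n₂ → F) → (Fin n₂ → F) → F)
    (hf₁ : IsSymmetricForm f₁) (hf₂ : IsSymmetricForm f₂)
    (hT : IsTensorFormStructure id (QuadraticMap.polar Q) f₁ f₂ e P) :
    ∃ K : Subgroup (GL ι F),
      tensorProductSubgroup 3 n₂ e P ⊓ omegaGL Q < K ∧ K < omegaGL Q := by
  classical
  obtain ⟨Qb, hQb⟩ : ∃ Qb : QuadraticForm F (ι → F), Qb = Helper98.op_qf Q hQ := ⟨_, rfl⟩
  have hcoe : ⇑Qb = Q := by
    rw [hQb]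
    rfl
  have hnd : (QuadraticMap.polarBilin Qb).Nondegenerate := by
    rw [hQb]
    exact Helper98.op_qf_nondeg Q hQ
  subst hcoe
  have hcard : Fintype.card ι = 3 * n₂ := by
    have h1 := Fintype.card_congr e
    simpa only [Fintype.card_prod, Fintype.card_fin] using h1
  have hn5 : 5 ≤ Fintype.card ι := by omega
  obtain ⟨c, hc, hval⟩ := tens_val id (fun r s => rfl) (QuadraticMap.polar ⇑Qb) f₁ f₂
    (formOfGram_gram id f₁ hf₁.bilinear.add_left hf₁.bilinear.smul_left hf₁.bilinear.add_right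
      hf₁.bilinear.smul_right)
    (formOfGram_gram id f₂ hf₂.bilinear.add_left hf₂.bilinear.smul_left hf₂.bilinear.add_right
      hf₂.bilinear.smul_right) e P hT
  obtain ⟨B, ε, hε, hB⟩ := tf3_frame hq f₁ hf₁
  obtain ⟨bv, hbv⟩ : ∃ bv : Fin 3 → (Fin 3 → F),
      ∀ i, bv i = (B : Matrix (Fin 3) (Fin 3) F) *ᵥ Pi.single i 1 := ⟨_, fun i => rfl⟩
  have hbb : ∀ i j, f₁ (bv i) (bv j) = if i = j then ε else 0 := by
    intro i j
    rw [hbv, hbv, hB, single_dotProduct, one_mul, Pi.single_apply]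
    split_ifs <;> simp
  have hz1 : ∀ v, f₁ 0 v = 0 := by
    intro v
    have := hf₁.bilinear.smul_left 0 0 v
    rwa [zero_smul, zero_mul] at this
  have hbne : ∀ i, bv i ≠ 0 := by
    intro i h0
    have h1 := hbb i i
    rw [if_pos rfl, h0, hz1] at h1
    exact hε h1.symm
  obtain ⟨J, hJ⟩ : ∃ J : Fin 3 → (Fin n₂ → F) →ₗ[F] (ι → F),
      ∀ i y, J i y = tPhi e P (tpv (bv i) y) :=
    ⟨fun i => tPhi e P ∘ₗ tpvR (bv i), fun i y => rfl⟩
  have hfr : TFrame (QuadraticMap.polar ⇑Qb) f₂ J := by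
    refine ⟨fun i y y' hyy => ?_, fun i j hij y y' => ?_,
      fun i => ⟨c * ε, mul_ne_zero hc hε, fun y y' => ?_⟩, hf₂.nondegenerate⟩
    · rw [hJ, hJ] at hyy
      have h2 : tpvR (bv i) (y - y') = 0 := by
        rw [map_sub, tpvR_apply, tpvR_apply, tPhi_injective e P hyy, sub_self]
      rw [tpvR_apply] at h2
      exact sub_eq_zero.mp (tpv_eq_zero_right (hbne i) h2)
    · rw [hJ, hJ, hval, hbb, if_neg hij, zero_mul, mul_zero]
    · rw [hJ, hJ, hval, hbb, if_pos rfl]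
      ring
  have hn₂ : 0 < n₂ := by omega
  have : Nonempty (Fin n₂) := ⟨⟨0, hn₂⟩⟩
  obtain ⟨y₀, hy₀⟩ : ∃ y₀ : Fin n₂ → F, y₀ ≠ 0 := ⟨Pi.single ⟨0, hn₂⟩ 1, by
    intro h0
    have := congrFun h0 ⟨0, hn₂⟩
    simp at this⟩
  have hmono : ∀ g : ↥(isometryGroup F ⇑Qb), (g : GL ι F) ∈ tensorProductSubgroup 3 n₂ e P →
      ∃ (σ : Equiv.Perm (Fin 3)) (l : Fin 3 → F) (β : (Fin n₂ → F) → (Fin n₂ → F)),
        ∀ i y, ((g : GL ι F) : Matrix ι ι F) *ᵥ J i y = J (σ i) (l i • β y) := by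
    intro g hgT
    obtain ⟨a, b, hab⟩ := tens_mem_act e P (g : GL ι F) hgT
    have hpres : ∀ x x' y y', f₁ ((a : Matrix (Fin 3) (Fin 3) F) *ᵥ x)
        ((a : Matrix (Fin 3) (Fin 3) F) *ᵥ x') *
        f₂ ((b : Matrix (Fin n₂) (Fin n₂) F) *ᵥ y) ((b : Matrix (Fin n₂) (Fin n₂) F) *ᵥ y') =
        f₁ x x' * f₂ y y' := by
      intro x x' y y'
      have h1 : QuadraticMap.polar ⇑Qb (((g : GL ι F) : Matrix ι ι F) *ᵥ tPhi e P (tpv x y))
          (((g : GL ι F) : Matrix ι ι F) *ᵥ tPhi e P (tpv x' y')) =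
          QuadraticMap.polar ⇑Qb (tPhi e P (tpv x y)) (tPhi e P (tpv x' y')) :=
        mv_polar Qb g _ _
      rw [hab, hab, tpv_kron, tpv_kron, hval, hval] at h1
      exact mul_left_cancel₀ hc h1
    obtain ⟨μ, hμ, hsim⟩ := tens_simil_left f₁ f₂
      (fun x => (a : Matrix (Fin 3) (Fin 3) F) *ᵥ x)
      (fun y => (b : Matrix (Fin n₂) (Fin n₂) F) *ᵥ y) hpres
      ⟨bv 0, bv 0, by rw [hbb, if_pos rfl]; exact hε⟩
      (by
        obtain ⟨⟨y, hy⟩, -⟩ := hf₂.nondegenerate y₀ hy₀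
        exact ⟨y, y₀, hy⟩)
    obtain ⟨σ, l, hσl⟩ := tf3_monomial hq f₁ B ε hε hB (a : Matrix (Fin 3) (Fin 3) F) μ hμ hsim
    refine ⟨σ, l, fun y => (b : Matrix (Fin n₂) (Fin n₂) F) *ᵥ y, fun i y => ?_⟩
    rw [hJ, hab, tpv_kron, hbv, hσl, ← hbv, tpv_smul_left, ← tpv_smul_right, hJ]
  have hfin0 : Module.finrank F (tBlock J 0) = n₂ := by
    rw [hfr.finrank_block, Fintype.card_fin]
  obtain ⟨u, hu, hu0, huQ⟩ := exists_sing_in Qb (tBlock J 0) (by rw [hfin0]; exact h2)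
  have huu : QuadraticMap.polar ⇑Qb u u = 0 := polar_self_zero Qb u huQ
  obtain ⟨⟨t, ht, htu⟩, -⟩ := hfr.nondeg 0 u hu hu0
  have hut : QuadraticMap.polar ⇑Qb u t ≠ 0 := by rwa [QuadraticMap.polar_comm]
  have hw'mem : J 1 y₀ ∈ tBlock J 1 := ⟨y₀, rfl⟩
  have hw'ne : J 1 y₀ ≠ 0 := fun h0 => hy₀ (hfr.inj 1 (h0.trans (map_zero _).symm))
  refine ⟨decompositionStabilizer (tBlock J) ⊓ omegaGL ⇑Qb, lt_of_le_of_ne ?_ ?_,
    lt_of_le_of_ne inf_le_right ?_⟩
  · intro g hg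
    obtain ⟨g', hg', rfl⟩ := Subgroup.mem_map.mp hg.2
    obtain ⟨σ, l, β, hσ⟩ := hmono g' hg.1
    exact ⟨hfr.stab_of_mono _ σ l β hσ, hg.2⟩
  · intro heq
    obtain ⟨w, hw, hwu⟩ : ∃ w ∈ tBlock J 0 ⊓ perpSub Qb u, w ∉ Submodule.span F {u} := by
      by_contra hcon
      push Not at hcon
      have h1 : tBlock J 0 ⊓ perpSub Qb u ≤ Submodule.span F {u} := hcon
      have h3 := Submodule.finrank_mono h1
      have h4 := finrank_inf_perpSub_ge Qb (tBlock J 0) u
      rw [finrank_span_singleton hu0] at h3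
      omega
    have huw : QuadraticMap.polar ⇑Qb u w = 0 := (mem_perpSub Qb u w).mp hw.2
    have hk_fix : ∀ i : Fin 3, i ≠ 0 → ∀ v ∈ tBlock J i,
        (((oE Qb u w : ↥(isometryGroup F ⇑Qb)) : GL ι F) : Matrix ι ι F) *ᵥ v = v := by
      intro i hi v hv
      refine (mv_oE Qb u w huQ huw v).trans ?_
      rw [hfr.orthogonal 0 i (Ne.symm hi) w hw.1 v hv, hfr.orthogonal 0 i (Ne.symm hi) u hu v hv]
      simp
    have hk_stab0 : ∀ v ∈ tBlock J 0,
        (((oE Qb u w : ↥(isometryGroup F ⇑Qb)) : GL ι F) : Matrix ι ι F) *ᵥ v ∈ tBlock J 0 := by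
      intro v hv
      have h1 : (((oE Qb u w : ↥(isometryGroup F ⇑Qb)) : GL ι F) : Matrix ι ι F) *ᵥ v =
          v + (QuadraticMap.polar ⇑Qb w v - Qb w * QuadraticMap.polar ⇑Qb u v) • u
            - (QuadraticMap.polar ⇑Qb u v) • w := mv_oE Qb u w huQ huw v
      rw [h1]
      exact (tBlock J 0).sub_mem ((tBlock J 0).add_mem hv ((tBlock J 0).smul_mem _ hu))
        ((tBlock J 0).smul_mem _ hw.1)
    have hkK : ((oE Qb u w : ↥(isometryGroup F ⇑Qb)) : GL ι F) ∈
        decompositionStabilizer (tBlock J) ⊓ omegaGL ⇑Qb := by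
      refine ⟨hfr.stab_of_maps _ 1 (fun i v hv => ?_),
        Subgroup.mem_map_of_mem _ (oE_mem_omega Qb hnd hn5 u w)⟩
      show _ ∈ tBlock J i
      by_cases hi : i = 0
      · subst hi
        exact hk_stab0 v hv
      · rw [hk_fix i hi v hv]
        exact hv
    rw [← heq] at hkK
    obtain ⟨σ, l, β, hσ⟩ := hmono _ hkK.1
    obtain ⟨μ, hμ⟩ := hfr.scalar_of_mono _ σ l β hσ 0 1 (hk_fix 1 (by decide)) hk_stab0
    have hμ1 : μ = 1 := by
      have h1 := hμ u hu
      have h1' : (((oE Qb u w : ↥(isometryGroup F ⇑Qb)) : GL ι F) : Matrix ι ι F) *ᵥ u =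
          u + (QuadraticMap.polar ⇑Qb w u - Qb w * QuadraticMap.polar ⇑Qb u u) • u
            - (QuadraticMap.polar ⇑Qb u u) • w := mv_oE Qb u w huQ huw u
      rw [h1', huu, QuadraticMap.polar_comm ⇑Qb w u, huw] at h1
      have h2 : (1 - μ) • u = 0 := by
        rw [sub_smul, one_smul, ← h1]
        simp
      rcases smul_eq_zero.mp h2 with h3 | h3
      · linear_combination -h3
      · exact absurd h3 hu0
    apply hwu
    have h1 := hμ t ht
    have h1' : (((oE Qb u w : ↥(isometryGroup F ⇑Qb)) : GL ι F) : Matrix ι ι F) *ᵥ t =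
        t + (QuadraticMap.polar ⇑Qb w t - Qb w * QuadraticMap.polar ⇑Qb u t) • u
          - (QuadraticMap.polar ⇑Qb u t) • w := mv_oE Qb u w huQ huw t
    rw [h1', hμ1, one_smul] at h1
    have h2 : (QuadraticMap.polar ⇑Qb u t) • w =
        (QuadraticMap.polar ⇑Qb w t - Qb w * QuadraticMap.polar ⇑Qb u t) • u := by
      calc (QuadraticMap.polar ⇑Qb u t) • w
          = (t + (QuadraticMap.polar ⇑Qb w t - Qb w * QuadraticMap.polar ⇑Qb u t) • u) -
            (t + (QuadraticMap.polar ⇑Qb w t - Qb w * QuadraticMap.polar ⇑Qb u t) • u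
              - (QuadraticMap.polar ⇑Qb u t) • w) := by abel
        _ = (t + (QuadraticMap.polar ⇑Qb w t - Qb w * QuadraticMap.polar ⇑Qb u t) • u) - t := by
            rw [h1]
        _ = (QuadraticMap.polar ⇑Qb w t - Qb w * QuadraticMap.polar ⇑Qb u t) • u := by abel
    have h4 : w = (QuadraticMap.polar ⇑Qb u t)⁻¹ •
        ((QuadraticMap.polar ⇑Qb w t - Qb w * QuadraticMap.polar ⇑Qb u t) • u) := by
      rw [← h2, smul_smul, inv_mul_cancel₀ hut, one_smul]
    rw [h4]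
    exact Submodule.smul_mem _ _ (Submodule.smul_mem _ _ (Submodule.mem_span_singleton_self u))
  · intro heq
    have huw' : QuadraticMap.polar ⇑Qb u (J 1 y₀) = 0 :=
      hfr.orthogonal 0 1 (by decide) u hu _ hw'mem
    have hk' : ((oE Qb u (J 1 y₀) : ↥(isometryGroup F ⇑Qb)) : GL ι F) ∈
        decompositionStabilizer (tBlock J) ⊓ omegaGL ⇑Qb := by
      rw [heq]
      exact Subgroup.mem_map_of_mem _ (oE_mem_omega Qb hnd hn5 u _)
    refine hfr.not_stab (fun v x y => QuadraticMap.polar_add_right (Q := Qb) v x y) _ 0 1 (by decide) t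
      (t + (-(Qb (J 1 y₀) * QuadraticMap.polar ⇑Qb u t)) • u)
      ((-QuadraticMap.polar ⇑Qb u t) • J 1 y₀) ht
      ((tBlock J 0).add_mem ht ((tBlock J 0).smul_mem _ hu))
      ((tBlock J 1).smul_mem _ hw'mem) ?_ (smul_ne_zero (neg_ne_zero.mpr hut) hw'ne) ?_ hk'.1
    · intro h0
      apply hut
      have h1 : QuadraticMap.polar ⇑Qb u
          (t + (-(Qb (J 1 y₀) * QuadraticMap.polar ⇑Qb u t)) • u) = 0 := by
        rw [h0, QuadraticMap.polar_zero_right]
      rw [QuadraticMap.polar_add_right, QuadraticMap.polar_smul_right, huu, smul_zero,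
        add_zero] at h1
      exact h1
    · refine (mv_oE Qb u (J 1 y₀) huQ huw' t).trans ?_
      rw [QuadraticMap.polar_comm ⇑Qb (J 1 y₀) t,
        hfr.orthogonal 0 1 (by decide) t ht _ hw'mem]
      module

end TensO

end Cfsg.Agent.Helper94
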