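import Mathlib
import Cfsg.Prelude.Def_GeometricClasses
import Cfsg.Agent.Helper94.Tens
import Cfsg.Agent.Helper94.TensF3
import Cfsg.Agent.Helper94.SpGen

/-!
The stabiliser in `Sp_{2m}(3)` of a tensor decomposition `symplectic ⊗ (symmetric of dimension 3)`
is not maximal: the symmetric factor has an orthonormal frame permuted (up to signs) by all its
similarities, so the stabiliser lies in the stabiliser of a decomposition into three
non-degenerate subspaces.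
-/

set_option autoImplicit false
set_option linter.unusedSectionVars false
set_option linter.unusedVariables false

universe u

namespace Cfsg.Agent.Helper94

open Matrix Cfsg Cfsg.Geo
open scoped Kronecker

section TensSp

variable {F : Type u} [Field F] [Fintype F] {m : ℕ}

theorem tens_sp_not_max (hm : 1 ≤ m) (hq : Fintype.card F = 3) (n₁ : ℕ)
    (e : (Fin m ⊕ Fin m) ≃ Fin n₁ × Fin 3) (P : GL (Fin m ⊕ Fin m) F)
    (f₁ : (Fin n₁ → F) → (Fin n₁ → F) → F) (f₂ : (Fin 3 → F) → (Fin 3 → F) → F)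
    (hf₁ : IsSymplecticForm f₁) (hf₂ : IsSymmetricForm f₂)
    (hT : IsTensorFormStructure id (sympForm m F) f₁ f₂ e P) :
    ∃ K : Subgroup (GL (Fin m ⊕ Fin m) F),
      tensorProductSubgroup n₁ 3 e P ⊓ spGL m F < K ∧ K < spGL m F := by
  classical
  obtain ⟨c, hc, hval⟩ := tens_val id (fun r s => rfl) (sympForm m F) f₁ f₂
    (formOfGram_gram id f₁ hf₁.bilinear.add_left hf₁.bilinear.smul_left hf₁.bilinear.add_right
      hf₁.bilinear.smul_right)
    (formOfGram_gram id f₂ hf₂.bilinear.add_left hf₂.bilinear.smul_left hf₂.bilinear.add_right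
      hf₂.bilinear.smul_right) e P hT
  obtain ⟨B, ε, hε, hB⟩ := tf3_frame hq f₂ hf₂
  obtain ⟨bv, hbv⟩ : ∃ bv : Fin 3 → (Fin 3 → F),
      ∀ i, bv i = (B : Matrix (Fin 3) (Fin 3) F) *ᵥ Pi.single i 1 := ⟨_, fun i => rfl⟩
  have hbb : ∀ i j, f₂ (bv i) (bv j) = if i = j then ε else 0 := by
    intro i j
    rw [hbv, hbv, hB, single_dotProduct, one_mul, Pi.single_apply]
    split_ifs <;> simp
  have hz2 : ∀ v, f₂ 0 v = 0 := by
    intro v
    have := hf₂.bilinear.smul_left 0 0 v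
    rwa [zero_smul, zero_mul] at this
  have hbne : ∀ i, bv i ≠ 0 := by
    intro i h0
    have h1 := hbb i i
    rw [if_pos rfl, h0, hz2] at h1
    exact hε h1.symm
  obtain ⟨J, hJ⟩ : ∃ J : Fin 3 → (Fin n₁ → F) →ₗ[F] (Fin m ⊕ Fin m → F),
      ∀ i x, J i x = tPhi e P (tpv x (bv i)) :=
    ⟨fun i => tPhi e P ∘ₗ tpvL (bv i), fun i x => rfl⟩
  have hfr : TFrame (sympForm m F) f₁ J := by
    refine ⟨fun i x x' hxx => ?_, fun i j hij y y' => ?_,
      fun i => ⟨c * ε, mul_ne_zero hc hε, fun y y' => ?_⟩, hf₁.nondegenerate⟩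
    · rw [hJ, hJ] at hxx
      have h2 : tpvL (bv i) (x - x') = 0 := by
        rw [map_sub, tpvL_apply, tpvL_apply, tPhi_injective e P hxx, sub_self]
      rw [tpvL_apply] at h2
      exact sub_eq_zero.mp (tpv_eq_zero_left (hbne i) h2)
    · rw [hJ, hJ, hval, hbb, if_neg hij, mul_zero, mul_zero]
    · rw [hJ, hJ, hval, hbb, if_pos rfl]
      ring
  have hn₁ : 0 < n₁ := by
    have h1 := Fintype.card_congr e
    simp only [Fintype.card_sum, Fintype.card_prod, Fintype.card_fin] at h1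
    rcases Nat.eq_zero_or_pos n₁ with h0 | h0
    · rw [h0] at h1
      omega
    · exact h0
  have : Nonempty (Fin n₁) := ⟨⟨0, hn₁⟩⟩
  obtain ⟨x₀, hx₀⟩ : ∃ x₀ : Fin n₁ → F, x₀ ≠ 0 := ⟨Pi.single ⟨0, hn₁⟩ 1, by
    intro h0
    have := congrFun h0 ⟨0, hn₁⟩
    simp at this⟩
  have hmono : ∀ g : GL (Fin m ⊕ Fin m) F, g ∈ tensorProductSubgroup n₁ 3 e P → g ∈ spGL m F →
      ∃ (σ : Equiv.Perm (Fin 3)) (l : Fin 3 → F) (β : (Fin n₁ → F) → (Fin n₁ → F)),
        ∀ i y, (g : Matrix (Fin m ⊕ Fin m) (Fin m ⊕ Fin m) F) *ᵥ J i y = J (σ i) (l i • β y) := by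
    intro g hgT hgS
    obtain ⟨a, b, hab⟩ := tens_mem_act e P g hgT
    have hpres : ∀ x x' y y', f₁ ((a : Matrix (Fin n₁) (Fin n₁) F) *ᵥ x)
        ((a : Matrix (Fin n₁) (Fin n₁) F) *ᵥ x') *
        f₂ ((b : Matrix (Fin 3) (Fin 3) F) *ᵥ y) ((b : Matrix (Fin 3) (Fin 3) F) *ᵥ y') =
        f₁ x x' * f₂ y y' := by
      intro x x' y y'
      have h1 := (mem_spGL_iff g).mp hgS (tPhi e P (tpv x y)) (tPhi e P (tpv x' y'))
      rw [hab, hab, tpv_kron, tpv_kron, hval, hval] at h1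
      exact mul_left_cancel₀ hc h1
    obtain ⟨μ, hμ, hsim⟩ := tens_simil_right f₁ f₂
      (fun x => (a : Matrix (Fin n₁) (Fin n₁) F) *ᵥ x)
      (fun y => (b : Matrix (Fin 3) (Fin 3) F) *ᵥ y) hpres
      (by
        obtain ⟨⟨x, hx⟩, -⟩ := hf₁.nondegenerate x₀ hx₀
        exact ⟨x, x₀, hx⟩)
      ⟨bv 0, bv 0, by rw [hbb, if_pos rfl]; exact hε⟩
    obtain ⟨σ, l, hσl⟩ := tf3_monomial hq f₂ B ε hε hB (b : Matrix (Fin 3) (Fin 3) F) μ hμ hsim
    refine ⟨σ, l, fun x => (a : Matrix (Fin n₁) (Fin n₁) F) *ᵥ x, fun i y => ?_⟩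
    rw [hJ, hab, tpv_kron, hbv, hσl, ← hbv, tpv_smul_right, ← tpv_smul_left, hJ]
  have hu₀mem : J 0 x₀ ∈ tBlock J 0 := ⟨x₀, rfl⟩
  have hu₁mem : J 1 x₀ ∈ tBlock J 1 := ⟨x₀, rfl⟩
  have hu₀ne : J 0 x₀ ≠ 0 := fun h0 => hx₀ (hfr.inj 0 (h0.trans (map_zero _).symm))
  have hu₁ne : J 1 x₀ ≠ 0 := fun h0 => hx₀ (hfr.inj 1 (h0.trans (map_zero _).symm))
  refine ⟨decompositionStabilizer (tBlock J) ⊓ spGL m F, lt_of_le_of_ne ?_ ?_,
    lt_of_le_of_ne inf_le_right ?_⟩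
  · intro g hg
    obtain ⟨σ, l, β, hσ⟩ := hmono g hg.1 hg.2
    exact ⟨hfr.stab_of_mono g σ l β hσ, hg.2⟩
  · intro heq
    have hk_fix : ∀ i : Fin 3, i ≠ 0 → ∀ v ∈ tBlock J i,
        ((stGL (J 0 x₀) 1 : GL (Fin m ⊕ Fin m) F) : Matrix (Fin m ⊕ Fin m) (Fin m ⊕ Fin m) F) *ᵥ v
          = v := by
      intro i hi v hv
      rw [stGL_mulVec, hfr.orthogonal i 0 hi v hv _ hu₀mem, mul_zero, zero_smul, add_zero]
    have hk_stab0 : ∀ v ∈ tBlock J 0,
        ((stGL (J 0 x₀) 1 : GL (Fin m ⊕ Fin m) F) : Matrix (Fin m ⊕ Fin m) (Fin m ⊕ Fin m) F) *ᵥ v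
          ∈ tBlock J 0 := by
      intro v hv
      rw [stGL_mulVec]
      exact (tBlock J 0).add_mem hv ((tBlock J 0).smul_mem _ hu₀mem)
    have hkK : stGL (J 0 x₀) 1 ∈ decompositionStabilizer (tBlock J) ⊓ spGL m F := by
      refine ⟨hfr.stab_of_maps _ 1 (fun i v hv => ?_), stGL_mem _ _⟩
      show _ ∈ tBlock J i
      by_cases hi : i = 0
      · subst hi
        exact hk_stab0 v hv
      · rw [hk_fix i hi v hv]
        exact hv
    rw [← heq] at hkK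
    obtain ⟨σ, l, β, hσ⟩ := hmono _ hkK.1 hkK.2
    obtain ⟨μ, hμ⟩ := hfr.scalar_of_mono _ σ l β hσ 0 1 (hk_fix 1 (by decide)) hk_stab0
    have hμ1 : μ = 1 := by
      have h1 := hμ _ hu₀mem
      rw [stGL_mulVec, sf_self, mul_zero, zero_smul, add_zero] at h1
      have h2 : (1 - μ) • J 0 x₀ = 0 := by
        rw [sub_smul, one_smul, ← h1, sub_self]
      rcases smul_eq_zero.mp h2 with h3 | h3
      · linear_combination -h3
      · exact absurd h3 hu₀ne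
    obtain ⟨⟨x, hx, hxv⟩, -⟩ := hfr.nondeg 0 _ hu₀mem hu₀ne
    apply hxv
    have h1 := hμ x hx
    rw [stGL_mulVec, hμ1, one_smul, one_mul] at h1
    have h2 : sympForm m F x (J 0 x₀) • J 0 x₀ = 0 := by
      have h3 := congrArg (fun z => z - x) h1
      simpa using h3
    exact (smul_eq_zero.mp h2).resolve_right hu₀ne
  · intro heq
    have hk' : stGL (J 0 x₀ + J 1 x₀) 1 ∈ decompositionStabilizer (tBlock J) ⊓ spGL m F := by
      rw [heq]
      exact stGL_mem _ _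
    obtain ⟨⟨y, hy, hyu⟩, -⟩ := hfr.nondeg 0 _ hu₀mem hu₀ne
    refine hfr.not_stab sf_add_right _ 0 1 (by decide) y
      (y + sympForm m F y (J 0 x₀) • J 0 x₀) (sympForm m F y (J 0 x₀) • J 1 x₀) hy
      ((tBlock J 0).add_mem hy ((tBlock J 0).smul_mem _ hu₀mem))
      ((tBlock J 1).smul_mem _ hu₁mem) ?_ (smul_ne_zero hyu hu₁ne) ?_ hk'.1
    · intro h0
      apply hyu
      have h1 : sympForm m F (y + sympForm m F y (J 0 x₀) • J 0 x₀) (J 0 x₀) = 0 := by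
        rw [h0, sf_zero_left]
      rw [sf_add_left, sf_smul_left, sf_self, mul_zero, add_zero] at h1
      exact h1
    · rw [stGL_mulVec, sf_add_right, hfr.orthogonal 0 1 (by decide) y hy _ hu₁mem, add_zero,
        one_mul]
      module

end TensSp

end Cfsg.Agent.Helper94
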