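import Cfsg.Agent.Helper94.USub

/-!
The stabiliser of a nondegenerate subspace `W` with `2 dim W < n` is maximal in the special
unitary group.
-/

set_option autoImplicit false
set_option linter.unusedSectionVars false
set_option linter.unusedSimpArgs false
set_option linter.unusedVariables false
set_option maxHeartbeats 1000000

namespace Cfsg.Agent.Helper94

open Cfsg Cfsg.Geo Matrix

universe u

variable {F : Type u} [Field F] {ι : Type} [Fintype ι] [DecidableEq ι]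

namespace UF

variable {σ : F ≃+* F} {f : (ι → F) → (ι → F) → F} (h : UF σ f)

include h

/-- The stabiliser of `W` is transitive on pairs of components of given norms. -/
theorem nd_trans [Finite F] (hn : 6 < Fintype.card ι) (W : Submodule F (ι → F))
    (hW : ∀ u ∈ W, u ≠ 0 → ∃ x ∈ W, f x u ≠ 0) (hd : 2 < Module.finrank F (h.uperp W))
    {z₁ z₂ x₁ x₂ : ι → F} (hz₁ : z₁ ∈ W) (hz₁0 : z₁ ≠ 0) (hz₂ : z₂ ∈ h.uperp W) (hz₂0 : z₂ ≠ 0)
    (hx₁ : x₁ ∈ W) (hx₁0 : x₁ ≠ 0) (hx₂ : x₂ ∈ h.uperp W) (hx₂0 : x₂ ≠ 0)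
    (e1 : f x₁ x₁ = f z₁ z₁) (e2 : f x₂ x₂ = f z₂ z₂) :
    ∃ k : GL ι F, k ∈ subspaceStabilizer W ⊓ (isoGL f ⊓ specialLinear ι F) ∧
      (k : Matrix ι ι F) *ᵥ (z₁ + z₂) = x₁ + x₂ := by
  have hUn := h.uperp_nondeg W hW
  obtain ⟨t₁, ht₁, ht₁U, ht₁z⟩ := h.grf_step (h.uperp W) z₁ x₁
    (fun hmem => hz₁0 (h.sub_disj W hW hz₁ hmem)) (fun hmem => hx₁0 (h.sub_disj W hW hx₁ hmem))
    (fun u hu => ⟨by rw [hu x₁ hx₁, hu z₁ hz₁],
      by rw [h.swap_zero (hu x₁ hx₁), h.swap_zero (hu z₁ hz₁)]⟩) e1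
  obtain ⟨t₂, ht₂, ht₂W, ht₂z⟩ := h.grf_step W z₂ x₂
    (fun hmem => hz₂0 (h.sub_disj W hW hmem hz₂)) (fun hmem => hx₂0 (h.sub_disj W hW hmem hx₂))
    (fun w hw => ⟨by rw [h.swap_zero (hx₂ w hw), h.swap_zero (hz₂ w hw)],
      by rw [hx₂ w hw, hz₂ w hw]⟩) e2
  have ht₁i := h.grf_closure_le_iso ht₁
  have ht₂i := h.grf_closure_le_iso ht₂
  obtain ⟨e, heU, hee, he⟩ := h.sub_exists_aniso (h.uperp W) hUn ![z₂] (by omega)
  have hez : f e z₂ = 0 := by simpa using he 0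
  obtain ⟨q, hqi, hqfix, hqS⟩ := h.iso_fix_det hn (Subgroup.mul_mem _ ht₂i ht₁i) hee
  have ht₁W : ∀ w ∈ W, (t₁ : Matrix ι ι F) *ᵥ w ∈ W := by
    intro w hw
    rw [← h.uperp_uperp W]
    intro u hu
    rw [← ht₁U u hu, (mem_isoGL.mp ht₁i)]
    exact h.swap_zero (hu w hw)
  refine ⟨t₂ * t₁ * q, Subgroup.mem_inf.mpr ⟨?_, Subgroup.mem_inf.mpr
    ⟨Subgroup.mul_mem _ (Subgroup.mul_mem _ ht₂i ht₁i) hqi, hqS⟩⟩, ?_⟩
  · apply ustab_of_maps_to
    intro w hw
    rw [ugl_mul_mulVec, ugl_mul_mulVec, hqfix w (h.swap_zero (heU w hw)),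
      ht₂W _ (ht₁W w hw)]
    exact ht₁W w hw
  · have hfix : f (z₁ + z₂) e = 0 := by
      rw [h.add_left, h.swap_zero (heU z₁ hz₁), h.swap_zero hez, add_zero]
    rw [ugl_mul_mulVec, ugl_mul_mulVec, hqfix _ hfix, mulVec_add, ht₁z, ht₁U z₂ hz₂, mulVec_add,
      ht₂W x₁ hx₁, ht₂z]

/-- The stabiliser of a nondegenerate subspace `W` with `2 dim W < n` is maximal in the special
isometry group. -/
theorem unitary_nondeg_max [Finite F] (hn : 12 < Fintype.card ι) (W : Submodule F (ι → F))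
    (hW0 : W ≠ ⊥) (hW : ∀ u ∈ W, u ≠ 0 → ∃ x ∈ W, f x u ≠ 0)
    (hdim : 2 * Module.finrank F W < Fintype.card ι) :
    IsMaximalIn (isoGL f ⊓ specialLinear ι F)
      (subspaceStabilizer W ⊓ (isoGL f ⊓ specialLinear ι F)) := by
  have hUn := h.uperp_nondeg W hW
  have hdU : 6 < Module.finrank F (h.uperp W) := by
    have := h.finrank_uperp_ge W hW
    omega
  obtain ⟨ν₀, hν₀0, hν₀⟩ := uf_exists_tr0 σ h.invol h.ne_id
  obtain ⟨w₁, hw₁, hw₁0⟩ := Submodule.exists_mem_ne_zero_of_ne_bot hW0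
  have hWpos : 0 < Module.finrank F W :=
    Module.finrank_pos_iff_exists_ne_zero.mpr ⟨⟨w₁, hw₁⟩, fun h0 => hw₁0 (congrArg Subtype.val h0)⟩
  have horth : ∀ w ∈ W, ∀ u ∈ h.uperp W, f w u = 0 := fun w hw u hu => h.swap_zero (hu w hw)
  have hTW : ∀ c ∈ W, f c c = 0 → ∀ ν, σ ν = -ν →
      tvh f c (ν • c) ∈ subspaceStabilizer W ⊓ (isoGL f ⊓ specialLinear ι F) := by
    intro c hc hcc ν hν
    refine Subgroup.mem_inf.mpr ⟨?_, Subgroup.mem_inf.mpr
      ⟨h.tvh_unitary_iso hcc hν, tvh_mem_SL _ _ _⟩⟩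
    apply ustab_of_maps_to
    intro v hv
    rw [h.tvh_mulVec (by rw [h.smul_right, hcc, mul_zero])]
    exact W.add_mem hv (W.smul_mem _ hc)
  have hTU : ∀ c ∈ h.uperp W, f c c = 0 → ∀ ν, σ ν = -ν →
      tvh f c (ν • c) ∈ subspaceStabilizer W ⊓ (isoGL f ⊓ specialLinear ι F) := by
    intro c hc hcc ν hν
    refine Subgroup.mem_inf.mpr ⟨?_, Subgroup.mem_inf.mpr
      ⟨h.tvh_unitary_iso hcc hν, tvh_mem_SL _ _ _⟩⟩
    apply ustab_of_maps_to
    intro v hv
    rw [h.tvh_mulVec (by rw [h.smul_right, hcc, mul_zero]), h.smul_right, horth v hv c hc,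
      mul_zero, zero_smul, add_zero]
    exact hv
  constructor
  · rw [SetLike.lt_iff_le_and_exists]
    refine ⟨inf_le_right, ?_⟩
    obtain ⟨z₁, hz₁, hz₁z, -⟩ := h.sub_exists_aniso W hW (j := 0) (fun i => 0) (by omega)
    obtain ⟨z₂, hz₂, hz₂z, -⟩ := h.sub_exists_aniso (h.uperp W) hUn (j := 0) (fun i => 0)
      (by omega)
    obtain ⟨l, hl⟩ := h.exists_iso_add (horth z₁ hz₁ z₂ hz₂) hz₂z
    have hl0 : l ≠ 0 := by
      rintro rfl
      rw [zero_smul, add_zero] at hl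
      exact hz₁z hl
    refine ⟨tvh f (z₁ + l • z₂) (ν₀ • (z₁ + l • z₂)),
      Subgroup.mem_inf.mpr ⟨h.tvh_unitary_iso hl hν₀, tvh_mem_SL _ _ _⟩, ?_⟩
    rintro ⟨hst, -⟩
    have h1 := ((mem_subspaceStabilizer_iff W _).mp hst z₁).mp hz₁
    rw [h.tvh_mulVec (by rw [h.smul_right, hl, mul_zero])] at h1
    have h2 : f z₁ (ν₀ • (z₁ + l • z₂)) = σ ν₀ * f z₁ z₁ := by
      rw [h.smul_right, h.add_right, h.smul_right, horth z₁ hz₁ z₂ hz₂, mul_zero, add_zero]
    have h3 : σ ν₀ * f z₁ z₁ ≠ 0 := mul_ne_zero ((map_ne_zero σ).mpr hν₀0) hz₁z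
    rw [h2] at h1
    have h4 : (σ ν₀ * f z₁ z₁) • (z₁ + l • z₂) ∈ W := by
      have := W.sub_mem h1 hz₁
      rwa [add_sub_cancel_left] at this
    have h5 : z₁ + l • z₂ ∈ W := by
      have := W.smul_mem (σ ν₀ * f z₁ z₁)⁻¹ h4
      rwa [smul_smul, inv_mul_cancel₀ h3, one_smul] at this
    have h6 : l • z₂ ∈ W := by
      have := W.sub_mem h5 hz₁
      rwa [add_sub_cancel_left] at this
    have h7 : z₂ ∈ W := by
      have := W.smul_mem l⁻¹ h6
      rwa [smul_smul, inv_mul_cancel₀ hl0, one_smul] at this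
    have h8 := h.sub_disj W hW h7 hz₂
    rw [h8, h.zero_left] at hz₂z
    exact hz₂z rfl
  · intro M hHM hMG
    by_cases hMH : M ≤ subspaceStabilizer W ⊓ (isoGL f ⊓ specialLinear ι F)
    · left
      exact le_antisymm hMH hHM
    right
    apply le_antisymm hMG
    obtain ⟨g, hgM, hgH⟩ := SetLike.not_le_iff_exists.mp hMH
    have hgG := hMG hgM
    have hgi : g ∈ isoGL f := hgG.1
    have hgW : g ∉ subspaceStabilizer W := fun hh => hgH ⟨hh, hgG⟩
    have hKW : ∀ c ∈ W, f c c = 0 → c ∈ uctr σ f M :=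
      fun c hc hcc => ⟨hcc, fun ν hν => hHM (hTW c hc hcc ν hν)⟩
    have hKU : ∀ c ∈ h.uperp W, f c c = 0 → c ∈ uctr σ f M :=
      fun c hc hcc => ⟨hcc, fun ν hν => hHM (hTU c hc hcc ν hν)⟩
    -- a mixed centre
    obtain ⟨z₁, hz₁, hz₁0, z₂, hz₂, hz₂0, hzK⟩ : ∃ z₁ ∈ W, z₁ ≠ 0 ∧ ∃ z₂ ∈ h.uperp W, z₂ ≠ 0 ∧
        z₁ + z₂ ∈ uctr σ f M := by
      by_contra hcon
      push Not at hcon
      have hcases : ∀ c ∈ uctr σ f M, c ∈ W ∨ c ∈ h.uperp W := by
        intro c hc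
        obtain ⟨w, hw, u, hu, rfl⟩ := h.sub_decomp W hW c
        by_cases hw0 : w = 0
        · right
          rw [hw0, zero_add]
          exact hu
        · left
          by_contra hnW
          have hu0 : u ≠ 0 := by
            rintro rfl
            rw [add_zero] at hnW
            exact hnW hw
          exact hcon w hw hw0 u hu hu0 hc
      have himg : ∀ c ∈ h.uperp W, f c c = 0 →
          ((g : Matrix ι ι F) *ᵥ c ∈ W ∨ (g : Matrix ι ι F) *ᵥ c ∈ h.uperp W) :=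
        fun c hc hcc => hcases _ (h.uctr_map hgM hgi (hKU c hc hcc))
      have hdich : (∀ c ∈ h.uperp W, f c c = 0 → (g : Matrix ι ι F) *ᵥ c ∈ h.uperp W) ∨
          (∀ c ∈ h.uperp W, f c c = 0 → (g : Matrix ι ι F) *ᵥ c ∈ W) := by
        by_contra hno
        push Not at hno
        obtain ⟨⟨c₁, hc₁, hc₁c, hn₁⟩, ⟨c₂, hc₂, hc₂c, hn₂⟩⟩ := hno
        have hg₁ : (g : Matrix ι ι F) *ᵥ c₁ ∈ W := (himg c₁ hc₁ hc₁c).resolve_right hn₁
        have hg₂ : (g : Matrix ι ι F) *ᵥ c₂ ∈ h.uperp W := (himg c₂ hc₂ hc₂c).resolve_left hn₂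
        have h12 : f c₁ c₂ = 0 := by
          rw [← (mem_isoGL.mp hgi) c₁ c₂]
          exact horth _ hg₁ _ hg₂
        have hsum : f (c₁ + c₂) (c₁ + c₂) = 0 := by
          simp only [h.add_left, h.add_right, hc₁c, hc₂c, h12, h.swap_zero h12]
          ring
        rcases himg (c₁ + c₂) ((h.uperp W).add_mem hc₁ hc₂) hsum with h3 | h3
        · rw [mulVec_add] at h3
          have : (g : Matrix ι ι F) *ᵥ c₂ ∈ W := by
            have := W.sub_mem h3 hg₁
            rwa [add_sub_cancel_left] at this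
          exact hn₂ this
        · rw [mulVec_add] at h3
          have : (g : Matrix ι ι F) *ᵥ c₁ ∈ h.uperp W := by
            have := (h.uperp W).sub_mem h3 hg₂
            rwa [add_sub_cancel_right] at this
          exact hn₁ this
      have hspan : ∀ (X : Submodule F (ι → F)),
          (∀ c ∈ h.uperp W, f c c = 0 → (g : Matrix ι ι F) *ᵥ c ∈ X) →
          ∀ u ∈ h.uperp W, (g : Matrix ι ι F) *ᵥ u ∈ X := by
        intro X hX u hu
        obtain ⟨c₁, hc₁, c₂, hc₂, a, b, hc₁c, hc₂c, rfl⟩ :=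
          h.sub_iso_span (h.uperp W) hUn (by omega) hu
        rw [mulVec_add, mulVec_smul, mulVec_smul]
        exact X.add_mem (X.smul_mem a (hX c₁ hc₁ hc₁c)) (X.smul_mem b (hX c₂ hc₂ hc₂c))
      rcases hdich with hd | hd
      · have hgU := ustab_of_maps_to g (h.uperp W) (hspan _ hd)
        apply hgW
        apply ustab_of_maps_to
        intro w hw
        rw [← h.uperp_uperp W]
        intro u hu
        have hu' : ((g⁻¹ : GL ι F) : Matrix ι ι F) *ᵥ u ∈ h.uperp W := by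
          rw [(mem_subspaceStabilizer_iff _ g).mp hgU, ugl_mulVec_inv]
          exact hu
        rw [← ugl_mulVec_inv g u, (mem_isoGL.mp hgi)]
        exact horth w hw _ hu'
      · have hle : (h.uperp W).map ((glToLE g : (ι → F) ≃ₗ[F] (ι → F)) : (ι → F) →ₗ[F] (ι → F))
            ≤ W := by
          rintro _ ⟨u, hu, rfl⟩
          rw [LinearEquiv.coe_coe, glToLE_apply]
          exact hspan _ hd u hu
        have hfin := LinearEquiv.finrank_map_eq (glToLE g) (h.uperp W)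
        have := Submodule.finrank_mono hle
        have := h.finrank_uperp_ge W hW
        omega
    have horth' : ∀ a ∈ W, ∀ b ∈ h.uperp W, f (a + b) (a + b) = f a a + f b b := by
      intro a ha b hb
      simp only [h.add_left, h.add_right, horth a ha b hb, h.swap_zero (horth a ha b hb)]
      ring
    -- nonzero types
    have hd1 : ∀ y₁ ∈ W, ∀ y₂ ∈ h.uperp W, f y₁ y₁ ≠ 0 → y₁ + y₂ ∈ uctr σ f M →
        ∀ x₁ ∈ W, ∀ x₂ ∈ h.uperp W, f x₁ x₁ ≠ 0 → f (x₁ + x₂) (x₁ + x₂) = 0 →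
        x₁ + x₂ ∈ uctr σ f M := by
      intro y₁ hy₁ y₂ hy₂ hy₁n hyK x₁ hx₁ x₂ hx₂ hx₁n hxiso
      have hyn : f y₂ y₂ = -f y₁ y₁ := by
        have := hyK.1
        rw [horth' y₁ hy₁ y₂ hy₂] at this
        linear_combination this
      have hxn : f x₂ x₂ = -f x₁ x₁ := by
        have := hxiso
        rw [horth' x₁ hx₁ x₂ hx₂] at this
        linear_combination this
      obtain ⟨l, hl⟩ := uf_exists_norm σ h.invol h.ne_id (f y₁ y₁ / f x₁ x₁)
        (by rw [map_div₀, h.self_fix, h.self_fix])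
      have hl0 : l ≠ 0 := by
        rintro rfl
        rw [zero_mul] at hl
        exact (div_ne_zero hy₁n hx₁n) hl.symm
      have e1 : f (l • x₁) (l • x₁) = f y₁ y₁ := by
        rw [h.smul_left, h.smul_right, ← mul_assoc, hl, div_mul_cancel₀ _ hx₁n]
      have e2 : f (l • x₂) (l • x₂) = f y₂ y₂ := by
        rw [h.smul_left, h.smul_right, ← mul_assoc, hl, hxn, hyn]
        field_simp
      have y₁0 : y₁ ≠ 0 := by
        rintro rfl
        exact hy₁n (h.zero_left 0)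
      have y₂0 : y₂ ≠ 0 := by
        rintro rfl
        rw [h.zero_left] at hyn
        exact hy₁n (by linear_combination hyn)
      have x₁0 : x₁ ≠ 0 := by
        rintro rfl
        exact hx₁n (h.zero_left 0)
      have x₂0 : x₂ ≠ 0 := by
        rintro rfl
        rw [h.zero_left] at hxn
        exact hx₁n (by linear_combination hxn)
      obtain ⟨k, hkH, hk⟩ := h.nd_trans (by omega) W hW (by omega) hy₁ y₁0 hy₂ y₂0
        (W.smul_mem l hx₁) (smul_ne_zero hl0 x₁0) ((h.uperp W).smul_mem l hx₂)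
        (smul_ne_zero hl0 x₂0) e1 e2
      have := h.uctr_map (hHM hkH) hkH.2.1 hyK
      rw [hk, ← smul_add] at this
      exact h.uctr_of_smul hl0 this
    -- type zero from nonzero types
    have hd2 : ∀ y₁ ∈ W, ∀ y₂ ∈ h.uperp W, f y₁ y₁ ≠ 0 → y₁ + y₂ ∈ uctr σ f M →
        ∀ x₁ ∈ W, ∀ x₂ ∈ h.uperp W, x₁ ≠ 0 → x₂ ≠ 0 → f x₁ x₁ = 0 → f x₂ x₂ = 0 →
        x₁ + x₂ ∈ uctr σ f M := by
      intro y₁ hy₁ y₂ hy₂ hy₁n hyK x₁ hx₁ x₂ hx₂ hx₁0 hx₂0 hx₁x hx₂x
      obtain ⟨e₂, he₂U, he₂n, he₂⟩ := h.sub_exists_aniso (h.uperp W) hUn ![x₂] (by omega)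
      have he₂x : f e₂ x₂ = 0 := by simpa using he₂ 0
      obtain ⟨e₁, he₁W, he₁n, he₁x⟩ := h.sub_partner W hW hx₁ hx₁0 hx₁x (-f e₂ e₂)
        (by rw [map_neg, h.self_fix])
      have he₁n' : f e₁ e₁ ≠ 0 := by
        rw [he₁n]
        exact neg_ne_zero.mpr he₂n
      have heiso : f (e₁ + e₂) (e₁ + e₂) = 0 := by
        rw [horth' e₁ he₁W e₂ he₂U, he₁n]
        ring
      have heK := hd1 y₁ hy₁ y₂ hy₂ hy₁n hyK e₁ he₁W e₂ he₂U he₁n' heiso
      obtain ⟨α, hα⟩ : ∃ α, α = ν₀ / f x₁ e₁ := ⟨_, rfl⟩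
      have hα0 : α ≠ 0 := by
        rw [hα]
        exact div_ne_zero hν₀0 he₁x
      have hαx : α * f x₁ e₁ = ν₀ := by
        rw [hα]
        field_simp
      have hαx' : σ α * f e₁ x₁ = -ν₀ := by
        rw [← hν₀, ← hαx, map_mul, h.sigma_apply]
      have hm1 : e₁ + α • x₁ ∈ W := W.add_mem he₁W (W.smul_mem α hx₁)
      have hm2 : e₂ + α • x₂ ∈ h.uperp W :=
        (h.uperp W).add_mem he₂U ((h.uperp W).smul_mem α hx₂)
      have he'1 : f (e₁ + α • x₁) (e₁ + α • x₁) = f e₁ e₁ := by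
        simp only [h.add_left, h.add_right, h.smul_left, h.smul_right, hx₁x]
        linear_combination hαx' + hαx
      have he'2 : f (e₂ + α • x₂) (e₂ + α • x₂) = f e₂ e₂ := by
        simp only [h.add_left, h.add_right, h.smul_left, h.smul_right, hx₂x, he₂x,
          h.swap_zero he₂x]
        ring
      have he'iso : f ((e₁ + α • x₁) + (e₂ + α • x₂)) ((e₁ + α • x₁) + (e₂ + α • x₂)) = 0 := by
        rw [horth' _ hm1 _ hm2, he'1, he'2, he₁n]
        ring
      have he'K := hd1 y₁ hy₁ y₂ hy₂ hy₁n hyK (e₁ + α • x₁) hm1 (e₂ + α • x₂) hm2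
        (by rw [he'1]; exact he₁n') he'iso
      have hxeq : x₁ + x₂ = (-α⁻¹) • (e₁ + e₂) + α⁻¹ • ((e₁ + α • x₁) + (e₂ + α • x₂)) := by
        have e0 : α⁻¹ • ((e₁ + α • x₁) + (e₂ + α • x₂)) =
            α⁻¹ • (e₁ + e₂) + (α⁻¹ * α) • (x₁ + x₂) := by module
        rw [e0, inv_mul_cancel₀ hα0]
        module
      have hxiso : f (x₁ + x₂) (x₁ + x₂) = 0 := by
        rw [horth' x₁ hx₁ x₂ hx₂, hx₁x, hx₂x, add_zero]
      rw [hxeq]
      apply h.uctr_line heK he'K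
      · have e3 : f (e₁ + e₂) ((e₁ + α • x₁) + (e₂ + α • x₂)) = σ α * f e₁ x₁ := by
          simp only [h.add_left, h.add_right, h.smul_right, horth e₁ he₁W e₂ he₂U,
            h.swap_zero (horth e₁ he₁W e₂ he₂U), horth e₁ he₁W x₂ hx₂,
            h.swap_zero (horth x₁ hx₁ e₂ he₂U), he₂x, he₁n]
          ring
        rw [e3]
        exact mul_ne_zero ((map_ne_zero σ).mpr hα0) (h.swap_ne he₁x)
      · rw [← hxeq]
        exact hxiso
    -- a mixed centre of nonzero type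
    have hzn : f z₂ z₂ = -f z₁ z₁ := by
      have := hzK.1
      rw [horth' z₁ hz₁ z₂ hz₂] at this
      linear_combination this
    obtain ⟨y₁, hy₁, y₂, hy₂, hy₁n, hyK⟩ : ∃ y₁ ∈ W, ∃ y₂ ∈ h.uperp W, f y₁ y₁ ≠ 0 ∧
        y₁ + y₂ ∈ uctr σ f M := by
      by_cases hs : f z₁ z₁ = 0
      · have hs2 : f z₂ z₂ = 0 := by rw [hzn, hs, neg_zero]
        obtain ⟨μ, hμ⟩ := h.ne_id
        obtain ⟨z₁', hz₁', hz₁'z, hp1⟩ := h.sub_hyp W hW hz₁ hz₁0 hs 1
        obtain ⟨z₂', hz₂', hz₂'z, hp2⟩ := h.sub_hyp (h.uperp W) hUn hz₂ hz₂0 hs2 μ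
        have hz₁'0 : z₁' ≠ 0 := by
          rintro rfl
          rw [h.zero_right] at hp1
          exact zero_ne_one hp1
        have hμ0 : μ ≠ 0 := by
          rintro rfl
          exact hμ (map_zero σ)
        have hz₂'0 : z₂' ≠ 0 := by
          rintro rfl
          rw [h.zero_right] at hp2
          exact hμ0 hp2.symm
        obtain ⟨k, hkH, hk⟩ := h.nd_trans (by omega) W hW (by omega) hz₁ hz₁0 hz₂ hz₂0 hz₁'
          hz₁'0 hz₂' hz₂'0 (by rw [hz₁'z, hs]) (by rw [hz₂'z, hs2])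
        have hz'K := h.uctr_map (hHM hkH) hkH.2.1 hzK
        rw [hk] at hz'K
        have h1μ : 1 + μ ≠ 0 := by
          intro h0
          apply hμ
          have : μ = -1 := by linear_combination h0
          rw [this, map_neg, map_one]
        obtain ⟨α, hα⟩ : ∃ α, α = ν₀ / (1 + μ) := ⟨_, rfl⟩
        have hα1 : α * (1 + μ) = ν₀ := by
          rw [hα]
          field_simp
        have hα2 : σ α * (1 + σ μ) = -ν₀ := by
          rw [← hν₀, ← hα1, map_mul, map_add, map_one]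
        have hp1' : f z₁' z₁ = 1 := by rw [h.herm, hp1, map_one]
        have hp2' : f z₂' z₂ = σ μ := by rw [h.herm, hp2]
        have hn1 : f (z₁' + α • z₁) (z₁' + α • z₁) = α + σ α := by
          simp only [h.add_left, h.add_right, h.smul_left, h.smul_right, hs, hz₁'z, hp1, hp1']
          ring
        have hn1' : α + σ α ≠ 0 := by
          intro h0
          have : ν₀ * (σ μ - μ) = 0 := by
            linear_combination (1 + μ) * (1 + σ μ) * h0 - (1 + σ μ) * hα1 - (1 + μ) * hα2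
          rcases mul_eq_zero.mp this with h1 | h1
          · exact hν₀0 h1
          · exact hμ (by linear_combination h1)
        have hm1 : z₁' + α • z₁ ∈ W := W.add_mem hz₁' (W.smul_mem α hz₁)
        have hm2 : z₂' + α • z₂ ∈ h.uperp W :=
          (h.uperp W).add_mem hz₂' ((h.uperp W).smul_mem α hz₂)
        refine ⟨z₁' + α • z₁, hm1, z₂' + α • z₂, hm2, by rw [hn1]; exact hn1', ?_⟩
        have e : (z₁' + α • z₁) + (z₂' + α • z₂) = α • (z₁ + z₂) + (1 : F) • (z₁' + z₂') := by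
          module
        rw [e]
        apply h.uctr_line hzK hz'K
        · have e3 : f (z₁ + z₂) (z₁' + z₂') = 1 + μ := by
            simp only [h.add_left, h.add_right, hp1, hp2, horth z₁ hz₁ z₂' hz₂',
              h.swap_zero (horth z₁' hz₁' z₂ hz₂)]
            ring
          rw [e3]
          exact h1μ
        · rw [← e]
          have hn2 : f (z₂' + α • z₂) (z₂' + α • z₂) = α * μ + σ α * σ μ := by
            simp only [h.add_left, h.add_right, h.smul_left, h.smul_right, hs2, hz₂'z, hp2, hp2']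
            ring
          rw [horth' _ hm1 _ hm2, hn1, hn2]
          linear_combination hα1 + hα2
      · exact ⟨z₁, hz₁, z₂, hz₂, hs, hzK⟩
    apply h.SU_le_of_utv (by omega) M
    intro c ν hcc hν
    suffices hcK : c ∈ uctr σ f M from hcK.2 ν hν
    obtain ⟨x₁, hx₁, x₂, hx₂, rfl⟩ := h.sub_decomp W hW c
    by_cases hx₁0 : x₁ = 0
    · rw [hx₁0, zero_add] at hcc ⊢
      exact hKU x₂ hx₂ hcc
    by_cases hx₂0 : x₂ = 0
    · rw [hx₂0, add_zero] at hcc ⊢
      exact hKW x₁ hx₁ hcc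
    have hxn : f x₂ x₂ = -f x₁ x₁ := by
      have := hcc
      rw [horth' x₁ hx₁ x₂ hx₂] at this
      linear_combination this
    by_cases hx₁n : f x₁ x₁ = 0
    · exact hd2 y₁ hy₁ y₂ hy₂ hy₁n hyK x₁ hx₁ x₂ hx₂ hx₁0 hx₂0 hx₁n (by rw [hxn, hx₁n, neg_zero])
    · exact hd1 y₁ hy₁ y₂ hy₂ hy₁n hyK x₁ hx₁ x₂ hx₂ hx₁n hcc

end UF

end Cfsg.Agent.Helper94
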