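import Mathlib
import Cfsg.Prelude.Def_GeometricClasses
import Cfsg.Agent.Helper94.Tens
import Cfsg.Agent.Helper94.TensF4
import Cfsg.Agent.Helper94.UNondeg

/-!
The stabiliser in `SU_n(2)` of a tensor decomposition `(unitary of dimension 2) ⊗ unitary` is not
maximal: the two-dimensional factor has an orthonormal frame permuted (up to scalars) by all its
similarities, so the stabiliser lies in the stabiliser of a decomposition into two non-degenerate
subspaces.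
-/

set_option autoImplicit false
set_option linter.unusedSectionVars false
set_option linter.unusedVariables false

universe u

namespace Cfsg.Agent.Helper94

open Matrix Cfsg Cfsg.Geo
open scoped Kronecker

section TensU

variable {ι : Type} [Fintype ι] [DecidableEq ι] {F : Type u} [Field F] [Fintype F]

theorem tens_u_not_max {σ : F ≃+* F} {f : (ι → F) → (ι → F) → F} (h : UF σ f)
    (hF : Fintype.card F = 4) (hσ : Helper97.IsSigma 2 σ) (n₂ : ℕ) (hn₂ : 3 ≤ n₂)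
    (e : ι ≃ Fin 2 × Fin n₂) (P : GL ι F)
    (f₁ : (Fin 2 → F) → (Fin 2 → F) → F) (f₂ : (Fin n₂ → F) → (Fin n₂ → F) → F)
    (hf₁ : IsUnitaryFormPow 2 f₁) (hf₂ : IsUnitaryFormPow 2 f₂)
    (hT : IsTensorFormStructure (fun x : F => x ^ 2) f f₁ f₂ e P) :
    ∃ K : Subgroup (GL ι F),
      tensorProductSubgroup 2 n₂ e P ⊓ (isoGL f ⊓ specialLinear ι F) < K ∧
        K < isoGL f ⊓ specialLinear ι F := by
  classical
  have h₁ : UF σ f₁ := upow_UF hσ hf₁
  have h₂ : UF σ f₂ := upow_UF hσ hf₂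
  have hsq : ∀ x, σ x = x ^ 2 := hσ.pow
  obtain ⟨c, hc, hval⟩ := tens_val (fun x : F => x ^ 2) (fun r s => mul_pow r s 2) f f₁ f₂
    (formOfGram_gram _ f₁ h₁.add_left h₁.smul_left h₁.add_right
      (fun c v x => by rw [h₁.smul_right, hsq]))
    (formOfGram_gram _ f₂ h₂.add_left h₂.smul_left h₂.add_right
      (fun c v x => by rw [h₂.smul_right, hsq])) e P hT
  obtain ⟨B, hB⟩ := tf4_frame hF hsq f₁ h₁
  obtain ⟨bv, hbv⟩ : ∃ bv : Fin 2 → (Fin 2 → F),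
      ∀ i, bv i = (B : Matrix (Fin 2) (Fin 2) F) *ᵥ Pi.single i 1 := ⟨_, fun i => rfl⟩
  have hbb : ∀ i j, f₁ (bv i) (bv j) = if i = j then 1 else 0 := by
    intro i j
    rw [hbv, hbv, hB]
    fin_cases i <;> fin_cases j <;> simp
  have hbne : ∀ i, bv i ≠ 0 := by
    intro i h0
    have h1 := hbb i i
    rw [if_pos rfl, h0, h₁.zero_left] at h1
    exact one_ne_zero h1.symm
  obtain ⟨J, hJ⟩ : ∃ J : Fin 2 → (Fin n₂ → F) →ₗ[F] (ι → F),
      ∀ i y, J i y = tPhi e P (tpv (bv i) y) :=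
    ⟨fun i => tPhi e P ∘ₗ tpvR (bv i), fun i y => rfl⟩
  have hfr : TFrame f f₂ J := by
    refine ⟨fun i y y' hyy => ?_, fun i j hij y y' => ?_,
      fun i => ⟨c, hc, fun y y' => ?_⟩, hf₂.nondegenerate⟩
    · rw [hJ, hJ] at hyy
      have h2 : tpvR (bv i) (y - y') = 0 := by
        rw [map_sub, tpvR_apply, tpvR_apply, tPhi_injective e P hyy, sub_self]
      rw [tpvR_apply] at h2
      exact sub_eq_zero.mp (tpv_eq_zero_right (hbne i) h2)
    · rw [hJ, hJ, hval, hbb, if_neg hij, zero_mul, mul_zero]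
    · rw [hJ, hJ, hval, hbb, if_pos rfl, one_mul]
  have hn₂' : 0 < n₂ := by omega
  have : Nonempty (Fin n₂) := ⟨⟨0, hn₂'⟩⟩
  obtain ⟨y₀, hy₀⟩ : ∃ y₀ : Fin n₂ → F, y₀ ≠ 0 := ⟨Pi.single ⟨0, hn₂'⟩ 1, by
    intro h0
    have := congrFun h0 ⟨0, hn₂'⟩
    simp at this⟩
  have hmono : ∀ g : GL ι F, g ∈ tensorProductSubgroup 2 n₂ e P → g ∈ isoGL f →
      ∃ (τ : Equiv.Perm (Fin 2)) (l : Fin 2 → F) (β : (Fin n₂ → F) → (Fin n₂ → F)),
        ∀ i y, (g : Matrix ι ι F) *ᵥ J i y = J (τ i) (l i • β y) := by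
    intro g hgT hgS
    obtain ⟨a, b, hab⟩ := tens_mem_act e P g hgT
    have hpres : ∀ x x' y y', f₁ ((a : Matrix (Fin 2) (Fin 2) F) *ᵥ x)
        ((a : Matrix (Fin 2) (Fin 2) F) *ᵥ x') *
        f₂ ((b : Matrix (Fin n₂) (Fin n₂) F) *ᵥ y) ((b : Matrix (Fin n₂) (Fin n₂) F) *ᵥ y') =
        f₁ x x' * f₂ y y' := by
      intro x x' y y'
      have h1 := mem_isoGL.mp hgS (tPhi e P (tpv x y)) (tPhi e P (tpv x' y'))
      rw [hab, hab, tpv_kron, tpv_kron, hval, hval] at h1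
      exact mul_left_cancel₀ hc h1
    obtain ⟨μ, hμ, hsim⟩ := tens_simil_left f₁ f₂
      (fun x => (a : Matrix (Fin 2) (Fin 2) F) *ᵥ x)
      (fun y => (b : Matrix (Fin n₂) (Fin n₂) F) *ᵥ y) hpres
      ⟨bv 0, bv 0, by rw [hbb, if_pos rfl]; exact one_ne_zero⟩
      (by
        obtain ⟨⟨y, hy⟩, -⟩ := hf₂.nondegenerate y₀ hy₀
        exact ⟨y, y₀, hy⟩)
    obtain ⟨τ, l, hτl⟩ := tf4_monomial hF f₁ B hB (a : Matrix (Fin 2) (Fin 2) F) μ hμ hsim
    refine ⟨τ, l, fun y => (b : Matrix (Fin n₂) (Fin n₂) F) *ᵥ y, fun i y => ?_⟩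
    rw [hJ, hab, tpv_kron, hbv, hτl, ← hbv, tpv_smul_left, ← tpv_smul_right, hJ]
  have hfin : ∀ i, Module.finrank F (tBlock J i) = n₂ := by
    intro i
    rw [hfr.finrank_block, Fintype.card_fin]
  have hiso : ∀ i : Fin 2, ∃ u ∈ tBlock J i, u ≠ 0 ∧ f u u = 0 := by
    intro i
    have hJne : J i y₀ ≠ 0 := fun h0 => hy₀ (hfr.inj i (h0.trans (map_zero _).symm))
    obtain ⟨c₁, hc₁, c₂, hc₂, a, b, h11, h22, hsum⟩ := h.sub_iso_span (tBlock J i)
      (fun u hu hu0 => (hfr.nondeg i u hu hu0).1) (by rw [hfin]; omega)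
      (⟨y₀, rfl⟩ : J i y₀ ∈ tBlock J i)
    by_cases hc10 : c₁ = 0
    · by_cases hc20 : c₂ = 0
      · exfalso
        apply hJne
        rw [hsum, hc10, hc20]
        simp
      · exact ⟨c₂, hc₂, hc20, h22⟩
    · exact ⟨c₁, hc₁, hc10, h11⟩
  obtain ⟨u₀, hu₀, hu₀ne, hu₀iso⟩ := hiso 0
  obtain ⟨u₁, hu₁, hu₁ne, hu₁iso⟩ := hiso 1
  obtain ⟨ν, hν0, hν⟩ := uf_exists_tr0 σ h.invol h.ne_id
  have hσν : σ ν ≠ 0 := (map_ne_zero σ).mpr hν0
  have h00 : f u₀ (ν • u₀) = 0 := by rw [h.smul_right, hu₀iso, mul_zero]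
  refine ⟨decompositionStabilizer (tBlock J) ⊓ (isoGL f ⊓ specialLinear ι F),
    lt_of_le_of_ne ?_ ?_, lt_of_le_of_ne inf_le_right ?_⟩
  · intro g hg
    obtain ⟨τ, l, β, hτ⟩ := hmono g hg.1 hg.2.1
    exact ⟨hfr.stab_of_mono g τ l β hτ, hg.2⟩
  · intro heq
    have hk_fix : ∀ i : Fin 2, i ≠ 0 → ∀ v ∈ tBlock J i,
        ((tvh f u₀ (ν • u₀) : GL ι F) : Matrix ι ι F) *ᵥ v = v := by
      intro i hi v hv
      rw [h.tvh_mulVec h00, h.smul_right, hfr.orthogonal i 0 hi v hv _ hu₀, mul_zero, zero_smul,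
        add_zero]
    have hk_stab0 : ∀ v ∈ tBlock J 0,
        ((tvh f u₀ (ν • u₀) : GL ι F) : Matrix ι ι F) *ᵥ v ∈ tBlock J 0 := by
      intro v hv
      rw [h.tvh_mulVec h00]
      exact (tBlock J 0).add_mem hv ((tBlock J 0).smul_mem _ hu₀)
    have hkK : tvh f u₀ (ν • u₀) ∈
        decompositionStabilizer (tBlock J) ⊓ (isoGL f ⊓ specialLinear ι F) := by
      refine ⟨hfr.stab_of_maps _ 1 (fun i v hv => ?_),
        ⟨h.tvh_unitary_iso hu₀iso hν, tvh_mem_SL _ _ _⟩⟩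
      show _ ∈ tBlock J i
      by_cases hi : i = 0
      · subst hi
        exact hk_stab0 v hv
      · rw [hk_fix i hi v hv]
        exact hv
    rw [← heq] at hkK
    obtain ⟨τ, l, β, hτ⟩ := hmono _ hkK.1 hkK.2.1
    obtain ⟨μ, hμ⟩ := hfr.scalar_of_mono _ τ l β hτ 0 1 (hk_fix 1 (by decide)) hk_stab0
    have hμ1 : μ = 1 := by
      have h1 := hμ _ hu₀
      rw [h.tvh_mulVec h00, h00, zero_smul, add_zero] at h1
      have h2 : (1 - μ) • u₀ = 0 := by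
        rw [sub_smul, one_smul, ← h1, sub_self]
      rcases smul_eq_zero.mp h2 with h3 | h3
      · linear_combination -h3
      · exact absurd h3 hu₀ne
    obtain ⟨⟨x, hx, hxv⟩, -⟩ := hfr.nondeg 0 _ hu₀ hu₀ne
    apply hxv
    have h1 := hμ x hx
    rw [h.tvh_mulVec h00, hμ1, one_smul] at h1
    have h2 : f x (ν • u₀) • u₀ = 0 := by
      have h3 := congrArg (fun z => z - x) h1
      simpa using h3
    have h4 := (smul_eq_zero.mp h2).resolve_right hu₀ne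
    rw [h.smul_right] at h4
    exact (mul_eq_zero.mp h4).resolve_left hσν
  · intro heq
    have h01 : f u₀ u₁ = 0 := hfr.orthogonal 0 1 (by decide) u₀ hu₀ u₁ hu₁
    have h10 : f u₁ u₀ = 0 := hfr.orthogonal 1 0 (by decide) u₁ hu₁ u₀ hu₀
    have hcc : f (u₀ + u₁) (u₀ + u₁) = 0 := by
      rw [h.add_left, h.add_right, h.add_right, hu₀iso, hu₁iso, h01, h10]
      ring
    have hcc' : f (u₀ + u₁) (ν • (u₀ + u₁)) = 0 := by rw [h.smul_right, hcc, mul_zero]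
    have hk' : tvh f (u₀ + u₁) (ν • (u₀ + u₁)) ∈
        decompositionStabilizer (tBlock J) ⊓ (isoGL f ⊓ specialLinear ι F) := by
      rw [heq]
      exact ⟨h.tvh_unitary_iso hcc hν, tvh_mem_SL _ _ _⟩
    obtain ⟨⟨y, hy, hyu⟩, -⟩ := hfr.nondeg 0 _ hu₀ hu₀ne
    refine hfr.not_stab h.add_right _ 0 1 (by decide) y
      (y + (σ ν * f y u₀) • u₀) ((σ ν * f y u₀) • u₁) hy
      ((tBlock J 0).add_mem hy ((tBlock J 0).smul_mem _ hu₀))
      ((tBlock J 1).smul_mem _ hu₁) ?_ (smul_ne_zero (mul_ne_zero hσν hyu) hu₁ne) ?_ hk'.1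
    · intro h0
      apply hyu
      have h1 : f (y + (σ ν * f y u₀) • u₀) u₀ = 0 := by
        rw [h0, h.zero_left]
      rw [h.add_left, h.smul_left, hu₀iso, mul_zero, add_zero] at h1
      exact h1
    · rw [h.tvh_mulVec hcc', h.smul_right, h.add_right,
        hfr.orthogonal 0 1 (by decide) y hy _ hu₁, add_zero]
      module

end TensU

end Cfsg.Agent.Helper94
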