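import Cfsg.Agent.Helper94.UTrans

/-!
Transvections `x ↦ x + φ x • a` attached to a linear functional `φ`, and the set of vectors `a`
all of whose transvections lie in a given subgroup.
-/

set_option autoImplicit false
set_option linter.unusedSectionVars false
set_option linter.unusedSimpArgs false
set_option linter.unusedVariables false

namespace Cfsg.Agent.Helper94

open Cfsg Cfsg.Geo Matrix

universe u

variable {F : Type u} [Field F] {ι : Type} [Fintype ι] [DecidableEq ι]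

theorem lin_dot (φ : (ι → F) →ₗ[F] F) (x : ι → F) :
    (fun j => φ (Pi.single j 1)) ⬝ᵥ x = φ x := by
  rw [LinearMap.pi_apply_eq_sum_univ φ x]
  simp only [dotProduct, smul_eq_mul]
  apply Finset.sum_congr rfl
  intro i _
  rw [mul_comm]
  congr 2
  ext j
  simp [Pi.single_apply, eq_comm]

/-- The functional `x ↦ ψ ⬝ᵥ x`. -/
def dotL (ψ : ι → F) : (ι → F) →ₗ[F] F where
  toFun x := ψ ⬝ᵥ x
  map_add' x y := dotProduct_add _ _ _
  map_smul' c x := by simp [dotProduct_smul]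

theorem dotL_apply (ψ x : ι → F) : dotL ψ x = ψ ⬝ᵥ x := rfl

open Classical in
/-- The transvection `x ↦ x + φ x • a` (the identity unless `φ a = 0`). -/
noncomputable def tvl (φ : (ι → F) →ₗ[F] F) (a : ι → F) : GL ι F :=
  if h : (fun j => φ (Pi.single j 1)) ⬝ᵥ a = 0 then
    Helper93.tv a (fun j => φ (Pi.single j 1)) h
  else 1

theorem tvl_mem_SL (φ : (ι → F) →ₗ[F] F) (a : ι → F) : tvl φ a ∈ specialLinear ι F := by
  unfold tvl
  split_ifs with h
  · exact Helper93.tv_mem_SL _ _ _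
  · exact Subgroup.one_mem _

theorem tvl_mulVec {φ : (ι → F) →ₗ[F] F} {a : ι → F} (h : φ a = 0) (x : ι → F) :
    ((tvl φ a : GL ι F) : Matrix ι ι F) *ᵥ x = x + φ x • a := by
  have h' : (fun j => φ (Pi.single j 1)) ⬝ᵥ a = 0 := by
    rw [lin_dot]
    exact h
  rw [tvl, dif_pos h', Helper93.tv_mulVec, lin_dot]

theorem tvl_mul {φ φ' : (ι → F) →ₗ[F] F} {a : ι → F} (h : φ a = 0) (h' : φ' a = 0) :
    tvl φ a * tvl φ' a = tvl (φ + φ') a := by
  apply ugl_ext
  intro x
  have h3 : (φ + φ') a = 0 := by rw [LinearMap.add_apply, h, h', add_zero]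
  rw [ugl_mul_mulVec, tvl_mulVec h', tvl_mulVec h, tvl_mulVec h3, map_add, map_smul, h,
    LinearMap.add_apply]
  module

theorem tvl_zero_left (a : ι → F) : tvl (0 : (ι → F) →ₗ[F] F) a = 1 := by
  apply ugl_ext
  intro x
  rw [tvl_mulVec (LinearMap.zero_apply a), LinearMap.zero_apply, zero_smul, add_zero,
    Units.val_one, one_mulVec]

theorem tvl_zero_right (φ : (ι → F) →ₗ[F] F) : tvl φ 0 = 1 := by
  apply ugl_ext
  intro x
  rw [tvl_mulVec (map_zero φ), smul_zero, add_zero, Units.val_one, one_mulVec]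

theorem tvl_inv {φ : (ι → F) →ₗ[F] F} {a : ι → F} (h : φ a = 0) :
    (tvl φ a)⁻¹ = tvl (-φ) a := by
  have h2 : (-φ) a = 0 := by rw [LinearMap.neg_apply, h, neg_zero]
  exact inv_eq_of_mul_eq_one_right (by rw [tvl_mul h h2, add_neg_cancel, tvl_zero_left])

theorem tvl_smul (c : F) {φ : (ι → F) →ₗ[F] F} {a : ι → F} (h : φ a = 0) :
    tvl φ (c • a) = tvl (c • φ) a := by
  apply ugl_ext
  intro x
  have h1 : φ (c • a) = 0 := by rw [map_smul, h, smul_zero]
  have h2 : (c • φ) a = 0 := by rw [LinearMap.smul_apply, h, smul_zero]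
  rw [tvl_mulVec h1, tvl_mulVec h2, LinearMap.smul_apply, smul_eq_mul]
  module

/-- Conjugating a transvection. -/
theorem tvl_conj (k : GL ι F) {φ φ₂ : (ι → F) →ₗ[F] F} {a : ι → F} (h : φ a = 0)
    (hk : ∀ y, φ y = φ₂ ((k : Matrix ι ι F) *ᵥ y)) :
    k * tvl φ a * k⁻¹ = tvl φ₂ ((k : Matrix ι ι F) *ᵥ a) := by
  have h2 : φ₂ ((k : Matrix ι ι F) *ᵥ a) = 0 := by rw [← hk, h]
  apply ugl_ext
  intro x
  rw [ugl_mul_mulVec, ugl_mul_mulVec, tvl_mulVec h, tvl_mulVec h2, mulVec_add, mulVec_smul,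
    ugl_mulVec_inv, hk, ugl_mulVec_inv]

/-- Every transvection `tv u ψ` is of the form `tvl φ u`. -/
theorem tv_eq_tvl (u ψ : ι → F) (hψ : ψ ⬝ᵥ u = 0) :
    Helper93.tv u ψ hψ = tvl (dotL ψ) u := by
  apply ugl_ext
  intro x
  rw [Helper93.tv_mulVec, tvl_mulVec (show dotL ψ u = 0 from hψ), dotL_apply]

/-- All transvections with centre `a` lie in `M`. -/
def tvFull (M : Subgroup (GL ι F)) (a : ι → F) : Prop :=
  ∀ φ : (ι → F) →ₗ[F] F, φ a = 0 → tvl φ a ∈ M

theorem tvFull_zero (M : Subgroup (GL ι F)) : tvFull M (0 : ι → F) := fun φ _ => by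
  rw [tvl_zero_right]
  exact M.one_mem

theorem tvFull_smul (M : Subgroup (GL ι F)) (c : F) {a : ι → F} (ha : tvFull M a) :
    tvFull M (c • a) := by
  intro φ hφ
  by_cases hc : c = 0
  · rw [hc, zero_smul, tvl_zero_right]
    exact M.one_mem
  · have h : φ a = 0 := by
      rw [map_smul, smul_eq_mul] at hφ
      exact (mul_eq_zero.mp hφ).resolve_left hc
    rw [tvl_smul c h]
    exact ha _ (by rw [LinearMap.smul_apply, h, smul_zero])

theorem tvFull_neg (M : Subgroup (GL ι F)) {a : ι → F} (ha : tvFull M a) : tvFull M (-a) := by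
  have := tvFull_smul M (-1) ha
  rwa [neg_one_smul] at this

theorem tvFull_conj (M : Subgroup (GL ι F)) {k : GL ι F} (hk : k ∈ M) {a : ι → F}
    (ha : tvFull M a) : tvFull M ((k : Matrix ι ι F) *ᵥ a) := by
  intro φ₂ hφ₂
  have h : (φ₂.comp (Matrix.toLin' (k : Matrix ι ι F))) a = 0 := hφ₂
  rw [← tvl_conj k h (fun y => rfl)]
  exact M.mul_mem (M.mul_mem hk (ha _ h)) (M.inv_mem hk)

theorem tvFull_add (M : Subgroup (GL ι F)) {a₁ a₂ : ι → F} (h1 : tvFull M a₁)
    (h2 : tvFull M a₂) : tvFull M (a₁ + a₂) := by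
  by_cases hdep : a₁ ∈ Submodule.span F {a₂}
  · obtain ⟨l, rfl⟩ := Submodule.mem_span_singleton.mp hdep
    have : l • a₂ + a₂ = (l + 1) • a₂ := by module
    rw [this]
    exact tvFull_smul M _ h2
  · obtain ⟨ψ, hψW, hψ1⟩ := Helper93.exists_dot_one (Submodule.span F {a₂}) a₁ hdep
    have h2b : dotL ψ a₂ = 0 := hψW a₂ (Submodule.mem_span_singleton_self a₂)
    have hk : tvl (dotL ψ) a₂ ∈ M := h2 _ h2b
    have := tvFull_conj M hk h1
    rwa [tvl_mulVec h2b, dotL_apply, hψ1, one_smul] at this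

/-- A subgroup for which every vector is a full centre contains `SL`. -/
theorem SL_le_of_tvFull [Nontrivial ι] (M : Subgroup (GL ι F)) (hM : ∀ a : ι → F, tvFull M a) :
    specialLinear ι F ≤ M := by
  apply Helper93.SL_le_of_all_tv
  intro u ψ hψ
  rw [tv_eq_tvl]
  exact hM u _ hψ

end Cfsg.Agent.Helper94
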