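import Mathlib
import Cfsg.Agent.Helper95.UBNDefs

/-!
# CALL S2546 (helper95), piece STEP1 + shared lemmas (helper94)
-/

set_option autoImplicit false

namespace Cfsg.Agent.Helper94.UBN

open Matrix Cfsg.Agent.Helper95.UBN

variable {F : Type*} [Field F] {n : ℕ}

theorem fixk_mul {k : ℕ} {M N : Matrix (Fin n) (Fin n) F} (hM : Fixk k M) (hN : Fixk k N) :
    Fixk k (M * N) := by
  intro i hi a
  rw [Matrix.mul_apply, Finset.sum_eq_single i]
  · rw [hN i hi i, if_pos rfl, mul_one]; exact hM i hi a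
  · intro b _ hb
    rw [hN i hi b, if_neg hb, mul_zero]
  · intro h; exact absurd (Finset.mem_univ i) h

theorem fixk_inv {k : ℕ} {g : Matrix.SpecialLinearGroup (Fin n) F} (hfix : Fixk k g.1) :
    Fixk k (g⁻¹).1 := by
  intro i hi a
  have h1 : (g⁻¹).1 * g.1 = 1 := by
    have : (g⁻¹ * g).1 = 1 := by rw [inv_mul_cancel]; rfl
    exact this
  have h2 := congrFun (congrFun h1 a) i
  rw [Matrix.mul_apply, Finset.sum_eq_single i, hfix i hi i, if_pos rfl, mul_one,
    Matrix.one_apply] at h2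
  · exact h2
  · intro b _ hb; rw [hfix i hi b, if_neg hb, mul_zero]
  · intro h; exact absurd (Finset.mem_univ i) h

/-- rows in the fixed range of a unitary `Fixk` matrix are unit rows. -/
theorem fixk_rows {τ : F →+* F} (hτ : ∀ x, τ (τ x) = x) {k : ℕ}
    {g : Matrix.SpecialLinearGroup (Fin n) F} (hg : g ∈ UG τ n) (hfix : Fixk k g.1)
    (a : Fin n) (ha : a.1 < k ∨ n ≤ a.1 + k) (b : Fin n) :
    g.1 a b = if a = b then 1 else 0 := by
  have hra : (Fin.rev a).1 < k ∨ n ≤ (Fin.rev a).1 + k := by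
    rw [Fin.val_rev]; have := a.2; omega
  have h1 := fixk_inv hfix (Fin.rev a) hra (Fin.rev b)
  rw [inv_apply hg, Fin.rev_rev, Fin.rev_rev] at h1
  have h2 : g.1 a b = τ (τ (g.1 a b)) := (hτ _).symm
  rw [h2, h1]
  by_cases hab : a = b
  · subst hab; simp
  · rw [if_neg hab, if_neg (fun h => hab (Fin.rev_injective h).symm), map_zero]

/-- a column `j ≠ rev j` of a unitary matrix is isotropic. -/
theorem col_iso {τ : F →+* F} {g : Matrix.SpecialLinearGroup (Fin n) F} (hg : g ∈ UG τ n)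
    (j : Fin n) (hj : Fin.rev j ≠ j) :
    ∑ i, g.1 i j * τ (g.1 (Fin.rev i) j) = 0 := by
  have h := (isU_iff τ g.1).mp (isU_of_mem hg) (Fin.rev j) j
  rw [if_neg hj] at h
  rw [← h]
  apply Finset.sum_congr rfl
  intro i _
  rw [Fin.rev_rev, mul_comm]

-- === PIECE STEP1 ===
theorem p_STEP1 (τ : F →+* F) (hτ : ∀ x, τ (τ x) = x)
    (hBT : ∀ (k : ℕ) (v : Fin n → F), ∑ i, v i * τ (v (Fin.rev i)) = 0 →
      (∀ i : Fin n, (i.1 < k ∨ n ≤ i.1 + k) → v i = 0) →
      ∀ r : Fin n, v r ≠ 0 → (∀ i : Fin n, r < i → v i = 0) →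
      ∃ u : Matrix.SpecialLinearGroup (Fin n) F, u ∈ UG τ n ∧ IsUp u.1 ∧ (∀ a, u.1 a a = 1) ∧
        Fixk k u.1 ∧ u.1 *ᵥ v = v r • Pi.single r (1 : F))
    (hMO : ∀ c r : Fin n, c < r → r.1 + c.1 < n → r ≠ Fin.rev r →
      ∃ g : Matrix.SpecialLinearGroup (Fin n) F, g ∈ UG τ n ∧
        (∃ π : Equiv.Perm (Fin n), Pat g.1 π) ∧ Fixk c.1 g.1 ∧
        ∃ d : F, g.1 *ᵥ Pi.single r (1 : F) = d • Pi.single c (1 : F))
    (c : Fin n) (hc : 2 * c.1 + 2 ≤ n) (g : Matrix.SpecialLinearGroup (Fin n) F)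
    (hg : g ∈ UG τ n) (hfix : Fixk c.1 g.1) :
    ∃ h : Matrix.SpecialLinearGroup (Fin n) F, h ∈ UG τ n ∧ h ∈ uH τ n ∧ Fixk c.1 (h * g).1 ∧
      ∃ l : F, ∀ a, (h * g).1 a c = if a = c then l else 0 := by
  classical
  obtain ⟨v, hv⟩ : ∃ v : Fin n → F, ∀ i, v i = g.1 i c := ⟨fun i => g.1 i c, fun _ => rfl⟩
  have hrc : Fin.rev c ≠ c := by
    intro h
    have := congrArg Fin.val h
    rw [Fin.val_rev] at this
    omega
  have hsupp : ∀ i : Fin n, (i.1 < c.1 ∨ n ≤ i.1 + c.1) → v i = 0 := by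
    intro i hi
    rw [hv, fixk_rows hτ hg hfix i hi c, if_neg]
    rintro rfl
    omega
  have hiso : ∑ i, v i * τ (v (Fin.rev i)) = 0 := by
    simp only [hv]
    exact col_iso hg c hrc
  have hv0 : ∃ i, v i ≠ 0 := by
    by_contra hcon
    push_neg at hcon
    have hdet : g.1.det = 0 :=
      Matrix.det_eq_zero_of_column_eq_zero c (fun i => by rw [← hv]; exact hcon i)
    rw [g.2] at hdet
    exact one_ne_zero hdet
  have hne : (Finset.univ.filter (fun i => v i ≠ 0)).Nonempty := by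
    obtain ⟨i, hi⟩ := hv0
    exact ⟨i, Finset.mem_filter.mpr ⟨Finset.mem_univ _, hi⟩⟩
  obtain ⟨r, hr⟩ : ∃ r, r = (Finset.univ.filter (fun i => v i ≠ 0)).max' hne := ⟨_, rfl⟩
  have hvr : v r ≠ 0 := by
    have := Finset.max'_mem _ hne
    rw [← hr] at this
    exact (Finset.mem_filter.mp this).2
  have hlast : ∀ i : Fin n, r < i → v i = 0 := by
    intro i hi
    by_contra hvi
    have hmem : i ∈ Finset.univ.filter (fun i => v i ≠ 0) :=
      Finset.mem_filter.mpr ⟨Finset.mem_univ _, hvi⟩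
    have := Finset.le_max' _ i hmem
    rw [← hr] at this
    exact absurd hi (not_lt.mpr this)
  have hcr : c.1 ≤ r.1 ∧ r.1 + c.1 < n := by
    by_contra hcon
    apply hvr
    apply hsupp
    omega
  by_cases hrc' : r = c
  · refine ⟨1, one_mem _, one_mem _, ?_, v c, ?_⟩
    · rw [one_mul]; exact hfix
    · intro a
      rw [one_mul, ← hv]
      by_cases hac : a = c
      · rw [if_pos hac, hac]
      · rw [if_neg hac]
        rcases lt_or_gt_of_ne hac with h | h
        · exact hsupp a (Or.inl (Fin.lt_def.mp h))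
        · exact hlast a (by rw [hrc']; exact h)
  · have hcr' : c < r :=
      Fin.lt_def.mpr (lt_of_le_of_ne hcr.1 (fun h => hrc' (Fin.ext h).symm))
    have hmid : r ≠ Fin.rev r := by
      intro hmid
      have hsum : ∑ i, v i * τ (v (Fin.rev i)) = v r * τ (v (Fin.rev r)) := by
        apply Finset.sum_eq_single r
        · intro i _ hir
          rcases lt_or_gt_of_ne hir with h | h
          · have : r < Fin.rev i := by
              rw [hmid]; exact Fin.rev_lt_rev.mpr h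
            rw [hlast _ this, map_zero, mul_zero]
          · rw [hlast i h, zero_mul]
        · intro h; exact absurd (Finset.mem_univ r) h
      rw [hiso, ← hmid] at hsum
      have : τ (v r) ≠ 0 := (map_ne_zero τ).mpr hvr
      exact mul_ne_zero hvr this hsum.symm
    obtain ⟨u, hu, hup, hu1, hufix, huv⟩ := hBT c.1 v hiso hsupp r hvr hlast
    obtain ⟨m₁, hm, ⟨π, hπ⟩, hmfix, d, hmd⟩ := hMO c r hcr' hcr.2 hmid
    refine ⟨m₁ * u, mul_mem hm hu, ?_, ?_, v r * d, ?_⟩
    · exact Subgroup.mul_mem _ (Subgroup.subset_closure ⟨hm, Or.inr ⟨π, hπ⟩⟩)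
        (Subgroup.subset_closure ⟨hu, Or.inl hup⟩)
    · show Fixk c.1 (m₁.1 * u.1 * g.1)
      exact fixk_mul (fixk_mul hmfix hufix) hfix
    · intro a
      have h1 : (m₁ * u * g).1 a c = (m₁.1 *ᵥ (u.1 *ᵥ v)) a := by
        rw [Matrix.mulVec_mulVec]
        show ∑ k, (m₁.1 * u.1) a k * g.1 k c = ∑ k, (m₁.1 * u.1) a k * v k
        simp only [hv]
      rw [h1, huv, Matrix.mulVec_smul, hmd]
      by_cases hac : a = c <;> simp [Pi.single_apply, hac]

end Cfsg.Agent.Helper94.UBN
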