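import Mathlib
import Cfsg.Agent.Helper95.UBNDefs
import Cfsg.Agent.Helper94.UBNSTEP1
/-!
# CALL S2546 (helper95), piece STEP2 (helper94)
-/

set_option autoImplicit false

namespace Cfsg.Agent.Helper94.UBN

open Matrix Cfsg.Agent.Helper95.UBN

variable {F : Type*} [Field F] {n : ℕ}

-- === PIECE STEP2 ===
theorem p_STEP2 (τ : F →+* F) (hτ : ∀ x, τ (τ x) = x)
    (hBT : ∀ (k : ℕ) (v : Fin n → F), ∑ i, v i * τ (v (Fin.rev i)) = 0 →
      (∀ i : Fin n, (i.1 < k ∨ n ≤ i.1 + k) → v i = 0) →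
      ∀ r : Fin n, v r ≠ 0 → (∀ i : Fin n, r < i → v i = 0) →
      ∃ u : Matrix.SpecialLinearGroup (Fin n) F, u ∈ UG τ n ∧ IsUp u.1 ∧ (∀ a, u.1 a a = 1) ∧
        Fixk k u.1 ∧ u.1 *ᵥ v = v r • Pi.single r (1 : F))
    (c : Fin n) (hc : 2 * c.1 + 2 ≤ n) (g : Matrix.SpecialLinearGroup (Fin n) F)
    (hg : g ∈ UG τ n) (hfix : Fixk c.1 g.1)
    (l : F) (h1 : ∀ a, g.1 a c = if a = c then l else 0) :
    ∃ u : Matrix.SpecialLinearGroup (Fin n) F, u ∈ UG τ n ∧ IsUp u.1 ∧ Fixk c.1 (u * g).1 ∧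
      (∀ a, (u * g).1 a c = if a = c then l else 0) ∧
      ∃ l' : F, ∀ a, (u * g).1 a (Fin.rev c) = if a = Fin.rev c then l' else 0 := by
  classical
  obtain ⟨w, hw⟩ : ∃ w : Fin n → F, ∀ i, w i = g.1 i (Fin.rev c) :=
    ⟨fun i => g.1 i (Fin.rev c), fun _ => rfl⟩
  have hrv : (Fin.rev c).1 = n - (c.1 + 1) := Fin.val_rev c
  have hrc : Fin.rev (Fin.rev c) ≠ Fin.rev c := by
    rw [Fin.rev_rev]
    intro h
    have := congrArg Fin.val h
    rw [hrv] at this
    omega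
  have hsupp : ∀ i : Fin n, (i.1 < c.1 ∨ n ≤ i.1 + c.1) → w i = 0 := by
    intro i hi
    rw [hw, fixk_rows hτ hg hfix i hi (Fin.rev c), if_neg]
    intro h
    have := congrArg Fin.val h
    rw [hrv] at this
    have := i.2
    omega
  have hiso : ∑ i, w i * τ (w (Fin.rev i)) = 0 := by
    simp only [hw]
    exact col_iso hg (Fin.rev c) hrc
  have hwl : τ (w (Fin.rev c)) * l = 1 := by
    have h := (isU_iff τ g.1).mp (isU_of_mem hg) c c
    rw [if_pos rfl, Finset.sum_eq_single c] at h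
    · rw [h1 c, if_pos rfl] at h
      rw [hw]; exact h
    · intro b _ hb
      rw [h1 b, if_neg hb, mul_zero]
    · intro h'; exact absurd (Finset.mem_univ c) h'
  have hwr : w (Fin.rev c) ≠ 0 := by
    intro h0
    rw [h0, map_zero, zero_mul] at hwl
    exact zero_ne_one hwl
  have hlast : ∀ i : Fin n, Fin.rev c < i → w i = 0 := by
    intro i hi
    apply hsupp
    right
    have := Fin.lt_def.mp hi
    rw [hrv] at this
    omega
  obtain ⟨u, hu, hup, hu1, hufix, huw⟩ := hBT c.1 w hiso hsupp (Fin.rev c) hwr hlast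
  have huc : ∀ a, u.1 a c = if a = c then 1 else 0 := by
    intro a
    by_cases hac : a = c
    · rw [if_pos hac, hac]; exact hu1 c
    · rw [if_neg hac]
      rcases lt_or_gt_of_ne hac with h | h
      · rw [fixk_rows hτ hu hufix a (Or.inl (Fin.lt_def.mp h)) c, if_neg hac]
      · exact hup a c h
  refine ⟨u, hu, hup, ?_, ?_, w (Fin.rev c), ?_⟩
  · show Fixk c.1 (u.1 * g.1)
    exact fixk_mul hufix hfix
  · intro a
    show (u.1 * g.1) a c = _
    rw [Matrix.mul_apply, Finset.sum_eq_single c]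
    · rw [h1 c, if_pos rfl, huc a]
      by_cases hac : a = c <;> simp [hac]
    · intro b _ hb
      rw [h1 b, if_neg hb, mul_zero]
    · intro h'; exact absurd (Finset.mem_univ c) h'
  · intro a
    have h2 : (u * g).1 a (Fin.rev c) = (u.1 *ᵥ w) a := by
      show ∑ k, u.1 a k * g.1 k (Fin.rev c) = ∑ k, u.1 a k * w k
      simp only [hw]
    rw [h2, huw]
    by_cases hac : a = Fin.rev c <;> simp [Pi.single_apply, hac]

end Cfsg.Agent.Helper94.UBN
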