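import Cfsg.Agent.Helper93.TransvMax

/-!
Nondegenerate Hermitian forms on `ι → F` (abstractly, as two-argument functions): basic
calculus, Riesz representation, transvections `x ↦ x + f x b • a`, and the elementary
geometry (anisotropic and isotropic vectors) needed for the maximality of the unitary
similarity group in `SL`.
-/

set_option autoImplicit false
set_option linter.unusedSectionVars false
set_option linter.unusedSimpArgs false
set_option linter.unusedVariables false

namespace Cfsg.Agent.Helper94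

open Cfsg Cfsg.Geo Matrix

universe u

variable {F : Type u} [Field F] {ι : Type} [Fintype ι] [DecidableEq ι]

/-! ### Field facts for an involution -/

section FieldFacts

variable (σ : F ≃+* F) (hinv : ∀ a : F, σ (σ a) = a) (hne : ∃ a : F, σ a ≠ a)

include hinv hne in
theorem uf_exists_tr0 : ∃ ν : F, ν ≠ 0 ∧ σ ν = -ν := by
  obtain ⟨a, ha⟩ := hne
  refine ⟨a - σ a, ?_, ?_⟩
  · intro h
    exact ha (sub_eq_zero.mp h).symm
  · rw [map_sub, hinv]
    ring

include hinv hne in
theorem uf_exists_tr (d : F) (hd : σ d = d) : ∃ γ : F, γ + σ γ = d := by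
  obtain ⟨x, hx⟩ : ∃ x : F, x + σ x ≠ 0 := by
    by_cases h2 : (2 : F) = 0
    · obtain ⟨a, ha⟩ := hne
      refine ⟨a, fun h => ha ?_⟩
      linear_combination h - a * h2
    · exact ⟨1, by
        rw [map_one]
        intro h
        apply h2
        linear_combination h⟩
  have hfix : σ (x + σ x) = x + σ x := by
    rw [map_add, hinv]
    ring
  refine ⟨d * x / (x + σ x), ?_⟩
  rw [map_div₀, map_mul, hfix, hd]
  field_simp

include hne in
theorem uf_eq_zero_of_tr (t : F) (ht : ∀ l : F, l * t + σ (l * t) = 0) : t = 0 := by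
  obtain ⟨a, ha⟩ := hne
  have h1 := ht 1
  have h2 := ht a
  rw [one_mul] at h1
  rw [map_mul] at h2
  have h3 : (a - σ a) * t = 0 := by linear_combination h2 - σ a * h1
  rcases mul_eq_zero.mp h3 with h | h
  · exact absurd (sub_eq_zero.mp h).symm ha
  · exact h

include hinv in
theorem uf_tr_decomp (w : F) (hw : w + σ w ≠ 0) (t : F) :
    ∃ r μ : F, σ r = r ∧ σ μ = -μ ∧ t = r * w + μ := by
  have hr : σ ((t + σ t) / (w + σ w)) = (t + σ t) / (w + σ w) := by
    rw [map_div₀, map_add, map_add, hinv, hinv, add_comm (σ t), add_comm (σ w)]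
  refine ⟨(t + σ t) / (w + σ w), t - (t + σ t) / (w + σ w) * w, hr, ?_, by ring⟩
  rw [map_sub, map_mul, hr]
  have : (t + σ t) / (w + σ w) * (w + σ w) = t + σ t := div_mul_cancel₀ _ hw
  linear_combination -this

include hinv hne in
theorem uf_exists_norm [Finite F] (d : F) (hd : σ d = d) : ∃ l : F, l * σ l = d := by
  classical
  by_cases hd0 : d = 0
  · exact ⟨0, by rw [hd0, zero_mul]⟩
  let S : Fˣ →* Fˣ := Units.map (σ : F →* F)
  have hS : ∀ x : Fˣ, ((S x : Fˣ) : F) = σ (x : F) := fun x => rfl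
  let N : Fˣ →* Fˣ := MonoidHom.mk' (fun x => x * S x)
    (fun a b => by rw [map_mul]; exact mul_mul_mul_comm _ _ _ _)
  let ψ : Fˣ →* Fˣ := MonoidHom.mk' (fun x => x * (S x)⁻¹)
    (fun a b => by rw [map_mul, mul_inv]; exact mul_mul_mul_comm _ _ _ _)
  have hN : ∀ x : Fˣ, ((N x : Fˣ) : F) = x * σ (x : F) := fun x => rfl
  have hψ : ∀ x : Fˣ, ((ψ x : Fˣ) : F) = x * (σ (x : F))⁻¹ := fun x => by
    show ((x * (S x)⁻¹ : Fˣ) : F) = _
    rw [Units.val_mul, Units.val_inv_eq_inv_val, hS]
  have h1 : N.range ≤ ψ.ker := by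
    rintro _ ⟨x, rfl⟩
    rw [MonoidHom.mem_ker]
    apply Units.ext
    rw [hψ, hN, map_mul, hinv, Units.val_one]
    have hx0 : (x : F) ≠ 0 := x.ne_zero
    have hx1 : σ (x : F) ≠ 0 := by
      rw [← hS]; exact (S x).ne_zero
    field_simp
  have h2 : N.ker ≤ ψ.range := by
    intro x hx
    rw [MonoidHom.mem_ker] at hx
    have hx' : (x : F) * σ (x : F) = 1 := by
      have := congrArg Units.val hx
      rwa [hN, Units.val_one] at this
    have hx0 : (x : F) ≠ 0 := x.ne_zero
    by_cases hx1 : (1 : F) + x = 0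
    · obtain ⟨ν, hν0, hν⟩ := uf_exists_tr0 σ hinv hne
      refine ⟨Units.mk0 ν hν0, Units.ext ?_⟩
      rw [hψ, Units.val_mk0, hν]
      field_simp
      linear_combination -hx1
    · refine ⟨Units.mk0 (1 + x) hx1, Units.ext ?_⟩
      rw [hψ, Units.val_mk0, map_add, map_one]
      have hσx : σ (x : F) = (x : F)⁻¹ := eq_inv_of_mul_eq_one_right hx'
      rw [hσx]
      have e : (1 : F) + (x : F)⁻¹ = (1 + x) / x := by
        field_simp
        ring
      rw [e, inv_div, mul_div_assoc', mul_comm, mul_div_assoc, div_self hx1, mul_one]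
  have c1 := Subgroup.card_mul_index N.ker
  have c2 := Subgroup.card_mul_index ψ.ker
  rw [Subgroup.index_ker] at c1 c2
  have c3 : Nat.card N.ker ≤ Nat.card ψ.range := Subgroup.card_le_of_le h2
  have c4 : Nat.card ψ.ker ≤ Nat.card N.range := by
    have hpos : 0 < Nat.card ψ.range := Nat.card_pos
    have : Nat.card ψ.ker * Nat.card ψ.range ≤ Nat.card N.range * Nat.card ψ.range := by
      rw [c2, ← c1, mul_comm]
      exact Nat.mul_le_mul_left _ c3
    exact Nat.le_of_mul_le_mul_right this hpos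
  have h3 : N.range = ψ.ker := Subgroup.eq_of_le_of_card_ge h1 c4
  have hdk : Units.mk0 d hd0 ∈ ψ.ker := by
    rw [MonoidHom.mem_ker]
    apply Units.ext
    rw [hψ, Units.val_mk0, hd, mul_inv_cancel₀ hd0, Units.val_one]
  rw [← h3] at hdk
  obtain ⟨x, hx⟩ := hdk
  exact ⟨x, by
    have := congrArg Units.val hx
    rwa [hN, Units.val_mk0] at this⟩

end FieldFacts

/-! ### General linear group helpers -/

theorem ugl_ext (g k : GL ι F)
    (hgk : ∀ x : ι → F, (g : Matrix ι ι F) *ᵥ x = (k : Matrix ι ι F) *ᵥ x) : g = k := by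
  apply Units.ext
  ext i j
  have := congrFun (hgk (Pi.single j 1)) i
  simpa using this

theorem ugl_mul_mulVec (g k : GL ι F) (x : ι → F) :
    ((g * k : GL ι F) : Matrix ι ι F) *ᵥ x = (g : Matrix ι ι F) *ᵥ ((k : Matrix ι ι F) *ᵥ x) := by
  rw [Units.val_mul, mulVec_mulVec]

theorem ugl_inv_mulVec (g : GL ι F) (x : ι → F) :
    ((g⁻¹ : GL ι F) : Matrix ι ι F) *ᵥ ((g : Matrix ι ι F) *ᵥ x) = x := by
  rw [mulVec_mulVec, ← Units.val_mul, inv_mul_cancel, Units.val_one, one_mulVec]

theorem ugl_mulVec_inv (g : GL ι F) (x : ι → F) :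
    (g : Matrix ι ι F) *ᵥ (((g⁻¹ : GL ι F) : Matrix ι ι F) *ᵥ x) = x := by
  rw [mulVec_mulVec, ← Units.val_mul, mul_inv_cancel, Units.val_one, one_mulVec]

theorem ugl_mulVec_eq_zero (g : GL ι F) {x : ι → F} (hx : (g : Matrix ι ι F) *ᵥ x = 0) : x = 0 := by
  have := congrArg (fun y => ((g⁻¹ : GL ι F) : Matrix ι ι F) *ᵥ y) hx
  simpa [ugl_inv_mulVec] using this

/-! ### Nondegenerate Hermitian forms -/

/-- A nondegenerate `σ`-Hermitian form on `ι → F`, for an involution `σ ≠ 1` of `F`. -/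
structure UF (σ : F ≃+* F) (f : (ι → F) → (ι → F) → F) : Prop where
  invol : ∀ a : F, σ (σ a) = a
  ne_id : ∃ a : F, σ a ≠ a
  add_left : ∀ x y v, f (x + y) v = f x v + f y v
  smul_left : ∀ (c : F) (x v : ι → F), f (c • x) v = c * f x v
  herm : ∀ v w, f v w = σ (f w v)
  nondeg : ∀ v : ι → F, v ≠ 0 → ∃ x, f x v ≠ 0

theorem UF.of_unitary {σ : F ≃+* F} {f : (ι → F) → (ι → F) → F} (hf : IsUnitaryForm σ f) :
    UF σ f :=
  ⟨hf.involutive, by
    by_contra hcon
    push Not at hcon
    exact hf.ne_refl (RingEquiv.ext hcon), hf.add_left, hf.smul_left, hf.herm,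
    fun v hv => (hf.nondegenerate v hv).1⟩

namespace UF

variable {σ : F ≃+* F} {f : (ι → F) → (ι → F) → F} (h : UF σ f)

include h

theorem add_right (v x y : ι → F) : f v (x + y) = f v x + f v y := by
  rw [h.herm, h.add_left, map_add, ← h.herm, ← h.herm]

theorem smul_right (c : F) (v x : ι → F) : f v (c • x) = σ c * f v x := by
  rw [h.herm, h.smul_left, map_mul, ← h.herm]

theorem zero_left (v : ι → F) : f 0 v = 0 := by
  have := h.smul_left 0 0 v
  rwa [zero_smul, zero_mul] at this

theorem zero_right (v : ι → F) : f v 0 = 0 := by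
  rw [h.herm, h.zero_left, map_zero]

theorem neg_left (x v : ι → F) : f (-x) v = -f x v := by
  have := h.smul_left (-1) x v
  rwa [neg_one_smul, neg_one_mul] at this

theorem neg_right (v x : ι → F) : f v (-x) = -f v x := by
  rw [h.herm, h.neg_left, map_neg, ← h.herm]

theorem sub_left (x y v : ι → F) : f (x - y) v = f x v - f y v := by
  rw [sub_eq_add_neg, h.add_left, h.neg_left, sub_eq_add_neg]

theorem sub_right (v x y : ι → F) : f v (x - y) = f v x - f v y := by
  rw [sub_eq_add_neg, h.add_right, h.neg_right, sub_eq_add_neg]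

theorem swap_zero {v w : ι → F} (hvw : f v w = 0) : f w v = 0 := by
  rw [h.herm, hvw, map_zero]

theorem swap_ne {v w : ι → F} (hvw : f v w ≠ 0) : f w v ≠ 0 := fun h0 => hvw (h.swap_zero h0)

theorem self_fix (v : ι → F) : σ (f v v) = f v v := (h.herm v v).symm

theorem sigma_apply (v w : ι → F) : σ (f v w) = f w v := (h.herm w v).symm

theorem ext_right {b b' : ι → F} (hb : ∀ x, f x b = f x b') : b = b' := by
  by_contra hne
  obtain ⟨x, hx⟩ := h.nondeg (b - b') (sub_ne_zero.mpr hne)
  exact hx (by rw [h.sub_right, hb, sub_self])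

theorem sum_right {α : Type*} (s : Finset α) (w : α → ι → F) (x : ι → F) :
    f x (∑ i ∈ s, w i) = ∑ i ∈ s, f x (w i) := by
  classical
  induction s using Finset.induction_on with
  | empty => simp [h.zero_right]
  | insert a s ha ih => rw [Finset.sum_insert ha, Finset.sum_insert ha, h.add_right, ih]

/-- The functional `x ↦ f x b`. -/
def fl (b : ι → F) : (ι → F) →ₗ[F] F where
  toFun x := f x b
  map_add' x y := h.add_left x y b
  map_smul' c x := by simp [h.smul_left]

theorem fl_apply (b x : ι → F) : h.fl b x = f x b := rfl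

theorem fl_dot (b x : ι → F) : (fun j => f (Pi.single j 1) b) ⬝ᵥ x = f x b := by
  rw [← h.fl_apply b x, LinearMap.pi_apply_eq_sum_univ (h.fl b) x]
  simp only [dotProduct, smul_eq_mul, fl_apply]
  apply Finset.sum_congr rfl
  intro i _
  rw [mul_comm]
  congr 2
  ext j
  simp [Pi.single_apply, eq_comm]

/-- Riesz representation. -/
theorem riesz (φ : (ι → F) →ₗ[F] F) : ∃ b, ∀ x, f x b = φ x := by
  let R : (ι → F) →ₗ[F] (ι → F) := LinearMap.pi (fun i => h.fl (Pi.single i 1))
  have hR : ∀ b i, R b i = f b (Pi.single i 1) := fun b i => rfl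
  have hsingle : ∀ (i : ι) (c : F), (Pi.single i c : ι → F) = c • Pi.single i 1 := by
    intro i c
    ext j
    simp [Pi.single_apply]
  have hRinj : Function.Injective R := by
    rw [← LinearMap.ker_eq_bot, LinearMap.ker_eq_bot']
    intro b hb
    by_contra hb0
    obtain ⟨x, hx⟩ := h.nondeg b hb0
    apply hx
    have h0 : h.fl b = 0 := by
      apply LinearMap.pi_ext
      intro i c
      have : f b (Pi.single i 1) = 0 := by rw [← hR, hb]; rfl
      rw [LinearMap.zero_apply, fl_apply, hsingle, h.smul_left, h.swap_zero this, mul_zero]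
    exact LinearMap.congr_fun h0 x
  have hRsurj : Function.Surjective R := LinearMap.surjective_of_injective hRinj
  obtain ⟨b, hb⟩ := hRsurj (fun i => σ (φ (Pi.single i 1)))
  refine ⟨b, fun x => ?_⟩
  have : h.fl b = φ := by
    apply LinearMap.pi_ext
    intro i c
    have hbi : f b (Pi.single i 1) = σ (φ (Pi.single i 1)) := by rw [← hR, hb]
    rw [fl_apply, hsingle, h.smul_left, map_smul, smul_eq_mul, h.herm, hbi, h.invol]
  exact LinearMap.congr_fun this x

theorem exists_eq_one {a : ι → F} (ha : a ≠ 0) : ∃ x, f x a = 1 := by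
  obtain ⟨x, hx⟩ := h.nondeg a ha
  exact ⟨(f x a)⁻¹ • x, by rw [h.smul_left, inv_mul_cancel₀ hx]⟩

/-- Double perp of a line. -/
theorem mem_line_of_perp {a b : ι → F} (hab : ∀ y, f y b = 0 → f y a = 0) :
    ∃ l : F, a = l • b := by
  by_cases hb : b = 0
  · refine ⟨0, ?_⟩
    rw [zero_smul]
    by_contra ha
    obtain ⟨x, hx⟩ := h.nondeg a ha
    exact hx (hab x (by rw [hb, h.zero_right]))
  · obtain ⟨x₀, hx₀⟩ := h.exists_eq_one hb
    refine ⟨σ (f x₀ a), h.ext_right fun x => ?_⟩
    have := hab (x - f x b • x₀) (by rw [h.sub_left, h.smul_left, hx₀, mul_one, sub_self])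
    rw [h.sub_left, h.smul_left, sub_eq_zero] at this
    rw [this, h.smul_right, h.invol, mul_comm]

/-! ### Anisotropic and isotropic vectors -/

/-- An anisotropic vector perpendicular to `k` given vectors, when `2 * k < n`. -/
theorem exists_aniso {k : ℕ} (v : Fin k → ι → F) (hk : 2 * k < Fintype.card ι) :
    ∃ z, f z z ≠ 0 ∧ ∀ i, f z (v i) = 0 := by
  by_contra hcon
  push Not at hcon
  have hiso : ∀ z, (∀ i, f z (v i) = 0) → f z z = 0 := fun z hz => by
    by_contra h0
    obtain ⟨i, hi⟩ := hcon z h0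
    exact hi (hz i)
  let L : (ι → F) →ₗ[F] (Fin k → F) := LinearMap.pi (fun i => h.fl (v i))
  have hmemU : ∀ z, z ∈ LinearMap.ker L ↔ ∀ i, f z (v i) = 0 := by
    intro z
    rw [LinearMap.mem_ker]
    constructor
    · intro hz i
      exact congrFun hz i
    · intro hz
      ext i
      exact hz i
  have hpol : ∀ u w, u ∈ LinearMap.ker L → w ∈ LinearMap.ker L → f u w = 0 := by
    intro u w hu hw
    apply uf_eq_zero_of_tr σ h.ne_id
    intro l
    have h1 := hiso (l • u + w)
      ((hmemU _).mp (Submodule.add_mem _ (Submodule.smul_mem _ l hu) hw))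
    have h2 := hiso u ((hmemU _).mp hu)
    have h3 := hiso w ((hmemU _).mp hw)
    rw [h.add_left, h.add_right, h.add_right, h.smul_left, h.smul_left, h.smul_right,
      h.smul_right, h2, h3] at h1
    rw [map_mul, h.sigma_apply u w]
    linear_combination h1
  have hsp : LinearMap.ker L ≤ Submodule.span F (Set.range v) := by
    intro u hu
    have hker : ⨅ i, LinearMap.ker (h.fl (v i)) ≤ LinearMap.ker (h.fl u) := by
      intro x hx
      rw [Submodule.mem_iInf] at hx
      rw [LinearMap.mem_ker, fl_apply]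
      apply hpol x u _ hu
      rw [hmemU]
      intro i
      exact LinearMap.mem_ker.mp (hx i)
    have := mem_span_of_iInf_ker_le_ker hker
    obtain ⟨c, hc⟩ := (Submodule.mem_span_range_iff_exists_fun F).mp this
    have hu' : u = ∑ i, σ (c i) • v i := by
      apply h.ext_right
      intro x
      have := LinearMap.congr_fun hc x
      rw [fl_apply] at this
      rw [← this, h.sum_right]
      simp [LinearMap.sum_apply, h.smul_right, h.invol, fl_apply]
    rw [hu']
    exact Submodule.sum_mem _ (fun i _ => Submodule.smul_mem _ _ (Submodule.subset_span ⟨i, rfl⟩))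
  have h1 : Module.finrank F (LinearMap.ker L) ≤ k := by
    calc Module.finrank F (LinearMap.ker L)
        ≤ Module.finrank F (Submodule.span F (Set.range v)) := Submodule.finrank_mono hsp
      _ ≤ Fintype.card (Fin k) := finrank_range_le_card v
      _ = k := Fintype.card_fin k
  have h2 := LinearMap.finrank_range_add_finrank_ker L
  have h3 : Module.finrank F (LinearMap.range L) ≤ k := by
    calc Module.finrank F (LinearMap.range L)
        ≤ Module.finrank F (Fin k → F) := Submodule.finrank_le _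
      _ = k := by simp
  have h4 : Module.finrank F (ι → F) = Fintype.card ι := Module.finrank_pi F
  omega

/-- Making an isotropic vector from two orthogonal vectors, the second anisotropic. -/
theorem exists_iso_add [Finite F] {z₁ z₂ : ι → F} (h12 : f z₁ z₂ = 0) (h2 : f z₂ z₂ ≠ 0) :
    ∃ l : F, f (z₁ + l • z₂) (z₁ + l • z₂) = 0 := by
  have hd : σ (-(f z₁ z₁) / f z₂ z₂) = -(f z₁ z₁) / f z₂ z₂ := by
    rw [map_div₀, map_neg, h.self_fix, h.self_fix]
  obtain ⟨l, hl⟩ := uf_exists_norm σ h.invol h.ne_id _ hd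
  refine ⟨l, ?_⟩
  simp only [h.add_left, h.add_right, h.smul_left, h.smul_right, h12, h.swap_zero h12]
  have : l * σ l * f z₂ z₂ = -f z₁ z₁ := by
    rw [hl]
    field_simp
  linear_combination this

/-- An isotropic vector in `a^⊥` not perpendicular to two given vectors of `a^⊥ ∖ F a`. -/
theorem exists_iso_both [Finite F] (hn : 8 < Fintype.card ι) (a y₁ y₂ : ι → F)
    (h1 : f y₁ a = 0) (h1' : ¬ ∃ l : F, y₁ = l • a) (h2 : f y₂ a = 0)
    (h2' : ¬ ∃ l : F, y₂ = l • a) :
    ∃ c, f c c = 0 ∧ f c a = 0 ∧ f y₁ c ≠ 0 ∧ f y₂ c ≠ 0 := by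
  have key : ∀ y, ¬ (∃ l : F, y = l • a) → ∃ x, f x a = 0 ∧ f y x ≠ 0 := by
    intro y hy
    by_contra hcon
    push Not at hcon
    exact hy (h.mem_line_of_perp fun x hx => h.swap_zero (hcon x hx))
  obtain ⟨x₁, hx₁a, hx₁⟩ := key y₁ h1'
  obtain ⟨x₂, hx₂a, hx₂⟩ := key y₂ h2'
  obtain ⟨x, hxa, hx1, hx2⟩ : ∃ x, f x a = 0 ∧ f y₁ x ≠ 0 ∧ f y₂ x ≠ 0 := by
    by_cases e1 : f y₂ x₁ = 0
    · by_cases e2 : f y₁ x₂ = 0
      · refine ⟨x₁ + x₂, by rw [h.add_left, hx₁a, hx₂a, add_zero], ?_, ?_⟩
        · rw [h.add_right, e2, add_zero]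
          exact hx₁
        · rw [h.add_right, e1, zero_add]
          exact hx₂
      · exact ⟨x₂, hx₂a, e2, hx₂⟩
    · exact ⟨x₁, hx₁a, hx₁, e1⟩
  obtain ⟨z, hzz, hz⟩ := h.exists_aniso ![a, y₁, y₂, x] (by omega)
  have hza : f z a = 0 := by simpa using hz 0
  have hz1 : f z y₁ = 0 := by simpa using hz 1
  have hz2 : f z y₂ = 0 := by simpa using hz 2
  have hzx : f z x = 0 := by simpa using hz 3
  obtain ⟨l, hl⟩ := h.exists_iso_add (h.swap_zero hzx) hzz
  refine ⟨x + l • z, hl, ?_, ?_, ?_⟩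
  · rw [h.add_left, h.smul_left, hxa, hza, mul_zero, add_zero]
  · rw [h.add_right, h.smul_right, h.swap_zero hz1, mul_zero, add_zero]
    exact hx1
  · rw [h.add_right, h.smul_right, h.swap_zero hz2, mul_zero, add_zero]
    exact hx2

/-- Every vector of `a^⊥` is a combination of two isotropic vectors of `a^⊥ ∖ F a`. -/
theorem exists_iso_sum [Finite F] (hn : 8 < Fintype.card ι) (a v : ι → F) (hva : f v a = 0) :
    ∃ c₁ c₂ : ι → F, ∃ s : F, f c₁ c₁ = 0 ∧ f c₂ c₂ = 0 ∧ f c₁ a = 0 ∧ f c₂ a = 0 ∧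
      (¬ ∃ l : F, c₁ = l • a) ∧ (¬ ∃ l : F, c₂ = l • a) ∧ v = c₁ + s • c₂ := by
  by_cases hv : ∃ l : F, v = l • a
  · obtain ⟨l, rfl⟩ := hv
    obtain ⟨z, hzz, hz⟩ := h.exists_aniso ![a] (by omega)
    have hza : f z a = 0 := by simpa using hz 0
    have hzl : ¬ ∃ l : F, z = l • a := by
      rintro ⟨m, rfl⟩
      apply hzz
      rw [h.smul_right, hza, mul_zero]
    obtain ⟨c, hcc, hca, hc1, -⟩ := h.exists_iso_both hn a z z hza hzl hza hzl
    have hcl : ¬ ∃ m : F, c = m • a := by
      rintro ⟨m, rfl⟩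
      apply hc1
      rw [h.smul_right, hza, mul_zero]
    have hla : l * f a a = 0 := by
      rw [← h.smul_left]
      exact hva
    refine ⟨c + l • a, c, -1, ?_, hcc, ?_, hca, ?_, hcl, by module⟩
    · simp only [h.add_left, h.add_right, h.smul_left, h.smul_right, hcc, hca, h.swap_zero hca]
      linear_combination σ l * hla
    · rw [h.add_left, h.smul_left, hca, zero_add]
      exact hla
    · rintro ⟨m, hm⟩
      exact hcl ⟨m - l, by rw [sub_smul, ← hm]; module⟩
  · obtain ⟨c, hcc, hca, hvc, -⟩ := h.exists_iso_both hn a v v hva hv hva hv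
    have hcl : ¬ ∃ m : F, c = m • a := by
      rintro ⟨m, rfl⟩
      apply hvc
      rw [h.smul_right, hva, mul_zero]
    obtain ⟨γ, hγ, hγ0⟩ : ∃ γ : F, γ + σ γ = f v v ∧ σ γ ≠ 0 := by
      by_cases hvv : f v v = 0
      · obtain ⟨ν, hν0, hν⟩ := uf_exists_tr0 σ h.invol h.ne_id
        exact ⟨ν, by rw [hν, hvv]; ring, by rw [hν]; exact neg_ne_zero.mpr hν0⟩
      · obtain ⟨γ, hγ⟩ := uf_exists_tr σ h.invol h.ne_id (f v v) (h.self_fix v)
        refine ⟨γ, hγ, fun h0 => hvv ?_⟩
        have : γ = 0 := by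
          have := congrArg σ h0
          rwa [h.invol, map_zero] at this
        rw [← hγ, h0, this, add_zero]
    obtain ⟨s, hs⟩ : ∃ s : F, σ s * f v c = γ :=
      ⟨σ (γ / f v c), by rw [h.invol, div_mul_cancel₀ _ hvc]⟩
    have e : s * f c v = σ γ := by
      rw [← hs, map_mul, h.invol, h.sigma_apply v c]
    refine ⟨v - s • c, c, s, ?_, hcc, ?_, hca, ?_, hcl, by module⟩
    · simp only [h.sub_left, h.sub_right, h.smul_left, h.smul_right, hcc]
      linear_combination -hγ - hs - e
    · rw [h.sub_left, h.smul_left, hva, hca, mul_zero, sub_zero]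
    · rintro ⟨m, hm⟩
      have e1 : f v (v - s • c) = σ γ := by
        rw [h.sub_right, h.smul_right, hs, ← hγ]
        ring
      rw [hm, h.smul_right, hva, mul_zero] at e1
      exact hγ0 e1.symm

end UF

end Cfsg.Agent.Helper94
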