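import Cfsg.Agent.Helper94.UTrans
import Cfsg.Agent.Helper94.TvGen
import Cfsg.Agent.Helper13.WittHerm

/-!
The special unitary group of a nondegenerate Hermitian form over a finite field is generated by
unitary transvections (in dimension at least 7).
-/

set_option autoImplicit false
set_option linter.unusedSectionVars false
set_option linter.unusedSimpArgs false
set_option linter.unusedVariables false

namespace Cfsg.Agent.Helper94

open Cfsg Cfsg.Geo Matrix

universe u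

variable {F : Type u} [Field F] {ι : Type} [Fintype ι] [DecidableEq ι]

/-! ### Dilatations `x ↦ x + φ x • u` -/

/-- The matrix of `x ↦ x + φ x • u`. -/
def dilM (φ : (ι → F) →ₗ[F] F) (u : ι → F) : Matrix ι ι F :=
  1 + vecMulVec u (fun j => φ (Pi.single j 1))

theorem dilM_mulVec (φ : (ι → F) →ₗ[F] F) (u x : ι → F) : dilM φ u *ᵥ x = x + φ x • u := by
  rw [dilM, add_mulVec, one_mulVec, vecMulVec_mulVec, lin_dot]
  congr 1
  ext i
  simp [mul_comm]

theorem dilM_det (φ : (ι → F) →ₗ[F] F) (u : ι → F) : (dilM φ u).det = 1 + φ u := by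
  rw [dilM, vecMulVec_eq Unit, det_one_add_replicateCol_mul_replicateRow, lin_dot]

open Classical in
/-- The dilatation `x ↦ x + φ x • u` as an element of `GL` (the identity if `1 + φ u = 0`). -/
noncomputable def dil (φ : (ι → F) →ₗ[F] F) (u : ι → F) : GL ι F :=
  if h : 1 + φ u ≠ 0 then
    Matrix.GeneralLinearGroup.mkOfDetNeZero (dilM φ u) (by rw [dilM_det]; exact h)
  else 1

theorem dil_mulVec {φ : (ι → F) →ₗ[F] F} {u : ι → F} (h : 1 + φ u ≠ 0) (x : ι → F) :
    ((dil φ u : GL ι F) : Matrix ι ι F) *ᵥ x = x + φ x • u := by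
  rw [dil, dif_pos h]
  exact dilM_mulVec φ u x

theorem dil_det {φ : (ι → F) →ₗ[F] F} {u : ι → F} (h : 1 + φ u ≠ 0) :
    ((dil φ u : GL ι F) : Matrix ι ι F).det = 1 + φ u := by
  rw [dil, dif_pos h]
  exact dilM_det φ u

/-! ### The isometry group -/

/-- The isometry group of a form, as a subgroup of `GL`. -/
def isoGL (f : (ι → F) → (ι → F) → F) : Subgroup (GL ι F) :=
  preserving (Units.coeHom (Matrix ι ι F)) f

theorem mem_isoGL {f : (ι → F) → (ι → F) → F} {g : GL ι F} :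
    g ∈ isoGL f ↔ ∀ x y, f ((g : Matrix ι ι F) *ᵥ x) ((g : Matrix ι ι F) *ᵥ y) = f x y :=
  Iff.rfl

/-- `GL` as linear automorphisms. -/
noncomputable def glToLE : GL ι F →* ((ι → F) ≃ₗ[F] (ι → F)) :=
  (LinearMap.GeneralLinearGroup.generalLinearEquiv F (ι → F)).toMonoidHom.comp
    (Matrix.GeneralLinearGroup.toLin (n := ι) (R := F)).toMonoidHom

theorem glToLE_apply (g : GL ι F) (x : ι → F) : glToLE g x = (g : Matrix ι ι F) *ᵥ x := by
  simp [glToLE]

theorem det_of_mem_SL {g : GL ι F} (hg : g ∈ specialLinear ι F) :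
    (g : Matrix ι ι F).det = 1 := by
  have h1 := MonoidHom.mem_ker.mp hg
  have h2 := congrArg Units.val h1
  simpa using h2

/-- The set of unitary transvections. -/
def utvSet (σ : F ≃+* F) (f : (ι → F) → (ι → F) → F) : Set (GL ι F) :=
  {t | ∃ (c : ι → F) (ν : F), f c c = 0 ∧ σ ν = -ν ∧ t = tvh f c (ν • c)}

namespace UF

variable {σ : F ≃+* F} {f : (ι → F) → (ι → F) → F} (h : UF σ f)

include h

/-! ### Generalised reflections -/

/-- The generalised reflection `x ↦ x + (c * f x u) • u`. -/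
noncomputable def grf (u : ι → F) (c : F) : GL ι F := dil (c • h.fl u) u

theorem grf_cond {u : ι → F} {c : F} (hc : c + σ c + c * σ c * f u u = 0) :
    1 + (c • h.fl u) u ≠ 0 := by
  intro h0
  have h1 : (c • h.fl u) u = c * f u u := by
    rw [LinearMap.smul_apply, fl_apply, smul_eq_mul]
  rw [h1] at h0
  have : (1 + c * f u u) * (1 + σ c * f u u) = 1 := by linear_combination f u u * hc
  rw [h0, zero_mul] at this
  exact zero_ne_one this

theorem grf_mulVec {u : ι → F} {c : F} (hc : c + σ c + c * σ c * f u u = 0) (x : ι → F) :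
    ((h.grf u c : GL ι F) : Matrix ι ι F) *ᵥ x = x + (c * f x u) • u := by
  rw [grf, dil_mulVec (h.grf_cond hc), LinearMap.smul_apply, fl_apply, smul_eq_mul]

theorem grf_det {u : ι → F} {c : F} (hc : c + σ c + c * σ c * f u u = 0) :
    ((h.grf u c : GL ι F) : Matrix ι ι F).det = 1 + c * f u u := by
  rw [grf, dil_det (h.grf_cond hc), LinearMap.smul_apply, fl_apply, smul_eq_mul]

theorem grf_isom {u : ι → F} {c : F} (hc : c + σ c + c * σ c * f u u = 0) :
    h.grf u c ∈ isoGL f := by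
  rw [mem_isoGL]
  intro x y
  rw [h.grf_mulVec hc, h.grf_mulVec hc]
  simp only [h.add_left, h.add_right, h.smul_left, h.smul_right, map_mul, h.sigma_apply]
  linear_combination (f x u * f u y) * hc

/-- The set of generalised reflections. -/
def grfSet : Set (GL ι F) :=
  {ρ | ∃ (u : ι → F) (c : F), c + σ c + c * σ c * f u u = 0 ∧ ρ = h.grf u c}

theorem grf_closure_le_iso : Subgroup.closure h.grfSet ≤ isoGL f := by
  rw [Subgroup.closure_le]
  rintro ρ ⟨u, c, hc, rfl⟩
  exact h.grf_isom hc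

theorem grf_one_step (X₀ : Submodule F (ι → F)) (x₀ y : ι → F) (hyy : f y y = f x₀ x₀)
    (hd : f x₀ (y - x₀) ≠ 0) (hperp : ∀ z ∈ X₀, f z (y - x₀) = 0) :
    ∃ t ∈ Subgroup.closure h.grfSet, (∀ z ∈ X₀, (t : Matrix ι ι F) *ᵥ z = z) ∧
      (t : Matrix ι ι F) *ᵥ x₀ = y := by
  have hsum : σ (f x₀ (y - x₀)) + f x₀ (y - x₀) + f (y - x₀) (y - x₀) = 0 := by
    simp only [h.sub_left, h.sub_right, map_sub, h.sigma_apply]
    linear_combination hyy
  have hσd : σ (f x₀ (y - x₀)) ≠ 0 := fun h0 => hd (by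
    have := congrArg σ h0
    rwa [h.invol, map_zero] at this)
  have hc : (f x₀ (y - x₀))⁻¹ + σ (f x₀ (y - x₀))⁻¹
      + (f x₀ (y - x₀))⁻¹ * σ (f x₀ (y - x₀))⁻¹ * f (y - x₀) (y - x₀) = 0 := by
    rw [map_inv₀]
    field_simp
    linear_combination hsum
  refine ⟨h.grf (y - x₀) (f x₀ (y - x₀))⁻¹, Subgroup.subset_closure ⟨_, _, hc, rfl⟩, ?_, ?_⟩
  · intro z hz
    rw [h.grf_mulVec hc, hperp z hz, mul_zero, zero_smul, add_zero]
  · rw [h.grf_mulVec hc, inv_mul_cancel₀ hd, one_smul]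
    abel

theorem grf_step (X₀ : Submodule F (ι → F)) (x₀ y : ι → F) (hx₀ : x₀ ∉ X₀) (hy : y ∉ X₀)
    (hc : ∀ z ∈ X₀, f z y = f z x₀ ∧ f y z = f x₀ z) (hyy : f y y = f x₀ x₀) :
    ∃ t ∈ Subgroup.closure h.grfSet, (∀ z ∈ X₀, (t : Matrix ι ι F) *ᵥ z = z) ∧
      (t : Matrix ι ι F) *ᵥ x₀ = y := by
  have hperp : ∀ z ∈ X₀, f z (y - x₀) = 0 := fun z hz => by
    rw [h.sub_right, (hc z hz).1, sub_self]
  by_cases hd : f x₀ (y - x₀) ≠ 0
  · exact h.grf_one_step X₀ x₀ y hyy hd hperp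
  · push Not at hd
    obtain ⟨w, hwX', hwx', hwy'⟩ :=
      Helper13.exists_good (fun w v => f v w) h.riesz X₀ x₀ y hx₀ hy
    have hwX : ∀ z ∈ X₀, f z w = 0 := hwX'
    have hwx : f x₀ w ≠ 0 := hwx'
    have hwy : f y w ≠ 0 := hwy'
    obtain ⟨r, hr, hr0⟩ : ∃ r : F, r + σ r = -(f w w) ∧ r ≠ 0 := by
      by_cases hww : f w w = 0
      · obtain ⟨ν, hν0, hν⟩ := uf_exists_tr0 σ h.invol h.ne_id
        exact ⟨ν, by rw [hν, hww]; ring, hν0⟩
      · obtain ⟨r, hr⟩ := uf_exists_tr σ h.invol h.ne_id (-(f w w))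
          (by rw [map_neg, h.self_fix])
        refine ⟨r, hr, fun h0 => hww ?_⟩
        rw [h0, map_zero, add_zero] at hr
        linear_combination hr
    have hσr0 : σ r ≠ 0 := fun h0 => hr0 (by
      have := congrArg σ h0
      rwa [h.invol, map_zero] at this)
    obtain ⟨l, hl0, hl⟩ :
        ∃ l : F, l ≠ 0 ∧ σ l * f x₀ w + l * f w x₀ + l * σ l * f w w = 0 := by
      refine ⟨f x₀ w / r, div_ne_zero hwx hr0, ?_⟩
      rw [map_div₀, h.sigma_apply]
      field_simp
      linear_combination (f x₀ w * f w x₀) * hr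
    have hσl0 : σ l ≠ 0 := fun h0 => hl0 (by
      have := congrArg σ h0
      rwa [h.invol, map_zero] at this)
    have hmm : f (x₀ + l • w) (x₀ + l • w) = f x₀ x₀ := by
      simp only [h.add_left, h.add_right, h.smul_left, h.smul_right]
      linear_combination hl
    have hd1 : f x₀ ((x₀ + l • w) - x₀) ≠ 0 := by
      rw [add_sub_cancel_left, h.smul_right]
      exact mul_ne_zero hσl0 hwx
    obtain ⟨t₁, ht₁G, ht₁fix, ht₁⟩ := h.grf_one_step X₀ x₀ (x₀ + l • w) hmm hd1 (fun z hz => by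
      rw [add_sub_cancel_left, h.smul_right, hwX z hz, mul_zero])
    have hd2 : f (x₀ + l • w) (y - (x₀ + l • w)) ≠ 0 := by
      have e : f (x₀ + l • w) (y - (x₀ + l • w)) = l * f w y := by
        have hd' : f x₀ y - f x₀ x₀ = 0 := by
          rw [← h.sub_right]
          exact hd
        rw [h.sub_right, hmm, h.add_left, h.smul_left]
        linear_combination hd'
      rw [e]
      exact mul_ne_zero hl0 (h.swap_ne hwy)
    obtain ⟨t₂, ht₂G, ht₂fix, ht₂⟩ := h.grf_one_step X₀ (x₀ + l • w) y (hyy.trans hmm.symm) hd2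
      (fun z hz => by
        have e : y - (x₀ + l • w) = (y - x₀) - l • w := by abel
        rw [e, h.sub_right, hperp z hz, h.smul_right, hwX z hz, mul_zero, sub_zero])
    refine ⟨t₂ * t₁, Subgroup.mul_mem _ ht₂G ht₁G, ?_, ?_⟩
    · intro z hz
      rw [ugl_mul_mulVec, ht₁fix z hz, ht₂fix z hz]
    · rw [ugl_mul_mulVec, ht₁, ht₂]

/-- The isometry group is generated by generalised reflections. -/
theorem iso_le_grf : isoGL f ≤ Subgroup.closure h.grfSet := by
  intro g hg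
  have hsk := Helper13.witt_skeleton (F := F) (V := ι → F) (fun a b => f a b)
    ((Subgroup.closure h.grfSet).map glToLE)
    (by
      rintro t ⟨ρ, hρ, rfl⟩ x x'
      rw [glToLE_apply, glToLE_apply]
      exact (h.grf_closure_le_iso hρ) x x')
    (by
      intro X₀ x₀ y hx₀ hy hc hyy
      obtain ⟨ρ, hρ, hfix, hρx⟩ := h.grf_step X₀ x₀ y hx₀ hy hc hyy
      refine ⟨glToLE ρ, Subgroup.mem_map_of_mem _ hρ, ?_, ?_⟩
      · intro z hz
        rw [glToLE_apply]
        exact hfix z hz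
      · rw [glToLE_apply]
        exact hρx)
    (Module.finrank F (ι → F)) ⊤ (Submodule.finrank_le _)
    (Matrix.toLin' ((g : GL ι F) : Matrix ι ι F))
    (by
      intro x _ x' _
      rw [Matrix.toLin'_apply, Matrix.toLin'_apply]
      exact hg x x')
    (by
      intro x _ hx
      rw [Matrix.toLin'_apply] at hx
      exact ugl_mulVec_eq_zero g hx)
  obtain ⟨t, ⟨ρ, hρ, rfl⟩, htx⟩ := hsk
  have hgρ : g = ρ := by
    apply ugl_ext
    intro x
    have := htx x trivial
    rw [glToLE_apply, Matrix.toLin'_apply] at this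
    exact this.symm
  rw [hgρ]
  exact hρ

/-! ### The group generated by unitary transvections -/

theorem utv_le_SL : Subgroup.closure (utvSet σ f) ≤ specialLinear ι F := by
  rw [Subgroup.closure_le]
  rintro t ⟨c, ν, -, -, rfl⟩
  exact tvh_mem_SL _ _ _

theorem utv_le_iso : Subgroup.closure (utvSet σ f) ≤ isoGL f := by
  rw [Subgroup.closure_le]
  rintro t ⟨c, ν, hcc, hν, rfl⟩
  rw [SetLike.mem_coe, mem_isoGL]
  exact h.tvh_unitary_isom hcc hν

/-- The group generated by unitary transvections is normalised by isometries. -/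
theorem utv_conj {k : GL ι F} (hk : k ∈ isoGL f) {t : GL ι F}
    (ht : t ∈ Subgroup.closure (utvSet σ f)) :
    k * t * k⁻¹ ∈ Subgroup.closure (utvSet σ f) := by
  have hle : Subgroup.closure (utvSet σ f) ≤
      (Subgroup.closure (utvSet σ f)).comap (MulAut.conj k).toMonoidHom := by
    rw [Subgroup.closure_le]
    rintro t ⟨c, ν, hcc, hν, rfl⟩
    rw [SetLike.mem_coe, Subgroup.mem_comap]
    show k * tvh f c (ν • c) * k⁻¹ ∈ _
    have hconj : k * tvh f c (ν • c) * k⁻¹ =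
        tvh f ((k : Matrix ι ι F) *ᵥ c) (ν • ((k : Matrix ι ι F) *ᵥ c)) :=
      h.tvh_conj k (by rw [h.smul_right, hcc, mul_zero]) (fun y => by
        rw [h.smul_right, h.smul_right, (mem_isoGL.mp hk) y c])
    rw [hconj]
    exact Subgroup.subset_closure ⟨_, ν, by rw [(mem_isoGL.mp hk) c c, hcc], hν, rfl⟩
  exact hle ht

/-- One unitary transvection moving `a` to `e`. -/
theorem utv_move {a e : ι → F} (hee : f e e = f a a) (hne : f a e ≠ f a a)
    (htr : f a e + f e a = f a a + f a a) :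
    ∃ t ∈ utvSet σ f, (t : Matrix ι ι F) *ᵥ a = e := by
  have hcc : f (e - a) (e - a) = 0 := by
    simp only [h.sub_left, h.sub_right]
    linear_combination hee - htr
  have hδ : f a (e - a) ≠ 0 := by
    rw [h.sub_right]
    exact sub_ne_zero.mpr hne
  have hσδ : σ (f a (e - a)) = -(f a (e - a)) := by
    rw [h.sub_right, map_sub, h.sigma_apply, h.self_fix]
    linear_combination htr
  have hν : σ (σ (f a (e - a))⁻¹) = -(σ (f a (e - a))⁻¹) := by
    rw [h.invol, map_inv₀, hσδ, inv_neg, neg_neg]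
  refine ⟨tvh f (e - a) (σ (f a (e - a))⁻¹ • (e - a)), ⟨_, _, hcc, hν, rfl⟩, ?_⟩
  rw [h.tvh_mulVec (by rw [h.smul_right, hcc, mul_zero]), h.smul_right, h.invol,
    inv_mul_cancel₀ hδ, one_smul]
  abel

theorem indep_of_perp {a b : ι → F} (haa : f a a ≠ 0) (hbb : f b b ≠ 0) (hba : f b a = 0) :
    (¬ ∃ l : F, a = l • b) ∧ (¬ ∃ l : F, b = l • a) := by
  constructor
  · rintro ⟨l, hl⟩
    apply haa
    have e := h.smul_left l b a
    rw [← hl, hba, mul_zero] at e
    exact e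
  · rintro ⟨l, hl⟩
    apply hbb
    have e := h.smul_right l b a
    rw [← hl, hba, mul_zero] at e
    exact e

theorem utv_trans_indep [Finite F] (hn : 6 < Fintype.card ι) {a e : ι → F} (hee : f e e = f a a)
    (h1 : ¬ ∃ l : F, a = l • e) (h2 : ¬ ∃ l : F, e = l • a) :
    ∃ t ∈ Subgroup.closure (utvSet σ f), (t : Matrix ι ι F) *ᵥ a = e := by
  obtain ⟨ν, hν0, hν⟩ := uf_exists_tr0 σ h.invol h.ne_id
  obtain ⟨y₁, hy₁e, hy₁a⟩ : ∃ y, f y e = 0 ∧ f y a ≠ 0 := by
    by_contra hcon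
    push Not at hcon
    exact h1 (h.mem_line_of_perp hcon)
  obtain ⟨y₂, hy₂a, hy₂e⟩ : ∃ y, f y a = 0 ∧ f y e ≠ 0 := by
    by_contra hcon
    push Not at hcon
    exact h2 (h.mem_line_of_perp hcon)
  obtain ⟨x₀, hx₀a, hx₀e⟩ : ∃ x₀, f x₀ a = f a a + ν ∧ f x₀ e = f a a + ν :=
    ⟨((f a a + ν) / f y₁ a) • y₁ + ((f a a + ν) / f y₂ e) • y₂, by
      rw [h.add_left, h.smul_left, h.smul_left, hy₂a, mul_zero, add_zero,
        div_mul_cancel₀ _ hy₁a], by
      rw [h.add_left, h.smul_left, h.smul_left, hy₁e, mul_zero, zero_add,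
        div_mul_cancel₀ _ hy₂e]⟩
  obtain ⟨z₀, hz₀, hz⟩ := h.exists_aniso ![a, e, x₀] (by omega)
  have hza : f z₀ a = 0 := by simpa using hz 0
  have hze : f z₀ e = 0 := by simpa using hz 1
  have hzx : f z₀ x₀ = 0 := by simpa using hz 2
  obtain ⟨μ, hμ⟩ := uf_exists_norm σ h.invol h.ne_id ((f a a - f x₀ x₀) / f z₀ z₀)
    (by rw [map_div₀, map_sub, h.self_fix, h.self_fix, h.self_fix])
  have hxx : f (x₀ + μ • z₀) (x₀ + μ • z₀) = f a a := by
    simp only [h.add_left, h.add_right, h.smul_left, h.smul_right, hzx, h.swap_zero hzx]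
    have : μ * σ μ * f z₀ z₀ = f a a - f x₀ x₀ := by rw [hμ, div_mul_cancel₀ _ hz₀]
    linear_combination this
  have hxa : f (x₀ + μ • z₀) a = f a a + ν := by
    rw [h.add_left, h.smul_left, hza, mul_zero, add_zero, hx₀a]
  have hxe : f (x₀ + μ • z₀) e = f a a + ν := by
    rw [h.add_left, h.smul_left, hze, mul_zero, add_zero, hx₀e]
  have hax : f a (x₀ + μ • z₀) = f a a - ν := by
    rw [h.herm a, hxa, map_add, hν, h.self_fix]
    ring
  have hex : f e (x₀ + μ • z₀) = f a a - ν := by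
    rw [h.herm e, hxe, map_add, hν, h.self_fix]
    ring
  obtain ⟨t₁, ht₁, ht₁a⟩ := h.utv_move (a := a) (e := x₀ + μ • z₀) hxx
    (by
      rw [hax]
      intro h0
      apply hν0
      linear_combination -h0)
    (by rw [hax, hxa]; ring)
  obtain ⟨t₂, ht₂, ht₂x⟩ := h.utv_move (a := x₀ + μ • z₀) (e := e) (by rw [hxx, hee])
    (by
      rw [hxe, hxx]
      intro h0
      apply hν0
      linear_combination h0)
    (by rw [hxe, hex, hxx]; ring)
  refine ⟨t₂ * t₁, Subgroup.mul_mem _ (Subgroup.subset_closure ht₂) (Subgroup.subset_closure ht₁),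
    ?_⟩
  rw [ugl_mul_mulVec, ht₁a, ht₂x]

/-- Unitary transvections are transitive on vectors of a given non-zero norm. -/
theorem utv_trans [Finite F] (hn : 6 < Fintype.card ι) {a e : ι → F} (haa : f a a ≠ 0)
    (hee : f e e = f a a) :
    ∃ t ∈ Subgroup.closure (utvSet σ f), (t : Matrix ι ι F) *ᵥ a = e := by
  by_cases hdep : (∃ l : F, a = l • e) ∨ (∃ l : F, e = l • a)
  · obtain ⟨z₀, hz₀, hz⟩ := h.exists_aniso ![a] (by omega)
    have hza : f z₀ a = 0 := by simpa using hz 0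
    obtain ⟨μ, hμ⟩ := uf_exists_norm σ h.invol h.ne_id (f a a / f z₀ z₀)
      (by rw [map_div₀, h.self_fix, h.self_fix])
    have hbb : f (μ • z₀) (μ • z₀) = f a a := by
      rw [h.smul_left, h.smul_right, ← mul_assoc, hμ, div_mul_cancel₀ _ hz₀]
    have hba : f (μ • z₀) a = 0 := by rw [h.smul_left, hza, mul_zero]
    have hbe : f (μ • z₀) e = 0 := by
      rcases hdep with ⟨l, hl⟩ | ⟨l, hl⟩
      · have hl0 : l ≠ 0 := by
          rintro rfl
          rw [zero_smul] at hl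
          rw [hl, h.zero_left] at haa
          exact haa rfl
        have he : e = l⁻¹ • a := by rw [hl, smul_smul, inv_mul_cancel₀ hl0, one_smul]
        rw [he, h.smul_right, hba, mul_zero]
      · rw [hl, h.smul_right, hba, mul_zero]
    have hbb0 : f (μ • z₀) (μ • z₀) ≠ 0 := by rw [hbb]; exact haa
    have hee0 : f e e ≠ 0 := by rw [hee]; exact haa
    obtain ⟨i1, i2⟩ := h.indep_of_perp haa hbb0 hba
    obtain ⟨i3, i4⟩ := h.indep_of_perp hee0 hbb0 hbe
    obtain ⟨t₁, ht₁, ht₁a⟩ := h.utv_trans_indep hn (a := a) (e := μ • z₀) hbb i1 i2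
    obtain ⟨t₂, ht₂, ht₂b⟩ := h.utv_trans_indep hn (a := μ • z₀) (e := e) (by rw [hee, hbb]) i4 i3
    refine ⟨t₂ * t₁, Subgroup.mul_mem _ ht₂ ht₁, ?_⟩
    rw [ugl_mul_mulVec, ht₁a, ht₂b]
  · push Not at hdep
    exact h.utv_trans_indep hn hee (fun hc => by
      obtain ⟨l, hl⟩ := hc
      exact hdep.1 l hl) (fun hc => by
      obtain ⟨l, hl⟩ := hc
      exact hdep.2 l hl)

/-! ### Generation of the special unitary group -/

theorem grf_iso_mem {u : ι → F} {c : F} (hc : c + σ c + c * σ c * f u u = 0) (huu : f u u = 0) :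
    h.grf u c ∈ Subgroup.closure (utvSet σ f) := by
  have hc' : c + σ c = 0 := by
    rw [huu, mul_zero, add_zero] at hc
    exact hc
  have hν : σ (σ c) = -(σ c) := by
    rw [h.invol]
    linear_combination hc'
  have e : h.grf u c = tvh f u (σ c • u) := by
    apply ugl_ext
    intro x
    rw [h.grf_mulVec hc, h.tvh_mulVec (by rw [h.smul_right, huu, mul_zero]), h.smul_right, h.invol]
  rw [e]
  exact Subgroup.subset_closure ⟨u, σ c, huu, hν, rfl⟩

theorem qr_cond {e₀ : ι → F} (he : f e₀ e₀ ≠ 0) {l : F} (hl : l * σ l = 1) :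
    (l - 1) / f e₀ e₀ + σ ((l - 1) / f e₀ e₀)
      + (l - 1) / f e₀ e₀ * σ ((l - 1) / f e₀ e₀) * f e₀ e₀ = 0 := by
  rw [map_div₀, map_sub, map_one, h.self_fix]
  field_simp
  linear_combination hl

theorem qr_one (e₀ : ι → F) : h.grf e₀ ((1 - 1) / f e₀ e₀) = 1 := by
  apply ugl_ext
  intro x
  rw [h.grf_mulVec (by simp), sub_self, zero_div, zero_mul, zero_smul, add_zero, Units.val_one,
    one_mulVec]

theorem qr_mul {e₀ : ι → F} (he : f e₀ e₀ ≠ 0) {l l' : F} (hl : l * σ l = 1)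
    (hl' : l' * σ l' = 1) :
    h.grf e₀ ((l - 1) / f e₀ e₀) * h.grf e₀ ((l' - 1) / f e₀ e₀) =
      h.grf e₀ ((l * l' - 1) / f e₀ e₀) := by
  have hll : (l * l') * σ (l * l') = 1 := by
    rw [map_mul]
    linear_combination (l' * σ l') * hl + hl'
  apply ugl_ext
  intro x
  rw [ugl_mul_mulVec, h.grf_mulVec (h.qr_cond he hl'), h.grf_mulVec (h.qr_cond he hl),
    h.grf_mulVec (h.qr_cond he hll), h.add_left, h.smul_left]
  have : (l - 1) / f e₀ e₀ * (f x e₀ + (l' - 1) / f e₀ e₀ * f x e₀ * f e₀ e₀)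
      + (l' - 1) / f e₀ e₀ * f x e₀ = (l * l' - 1) / f e₀ e₀ * f x e₀ := by
    field_simp
    ring
  rw [← this]
  module

/-- Every product of generalised reflections is a product of unitary transvections times a
quasi-reflection with centre `e₀`. -/
theorem iso_decomp [Finite F] (hn : 6 < Fintype.card ι) {e₀ : ι → F} (he : f e₀ e₀ ≠ 0)
    (g : GL ι F) (hg : g ∈ Subgroup.closure h.grfSet) :
    ∃ t ∈ Subgroup.closure (utvSet σ f), ∃ l : F, l * σ l = 1 ∧
      g = t * h.grf e₀ ((l - 1) / f e₀ e₀) := by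
  induction hg using Subgroup.closure_induction with
  | mem ρ hρ =>
    obtain ⟨u, c, hc, rfl⟩ := hρ
    by_cases huu : f u u = 0
    · exact ⟨h.grf u c, h.grf_iso_mem hc huu, 1, by simp, by rw [h.qr_one, mul_one]⟩
    · have hl : (1 + c * f u u) * σ (1 + c * f u u) = 1 := by
        rw [map_add, map_one, map_mul, h.self_fix]
        linear_combination f u u * hc
      obtain ⟨μ, hμ⟩ := uf_exists_norm σ h.invol h.ne_id (f u u / f e₀ e₀)
        (by rw [map_div₀, h.self_fix, h.self_fix])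
      have hee : f (μ • e₀) (μ • e₀) = f u u := by
        rw [h.smul_left, h.smul_right, ← mul_assoc, hμ, div_mul_cancel₀ _ he]
      obtain ⟨t₁, ht₁, ht₁u⟩ := h.utv_trans hn huu hee
      have ht₁iso := h.utv_le_iso ht₁
      have hconj : t₁ * h.grf u c * t₁⁻¹ = h.grf e₀ ((1 + c * f u u - 1) / f e₀ e₀) := by
        apply ugl_ext
        intro x
        rw [ugl_mul_mulVec, ugl_mul_mulVec, h.grf_mulVec hc, h.grf_mulVec (h.qr_cond he hl),
          mulVec_add, mulVec_smul, ugl_mulVec_inv, ht₁u]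
        have e1 : f (((t₁⁻¹ : GL ι F) : Matrix ι ι F) *ᵥ x) u = σ μ * f x e₀ := by
          have := (mem_isoGL.mp ht₁iso) (((t₁⁻¹ : GL ι F) : Matrix ι ι F) *ᵥ x) u
          rw [ugl_mulVec_inv, ht₁u, h.smul_right] at this
          exact this.symm
        rw [e1]
        have e2 : c * (σ μ * f x e₀) * μ = (1 + c * f u u - 1) / f e₀ e₀ * f x e₀ := by
          have : f u u = μ * σ μ * f e₀ e₀ := by rw [hμ, div_mul_cancel₀ _ he]
          rw [this]
          field_simp
          ring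
        rw [smul_smul, e2]
      refine ⟨t₁⁻¹ * (h.grf e₀ ((1 + c * f u u - 1) / f e₀ e₀) * t₁
          * (h.grf e₀ ((1 + c * f u u - 1) / f e₀ e₀))⁻¹),
        Subgroup.mul_mem _ (Subgroup.inv_mem _ ht₁)
          (h.utv_conj (h.grf_isom (h.qr_cond he hl)) ht₁), 1 + c * f u u, hl, ?_⟩
      rw [← hconj]
      group
  | one => exact ⟨1, Subgroup.one_mem _, 1, by simp, by rw [h.qr_one, mul_one]⟩
  | mul x y hx hy ihx ihy =>
    obtain ⟨t₁, ht₁, l₁, hl₁, rfl⟩ := ihx
    obtain ⟨t₂, ht₂, l₂, hl₂, rfl⟩ := ihy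
    have hll : (l₁ * l₂) * σ (l₁ * l₂) = 1 := by
      rw [map_mul]
      linear_combination (l₂ * σ l₂) * hl₁ + hl₂
    refine ⟨t₁ * (h.grf e₀ ((l₁ - 1) / f e₀ e₀) * t₂ * (h.grf e₀ ((l₁ - 1) / f e₀ e₀))⁻¹),
      Subgroup.mul_mem _ ht₁ (h.utv_conj (h.grf_isom (h.qr_cond he hl₁)) ht₂), l₁ * l₂, hll, ?_⟩
    rw [← h.qr_mul he hl₁ hl₂]
    group
  | inv x hx ih =>
    obtain ⟨t, ht, l, hl, rfl⟩ := ih
    have hl0 : l ≠ 0 := by
      rintro rfl
      rw [zero_mul] at hl
      exact zero_ne_one hl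
    have hli : l⁻¹ * σ l⁻¹ = 1 := by rw [map_inv₀, ← mul_inv, hl, inv_one]
    have hEinv : (h.grf e₀ ((l - 1) / f e₀ e₀))⁻¹ = h.grf e₀ ((l⁻¹ - 1) / f e₀ e₀) :=
      inv_eq_of_mul_eq_one_right (by rw [h.qr_mul he hl hli, mul_inv_cancel₀ hl0, h.qr_one])
    refine ⟨h.grf e₀ ((l⁻¹ - 1) / f e₀ e₀) * t⁻¹ * (h.grf e₀ ((l⁻¹ - 1) / f e₀ e₀))⁻¹,
      h.utv_conj (h.grf_isom (h.qr_cond he hli)) (Subgroup.inv_mem _ ht), l⁻¹, hli, ?_⟩
    rw [← hEinv]
    group

/-- **The special unitary group is generated by unitary transvections.** -/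
theorem SU_le_utv [Finite F] (hn : 6 < Fintype.card ι) :
    isoGL f ⊓ specialLinear ι F ≤ Subgroup.closure (utvSet σ f) := by
  rintro g ⟨hg, hgS⟩
  obtain ⟨e₀, he, -⟩ := h.exists_aniso (k := 0) (fun i => 0) (by omega)
  obtain ⟨t, ht, l, hl, rfl⟩ := h.iso_decomp hn he g (h.iso_le_grf hg)
  have hdet := det_of_mem_SL hgS
  rw [Units.val_mul, Matrix.det_mul, det_of_mem_SL (h.utv_le_SL ht), one_mul,
    h.grf_det (h.qr_cond he hl), div_mul_cancel₀ _ he] at hdet
  have hl1 : l = 1 := by linear_combination hdet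
  rw [hl1, h.qr_one, mul_one]
  exact ht

/-- A subgroup containing all unitary transvections contains the special unitary group. -/
theorem SU_le_of_utv [Finite F] (hn : 6 < Fintype.card ι) (M : Subgroup (GL ι F))
    (hM : ∀ (c : ι → F) (ν : F), f c c = 0 → σ ν = -ν → tvh f c (ν • c) ∈ M) :
    isoGL f ⊓ specialLinear ι F ≤ M :=
  (h.SU_le_utv hn).trans ((Subgroup.closure_le M).mpr (by
    rintro t ⟨c, ν, hcc, hν, rfl⟩
    exact hM c ν hcc hν))

end UF

end Cfsg.Agent.Helper94
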