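import Cfsg.Agent.Helper94.ULag

/-!
The stabiliser of a pair of complementary totally singular subspaces is maximal in the
special unitary group.
-/

set_option autoImplicit false
set_option linter.unusedSectionVars false
set_option linter.unusedSimpArgs false
set_option linter.unusedVariables false
set_option maxHeartbeats 1000000

namespace Cfsg.Agent.Helper94

open Cfsg Cfsg.Geo Matrix

universe u

variable {F : Type u} [Field F] {ι : Type} [Fintype ι] [DecidableEq ι]

namespace UF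

variable {σ : F ≃+* F} {f : (ι → F) → (ι → F) → F} (h : UF σ f)

include h

/-- A special isometry interchanging the two members of a pair. -/
theorem lp_swap [Finite F] (hn : 6 < Fintype.card ι) {A B : Submodule F (ι → F)}
    (p : ULagPair f A B) {m : ℕ} (hm : 0 < m) (hA : Module.finrank F A = m)
    (hB : Module.finrank F B = m) :
    ∃ s : GL ι F, s ∈ isoGL f ⊓ specialLinear ι F ∧
      (∀ x ∈ A, (s : Matrix ι ι F) *ᵥ x ∈ B) ∧ (∀ x ∈ B, (s : Matrix ι ι F) *ᵥ x ∈ A) := by
  classical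
  obtain ⟨eb⟩ : Nonempty (Module.Basis (Fin m) F A) := ⟨Module.finBasisOfFinrankEq F A hA⟩
  obtain ⟨e, he⟩ : ∃ e : Fin m → ι → F, ∀ i, e i = (eb i : ι → F) := ⟨_, fun i => rfl⟩
  have heA : ∀ i, e i ∈ A := fun i => by rw [he]; exact (eb i).2
  have hrepr : ∀ u ∈ A, ∃ c : Fin m → F, u = ∑ i, c i • e i := by
    intro u hu
    refine ⟨fun i => eb.repr ⟨u, hu⟩ i, ?_⟩
    have := congrArg Subtype.val (eb.sum_repr ⟨u, hu⟩)
    simp only [Submodule.coe_sum, Submodule.coe_smul] at this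
    exact this.symm.trans (Finset.sum_congr rfl (fun i _ => by rw [he]))
  obtain ⟨Φ, hΦ⟩ : ∃ Φ : B →ₗ[F] (Fin m → F), ∀ (w : B) i, Φ w i = f (w : ι → F) (e i) :=
    ⟨LinearMap.pi (fun i => (h.fl (e i)).comp B.subtype), fun w i => rfl⟩
  have hinj : Function.Injective Φ := by
    rw [injective_iff_map_eq_zero]
    intro w hw
    have h1 : ∀ u ∈ A, f (w : ι → F) u = 0 := by
      intro u hu
      obtain ⟨c, rfl⟩ := hrepr u hu
      rw [h.sum_right]
      apply Finset.sum_eq_zero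
      intro i _
      rw [h.smul_right, ← hΦ, hw]
      simp
    exact Subtype.ext (h.lp_zero_of_perp p.symm w.2 h1)
  have hsurj : Function.Surjective Φ :=
    (LinearMap.injective_iff_surjective_of_finrank_eq_finrank
      (by rw [hB, Module.finrank_fin_fun])).mp hinj
  choose fw hfw using fun j : Fin m => hsurj (Pi.single j 1)
  obtain ⟨b, hb⟩ : ∃ b : Fin m → ι → F, ∀ i, b i = (fw i : ι → F) := ⟨_, fun i => rfl⟩
  have hbB : ∀ i, b i ∈ B := fun i => by rw [hb]; exact (fw i).2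
  have hbe : ∀ i j, f (b j) (e i) = if i = j then 1 else 0 := by
    intro i j
    rw [hb, ← hΦ, hfw, Pi.single_apply]
  have heb : ∀ i j, f (e i) (b j) = if i = j then 1 else 0 := by
    intro i j
    rw [h.herm, hbe i j]
    split_ifs <;> simp
  have hee : ∀ i j, f (e i) (e j) = 0 := fun i j => p.isoA _ (heA i) _ (heA j)
  have hbb : ∀ i j, f (b i) (b j) = 0 := fun i j => p.isoB _ (hbB i) _ (hbB j)
  have hR1 : ∀ u ∈ A, (∀ j, f u (b j) = 0) → u = 0 := by
    intro u hu hz
    obtain ⟨c, rfl⟩ := hrepr u hu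
    have hc : ∀ j, c j = 0 := by
      intro j
      have := hz j
      rw [h.sum_left] at this
      simpa [h.smul_left, heb] using this
    apply Finset.sum_eq_zero
    intro i _
    rw [hc i, zero_smul]
  have hR3 : ∀ y : ι → F, y = ∑ j, (f y (b j) • e j + f y (e j) • b j) := by
    intro y
    obtain ⟨z, hz⟩ : ∃ z, z = y - ∑ j, (f y (b j) • e j + f y (e j) • b j) := ⟨_, rfl⟩
    have hze : ∀ k, f z (e k) = 0 := by
      intro k
      rw [hz, h.sub_left, h.sum_left]
      simp [h.add_left, h.smul_left, hee, hbe]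
    have hzb : ∀ k, f z (b k) = 0 := by
      intro k
      rw [hz, h.sub_left, h.sum_left]
      simp [h.add_left, h.smul_left, hbb, heb]
    have hzA : z ∈ A := by
      apply h.lp_perp_mem p
      intro a ha
      obtain ⟨c, rfl⟩ := hrepr a ha
      rw [h.sum_right]
      apply Finset.sum_eq_zero
      intro i _
      rw [h.smul_right, hze i, mul_zero]
    have hz0 := hR1 z hzA hzb
    rw [hz0] at hz
    exact (sub_eq_zero.mp hz.symm)
  obtain ⟨S, hS⟩ : ∃ S : (ι → F) →ₗ[F] (ι → F),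
      ∀ x, S x = ∑ r, (f x (b r) • b r + f x (e r) • e r) := by
    refine ⟨∑ r, ((h.fl (b r)).smulRight (b r) + (h.fl (e r)).smulRight (e r)), fun x => ?_⟩
    simp [LinearMap.sum_apply, fl_apply]
  have k1 : ∀ x k, f (S x) (e k) = f x (b k) := by
    intro x k
    rw [hS, h.sum_left]
    simp [h.add_left, h.smul_left, hee, hbe]
  have k2 : ∀ x k, f (S x) (b k) = f x (e k) := by
    intro x k
    rw [hS, h.sum_left]
    simp [h.add_left, h.smul_left, hbb, heb]
  have hiso : ∀ x y, f (S x) (S y) = f x y := by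
    intro x y
    rw [hS y, h.sum_right]
    simp only [h.add_right, h.smul_right, k1, k2]
    conv_rhs => rw [hR3 x]
    rw [h.sum_left]
    apply Finset.sum_congr rfl
    intro r _
    rw [h.add_left, h.smul_left, h.smul_left, h.sigma_apply, h.sigma_apply]
    ring
  have hSinj : Function.Injective S := by
    rw [injective_iff_map_eq_zero]
    intro x hx
    by_contra hx0
    obtain ⟨y, hy⟩ := h.nondeg x hx0
    apply hy
    rw [← hiso y x, hx, h.zero_right]
  have hunit : IsUnit (LinearMap.toMatrix' S) := by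
    rw [← Matrix.mulVec_injective_iff_isUnit]
    intro x y hxy
    rw [LinearMap.toMatrix'_mulVec, LinearMap.toMatrix'_mulVec] at hxy
    exact hSinj hxy
  have hmv : ∀ x, ((hunit.unit : GL ι F) : Matrix ι ι F) *ᵥ x = S x := by
    intro x
    rw [IsUnit.unit_spec, LinearMap.toMatrix'_mulVec]
  have hs₀i : hunit.unit ∈ isoGL f := by
    rw [mem_isoGL]
    intro x y
    rw [hmv, hmv]
    exact hiso x y
  have hδ := h.iso_det_norm hn hs₀i
  obtain ⟨l, hl0, hl⟩ := uf_hilbert90 σ h.invol h.ne_id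
    (σ ((hunit.unit : GL ι F) : Matrix ι ι F).det) (by rw [h.invol]; linear_combination hδ)
  have hσl0 : σ l ≠ 0 := (map_ne_zero σ).mpr hl0
  have hml : σ l * (σ l)⁻¹ = 1 := mul_inv_cancel₀ hσl0
  obtain ⟨i₀⟩ : Nonempty (Fin m) := ⟨⟨0, hm⟩⟩
  have hwv : f (e i₀) (b i₀) = 1 := by
    rw [heb]
    simp
  have hRi := h.rot_isom (hee i₀ i₀) (hbb i₀ i₀) hwv hml
  have hSA : ∀ x ∈ A, S x ∈ B := by
    intro x hx
    rw [hS]
    apply Submodule.sum_mem
    intro r _
    rw [p.isoA x hx _ (heA r), zero_smul, add_zero]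
    exact B.smul_mem _ (hbB r)
  have hSB : ∀ x ∈ B, S x ∈ A := by
    intro x hx
    rw [hS]
    apply Submodule.sum_mem
    intro r _
    rw [p.isoB x hx _ (hbB r), zero_smul, zero_add]
    exact A.smul_mem _ (heA r)
  refine ⟨h.rot (e i₀) (b i₀) l (σ l)⁻¹ * hunit.unit,
    Subgroup.mem_inf.mpr ⟨Subgroup.mul_mem _ hRi hs₀i, ?_⟩, ?_, ?_⟩
  · apply mem_SL_of_det
    rw [Units.val_mul, Matrix.det_mul, h.rot_det hwv hml]
    have e1 : l * (σ l)⁻¹ = σ ((hunit.unit : GL ι F) : Matrix ι ι F).det := by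
      rw [eq_comm, eq_mul_inv_iff_mul_eq₀ hσl0]
      exact hl.symm
    rw [e1]
    linear_combination hδ
  · intro x hx
    rw [ugl_mul_mulVec, hmv, h.rot_mulVec (hbb i₀ i₀) hwv hml,
      p.isoB _ (hSA x hx) _ (hbB i₀), mul_zero, zero_smul, add_zero]
    exact B.add_mem (hSA x hx) (B.smul_mem _ (hbB i₀))
  · intro x hx
    rw [ugl_mul_mulVec, hmv, h.rot_mulVec (hbb i₀ i₀) hwv hml,
      p.isoA _ (hSB x hx) _ (heA i₀), mul_zero, zero_smul, add_zero]
    exact A.add_mem (hSB x hx) (A.smul_mem _ (heA i₀))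

/-- The stabiliser of a pair of complementary totally singular subspaces is maximal in the
special isometry group. -/
theorem unitary_lag_max [Finite F] (hn : 6 < Fintype.card ι) {d : ℕ} (hd : 3 ≤ d)
    (D : Fin 2 → Submodule F (ι → F)) (hD : IsMDecomposition d D)
    (hts : ∀ i, ∀ u ∈ D i, ∀ v ∈ D i, f u v = 0) :
    IsMaximalIn (isoGL f ⊓ specialLinear ι F)
      (decompositionStabilizer D ⊓ (isoGL f ⊓ specialLinear ι F)) := by
  obtain ⟨ν₀, hν₀0, hν₀⟩ := uf_exists_tr0 σ h.invol h.ne_id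
  have hp : ULagPair f (D 0) (D 1) := by
    refine ⟨hts 0, hts 1, ?_, ?_⟩
    · have hdisj : Disjoint (D 0) (D 1) := hD.indep.pairwiseDisjoint (by decide)
      exact fun x hx hx' => Submodule.disjoint_def.mp hdisj x hx hx'
    · have htop : D 0 ⊔ D 1 = ⊤ := by
        rw [eq_top_iff, ← hD.iSup_eq_top]
        refine iSup_le (fun i => ?_)
        fin_cases i
        · exact le_sup_left
        · exact le_sup_right
      intro v
      have hv : v ∈ D 0 ⊔ D 1 := by rw [htop]; exact Submodule.mem_top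
      obtain ⟨a, ha, b, hb, hab⟩ := Submodule.mem_sup.mp hv
      exact ⟨a, ha, b, hb, hab.symm⟩
  have hfr := hD.finrank_eq
  obtain ⟨s, hsG, hs01, hs10⟩ := h.lp_swap hn hp (by omega : 0 < d) (hfr 0) (hfr 1)
  have hsH : s ∈ decompositionStabilizer D ⊓ (isoGL f ⊓ specialLinear ι F) :=
    Subgroup.mem_inf.mpr ⟨stab2_swap_of_maps D hfr s hs01 hs10, hsG⟩
  have hH0 : ∀ u ∈ D 0, ∀ w ∈ D 1, f u w = 0 →
      sg f u w ∈ decompositionStabilizer D ⊓ (isoGL f ⊓ specialLinear ι F) := by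
    intro u hu w hw huw
    have huu := hp.isoA u hu u hu
    have hww := hp.isoB w hw w hw
    refine Subgroup.mem_inf.mpr ⟨stab2_of_maps D hfr _ (fun x hx => ?_) (fun x hx => ?_),
      Subgroup.mem_inf.mpr ⟨h.sg_isom huu hww huw, sg_mem_SL _ _ _⟩⟩
    · rw [h.sg_mulVec huw hww, hp.isoA x hx u hu, zero_smul, sub_zero]
      exact (D 0).add_mem hx ((D 0).smul_mem _ hu)
    · rw [h.sg_mulVec huw hww, hp.isoB x hx w hw, zero_smul, add_zero]
      exact (D 1).sub_mem hx ((D 1).smul_mem _ hw)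
  constructor
  · rw [SetLike.lt_iff_le_and_exists]
    refine ⟨inf_le_right, ?_⟩
    obtain ⟨u, hu, hu0⟩ : ∃ u ∈ D 0, u ≠ 0 := by
      apply Submodule.exists_mem_ne_zero_of_ne_bot
      intro hbot
      have := hfr 0
      rw [hbot, finrank_bot] at this
      omega
    obtain ⟨w, hw, hne⟩ := h.lp_exists_ne hp hu hu0
    have huu := hp.isoA u hu u hu
    have h0 : f u (ν₀ • u) = 0 := by rw [h.smul_right, huu, mul_zero]
    refine ⟨tvh f u (ν₀ • u),
      Subgroup.mem_inf.mpr ⟨h.tvh_unitary_iso huu hν₀, tvh_mem_SL _ _ _⟩, fun hmem => ?_⟩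
    have hc : σ ν₀ * f w u ≠ 0 := mul_ne_zero ((map_ne_zero σ).mpr hν₀0) (h.swap_ne hne)
    rcases stab2_cases D _ (Subgroup.mem_inf.mp hmem).1 with ⟨k0, k1⟩ | ⟨k0, k1⟩
    · have := k1 w hw
      rw [h.tvh_mulVec h0, h.smul_right] at this
      have h3 : (σ ν₀ * f w u) • u ∈ D 1 := by
        have := (D 1).sub_mem this hw
        rwa [add_sub_cancel_left] at this
      have h4 : u ∈ D 1 := by
        have := (D 1).smul_mem (σ ν₀ * f w u)⁻¹ h3
        rwa [smul_smul, inv_mul_cancel₀ hc, one_smul] at this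
      exact hu0 (hp.disj u hu h4)
    · have := k0 u hu
      rw [h.tvh_mulVec h0, h.smul_right, huu, mul_zero, zero_smul, add_zero] at this
      exact hu0 (hp.disj u hu this)
  · intro M hHM hMG
    by_cases hMH : M = decompositionStabilizer D ⊓ (isoGL f ⊓ specialLinear ι F)
    · exact Or.inl hMH
    right
    refine le_antisymm hMG ?_
    obtain ⟨g, hgM, hgH⟩ := SetLike.exists_of_lt (lt_of_le_of_ne hHM (Ne.symm hMH))
    have hM0 : ∀ u ∈ D 0, ∀ w ∈ D 1, f u w = 0 → sg f u w ∈ M :=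
      fun u hu w hw huw => hHM (hH0 u hu w hw huw)
    have hM1 := h.sg_in_symm hp M hM0
    have hMimg : ∀ k ∈ M, ∀ a ∈ (D 0).map (Matrix.toLin' (k : Matrix ι ι F)),
        ∀ b ∈ (D 1).map (Matrix.toLin' (k : Matrix ι ι F)), f a b = 0 → sg f a b ∈ M := by
      intro k hk a ha b hb hab
      rw [mem_map_gl] at ha hb
      have hki : k ∈ isoGL f := (hMG hk).1
      have hkinv : k⁻¹ ∈ isoGL f := inv_mem hki
      have h0 : f (((k⁻¹ : GL ι F) : Matrix ι ι F) *ᵥ a) (((k⁻¹ : GL ι F) : Matrix ι ι F) *ᵥ b)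
          = 0 := by
        rw [(mem_isoGL.mp hkinv)]
        exact hab
      have h1 := hM0 _ ha _ hb h0
      have h3 := M.mul_mem (M.mul_mem hk h1) (M.inv_mem hk)
      rwa [h.sg_conj hki h0, ugl_mulVec_inv, ugl_mulVec_inv] at h3
    have hfrmap : ∀ (k : GL ι F) (i : Fin 2),
        Module.finrank F ((D i).map (Matrix.toLin' (k : Matrix ι ι F))) = d := by
      intro k i
      rw [← (Submodule.equivMapOfInjective _ (gl_toLin_injective k) (D i)).finrank_eq, hfr]
    have claim : ∀ k ∈ M, k ∉ decompositionStabilizer D ⊓ (isoGL f ⊓ specialLinear ι F) →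
        (∃ x, x ≠ 0 ∧ (x ∈ D 0 ∨ x ∈ D 1) ∧
          (x ∈ (D 0).map (Matrix.toLin' (k : Matrix ι ι F)) ∨
            x ∈ (D 1).map (Matrix.toLin' (k : Matrix ι ι F)))) →
        ∃ c, c ≠ 0 ∧ (c ∈ D 0 ∨ c ∈ D 1) ∧ c ∈ uctr σ f M := by
      rintro k hk hkH ⟨x, hx0, hx, hx'⟩
      have hkG := hMG hk
      have hp' := h.lp_map hp hkG.1
      have hne1 : ¬ ((D 0).map (Matrix.toLin' (k : Matrix ι ι F)) = D 0 ∧
          (D 1).map (Matrix.toLin' (k : Matrix ι ι F)) = D 1) := by
        rintro ⟨e0, e1⟩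
        apply hkH
        refine Subgroup.mem_inf.mpr ⟨⟨1, fun i => ?_⟩, hkG⟩
        fin_cases i
        · simpa using e0
        · simpa using e1
      have hne2 : ¬ ((D 0).map (Matrix.toLin' (k : Matrix ι ι F)) = D 1 ∧
          (D 1).map (Matrix.toLin' (k : Matrix ι ι F)) = D 0) := by
        rintro ⟨e0, e1⟩
        apply hkH
        refine Subgroup.mem_inf.mpr ⟨⟨Equiv.swap 0 1, fun i => ?_⟩, hkG⟩
        fin_cases i
        · simpa using e0
        · simpa using e1
      have hMk := hMimg k hk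
      have hMk1 := h.sg_in_symm hp' M hMk
      have f0 : ∀ i, 1 < Module.finrank F (D i) := fun i => by rw [hfr]; omega
      have f1 : ∀ i, 2 < Module.finrank F (D i) := fun i => by rw [hfr]; omega
      have f2 : ∀ i, 1 < Module.finrank F ((D i).map (Matrix.toLin' (k : Matrix ι ι F))) :=
        fun i => by rw [hfrmap]; omega
      have f3 : ∀ i, 2 < Module.finrank F ((D i).map (Matrix.toLin' (k : Matrix ι ι F))) :=
        fun i => by rw [hfrmap]; omega
      rcases hx with hx | hx <;> rcases hx' with hx' | hx'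
      · exact h.lp_nongeneric hp hp' (f0 0) (f1 1) (f2 0) (f3 1) M hM0 hMk hx hx' hx0 hne1
      · exact h.lp_nongeneric hp hp'.symm (f0 0) (f1 1) (f2 1) (f3 0) M hM0 hMk1 hx hx' hx0
          (fun ⟨e1, e0⟩ => hne2 ⟨e0, e1⟩)
      · obtain ⟨c, hc0, hc, hcK⟩ := h.lp_nongeneric hp.symm hp' (f0 1) (f1 0) (f2 0) (f3 1) M hM1
          hMk hx hx' hx0 hne2
        exact ⟨c, hc0, hc.symm, hcK⟩
      · obtain ⟨c, hc0, hc, hcK⟩ := h.lp_nongeneric hp.symm hp'.symm (f0 1) (f1 0) (f2 1) (f3 0) M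
          hM1 hMk1 hx hx' hx0 (fun ⟨e1, e0⟩ => hne1 ⟨e0, e1⟩)
        exact ⟨c, hc0, hc.symm, hcK⟩
    have hgood : ∃ c, c ≠ 0 ∧ (c ∈ D 0 ∨ c ∈ D 1) ∧ c ∈ uctr σ f M := by
      have hgG := hMG hgM
      by_cases hc : ∃ x, x ≠ 0 ∧ (x ∈ D 0 ∨ x ∈ D 1) ∧
          (x ∈ (D 0).map (Matrix.toLin' (g : Matrix ι ι F)) ∨
            x ∈ (D 1).map (Matrix.toLin' (g : Matrix ι ι F)))
      · exact claim g hgM hgH hc
      · push Not at hc
        have hp' := h.lp_map hp hgG.1
        obtain ⟨u, hu, w, hw, huw, ⟨x₁, hx₁, hx₁n⟩, ⟨x₂, hx₂, hx₂0, hx₂f⟩⟩ :=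
          h.lp_generic hp hp' (by rw [hfr]; omega) (by rw [hfr]; omega) (by rw [hfrmap]; omega)
            (fun x hx hx' => by
              by_contra h0
              exact (hc x h0 (Or.inl hx)).1 hx')
            (fun x hx hx' => by
              by_contra h0
              exact (hc x h0 (Or.inr hx)).1 hx')
        have hE : sg f u w ∈ M := hM0 u hu w hw huw
        have hk : g⁻¹ * sg f u w * g ∈ M := M.mul_mem (M.mul_mem (M.inv_mem hgM) hE) hgM
        apply claim _ hk
        · intro hkH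
          rcases stab2_cases D _ (Subgroup.mem_inf.mp hkH).1 with ⟨k0, k1⟩ | ⟨k0, k1⟩
          · apply hx₁n
            rw [mem_map_gl] at hx₁ ⊢
            have := k0 _ hx₁
            rw [ugl_mul_mulVec, ugl_mul_mulVec, ugl_mulVec_inv] at this
            exact this
          · apply hx₂0
            have hx₂' := hx₂
            rw [mem_map_gl] at hx₂'
            have := k0 _ hx₂'
            rw [ugl_mul_mulVec, ugl_mul_mulVec, ugl_mulVec_inv, hx₂f] at this
            exact hp'.disj x₂ hx₂ ((mem_map_gl g (D 1) x₂).mpr this)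
        · refine ⟨((g⁻¹ : GL ι F) : Matrix ι ι F) *ᵥ x₂, ?_,
            Or.inl ((mem_map_gl g (D 0) x₂).mp hx₂), Or.inl ?_⟩
          · intro h0
            have e := ugl_mulVec_inv g x₂
            rw [h0, mulVec_zero] at e
            exact hx₂0 e.symm
          · refine Submodule.mem_map.mpr ⟨_, (mem_map_gl g (D 0) x₂).mp hx₂, ?_⟩
            rw [Matrix.toLin'_apply, ugl_mul_mulVec, ugl_mul_mulVec, ugl_mulVec_inv, hx₂f]
    obtain ⟨c, hc0, hcD, hcK⟩ := hgood
    have hsM : s ∈ M := hHM hsH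
    have hsc : (s : Matrix ι ι F) *ᵥ c ∈ uctr σ f M := h.uctr_map hsM hsG.1 hcK
    have hsc0 : (s : Matrix ι ι F) *ᵥ c ≠ 0 := fun h0' => hc0 (ugl_mulVec_eq_zero s h0')
    have hboth : (∀ x ∈ D 0, x ∈ uctr σ f M) ∧ (∀ x ∈ D 1, x ∈ uctr σ f M) := by
      rcases hcD with hc | hc
      · exact ⟨h.lp_spread hp M hM0 hc hc0 hcK,
          h.lp_spread hp.symm M hM1 (hs01 c hc) hsc0 hsc⟩
      · exact ⟨h.lp_spread hp M hM0 (hs10 c hc) hsc0 hsc,
          h.lp_spread hp.symm M hM1 hc hc0 hcK⟩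
    apply h.SU_le_of_utv hn M
    intro c ν hcc hν
    suffices hcK : c ∈ uctr σ f M from hcK.2 ν hν
    obtain ⟨a', ha', b', hb', rfl⟩ := hp.dec c
    by_cases ha'0 : a' = 0
    · rw [ha'0, zero_add]
      exact hboth.2 _ hb'
    by_cases hab' : f a' b' ≠ 0
    · have := h.uctr_line (hboth.1 _ ha') (hboth.2 _ hb') hab' 1 1
        (by rw [one_smul, one_smul]; exact hcc)
      rwa [one_smul, one_smul] at this
    · push Not at hab'
      obtain ⟨b₂, hb₂, hne⟩ := h.lp_exists_ne hp ha' ha'0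
      obtain ⟨b₃, hb₃, hb₃e⟩ : ∃ b₃ ∈ D 1, f a' b₃ = ν₀ :=
        ⟨σ (ν₀ / f a' b₂) • b₂, (D 1).smul_mem _ hb₂,
          by rw [h.smul_right, h.invol, div_mul_cancel₀ _ hne]⟩
      have hb₃e' : f b₃ a' = -ν₀ := by rw [h.herm, hb₃e, hν₀]
      have hy : a' + b₃ ∈ uctr σ f M := by
        have := h.uctr_line (hboth.1 _ ha') (hboth.2 _ hb₃) (by rw [hb₃e]; exact hν₀0) 1 1 (by
          rw [one_smul, one_smul]
          simp only [h.add_left, h.add_right, hp.isoA a' ha' a' ha', hp.isoB b₃ hb₃ b₃ hb₃,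
            hb₃e, hb₃e']
          ring)
        rwa [one_smul, one_smul] at this
      have h3 : f (a' + b₃) (b' - b₃) ≠ 0 := by
        have e3 : f (a' + b₃) (b' - b₃) = -ν₀ := by
          simp only [h.add_left, h.sub_right, hab', hb₃e, hp.isoB b₃ hb₃ b' hb',
            hp.isoB b₃ hb₃ b₃ hb₃]
          ring
        rw [e3]
        exact neg_ne_zero.mpr hν₀0
      have e : a' + b₃ + (b' - b₃) = a' + b' := by abel
      have := h.uctr_line hy (hboth.2 _ ((D 1).sub_mem hb' hb₃)) h3 1 1 (by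
        rw [one_smul, one_smul, e]
        exact hcc)
      rw [one_smul, one_smul, e] at this
      exact this

end UF

end Cfsg.Agent.Helper94
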