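import Cfsg.Agent.Helper94.UK

/-!
The stabiliser of a nonzero totally singular subspace is maximal in the special unitary group.
-/

set_option autoImplicit false
set_option linter.unusedSectionVars false
set_option linter.unusedSimpArgs false
set_option linter.unusedVariables false
set_option maxHeartbeats 1000000

namespace Cfsg.Agent.Helper94

open Cfsg Cfsg.Geo Matrix

universe u

variable {F : Type u} [Field F] {ι : Type} [Fintype ι] [DecidableEq ι]

namespace UF

variable {σ : F ≃+* F} {f : (ι → F) → (ι → F) → F} (h : UF σ f)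

include h

/-- The stabiliser of a nonzero totally singular subspace is maximal in the special isometry
group. -/
theorem unitary_parab_max [Finite F] (hn : 6 < Fintype.card ι) (W : Submodule F (ι → F))
    (hW0 : W ≠ ⊥) (hW : ∀ u ∈ W, ∀ v ∈ W, f u v = 0) :
    IsMaximalIn (isoGL f ⊓ specialLinear ι F)
      (subspaceStabilizer W ⊓ (isoGL f ⊓ specialLinear ι F)) := by
  obtain ⟨ν₀, hν₀0, hν₀⟩ := uf_exists_tr0 σ h.invol h.ne_id
  obtain ⟨w₁, hw₁, hw₁0⟩ := Submodule.exists_mem_ne_zero_of_ne_bot hW0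
  have hWU : ∀ w ∈ W, w ∈ h.uperp W := fun w hw w' hw' => hW w hw w' hw'
  have hnotU : ∀ v, v ∉ h.uperp W → ∃ w ∈ W, f w v ≠ 0 := by
    intro v hv
    by_contra hcon
    push Not at hcon
    exact hv (fun w hw => h.swap_zero (hcon w hw))
  have hTU : ∀ c ∈ h.uperp W, f c c = 0 → ∀ ν, σ ν = -ν →
      tvh f c (ν • c) ∈ subspaceStabilizer W ⊓ (isoGL f ⊓ specialLinear ι F) := by
    intro c hc hcc ν hν
    refine Subgroup.mem_inf.mpr ⟨?_, Subgroup.mem_inf.mpr
      ⟨h.tvh_unitary_iso hcc hν, tvh_mem_SL _ _ _⟩⟩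
    apply ustab_of_maps_to
    intro v hv
    rw [h.tvh_mulVec (by rw [h.smul_right, hcc, mul_zero]), h.smul_right,
      h.swap_zero (hc v hv), mul_zero, zero_smul, add_zero]
    exact hv
  constructor
  · rw [SetLike.lt_iff_le_and_exists]
    refine ⟨inf_le_right, ?_⟩
    obtain ⟨x, hx⟩ := h.nondeg w₁ hw₁0
    obtain ⟨β, hβ⟩ := h.exists_norm_add (hW w₁ hw₁ w₁ hw₁) (h.swap_ne hx) 0 (map_zero σ)
    have hvw : f w₁ (x + β • w₁) ≠ 0 := by
      rw [h.add_right, h.smul_right, hW w₁ hw₁ w₁ hw₁, mul_zero, add_zero]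
      exact h.swap_ne hx
    refine ⟨tvh f (x + β • w₁) (ν₀ • (x + β • w₁)),
      Subgroup.mem_inf.mpr ⟨h.tvh_unitary_iso hβ hν₀, tvh_mem_SL _ _ _⟩, ?_⟩
    rintro ⟨hst, -⟩
    have h1 := ((mem_subspaceStabilizer_iff W _).mp hst w₁).mp hw₁
    rw [h.tvh_mulVec (by rw [h.smul_right, hβ, mul_zero]), h.smul_right] at h1
    have h3 : σ ν₀ * f w₁ (x + β • w₁) ≠ 0 := mul_ne_zero ((map_ne_zero σ).mpr hν₀0) hvw
    have h4 : (σ ν₀ * f w₁ (x + β • w₁)) • (x + β • w₁) ∈ W := by
      have := W.sub_mem h1 hw₁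
      rwa [add_sub_cancel_left] at this
    have h5 : x + β • w₁ ∈ W := by
      have := W.smul_mem (σ ν₀ * f w₁ (x + β • w₁))⁻¹ h4
      rwa [smul_smul, inv_mul_cancel₀ h3, one_smul] at this
    exact hvw (hW w₁ hw₁ _ h5)
  · intro M hHM hMG
    by_cases hMH : M ≤ subspaceStabilizer W ⊓ (isoGL f ⊓ specialLinear ι F)
    · left
      exact le_antisymm hMH hHM
    right
    apply le_antisymm hMG
    obtain ⟨g, hgM, hgH⟩ := SetLike.not_le_iff_exists.mp hMH
    have hgG := hMG hgM
    have hgW : g ∉ subspaceStabilizer W := fun hh => hgH ⟨hh, hgG⟩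
    have hKU : ∀ c ∈ h.uperp W, f c c = 0 → c ∈ uctr σ f M :=
      fun c hc hcc => ⟨hcc, fun ν hν => hHM (hTU c hc hcc ν hν)⟩
    -- a centre outside `W^⊥`
    obtain ⟨v₀, hv₀K, hv₀U⟩ : ∃ v₀ ∈ uctr σ f M, v₀ ∉ h.uperp W := by
      by_contra hcon
      push Not at hcon
      apply hgW
      apply ustab_of_maps_to
      intro w hw
      have hgi : g ∈ isoGL f := hgG.1
      have hyK := h.uctr_map hgM hgi (hKU w (hWU w hw) (hW w hw w hw))
      have hyU := hcon _ hyK
      apply h.uperp_mem
      intro x hx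
      by_contra hne
      obtain ⟨β, hβ⟩ := h.exists_norm_add hyK.1 (h.swap_ne hne) 0 (map_zero σ)
      have hcU : x + β • ((g : Matrix ι ι F) *ᵥ w) ∈ h.uperp W :=
        (h.uperp W).add_mem hx ((h.uperp W).smul_mem β hyU)
      have hcK := hKU _ hcU hβ
      have hc' := hcon _ (h.uctr_map (M.inv_mem hgM) ((isoGL f).inv_mem hgi) hcK)
      have h1 := hc' w hw
      rw [← (mem_isoGL.mp hgi), ugl_mulVec_inv, h.add_left, h.smul_left, hyK.1, mul_zero,
        add_zero] at h1
      exact hne h1
    -- centres with the same functional on `W`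
    have hA : ∀ v ∈ uctr σ f M, v ∉ h.uperp W → ∀ v', f v' v' = 0 →
        (∀ w ∈ W, f w v' = f w v) → v' ∈ uctr σ f M := by
      intro v hvK hvU v' hv'iso hsame
      have hv'U : v' ∉ h.uperp W := by
        intro hmem
        apply hvU
        intro w hw
        apply h.swap_zero
        rw [← hsame w hw]
        exact h.swap_zero (hmem w hw)
      obtain ⟨t, ht, htW, htv⟩ := h.grf_step W v v' (fun hmem => hvU (hWU v hmem))
        (fun hmem => hv'U (hWU v' hmem))
        (fun z hz => ⟨hsame z hz, by rw [h.herm v' z, h.herm v z, hsame z hz]⟩)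
        (by rw [hv'iso, hvK.1])
      have hti := h.grf_closure_le_iso ht
      have hδ := h.iso_det_norm hn hti
      obtain ⟨l, hl0, hl⟩ := uf_hilbert90 σ h.invol h.ne_id (σ ((t : Matrix ι ι F).det))
        (by rw [h.invol]; linear_combination hδ)
      have hσl0 : σ l ≠ 0 := (map_ne_zero σ).mpr hl0
      obtain ⟨w₂, hw₂, hw₂v⟩ := hnotU v' hv'U
      have hm : σ l * (σ l)⁻¹ = 1 := mul_inv_cancel₀ hσl0
      obtain ⟨c, hc⟩ : ∃ c, c = σ ((f w₂ v')⁻¹) := ⟨_, rfl⟩
      have hwv : f w₂ (c • v') = 1 := by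
        rw [h.smul_right, hc, h.invol, inv_mul_cancel₀ hw₂v]
      have hvv : f (c • v') (c • v') = 0 := by
        rw [h.smul_left, h.smul_right, hv'iso, mul_zero, mul_zero]
      have hww : f w₂ w₂ = 0 := hW w₂ hw₂ w₂ hw₂
      have hRi := h.rot_isom hww hvv hwv hm
      have hkS : h.rot w₂ (c • v') l (σ l)⁻¹ * t ∈ specialLinear ι F := by
        apply mem_SL_of_det
        rw [Units.val_mul, Matrix.det_mul, h.rot_det hwv hm]
        have e1 : l * (σ l)⁻¹ = σ ((t : Matrix ι ι F).det) := by
          rw [eq_comm, eq_mul_inv_iff_mul_eq₀ hσl0]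
          exact hl.symm
        rw [e1]
        linear_combination hδ
      have hkW : h.rot w₂ (c • v') l (σ l)⁻¹ * t ∈ subspaceStabilizer W := by
        apply ustab_of_maps_to
        intro w hw
        rw [ugl_mul_mulVec, htW w hw, h.rot_mulVec hvv hwv hm, hW w hw w₂ hw₂, mul_zero,
          zero_smul, add_zero]
        exact W.add_mem hw (W.smul_mem _ hw₂)
      have hkH : h.rot w₂ (c • v') l (σ l)⁻¹ * t ∈
          subspaceStabilizer W ⊓ (isoGL f ⊓ specialLinear ι F) :=
        Subgroup.mem_inf.mpr ⟨hkW, Subgroup.mem_inf.mpr ⟨Subgroup.mul_mem _ hRi hti, hkS⟩⟩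
      have hkv : ((h.rot w₂ (c • v') l (σ l)⁻¹ * t : GL ι F) : Matrix ι ι F) *ᵥ v =
          (σ l)⁻¹ • v' := by
        rw [ugl_mul_mulVec, htv, h.rot_mulVec hvv hwv hm, h.smul_right, hv'iso, mul_zero,
          mul_zero, zero_smul, add_zero, smul_smul]
        have e2 : ((σ l)⁻¹ - 1) * f v' w₂ * c = (σ l)⁻¹ - 1 := by
          rw [hc, map_inv₀, h.sigma_apply, mul_assoc, mul_inv_cancel₀ (h.swap_ne hw₂v), mul_one]
        rw [e2]
        module
      have := h.uctr_map (hHM hkH) hkH.2.1 hvK
      rw [hkv] at this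
      exact h.uctr_of_smul (inv_ne_zero hσl0) this
    -- all isotropic vectors outside `W^⊥` are centres
    have hB : ∀ v', f v' v' = 0 → v' ∉ h.uperp W → v' ∈ uctr σ f M := by
      intro v' hv'iso hv'U
      by_cases hprop : ∃ l : F, ∀ w ∈ W, f w v' = f w (l • v₀)
      · obtain ⟨l, hl⟩ := hprop
        have hl0 : l ≠ 0 := by
          rintro rfl
          apply hv'U
          intro w hw
          apply h.swap_zero
          rw [hl w hw, zero_smul, h.zero_right]
        refine hA (l • v₀) (h.uctr_smul hv₀K l) ?_ v' hv'iso hl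
        intro hmem
        apply hv₀U
        have := (h.uperp W).smul_mem l⁻¹ hmem
        rwa [smul_smul, inv_mul_cancel₀ hl0, one_smul] at this
      · push Not at hprop
        obtain ⟨u₁, hu₁, hu₁d⟩ : ∃ u₁ ∈ W, f u₁ (v' - v₀) ≠ 0 := by
          obtain ⟨w, hw, hne⟩ := hprop 1
          refine ⟨w, hw, ?_⟩
          rw [one_smul] at hne
          rw [h.sub_right]
          exact sub_ne_zero.mpr hne
        obtain ⟨u, hu, hud, hu0⟩ : ∃ u ∈ W, f u (v' - v₀) = 0 ∧ f u v₀ ≠ 0 := by
          by_contra hno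
          push Not at hno
          obtain ⟨κ, hκ⟩ : ∃ κ, κ = f u₁ v₀ / f u₁ (v' - v₀) := ⟨_, rfl⟩
          have hrel : ∀ w ∈ W, (1 + κ) * f w v₀ = κ * f w v' := by
            intro w hw
            have h1 := hno (w - (f w (v' - v₀) / f u₁ (v' - v₀)) • u₁)
              (W.sub_mem hw (W.smul_mem _ hu₁))
              (by rw [h.sub_left, h.smul_left, div_mul_cancel₀ _ hu₁d, sub_self])
            rw [h.sub_left, h.smul_left, sub_eq_zero] at h1
            have h2 : f w v₀ = κ * f w (v' - v₀) := by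
              rw [h1, hκ]
              field_simp
            rw [h.sub_right] at h2
            linear_combination h2
          have hκ0 : κ ≠ 0 := by
            rintro rfl
            apply hv₀U
            intro w hw
            apply h.swap_zero
            have := hrel w hw
            rw [add_zero, one_mul, zero_mul] at this
            exact this
          obtain ⟨w, hw, hne⟩ := hprop (σ ((1 + κ) / κ))
          apply hne
          rw [h.smul_right, h.invol]
          have := hrel w hw
          field_simp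
          linear_combination -this
        obtain ⟨β, hβ⟩ := h.exists_norm_add (hW u₁ hu₁ u₁ hu₁) hu₁d 0 (map_zero σ)
        have huw : f u (v' - v₀ + β • u₁) = 0 := by
          rw [h.add_right, h.smul_right, hud, hW u hu u₁ hu₁, mul_zero, add_zero]
        have hxw : ∀ x ∈ W, f x (v' - v₀ + β • u₁) = f x v' - f x v₀ := by
          intro x hx
          rw [h.add_right, h.smul_right, hW x hx u₁ hu₁, mul_zero, add_zero, h.sub_right]
        obtain ⟨a, ha⟩ : ∃ a, a = -(f u v₀)⁻¹ := ⟨_, rfl⟩
        have haw : f (a • u) (v' - v₀ + β • u₁) = 0 := by rw [h.smul_left, huw, mul_zero]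
        have hauu : f (a • u) (a • u) = 0 := by
          rw [h.smul_left, h.smul_right, hW u hu u hu, mul_zero, mul_zero]
        have hEi := h.sg_isom hauu hβ haw
        have hEW : sg f (a • u) (v' - v₀ + β • u₁) ∈ subspaceStabilizer W := by
          apply ustab_of_maps_to
          intro x hx
          rw [h.sg_mulVec haw hβ, h.smul_right, hW x hx u hu, mul_zero, zero_smul, sub_zero]
          exact W.add_mem hx (W.smul_mem _ (W.smul_mem a hu))
        have hEH : sg f (a • u) (v' - v₀ + β • u₁) ∈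
            subspaceStabilizer W ⊓ (isoGL f ⊓ specialLinear ι F) :=
          Subgroup.mem_inf.mpr ⟨hEW, Subgroup.mem_inf.mpr ⟨hEi, sg_mem_SL _ _ _⟩⟩
        have hv₁K := h.uctr_map (hHM hEH) hEi hv₀K
        have hsame : ∀ x ∈ W, f x v' =
            f x ((sg f (a • u) (v' - v₀ + β • u₁) : Matrix ι ι F) *ᵥ v₀) := by
          intro x hx
          have e1 : σ (f v₀ (a • u)) = -1 := by
            rw [h.smul_right, map_mul, h.invol, h.sigma_apply, ha]
            field_simp
          rw [h.sg_mulVec haw hβ, h.sub_right, h.add_right, h.smul_right, h.smul_right,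
            h.smul_right, hW x hx u hu, hxw x hx, e1]
          ring
        refine hA _ hv₁K ?_ v' hv'iso hsame
        intro hmem
        apply hv'U
        intro w hw
        apply h.swap_zero
        rw [hsame w hw]
        exact h.swap_zero (hmem w hw)
    apply h.SU_le_of_utv hn M
    intro c ν hcc hν
    suffices hcK : c ∈ uctr σ f M from hcK.2 ν hν
    by_cases hcU : c ∈ h.uperp W
    · exact hKU c hcU hcc
    · exact hB c hcc hcU

end UF

end Cfsg.Agent.Helper94
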