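import Cfsg.Agent.Helper94.UForm

/-!
Transvections `x ↦ x + f x b • a` attached to a nondegenerate Hermitian form, and their
calculus.
-/

set_option autoImplicit false
set_option linter.unusedSectionVars false
set_option linter.unusedSimpArgs false
set_option linter.unusedVariables false

namespace Cfsg.Agent.Helper94

open Cfsg Cfsg.Geo Matrix

universe u

variable {F : Type u} [Field F] {ι : Type} [Fintype ι] [DecidableEq ι]

open Classical in
/-- The transvection `x ↦ x + f x b • a` (the identity unless `f a b = 0`). -/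
noncomputable def tvh (f : (ι → F) → (ι → F) → F) (a b : ι → F) : GL ι F :=
  if hab : (fun j => f (Pi.single j 1) b) ⬝ᵥ a = 0 then
    Helper93.tv a (fun j => f (Pi.single j 1) b) hab
  else 1

theorem tvh_mem_SL (f : (ι → F) → (ι → F) → F) (a b : ι → F) :
    tvh f a b ∈ specialLinear ι F := by
  unfold tvh
  split_ifs with hab
  · exact Helper93.tv_mem_SL _ _ _
  · exact Subgroup.one_mem _

namespace UF

variable {σ : F ≃+* F} {f : (ι → F) → (ι → F) → F} (h : UF σ f)

include h

theorem tvh_mulVec {a b : ι → F} (hab : f a b = 0) (x : ι → F) :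
    ((tvh f a b : GL ι F) : Matrix ι ι F) *ᵥ x = x + f x b • a := by
  have hab' : (fun j => f (Pi.single j 1) b) ⬝ᵥ a = 0 := by
    rw [h.fl_dot]
    exact hab
  rw [tvh, dif_pos hab', Helper93.tv_mulVec, h.fl_dot]

theorem tvh_mul {a b b' : ι → F} (hab : f a b = 0) (hab' : f a b' = 0) :
    tvh f a b * tvh f a b' = tvh f a (b + b') := by
  apply ugl_ext
  intro x
  have h3 : f a (b + b') = 0 := by rw [h.add_right, hab, hab', add_zero]
  rw [ugl_mul_mulVec, h.tvh_mulVec hab', h.tvh_mulVec hab, h.tvh_mulVec h3, h.add_left,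
    h.smul_left, hab, h.add_right]
  module

theorem tvh_zero (a : ι → F) : tvh f a 0 = 1 := by
  apply ugl_ext
  intro x
  rw [h.tvh_mulVec (h.zero_right a), h.zero_right, zero_smul, add_zero, Units.val_one, one_mulVec]

theorem tvh_inv {a b : ι → F} (hab : f a b = 0) : (tvh f a b)⁻¹ = tvh f a (-b) := by
  have h2 : f a (-b) = 0 := by rw [h.neg_right, hab, neg_zero]
  exact inv_eq_of_mul_eq_one_right (by rw [h.tvh_mul hab h2, add_neg_cancel, h.tvh_zero])

theorem tvh_smul (c : F) {a b : ι → F} (hab : f a b = 0) :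
    tvh f (c • a) b = tvh f a (σ c • b) := by
  apply ugl_ext
  intro x
  have h1 : f (c • a) b = 0 := by rw [h.smul_left, hab, mul_zero]
  have h2 : f a (σ c • b) = 0 := by rw [h.smul_right, hab, mul_zero]
  rw [h.tvh_mulVec h1, h.tvh_mulVec h2, h.smul_right, h.invol]
  module

/-- Conjugating a transvection. -/
theorem tvh_conj (k : GL ι F) {a b b₂ : ι → F} (hab : f a b = 0)
    (hb : ∀ y, f y b = f ((k : Matrix ι ι F) *ᵥ y) b₂) :
    k * tvh f a b * k⁻¹ = tvh f ((k : Matrix ι ι F) *ᵥ a) b₂ := by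
  have h2 : f ((k : Matrix ι ι F) *ᵥ a) b₂ = 0 := by rw [← hb, hab]
  apply ugl_ext
  intro x
  rw [ugl_mul_mulVec, ugl_mul_mulVec, h.tvh_mulVec hab, h.tvh_mulVec h2, mulVec_add, mulVec_smul,
    ugl_mulVec_inv, hb, ugl_mulVec_inv]

/-- Unitary transvections lie in the unitary similarity group and in `SL`. -/
theorem tvh_unitary_mem {c : ι → F} (hc : f c c = 0) {ν : F} (hν : σ ν = -ν) :
    tvh f c (ν • c) ∈ similarityGroup f ⊓ specialLinear ι F := by
  refine Subgroup.mem_inf.mpr ⟨⟨1, fun u v => ?_⟩, tvh_mem_SL _ _ _⟩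
  have h0 : f c (ν • c) = 0 := by rw [h.smul_right, hc, mul_zero]
  rw [h.tvh_mulVec h0, h.tvh_mulVec h0, Units.val_one, one_mul]
  simp only [h.add_left, h.add_right, h.smul_left, h.smul_right, hc, hν, map_mul, map_neg,
    h.sigma_apply, h.invol]
  ring

/-- A unitary transvection is an isometry. -/
theorem tvh_unitary_isom {c : ι → F} (hc : f c c = 0) {ν : F} (hν : σ ν = -ν) (u v : ι → F) :
    f ((tvh f c (ν • c) : Matrix ι ι F) *ᵥ u) ((tvh f c (ν • c) : Matrix ι ι F) *ᵥ v) = f u v := by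
  have h0 : f c (ν • c) = 0 := by rw [h.smul_right, hc, mul_zero]
  rw [h.tvh_mulVec h0, h.tvh_mulVec h0]
  simp only [h.add_left, h.add_right, h.smul_left, h.smul_right, hc, hν, map_mul, map_neg,
    h.sigma_apply, h.invol]
  ring

/-- Every transvection `tv u ψ` is of the form `tvh f u b`. -/
theorem tv_eq_tvh (u ψ : ι → F) (hψ : ψ ⬝ᵥ u = 0) :
    ∃ b, f u b = 0 ∧ Helper93.tv u ψ hψ = tvh f u b := by
  let φ : (ι → F) →ₗ[F] F :=
    { toFun := fun x => ψ ⬝ᵥ x
      map_add' := fun x y => dotProduct_add _ _ _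
      map_smul' := fun c x => by simp [dotProduct_smul] }
  obtain ⟨b, hb⟩ := h.riesz φ
  have hb' : ∀ x, f x b = ψ ⬝ᵥ x := hb
  have hub : f u b = 0 := by rw [hb', hψ]
  refine ⟨b, hub, ?_⟩
  apply ugl_ext
  intro x
  rw [Helper93.tv_mulVec, h.tvh_mulVec hub, hb']

end UF

end Cfsg.Agent.Helper94
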